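/-
Groups with quasi-dihedral or wreathed Sylow 2-subgroups: the local facts about `C(t)`.
-/
import Cfsg.Agent.GW.XC4
import Cfsg.Agent.Blk.ZCor
import Cfsg.Prelude.Def_CaseTheorems

set_option autoImplicit false
set_option linter.unusedSectionVars false

namespace CA.Abg

open Subgroup Cfsg CA.FG CA.BG CA.GW

universe u

variable {G : Type u} [Group G]

/-- `L = ⟨i^C⟩`, the normal closure of `i` in `C(t)` -/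
def LL (t i : G) : Subgroup G := closure {x | ∃ c ∈ 𝒞[t], c * i * c⁻¹ = x}

/-- The local facts (`K = UU t = O(C(t))`, `i = u * w`, `V = ⟨t, u⟩`). -/
structure LH (t u w j : G) : Prop where
  it : IsInv t
  iu : IsInv u
  iw : IsInv w
  uC : u ∈ 𝒞[t]
  wC : w ∈ 𝒞[t]
  jC : j ∈ 𝒞[t]
  ut : u ≠ t
  wt : w ≠ t
  i2 : u * w * (u * w) = t
  j2 : j * j = t
  ji : j * (u * w) * j⁻¹ = (u * w)⁻¹
  one : ∀ a : G, IsInv a → ∃ g, g * t * g⁻¹ = a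
  cju : ∀ v ∈ 𝒞[t], IsInv v → v ≠ t → ∃ c ∈ 𝒞[t], c * u * c⁻¹ = v
  cjj : ∃ c ∈ 𝒞[t], c * (u * w) * c⁻¹ = j
  cjk : ∃ c ∈ 𝒞[t], c * (u * w) * c⁻¹ = u * w * j
  cjw : ∀ v ∈ 𝒞[t], IsInv v → v * u * v⁻¹ = t * u → ∃ c ∈ 𝒞[t] ⊓ 𝒞[u], c * w * c⁻¹ = v
  invV : ∀ v ∈ 𝒞[t] ⊓ 𝒞[u], IsInv v → v = t ∨ v = u ∨ v = t * u
  ab : ∀ Q : Subgroup G, IsPGrp 2 Q → Q ≤ 𝒞[t] ⊓ 𝒞[u] → Q ≤ 𝒞(Q)
  f3 : ∀ D : Subgroup G, D ≤ 𝒞[t] → 𝒞[t] ≤ 𝒩(D) → u * w ∉ D → ∀ x ∈ D, IsPiElt {2}ᶜ x → x ∈ UU t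
  f4 : ∀ R : Subgroup G, R ≤ 𝒞[t] → IsPiGrp {2}ᶜ R → ¬ R ≤ UU t → (∀ r ∈ R, u * r * u⁻¹ = r⁻¹) →
    𝒞[t] ⊓ 𝒞[u] ≤ 𝒩(R) → ∀ x ∈ 𝒞[t] ⊓ 𝒞[u], IsPiElt {2}ᶜ x → x ∈ 𝒞(R) → x ∈ UU t

/-- the additional facts for `q ≥ 5` -/
structure LH5 (t u w j : G) : Prop where
  f5 : ∀ R : Subgroup G, R ≤ 𝒞[t] → IsPiGrp {2}ᶜ R → LL t (u * w) ≤ 𝒩(R) → R ≤ UU t
  lj : ∃ c ∈ LL t (u * w), c * (u * w) * c⁻¹ = j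
  lw : ∃ c ∈ LL t (u * w), c * u * c⁻¹ = w
  mult : LL t (u * w) ≤ 𝒞(UU t) → LL t (u * w) ⊓ UU t = ⊥ ∨
    (IsPGrp 3 (LL t (u * w) ⊓ UU t : Subgroup G) ∧ ∀ x ∈ 𝒞[t] ⊓ 𝒞[u], IsPiElt {3} x → x ∈ UU t)

/-- `a = 1`: no involution of `C(t)` inverts a non-trivial element of `O(C(t))` -/
def A1 (G : Type u) [Group G] : Prop :=
  ∀ t v : G, IsInv t → IsInv v → v ∈ 𝒞[t] → ∀ x ∈ UU t, v * x * v⁻¹ = x⁻¹ → x = 1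

/-- quasi-dihedral or wreathed Sylow `2`-subgroups -/
def QW (G : Type u) [Group G] : Prop :=
  ∃ S : Sylow 2 G, IsQuasiDihedral (S : Subgroup G) ∨ IsWreathed (S : Subgroup G)

/-- the inductive hypothesis -/
def IH (G : Type u) [Group G] : Prop := ∀ (M : Type u) [Group M] [Finite M] [IsSimpleGroup M],
  Nat.card M < Nat.card G → QW M → A1 M

/-- (characters, `q = 3`) if `i` centralizes `K` then so does `u` -/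
def Q3P (t u w : G) : Prop := u * w ∈ 𝒞(UU t) → u ∈ 𝒞(UU t)

/-- (characters, `q ≥ 5`) the final configuration is impossible -/
def B3P (t u w : G) : Prop := ∀ (p : ℕ) (Y : Subgroup G), p.Prime → IsPGrp p Y → Y ≠ ⊥ → Y ≤ UU t → 𝒞[t] ≤ 𝒩(Y) →
  (∀ y ∈ Y, u * y * u⁻¹ = y⁻¹) → LL t (u * w) ⊓ UU t ≤ Y →
  (∀ y ∈ Y, y ≠ 1 → ∃ R : Subgroup G, R ≤ 𝒞[y] ∧ 𝒞[y] ≤ 𝒩(R) ∧ ¬ 2 ∣ Nat.card R ∧ ¬ p ∣ Nat.card R ∧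
    (∀ r ∈ R, t * r * t⁻¹ = r⁻¹) ∧ ∀ a ∈ 𝒞[y], IsInv a → ∃ r ∈ R, a = t * r) → False

/-- (characters) `t` is not fused to `u` in a proper overgroup of `C(t)` -/
def IXP (t u : G) : Prop := ∀ M : Subgroup G, M ≠ ⊤ → 𝒞[t] ≤ M → ∀ g ∈ M, g * t * g⁻¹ ≠ u

theorem realizeEqns_AbgDefs : True := by
  have := @CA.Abg.LL.eq_1.{0}
  have := @CA.Abg.LL.eq_def.{0}
  have := @CA.Abg.LL.congr_simp.{0}
  have := @CA.Abg.B3P.eq_1.{0}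
  have := @CA.Abg.B3P.eq_def.{0}
  have := @CA.Abg.B3P.congr_simp.{0}
  have := @CA.Abg.A1.eq_1.{0}
  have := @CA.Abg.A1.eq_def.{0}
  have := @CA.Abg.A1.congr_simp.{0}
  have := @CA.Abg.IH.eq_1.{0}
  have := @CA.Abg.IH.eq_def.{0}
  have := @CA.Abg.IH.congr_simp.{0}
  have := @CA.Abg.IXP.eq_1.{0}
  have := @CA.Abg.IXP.eq_def.{0}
  have := @CA.Abg.IXP.congr_simp.{0}
  have := @CA.Abg.QW.eq_1.{0}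
  have := @CA.Abg.QW.eq_def.{0}
  have := @CA.Abg.QW.congr_simp.{0}
  have := @CA.Abg.Q3P.eq_1.{0}
  have := @CA.Abg.Q3P.eq_def.{0}
  have := @CA.Abg.Q3P.congr_simp.{0}
  trivial

end CA.Abg
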