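/-
Quasi-dihedral and wreathed Sylow 2-subgroups: a common presentation and fusion.
-/
import Cfsg.Agent.Abg.Defs
import Cfsg.Agent.Dih.Rk2D

set_option autoImplicit false
set_option linter.unusedSectionVars false

namespace CA.Abg

open Subgroup Cfsg CA.FG CA.BG CA.GW CA.Dih

universe u v

/-- `S = ⟨c, ζ⟩⟨r⟩`, `ζ` central, `S/⟨ζ⟩` dihedral of order `2 m` -/
structure ZS {G : Type u} [Group G] (S : Subgroup G) (c ζ r : G) (m o : ℕ) : Prop where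
  cS : c ∈ S
  zS : ζ ∈ S
  rS : r ∈ S
  mem : ∀ s ∈ S, ∃ i j : ℤ, s = c ^ i * ζ ^ j ∨ s = c ^ i * ζ ^ j * r
  cz : Commute c ζ
  rz : Commute r ζ
  r2 : r * r = 1
  rc : r * c * r⁻¹ = c⁻¹ * ζ
  oz : orderOf ζ = o
  m4 : ∃ e, m = 2 ^ (e + 2)
  cas : (o = 2 ∧ c ^ m = ζ) ∨ (o = m ∧ c ^ m = 1)
  min : ∀ i j : ℤ, c ^ i = ζ ^ j → (m : ℤ) ∣ i
  nr : ∀ i j : ℤ, c ^ i * ζ ^ j ≠ r

theorem ZS.map {P : Type u} {G : Type v} [Group P] [Group G] {c ζ r : P} {m o : ℕ} (h : ZS ⊤ c ζ r m o)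
    (σ : P →* G) (hσ : Function.Injective σ) : ZS σ.range (σ c) (σ ζ) (σ r) m o where
  cS := ⟨c, rfl⟩
  zS := ⟨ζ, rfl⟩
  rS := ⟨r, rfl⟩
  mem := by
    rintro _ ⟨s, rfl⟩
    obtain ⟨i, j, e | e⟩ := h.mem s trivial
    exacts [⟨i, j, .inl (by simp [e])⟩, ⟨i, j, .inr (by simp [e])⟩]
  cz := h.cz.map σ
  rz := h.rz.map σ
  r2 := by rw [← map_mul, h.r2, map_one]
  rc := by simpa using congrArg σ h.rc
  oz := by rw [orderOf_injective σ hσ, h.oz]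
  m4 := h.m4
  cas := h.cas.imp (fun e => ⟨e.1, by rw [← map_pow, e.2]⟩) fun e => ⟨e.1, by rw [← map_pow, e.2, map_one]⟩
  min := fun i j e => h.min i j (hσ (by simpa using e))
  nr := fun i j e => h.nr i j (hσ (by simpa using e))

theorem mem_or_of_index_two {P : Type u} [Group P] {A : Subgroup P} (hi : A.index = 2) {r : P} (hr : r ∉ A) (s : P) :
    s ∈ A ∨ s * r⁻¹ ∈ A := by
  by_cases hs : s ∈ A
  · exact .inl hs
  · exact .inr ((mul_mem_iff_of_index_two hi).2 (by simp [hs, hr]))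

theorem zs_of_qd {P : Type u} [Group P] [Finite P] (h : IsQuasiDihedral P) :
    ∃ (c ζ r : P) (m o : ℕ), ZS ⊤ c ζ r m o := by
  obtain ⟨n, hn, hc, x, y, ox, oy, e⟩ := h
  obtain ⟨k, rfl⟩ : ∃ k, n = k + 3 := ⟨n - 3, by omega⟩
  have e1 : y * x * y⁻¹ = x⁻¹ * x ^ 2 ^ (k + 2) := by
    have : 2 ^ (k + 2) = (2 ^ (k + 3 - 1) - 1) + 1 := by
      rw [show k + 3 - 1 = k + 2 by omega]; have := Nat.one_le_two_pow (n := k + 2); omega
    rw [e, this, pow_succ']; group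
  have y2 : y * y = 1 := by rw [← pow_two, ← oy, pow_orderOf_eq_one]
  have dv : ∀ i : ℤ, x ^ i = 1 → (2 : ℤ) ^ (k + 3) ∣ i := fun i hi => by
    have := orderOf_dvd_iff_zpow_eq_one.2 hi
    rwa [ox, Nat.cast_pow] at this
  have p3 : (2 : ℤ) ^ (k + 3) = 2 ^ k * 8 := by ring
  have p2 : (2 : ℤ) ^ (k + 2) = 2 ^ k * 4 := by ring
  have pk : (0 : ℤ) < 2 ^ k := by positivity
  have zz : ∀ j : ℤ, (x ^ 2 ^ (k + 2)) ^ j = x ^ (2 ^ k * 4 * j) := fun j => by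
    rw [← zpow_natCast, ← zpow_mul]; push_cast; rw [p2]
  have yx : y ∉ zpowers x := fun hy => by
    have c : y * x * y⁻¹ = x := by
      obtain ⟨i, rfl⟩ := hy
      simp only; group
    rw [e1] at c
    have : x ^ (2 ^ k * 4 - 2 : ℤ) = 1 := by
      have := zz 1
      rw [zpow_one] at this
      rw [this] at c
      calc _ = x⁻¹ * x ^ (2 ^ k * 4 * 1 : ℤ) * x⁻¹ := by group
        _ = 1 := by rw [c]; group
    have := Int.le_of_dvd (by omega) (dv _ this)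
    omega
  have ix : (zpowers x).index = 2 := by
    have := card_mul_index (zpowers x)
    rw [Nat.card_zpowers, ox, hc, pow_succ _ (k + 3)] at this
    exact Nat.eq_of_mul_eq_mul_left (by positivity) this
  have x1 : x ^ 2 ^ (k + 3) = 1 := by rw [← ox, pow_orderOf_eq_one]
  refine ⟨x, x ^ 2 ^ (k + 2), y, 2 ^ (k + 2), 2, trivial, trivial, trivial, fun s _ => ?_,
    (Commute.refl x).pow_right _, ?_, y2, e1, ?_, ⟨k, rfl⟩, .inl ⟨rfl, rfl⟩, fun i j e => ?_, fun i j e => ?_⟩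
  · rcases mem_or_of_index_two ix yx s with ⟨i, hi⟩ | ⟨i, hi⟩
    · exact ⟨i, 0, .inl (by simp [← hi])⟩
    · exact ⟨i, 0, .inr (by simp only at hi; simp [hi])⟩
  · have : y * x ^ 2 ^ (k + 2) * y⁻¹ = x ^ 2 ^ (k + 2) := by
      rw [← conj_pow, e1, (((Commute.refl x).pow_right _).inv_left).mul_pow, ← pow_mul]
      have a : x ^ (2 ^ (k + 2) * 2 ^ (k + 2)) = 1 := by
        rw [show 2 ^ (k + 2) * 2 ^ (k + 2) = 2 ^ (k + 3) * 2 ^ (k + 1) by ring, pow_mul, x1, one_pow]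
      rw [a, mul_one, inv_pow, inv_eq_iff_mul_eq_one, ← pow_add, ← x1]; congr 1; ring
    exact mul_inv_eq_iff_eq_mul.1 this
  · rw [orderOf_pow' _ (by positivity), ox, Nat.gcd_eq_right (pow_dvd_pow 2 (by omega)), pow_succ _ (k + 2)]
    exact Nat.mul_div_cancel_left _ (by positivity)
  · rw [zz] at e
    have := dv (i - 2 ^ k * 4 * j) (by rw [zpow_sub, e, mul_inv_cancel])
    push_cast
    rw [p2]
    have a : (2 : ℤ) ^ k * 4 ∣ i - 2 ^ k * 4 * j := Dvd.dvd.trans ⟨2, by rw [p3]; ring⟩ this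
    simpa using dvd_add a (dvd_mul_right (2 ^ k * 4) j)
  · exact yx (e ▸ mul_mem (zpow_mem (mem_zpowers x) _) (zpow_mem (pow_mem (mem_zpowers x) _) _))

theorem zs_of_wr {P : Type u} [Group P] [Finite P] (h : IsWreathed P) :
    ∃ (c ζ r : P) (m o : ℕ), ZS ⊤ c ζ r m o := by
  obtain ⟨n, hn, hc, x, y, z, ox, xy, dj, oz, e⟩ := h
  obtain ⟨k, rfl⟩ : ∃ k, n = k + 2 := ⟨n - 2, by omega⟩
  have z2 : z * z = 1 := by rw [← pow_two, ← oz, pow_orderOf_eq_one]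
  have zi : z⁻¹ = z := inv_eq_of_mul_eq_one_right z2
  have oy : orderOf y = 2 ^ (k + 2) := by rw [← e, ← ox]; exact orderOf_conj x z
  have c : Commute x y := xy
  have e' : z * y * z⁻¹ = x := by
    rw [← e]; calc _ = z * z * x * (z * z)⁻¹ := by group
      _ = x := by rw [z2]; group
  have dj' : ∀ i j : ℤ, x ^ i = y ^ j → x ^ i = 1 := fun i j h =>
    mem_bot.1 (dj ▸ ⟨zpow_mem (mem_zpowers x) i, h ▸ zpow_mem (mem_zpowers y) j⟩)
  have dv : ∀ i : ℤ, x ^ i = 1 → ((2 ^ (k + 2) : ℕ) : ℤ) ∣ i := fun i hi => ox ▸ orderOf_dvd_iff_zpow_eq_one.2 hi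
  have x1 : x ≠ 1 := fun h => by
    rw [h, orderOf_one] at ox
    have := Nat.one_lt_two_pow (n := k + 2) (by omega)
    omega
  have mT : ∀ s ∈ zpowers x ⊔ zpowers y, ∃ i j : ℤ, s = x ^ i * (x * y) ^ j := fun s hs => by
    have n : zpowers x ≤ 𝒩(zpowers y) := le_trans (zpowers_le.2 (mem_centralizer_iff.2 (by
      rintro _ ⟨i, rfl⟩; exact (c.symm.zpow_left i).eq))) (centralizer_le_normalizer _)
    obtain ⟨_, ⟨i, rfl⟩, _, ⟨j, rfl⟩, rfl⟩ := (mem_sup_of_left_le_norm n).1 hs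
    exact ⟨i - j, j, by simp only [c.mul_zpow]; group⟩
  have zT : z ∉ zpowers x ⊔ zpowers y := fun hz => by
    obtain ⟨i, j, hz⟩ := mT z hz
    have : Commute z x := hz ▸ ((Commute.refl x).zpow_left i).mul_left (((Commute.refl x).mul_left c.symm).zpow_left j)
    have : x = y := by rw [← e, this.eq]; group
    exact x1 (by simpa using dj' 1 1 (by simpa using this))
  have ix : (zpowers x ⊔ zpowers y).index = 2 := by
    have h1 := card_mul_index (zpowers x ⊔ zpowers y)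
    have n : zpowers x ≤ 𝒩(zpowers y) := le_trans (zpowers_le.2 (mem_centralizer_iff.2 (by
      rintro _ ⟨i, rfl⟩; exact (c.symm.zpow_left i).eq))) (centralizer_le_normalizer _)
    have h2 := (complIn_of_norm (.inl n) rfl dj).card_mul
    rw [Nat.card_zpowers, Nat.card_zpowers, ox, oy] at h2
    rw [← h2, hc, show 2 ^ (2 * (k + 2) + 1) = 2 ^ (k + 2) * 2 ^ (k + 2) * 2 by ring] at h1
    exact Nat.eq_of_mul_eq_mul_left (by positivity) h1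
  have x2 : x ^ 2 ^ (k + 2) = 1 := by rw [← ox, pow_orderOf_eq_one]
  refine ⟨x, x * y, z, 2 ^ (k + 2), 2 ^ (k + 2), trivial, trivial, trivial, fun s _ => ?_,
    (Commute.refl x).mul_right c, ?_, z2, by rw [e]; group, ?_, ⟨k, rfl⟩, .inr ⟨rfl, x2⟩, fun i j h => ?_,
    fun i j h => zT (h ▸ mul_mem (zpow_mem (mem_sup_left (mem_zpowers x)) _)
      (zpow_mem (mul_mem_sup (mem_zpowers x) (mem_zpowers y)) _))⟩
  · rcases mem_or_of_index_two ix zT s with h | h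
    · exact (mT s h).imp fun i => Exists.imp fun j => .inl
    · exact (mT _ h).imp fun i => Exists.imp fun j h => .inr (by rw [← h]; group)
  · have : z * (x * y) * z⁻¹ = x * y := by
      calc _ = z * x * z⁻¹ * (z * y * z⁻¹) := by group
        _ = _ := by rw [e, e', xy]
    exact mul_inv_eq_iff_eq_mul.1 this
  · refine Nat.dvd_antisymm (orderOf_dvd_of_pow_eq_one ?_) ?_
    · rw [c.mul_pow, x2, ← oy, pow_orderOf_eq_one, mul_one]
    · have := pow_orderOf_eq_one (x * y)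
      rw [c.mul_pow, mul_eq_one_iff_eq_inv, ← zpow_natCast, ← zpow_natCast, ← zpow_neg] at this
      exact_mod_cast dv _ (dj' _ _ this)
  · rw [c.mul_zpow] at h
    have a : x ^ (i - j) = y ^ j := by rw [zpow_sub, h, (c.zpow_zpow j j).eq]; group
    have b := dj' _ _ a
    have d : ((2 ^ (k + 2) : ℕ) : ℤ) ∣ j := oy ▸ orderOf_dvd_iff_zpow_eq_one.2 (a ▸ b)
    simpa using dvd_add (dv _ b) d

variable {G : Type u} [Group G] [Finite G] {S : Subgroup G} {c ζ r : G} {m o : ℕ}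

/-- the abelian subgroup of index two -/
abbrev TT (c ζ : G) : Subgroup G := zpowers c ⊔ zpowers ζ

namespace ZS
variable (h : ZS S c ζ r m o)
include h

theorem mul (i j k l : ℤ) : c ^ i * ζ ^ j * (c ^ k * ζ ^ l) = c ^ (i + k) * ζ ^ (j + l) := by
  rw [mul_assoc, ← mul_assoc (ζ ^ j), ← (h.cz.zpow_zpow k j).eq]; group

theorem pw (i j k : ℤ) : (c ^ i * ζ ^ j) ^ k = c ^ (i * k) * ζ ^ (j * k) := by
  rw [(h.cz.zpow_zpow i j).mul_zpow, ← zpow_mul, ← zpow_mul]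

theorem ri : r⁻¹ = r := inv_eq_of_mul_eq_one_right h.r2

theorem rT (i j : ℤ) : r * (c ^ i * ζ ^ j) * r⁻¹ = c ^ (-i) * ζ ^ (i + j) := by
  have a : r * ζ * r⁻¹ = ζ := by rw [h.rz.eq, mul_inv_cancel_right]
  calc _ = (r * c * r⁻¹) ^ i * (r * ζ * r⁻¹) ^ j := by simp [conj_zpow]
    _ = _ := by rw [h.rc, a, h.cz.inv_left.mul_zpow]; group

theorem memT {s : G} : s ∈ TT c ζ ↔ ∃ i j : ℤ, s = c ^ i * ζ ^ j := by
  have n : zpowers c ≤ 𝒩(zpowers ζ) := le_trans (zpowers_le.2 (mem_centralizer_iff.2 (by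
    rintro _ ⟨i, rfl⟩; exact (h.cz.symm.zpow_left i).eq))) (centralizer_le_normalizer _)
  rw [mem_sup_of_left_le_norm n]
  exact ⟨fun ⟨_, ⟨i, e⟩, _, ⟨j, e'⟩, k⟩ => ⟨i, j, by rw [← k, ← e, ← e']⟩,
    fun ⟨i, j, e⟩ => ⟨_, ⟨i, rfl⟩, _, ⟨j, rfl⟩, e.symm⟩⟩

theorem TS : TT c ζ ≤ S := sup_le (zpowers_le.2 h.cS) (zpowers_le.2 h.zS)

theorem rnT : r ∉ TT c ζ := fun e => by
  obtain ⟨i, j, e⟩ := h.memT.1 e
  exact h.nr i j e.symm

theorem out {s : G} (hs : s ∈ S) (hT : s ∉ TT c ζ) : ∃ i j : ℤ, s = c ^ i * ζ ^ j * r := by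
  obtain ⟨i, j, e | e⟩ := h.mem s hs
  exacts [absurd (h.memT.2 ⟨i, j, e⟩) hT, ⟨i, j, e⟩]

theorem out_not (i j : ℤ) : c ^ i * ζ ^ j * r ∉ TT c ζ := fun e =>
  h.rnT ((mul_mem_cancel_left (h.memT.2 ⟨i, j, rfl⟩)).1 e)

theorem sq (i j : ℤ) : c ^ i * ζ ^ j * r * (c ^ i * ζ ^ j * r) = ζ ^ (i + 2 * j) := by
  calc _ = c ^ i * ζ ^ j * (r * (c ^ i * ζ ^ j) * r⁻¹) := by rw [h.ri]; group
    _ = _ := by rw [h.rT, h.mul]; simp; congr 1; ring

theorem comT {a b : G} (ha : a ∈ TT c ζ) (hb : b ∈ TT c ζ) : Commute a b := by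
  obtain ⟨i, j, rfl⟩ := h.memT.1 ha
  obtain ⟨k, l, rfl⟩ := h.memT.1 hb
  exact (h.mul ..).trans (by rw [h.mul, add_comm i, add_comm j])

theorem cen {s : G} (hs : s ∈ S) : Commute s ζ := by
  obtain ⟨i, j, rfl | rfl⟩ := h.mem s hs
  exacts [(h.cz.zpow_left i).mul_left ((Commute.refl ζ).zpow_left j),
    ((h.cz.zpow_left i).mul_left ((Commute.refl ζ).zpow_left j)).mul_left h.rz]

theorem sqT {s : G} (hs : s ∈ S) : s * s ∈ TT c ζ := by
  by_cases e : s ∈ TT c ζ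
  · exact mul_mem e e
  · obtain ⟨i, j, rfl⟩ := h.out hs e
    rw [h.sq]; exact mem_sup_right (zpow_mem (mem_zpowers ζ) _)

theorem zeq {j : ℤ} : ζ ^ j = 1 ↔ (o : ℤ) ∣ j := by rw [← h.oz, orderOf_dvd_iff_zpow_eq_one]

theorem exists_n : ∃ n : ℕ, 0 < n ∧ m = 4 * n ∧ (o = 2 ∨ o = 4 * n) := by
  obtain ⟨e, he⟩ := h.m4
  have a : m = 4 * 2 ^ e := by rw [he]; ring
  exact ⟨2 ^ e, by positivity, a, h.cas.imp And.left fun b => b.1.trans a⟩

theorem o2 : o / 2 * 2 = o := by obtain ⟨n, -, -, e | e⟩ := h.exists_n <;> omega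

theorem opos : 0 < o / 2 := by obtain ⟨n, _, -, e | e⟩ := h.exists_n <;> omega

theorem tinv : IsInv (ζ ^ (o / 2)) := by
  refine ⟨by rw [← pow_two, ← pow_mul, h.o2, ← h.oz, pow_orderOf_eq_one], fun e => ?_⟩
  have := Nat.le_of_dvd h.opos (h.oz ▸ orderOf_dvd_of_pow_eq_one e)
  have := h.opos
  omega

theorem invZ {a : G} (ha : a ∈ zpowers ζ) (ia : IsInv a) : a = ζ ^ (o / 2) :=
  have := Fintype.ofFinite G
  eq_of_cyclic_inv (cyclic_zpowers ζ) ha (pow_mem (mem_zpowers ζ) _) ia.1 ia.2 h.tinv.1 h.tinv.2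

theorem SC : S ≤ 𝒞[ζ ^ (o / 2)] := fun _ hs => mem_centralizer_singleton_iff.2 ((h.cen hs).pow_right _).eq

theorem idx : (TT c ζ).relIndex S = 2 := by
  rw [relIndex, index_eq_two_iff']
  refine ⟨⟨r, h.rS⟩, fun b => ?_⟩
  simp only [mem_subgroupOf, coe_mul]
  by_cases e : (b : G) ∈ TT c ζ
  · exact .inr ⟨e, fun e' => h.rnT ((mul_mem_cancel_right e).1 e')⟩
  · obtain ⟨i, j, k⟩ := h.out b.2 e
    refine .inl ⟨?_, e⟩
    rw [k, ← mul_assoc]; nth_rewrite 2 [← h.ri]; rw [h.rT]; exact h.memT.2 ⟨_, _, rfl⟩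

/-- the quasi-dihedral case: the two kinds of elements of order four are fused -/
theorem fus_qd [IsSimpleGroup G] (nab : ¬ IsMulCommutative G) (hS : IsSylowOf 2 S ⊤) (q : o = 2 ∧ c ^ m = ζ) :
    ∃ g ∈ 𝒞[ζ ^ (o / 2)], ∃ i j k : ℤ, g * (c ^ (m / 2) * ζ ^ k) * g⁻¹ = c ^ i * ζ ^ j * r := by
  obtain ⟨rfl, q⟩ := q
  obtain ⟨n, n0, rfl, -⟩ := h.exists_n
  by_contra H
  have := Fintype.ofFinite G
  have z2 : ζ ^ (2 : ℤ) = 1 := h.zeq.2 dvd_rfl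
  have z1 : ζ ≠ 1 := by simpa using h.tinv.2
  have q' : c ^ (4 * n : ℤ) = ζ := by exact_mod_cast q
  let D : Subgroup G :=
    { carrier := {s | ∃ i j : ℤ, s = c ^ (2 * i) * ζ ^ j ∨ s = c ^ (2 * i) * ζ ^ j * r}
      one_mem' := ⟨0, 0, .inl (by simp)⟩
      mul_mem' := by
        rintro _ _ ⟨i, j, rfl | rfl⟩ ⟨k, l, rfl | rfl⟩
        · exact ⟨i + k, j + l, .inl (by rw [h.mul, mul_add])⟩
        · exact ⟨i + k, j + l, .inr (by rw [← mul_assoc, h.mul, mul_add])⟩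
        · refine ⟨i - k, j + (2 * k + l), .inr ?_⟩
          calc _ = c ^ (2 * i) * ζ ^ j * (r * (c ^ (2 * k) * ζ ^ l) * r⁻¹) * r := by group
            _ = _ := by rw [h.rT, h.mul, mul_sub, sub_eq_add_neg]
        · refine ⟨i - k, j + (2 * k + l), .inl ?_⟩
          calc _ = c ^ (2 * i) * ζ ^ j * (r * (c ^ (2 * k) * ζ ^ l) * r⁻¹) := by rw [h.ri]; group
            _ = _ := by rw [h.rT, h.mul, mul_sub, sub_eq_add_neg]
      inv_mem' := by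
        rintro _ ⟨i, j, rfl | rfl⟩
        · exact ⟨-i, -j, .inl (by rw [← zpow_neg_one, h.pw]; simp)⟩
        · refine ⟨i, -(2 * i) - j, .inr (inv_eq_of_mul_eq_one_right ?_)⟩
          calc _ = c ^ (2 * i) * ζ ^ j * (r * (c ^ (2 * i) * ζ ^ (-(2 * i) - j)) * r⁻¹) := by rw [h.ri]; group
            _ = _ := by rw [h.rT, h.mul]; group }
  have odd : ∀ s ∈ S, s ∉ D → ∃ i j : ℤ, s = c ^ (2 * i + 1) * ζ ^ j ∨ s = c ^ (2 * i + 1) * ζ ^ j * r := fun s hs hD => by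
    obtain ⟨i, j, e⟩ := h.mem s hs
    obtain ⟨k, rfl | rfl⟩ := Int.even_or_odd' i
    exacts [absurd ⟨k, j, e⟩ hD, ⟨k, j, e⟩]
  have key : ∀ a ∈ S, ∀ g : G, g * a * g⁻¹ ∈ D → a ∈ D := fun a ha g hb => by
    by_contra hD
    have cj : ∀ k : ℤ, g * a ^ k * g⁻¹ = (g * a * g⁻¹) ^ k := fun k => conj_zpow.symm
    obtain ⟨i, j, rfl | rfl⟩ := odd a ha hD
    · have a1 : (c ^ (2 * i + 1) * ζ ^ j) ^ (4 * n : ℤ) = ζ := by
        rw [h.pw, mul_comm (2 * i + 1), zpow_mul, q', ← zpow_add,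
          show 2 * i + 1 + j * (4 * n) = 2 * (i + j * 2 * n) + 1 by ring, zpow_add, zpow_mul, z2]; simp
      have a2 := cj (4 * n)
      rw [a1] at a2
      refine z1 (conj_eq_one_iff.1 (a2.trans ?_))
      obtain ⟨k, l, e | e⟩ := hb <;> rw [e]
      · rw [h.pw, mul_comm (2 * k), zpow_mul, q', ← zpow_add]; exact h.zeq.2 ⟨k + l * 2 * n, by push_cast; ring⟩
      · rw [show (4 * n : ℤ) = 2 * (2 * n) by ring, zpow_mul, zpow_two, h.sq, ← zpow_mul]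
        exact h.zeq.2 ⟨(2 * k + 2 * l) * n, by push_cast; ring⟩
    · have a1 : (c ^ (2 * i + 1) * ζ ^ j * r) ^ (2 : ℤ) = ζ := by
        rw [zpow_two, h.sq, show 2 * i + 1 + 2 * j = 2 * (i + j) + 1 by ring, zpow_add, zpow_mul, z2]; simp
      have a2 := cj 2
      rw [a1] at a2
      have iz : IsInv (g * ζ * g⁻¹) := (by simpa using h.tinv : IsInv ζ).conj g
      obtain ⟨k, l, e | e⟩ := hb <;> rw [e] at a2
      · rw [h.pw, show l * 2 = 2 * l by ring, zpow_mul ζ, z2, one_zpow, mul_one] at a2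
        have a3 : g * ζ * g⁻¹ = ζ := eq_of_cyclic_inv (cyclic_zpowers c) (a2 ▸ zpow_mem (mem_zpowers c) _)
          (q ▸ pow_mem (mem_zpowers c) _) iz.1 iz.2 (by rw [← zpow_two, z2]) z1
        rw [a3] at a2
        obtain ⟨s, hs⟩ := h.min (2 * k * 2) 1 (by simpa using a2.symm)
        push_cast at hs
        rw [hs, zpow_mul, q'] at a2
        obtain ⟨s', hs'⟩ := h.zeq.1 (show ζ ^ (s - 1) = 1 by rw [zpow_sub, ← a2]; simp)
        refine H ⟨g⁻¹, inv_mem (cent_of_conj_eq (by simpa using a3)), 2 * i + 1, j, s' + l, ?_⟩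
        have a4 : c ^ (4 * n / 2) * ζ ^ (s' + l) = c ^ (2 * k) * ζ ^ l := by
          rw [show 2 * k = 2 * n + 4 * n * s' by push_cast at hs'; nlinarith, zpow_add c, zpow_mul c (4 * n), q',
            show 4 * n / 2 = 2 * n by omega, ← zpow_natCast]
          push_cast; group
        rw [a4, ← e]; group
      · rw [zpow_two, h.sq] at a2
        exact iz.2 (a2.trans (h.zeq.2 ⟨k + l, by push_cast; ring⟩))
  obtain ⟨P, rfl⟩ := hS.exists_sylow_top Nat.prime_two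
  haveI : Fact (Nat.Prime 2) := ⟨Nat.prime_two⟩
  have f : (P : Subgroup G).focalSubgroup ≤ D := (closure_le _).2 <| by
    rintro _ ⟨hg, x, hx, u, rfl⟩
    have hy : u * x⁻¹ * u⁻¹ ∈ (P : Subgroup G) := by
      have := mul_mem (inv_mem hx) hg
      rwa [commutatorElement_def, show x⁻¹ * (x * u * x⁻¹ * u⁻¹) = u * x⁻¹ * u⁻¹ by group] at this
    rw [commutatorElement_def, show x * u * x⁻¹ * u⁻¹ = x * (u * x⁻¹ * u⁻¹) by group]
    by_cases e : x ∈ D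
    · exact mul_mem e (key _ hy u⁻¹ (by simpa [mul_assoc] using inv_mem e))
    · have e' : u * x⁻¹ * u⁻¹ ∉ D := fun e' => e (by simpa using inv_mem (key _ (inv_mem hx) u e'))
      obtain ⟨i, j, a⟩ := odd _ hx e
      obtain ⟨k, l, b⟩ := odd _ hy e'
      rcases a with a | a <;> rcases b with b | b <;> rw [b, a]
      · exact ⟨i + k + 1, j + l, .inl (by rw [h.mul]; congr 2; ring)⟩
      · exact ⟨i + k + 1, j + l, .inr (by rw [← mul_assoc, h.mul]; congr 3; ring)⟩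
      · refine ⟨i - k, j + (2 * k + 1 + l), .inr ?_⟩
        calc _ = c ^ (2 * i + 1) * ζ ^ j * (r * (c ^ (2 * k + 1) * ζ ^ l) * r⁻¹) * r := by group
          _ = _ := by rw [h.rT, h.mul]; congr 3; ring
      · refine ⟨i - k, j + (2 * k + 1 + l), .inl ?_⟩
        calc _ = c ^ (2 * i + 1) * ζ ^ j * (r * (c ^ (2 * k + 1) * ζ ^ l) * r⁻¹) := by rw [h.ri]; group
          _ = _ := by rw [h.rT, h.mul]; congr 2; ring
  rw [← commutator_inf_eq_focalSubgroup, _root_.commutator_def, der_top_eq nab, top_inf_eq] at f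
  obtain ⟨i, j, e | e⟩ := f h.cS
  · have := h.min (1 - 2 * i) j (by rw [zpow_sub, zpow_one]; nth_rewrite 1 [e]; rw [(h.cz.zpow_zpow _ _).eq]; group)
    have : (2 : ℤ) ∣ 1 - 2 * i := Dvd.dvd.trans ⟨2 * n, by push_cast; ring⟩ this
    omega
  · exact h.out_not (2 * i) j (by rw [← e]; exact mem_sup_left (mem_zpowers c))

section W
variable (q : o = m ∧ c ^ m = 1)
include q

theorem one_iff {i j : ℤ} : c ^ i * ζ ^ j = 1 ↔ (m : ℤ) ∣ i ∧ (m : ℤ) ∣ j := by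
  have a : ∀ i : ℤ, (m : ℤ) ∣ i → c ^ i = 1 := by
    rintro _ ⟨k, rfl⟩; rw [zpow_mul, zpow_natCast, q.2, one_zpow]
  refine ⟨fun e => ?_, fun e => by rw [a i e.1, h.zeq.2 (q.1 ▸ e.2), one_mul]⟩
  have b := h.min i (-j) (by rw [zpow_neg, eq_inv_iff_mul_eq_one, e])
  rw [a i b, one_mul] at e
  exact ⟨b, q.1 ▸ h.zeq.1 e⟩

theorem u2 : c ^ (m / 2) * c ^ (m / 2) = 1 := by rw [← pow_two, ← pow_mul, ← q.1, h.o2, q.1, q.2]

theorem uZ : c ^ (m / 2) ∉ zpowers ζ := fun ⟨j, e⟩ => by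
  have := h.min (m / 2 : ℕ) j (by rw [zpow_natCast]; exact e.symm)
  have := Nat.le_of_dvd (q.1 ▸ h.opos) (Int.natCast_dvd_natCast.1 this)
  have := q.1 ▸ h.opos
  omega

theorem invT {a : G} (ha : a ∈ TT c ζ) (ia : IsInv a) :
    a = ζ ^ (o / 2) ∨ a = c ^ (m / 2) ∨ a = c ^ (m / 2) * ζ ^ (o / 2) := by
  obtain ⟨i, j, rfl⟩ := h.memT.1 ha
  have e := ia.1
  rw [h.mul, h.one_iff q] at e
  have u2 := h.u2 q
  have t2 := h.tinv.1
  obtain ⟨rfl, -⟩ := q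
  obtain ⟨n, n0, rfl, -⟩ := h.exists_n
  obtain ⟨⟨a, ha⟩, b, hb⟩ := e
  rw [show 4 * n / 2 = 2 * n by omega] at *
  have k : ∀ (x : G) (a : ℤ), x ^ (2 * n) * x ^ (2 * n) = 1 → x ^ (2 * n * a) = 1 ∨ x ^ (2 * n * a) = x ^ (2 * n) :=
    fun x a e => mem_zpowers_two e ⟨a, by simp only; rw [← zpow_natCast, ← zpow_mul]; push_cast; rfl⟩
  obtain rfl : i = 2 * n * a := by push_cast at ha; linarith
  obtain rfl : j = 2 * n * b := by push_cast at hb; linarith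
  have := ia.2
  rcases k c a u2 with e | e <;> rcases k ζ b t2 with e' | e' <;> rw [e, e'] at this ⊢ <;> simp at this ⊢

theorem ru : r * c ^ (m / 2) * r⁻¹ = c ^ (m / 2) * ζ ^ (o / 2) := by
  have := h.rT (m / 2 : ℕ) 0
  simp only [zpow_zero, mul_one, add_zero, zpow_neg, zpow_natCast] at this
  rw [this, inv_eq_of_mul_eq_one_right (h.u2 q), q.1]

theorem conj_r {i j : ℤ} (e : c ^ i * ζ ^ j * r * (c ^ i * ζ ^ j * r) = 1) :
    ∃ b ∈ TT c ζ, b * r * b⁻¹ = c ^ i * ζ ^ j * r := by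
  rw [h.sq, h.zeq, q.1] at e
  refine ⟨c ^ (-j) * ζ ^ (0 : ℤ), h.memT.2 ⟨_, _, rfl⟩, ?_⟩
  calc _ = c ^ (-j) * ζ ^ (0 : ℤ) * (r * (c ^ j * ζ ^ (0 : ℤ)) * r⁻¹) * r := by simp [mul_assoc]
    _ = _ := by
      rw [h.rT, h.mul, mul_left_inj, ← mul_inv_eq_one, ← zpow_neg_one, h.pw, h.mul, h.one_iff q]
      exact ⟨by rw [← dvd_neg, show -(-j + -j + i * -1) = i + 2 * j by ring]; exact e, by simp⟩

theorem cT {a s : G} (ha : a ∈ TT c ζ) (hs : s ∈ S) (hT : s ∉ TT c ζ) (e : Commute s a) : a ∈ zpowers ζ := by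
  obtain ⟨k, l, rfl⟩ := h.out hs hT
  have e' : r * a * r⁻¹ = a := by
    have := (h.comT (h.memT.2 ⟨k, l, rfl⟩) ha).eq
    rw [mul_inv_eq_iff_eq_mul, ← mul_right_inj (c ^ k * ζ ^ l), ← mul_assoc, e.eq, ← mul_assoc, ← this, mul_assoc]
  obtain ⟨i, j, rfl⟩ := h.memT.1 ha
  rw [h.rT, ← mul_inv_eq_one, ← zpow_neg_one, h.pw, h.mul, h.one_iff q] at e'
  have : c ^ i * ζ ^ (0 : ℤ) = 1 := (h.one_iff q).2 ⟨by simpa using e'.2, by simp⟩
  rw [show c ^ i = 1 by simpa using this, one_mul]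
  exact zpow_mem (mem_zpowers ζ) j

theorem sq_pow {g a : G} (n : ℕ) : g * a ^ (2 * n) * g⁻¹ = (g * a * g⁻¹ * (g * a * g⁻¹)) ^ n := by
  rw [← pow_two, ← pow_mul, conj_pow]

theorem wkT {g : G} (hg : ∀ a ∈ TT c ζ, g * a * g⁻¹ ∈ S) : ∀ a ∈ TT c ζ, g * a * g⁻¹ ∈ TT c ζ := fun a ha => by
  by_contra e
  have k : ∀ b ∈ TT c ζ, g * b ^ (m / 2) * g⁻¹ ∈ zpowers ζ := fun b hb => by
    obtain ⟨n, -, rfl, -⟩ := h.exists_n
    refine h.cT q ?_ (hg a ha) e ((h.comT ha (pow_mem hb _)).conj g)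
    rw [show 4 * n / 2 = 2 * n by omega, h.sq_pow q]
    exact pow_mem (h.sqT (hg b hb)) n
  have iu : IsInv (c ^ (m / 2)) := ⟨h.u2 q, fun e => h.uZ q (e ▸ one_mem _)⟩
  have a1 := h.invZ (k c (mem_sup_left (mem_zpowers c))) (iu.conj g)
  have a2 := h.invZ (k ζ (mem_sup_right (mem_zpowers ζ))) (q.1 ▸ h.tinv.conj g)
  rw [← a2, mul_left_inj, mul_right_inj] at a1
  exact h.uZ q (a1 ▸ pow_mem (mem_zpowers ζ) _)

theorem normT (hS : IsSylowOf 2 S ⊤) {g : G} (hg : g ∈ 𝒞[ζ ^ (o / 2)]) (n : ∀ a ∈ TT c ζ, g * a * g⁻¹ ∈ TT c ζ) :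
    g * ζ * g⁻¹ = ζ := by
  set T := TT c ζ
  set H := 𝒩(T) ⊓ 𝒞[ζ ^ (o / 2)]
  have SH : S ≤ H := le_inf (fun s hs => mem_norm_of_conjg_le fun _ ⟨a, ha, e⟩ => e ▸ by
    have := (mul_mem_iff_of_index_two h.idx (a := (⟨s * a, mul_mem hs (h.TS ha)⟩ : S)) (b := ⟨s⁻¹, inv_mem hs⟩)).2
    simp only [mem_subgroupOf, coe_mul, inv_mem_iff] at this
    exact this (mul_mem_cancel_right ha)) h.SC
  have iu : IsInv (c ^ (m / 2)) := ⟨h.u2 q, fun e => h.uZ q (e ▸ one_mem _)⟩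
  have uT : c ^ (m / 2) ∈ T := pow_mem (mem_sup_left (mem_zpowers c)) _
  have cu : Commute (c ^ (m / 2)) (ζ ^ (o / 2)) := h.cz.pow_pow _ _
  have k1 : ∀ x ∈ H, ∀ a ∈ T, a * a = 1 → x ^ 2 * a * (x ^ 2)⁻¹ = a := fun x hx a ha a2 => by
    have xt := conj_eq_of_cent hx.2
    have xu : x ^ 2 * c ^ (m / 2) * (x ^ 2)⁻¹ = c ^ (m / 2) := by
      have e2 : x ^ 2 * c ^ (m / 2) * (x ^ 2)⁻¹ = x * (x * c ^ (m / 2) * x⁻¹) * x⁻¹ := by rw [pow_two]; group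
      rcases h.invT q ((mem_normalizer_iff.1 hx.1 _).1 uT) (iu.conj x) with e | e | e
      · rw [← xt, mul_left_inj, mul_right_inj] at e
        exact absurd (e ▸ pow_mem (mem_zpowers ζ) _) (h.uZ q)
      · rw [e2, e, e]
      · rw [e2, e]
        calc _ = x * c ^ (m / 2) * x⁻¹ * (x * ζ ^ (o / 2) * x⁻¹) := by group
          _ = _ := by rw [e, xt, mul_assoc, h.tinv.1, mul_one]
    have xt2 := conj_eq_of_cent (pow_mem hx.2 2)
    by_cases a1 : a = 1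
    · simp [a1]
    rcases h.invT q ha ⟨a2, a1⟩ with rfl | rfl | rfl
    exacts [xt2, xu, by
      calc _ = x ^ 2 * c ^ (m / 2) * (x ^ 2)⁻¹ * (x ^ 2 * ζ ^ (o / 2) * (x ^ 2)⁻¹) := by group
        _ = _ := by rw [xu, xt2]]
  have k2 : ∀ x ∈ H, ∀ k : ℕ, ∀ a ∈ T, a ^ 2 ^ k = 1 → x ^ 2 ^ (k + 1) * a * (x ^ 2 ^ (k + 1))⁻¹ = a := fun x hx k => by
    induction k with
    | zero => intro a _ e; simp at e; simp [e]
    | succ k ih =>
      intro a ha e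
      set y := x ^ 2 ^ (k + 1) with hy
      have yH : y ∈ H := pow_mem hx _
      have b := ih (a * a) (mul_mem ha ha) (by rw [← pow_two, ← pow_mul, ← pow_succ', e])
      have bT : y * a * y⁻¹ ∈ T := (mem_normalizer_iff.1 yH.1 _).1 ha
      have v2 : y * a * y⁻¹ * a⁻¹ * (y * a * y⁻¹ * a⁻¹) = 1 := by
        calc _ = y * a * y⁻¹ * (a⁻¹ * (y * a * y⁻¹)) * a⁻¹ := by group
          _ = y * (a * a) * y⁻¹ * (a * a)⁻¹ := by rw [(h.comT (inv_mem ha) bT).eq]; group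
          _ = 1 := by rw [b, mul_inv_cancel]
      have v := k1 (x ^ 2 ^ k) (pow_mem hx _) _ (mul_mem bT (inv_mem ha)) v2
      rw [← pow_mul, ← pow_succ, ← hy] at v
      rw [pow_succ 2 (k + 1), pow_mul, ← hy, pow_two]
      calc _ = y * (y * a * y⁻¹ * a⁻¹) * y⁻¹ * (y * a * y⁻¹) := by group
        _ = y * a * y⁻¹ * a⁻¹ * (y * a * y⁻¹ * a⁻¹) * a := by rw [v]; group
        _ = a := by rw [v2, one_mul]
  obtain ⟨e, he⟩ := h.m4
  have k3 : ∀ x ∈ H, x ^ 2 ^ (e + 3) ∈ 𝒞(T) ⊓ H := fun x hx => ⟨mem_centralizer_iff.2 fun a ha => by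
    have := k2 x hx (e + 2) a ha (by
      obtain ⟨i, j, rfl⟩ := h.memT.1 ha
      rw [← he, ← zpow_natCast, h.pw, h.one_iff q]; simp)
    exact (mul_inv_eq_iff_eq_mul.1 this).symm, pow_mem hx _⟩
  have nH : H ≤ 𝒩(𝒞(T) ⊓ H) := norm_inf (norm_cent inf_le_left) le_normalizer
  haveI : ((𝒞(T) ⊓ H).subgroupOf H).Normal := (normal_subgroupOf_iff_le_normalizer inf_le_right).2 nH
  have pQ : IsPGroup 2 (H ⧸ (𝒞(T) ⊓ H).subgroupOf H) := fun x => by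
    obtain ⟨x, rfl⟩ := QuotientGroup.mk_surjective x
    exact ⟨e + 3, by rw [← QuotientGroup.mk_pow, QuotientGroup.eq_one_iff]; exact k3 x x.2⟩
  haveI : Fact (Nat.Prime 2) := ⟨Nat.prime_two⟩
  obtain ⟨k, hk⟩ := pQ.exists_card_eq
  have s := (hS.of_le SH le_top).sup_eq_of_index (K := 𝒞(T) ⊓ H) inf_le_right
    (by rw [relIndex, index_eq_card, hk]; exact piNat_self_pow Nat.prime_two k)
  have : H ≤ 𝒞[ζ] := s ▸ sup_le (inf_le_left.trans (cent_le_cent_singleton (mem_sup_right (mem_zpowers ζ))))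
    fun s hs => mem_centralizer_singleton_iff.2 (h.cen hs).eq
  exact conj_eq_of_cent (this ⟨mem_norm_of_conjg_le fun _ ⟨a, ha, e⟩ => e ▸ n a ha, hg⟩)

theorem wcT (hS : IsSylowOf 2 S ⊤) {g z : G} (hg : g ∈ 𝒞[ζ ^ (o / 2)]) (hz : z ∈ zpowers ζ)
    (e : g * z * g⁻¹ ∈ TT c ζ) : g * z * g⁻¹ = z := by
  have := Fintype.ofFinite G
  by_cases z1 : z = 1
  · simp [z1]
  have cz : ∀ s ∈ S, Commute s z := fun s hs => by obtain ⟨k, rfl⟩ := hz; exact (h.cen hs).zpow_right k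
  obtain ⟨x, e1, e2⟩ := exists_extremal hS (z := z) (u := g * z * g⁻¹)
    (fun s hs => mem_centralizer_singleton_iff.2 (cz s hs).eq) (isConj_iff.2 ⟨g, rfl⟩ : IsConj z _).symm
  obtain ⟨t, ht, t2, t1⟩ := exists_inv_mem_zpowers (x := z) (by
    rw [← Nat.card_zpowers]
    exact IsPGrp.dvd_card (IsPiGrp.of_le hS.piGrp (zpowers_le.2 (zpowers_le.2 h.zS hz))) (by simpa using z1))
  obtain rfl := h.invZ (zpowers_le.2 hz ht) ⟨t2, t1⟩
  obtain ⟨k, hk⟩ := ht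
  simp only at hk
  have xt : x ∈ 𝒞[ζ ^ (o / 2)] := cent_of_conj_eq (by
    nth_rewrite 1 [← conj_eq_of_cent hg, ← hk]
    rw [← conj_zpow, ← conj_zpow, e1, hk])
  have := h.normT q hS xt (h.wkT q fun a ha => e2 (conj_mem_conjg x
    ⟨h.TS ha, mem_centralizer_singleton_iff.2 (h.comT ha e).eq⟩))
  obtain ⟨l, rfl⟩ := hz
  simp only at e1 ⊢
  nth_rewrite 2 [← this] at e1
  rwa [conj_zpow, mul_left_inj, mul_right_inj] at e1

theorem fus_w [IsSimpleGroup G] (nab : ¬ IsMulCommutative G) (hS : IsSylowOf 2 S ⊤) :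
    ∃ g ∈ 𝒞[ζ ^ (o / 2)], g * r * g⁻¹ = c ^ (m / 2) ∧ g * ζ * g⁻¹ = ζ := by
  have := Fintype.ofFinite G
  have ir : IsInv r := ⟨h.r2, fun e => h.rnT (e ▸ one_mem _)⟩
  have tT : ζ ^ (o / 2) ∈ TT c ζ := pow_mem (mem_sup_right (mem_zpowers ζ)) _
  have sqt : ∀ g : G, g * ζ * g⁻¹ ∈ S → g * ζ ^ (o / 2) * g⁻¹ ∈ TT c ζ := fun g hg => by
    obtain ⟨n, -, e, -⟩ := h.exists_n
    rw [q.1, e, show 4 * n / 2 = 2 * n by omega, h.sq_pow q]
    exact pow_mem (h.sqT hg) n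
  have ext : ∀ v ∈ S, v ≠ ζ ^ (o / 2) → IsConj v (ζ ^ (o / 2)) → ∃ x, x * v * x⁻¹ = ζ ^ (o / 2) ∧
      (S ⊓ 𝒞[v]) :^ x ≤ S ∧ x * ζ * x⁻¹ ∈ S ∧ x * ζ ^ (o / 2) * x⁻¹ ∈ TT c ζ ∧
        x * ζ ^ (o / 2) * x⁻¹ ≠ ζ ^ (o / 2) := fun v hv v1 cj => by
    obtain ⟨x, e1, e2⟩ := exists_extremal hS h.SC cj
    have a := e2 (conj_mem_conjg x ⟨h.zS, mem_centralizer_singleton_iff.2 (h.cen hv).symm.eq⟩)
    refine ⟨x, e1, e2, a, sqt x a, fun e => v1 ?_⟩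
    rwa [← e, mul_left_inj, mul_right_inj] at e1
  have tu : ∀ v ∈ TT c ζ, IsInv v → IsConj v (ζ ^ (o / 2)) := by
    have k : IsConj (c ^ (m / 2)) (c ^ (m / 2) * ζ ^ (o / 2)) := isConj_iff.2 ⟨r, h.ru q⟩
    have : IsConj (c ^ (m / 2)) (ζ ^ (o / 2)) := by
      obtain ⟨v, hv, v1, cj⟩ := exists_fused nab hS (pow_mem h.zS _) h.tinv.1 h.tinv.2
      obtain ⟨x, -, -, -, a, b⟩ := ext v hv v1 cj
      have cx : IsConj (ζ ^ (o / 2)) _ := isConj_iff.2 ⟨x, rfl⟩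
      rcases h.invT q a (h.tinv.conj x) with e | e | e
      exacts [absurd e b, (e ▸ cx).symm, k.trans (e ▸ cx).symm]
    intro v hv iv
    rcases h.invT q hv iv with rfl | rfl | rfl
    exacts [IsConj.refl _, this, k.symm.trans this]
  obtain ⟨g, hg⟩ := exists_mem_conj_of_index (der_top_eq nab) (H := TT c ζ) (fun e => by
    rw [← relIndex_mul_index h.TS, h.idx] at e
    have := hS.not_dvd_index Nat.prime_two
    rw [relIndex_top_right] at this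
    omega) h.r2
  have rt : IsConj r (ζ ^ (o / 2)) := (isConj_iff.2 ⟨g⁻¹, by simp⟩ : IsConj r (g⁻¹ * r * g)).trans
    (tu _ hg (by simpa using ir.conj g⁻¹))
  obtain ⟨x, x1, -, x2, x3, x4⟩ := ext r h.rS (fun e => h.rnT (e ▸ tT)) rt
  have x5 : x * ζ * x⁻¹ ∈ TT c ζ := by
    by_contra e
    obtain ⟨i, j, e⟩ := h.out x2 e
    refine x4 (h.invZ ?_ (h.tinv.conj x))
    obtain ⟨n, -, e', -⟩ := h.exists_n
    rw [q.1, e', show 4 * n / 2 = 2 * n by omega, h.sq_pow q, e, h.sq]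
    exact pow_mem (zpow_mem (mem_zpowers ζ) _) n
  obtain ⟨y, y1, y2, -, y3, y4⟩ := ext _ (h.TS x3) x4 (isConj_iff.2 ⟨x, rfl⟩ : IsConj (ζ ^ (o / 2)) _).symm
  have yx : y * x ∈ 𝒞[ζ ^ (o / 2)] := cent_of_conj_eq (by nth_rewrite 2 [← y1]; group)
  have z1 : y * x * ζ * (y * x)⁻¹ = ζ := h.wcT q hS yx (mem_zpowers ζ) (by
    have := h.wkT q (fun a ha => y2 (conj_mem_conjg y
      ⟨h.TS ha, mem_centralizer_singleton_iff.2 (h.comT ha x3).eq⟩)) _ x5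
    rwa [show y * (x * ζ * x⁻¹) * y⁻¹ = y * x * ζ * (y * x)⁻¹ by group] at this)
  have z2 : y * x * r * (y * x)⁻¹ = y * ζ ^ (o / 2) * y⁻¹ := by rw [← x1]; group
  rcases h.invT q y3 (h.tinv.conj y) with e | e | e
  · exact absurd e y4
  · exact ⟨_, yx, z2.trans e, z1⟩
  · refine ⟨r⁻¹ * (y * x), mul_mem (inv_mem (h.SC h.rS)) yx, ?_, ?_⟩
    · rw [← h.ru q] at e
      calc _ = r⁻¹ * (y * x * r * (y * x)⁻¹) * r := by group
        _ = _ := by rw [z2, e]; group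
    · calc _ = r⁻¹ * (y * x * ζ * (y * x)⁻¹) * r := by group
        _ = _ := by rw [z1, mul_assoc, ← h.rz.eq]; group

end W

/-- the elements of `⟨ζ⟩` are weakly closed in `S` with respect to `C(t)` -/
theorem wc [IsSimpleGroup G] (nab : ¬ IsMulCommutative G) (hS : IsSylowOf 2 S ⊤) {g z : G} (hg : g ∈ 𝒞[ζ ^ (o / 2)])
    (hz : z ∈ zpowers ζ) (e : g * z * g⁻¹ ∈ S) : g * z * g⁻¹ = z := by
  rcases h.cas with q | q
  · obtain ⟨k, rfl⟩ := hz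
    obtain ⟨rfl, -⟩ := q
    simp only
    rw [← conj_zpow, show g * ζ * g⁻¹ = ζ by simpa using conj_eq_of_cent hg]
  by_cases eT : g * z * g⁻¹ ∈ TT c ζ
  · exact h.wcT q hS hg hz eT
  exfalso
  obtain ⟨i, j, e⟩ := h.out e eT
  obtain ⟨n, n0, e4, -⟩ := h.exists_n
  have zm : (g * z * g⁻¹) ^ (2 * (2 * n)) = 1 := by
    obtain ⟨k, rfl⟩ := hz
    simp only
    rw [conj_pow, ← zpow_natCast, ← zpow_mul, h.zeq.2 ⟨k, by rw [q.1, e4]; push_cast; ring⟩]; simp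
  rw [e, pow_mul, pow_two, h.sq, ← zpow_natCast, ← zpow_mul, h.zeq, q.1, e4] at zm
  obtain ⟨k, hk⟩ := zm
  have hk' : i + 2 * j = 2 * k := by push_cast at hk; nlinarith
  obtain ⟨b, hb, eb⟩ := h.conj_r q (i := i) (j := j - k) (by rw [h.sq, show i + 2 * (j - k) = 0 by omega, zpow_zero])
  obtain ⟨x, hx, x1, x2⟩ := h.fus_w q nab hS
  have bz : Commute b (ζ ^ k) := h.comT hb (zpow_mem (mem_sup_right (mem_zpowers ζ)) k)
  have a : x * b⁻¹ * g * z * (x * b⁻¹ * g)⁻¹ = c ^ (m / 2) * ζ ^ k := by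
    have : g * z * g⁻¹ = b * (r * ζ ^ k) * b⁻¹ := by
      rw [e, ← mul_assoc, mul_assoc _ (ζ ^ k), bz.symm.inv_right.eq, ← mul_assoc, eb, mul_assoc _ r,
        (h.rz.zpow_right k).eq]; group
    calc _ = x * b⁻¹ * (g * z * g⁻¹) * b * x⁻¹ := by group
      _ = x * r * x⁻¹ * (x * ζ * x⁻¹) ^ k := by rw [this, conj_zpow]; group
      _ = _ := by rw [x1, x2]
  have := h.wcT q hS (mul_mem (mul_mem hx (inv_mem (h.SC (h.TS hb)))) hg) hz
    (a ▸ mul_mem_sup (pow_mem (mem_zpowers c) _) (zpow_mem (mem_zpowers ζ) k))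
  rw [a] at this
  exact h.uZ q ((mul_mem_cancel_right (zpow_mem (mem_zpowers ζ) k)).1 (this ▸ hz))

/-- `c ^ (m / 2)` is fused to a reflection modulo `ζ` -/
theorem fus [IsSimpleGroup G] (nab : ¬ IsMulCommutative G) (hS : IsSylowOf 2 S ⊤) :
    ∃ g ∈ 𝒞[ζ ^ (o / 2)], ∃ i j k : ℤ, g * (c ^ (m / 2) * ζ ^ k) * g⁻¹ = c ^ i * ζ ^ j * r := by
  rcases h.cas with q | q
  · exact h.fus_qd nab hS q
  · obtain ⟨g, hg, e, -⟩ := h.fus_w q nab hS
    exact ⟨g⁻¹, inv_mem hg, 0, 0, 0, by simp [← e, mul_assoc]⟩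

end ZS

theorem realizeEqns_AbgA1 : True := by
  have := @CA.Abg.TT.eq_1.{0}
  have := @CA.Abg.TT.eq_def.{0}
  have := @CA.Abg.TT.congr_simp.{0}
  trivial

end CA.Abg
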