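/-
The quotient `C(t) / O(C(t)) Z`: a model `PSL₂(q) ≤ Γ ≤ PΓL₂(q)`.
-/
import Cfsg.Agent.Abg.A1
import Cfsg.Agent.S0483
import Cfsg.Agent.S0251
import Cfsg.Agent.Fi.Words

set_option autoImplicit false
set_option linter.unusedSectionVars false

namespace CA.Abg

open Subgroup Cfsg CA.FG CA.BG CA.GW CA.Dih
open scoped MatrixGroups

universe u v

theorem eq_of_cent_odd {X : Type u} [Group X] [Finite X] (O1 : OO (⊤ : Subgroup X) = ⊥) {Y Z : Subgroup X}
    (nY : ⊤ ≤ 𝒩(Y)) (ZY : Z ≤ Y) (cZ : Z ≤ 𝒞(Y)) (pZ : IsPGrp 2 Z) (i : ¬ 2 ∣ Z.relIndex Y) : Y = Z := by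
  have hZ : IsPiHallOf {2} Z Y := sylow_mk ZY pZ i
  obtain ⟨H, hH⟩ := exists_complIn_of_coprime (K := Z) (M := Y) ⟨ZY, norm_of_cent' cZ⟩ hZ.coprime
  have h2 := hH.complIn.pHall_compl hZ
  have n : Y ≤ 𝒩(H) := hH.sup_eq ▸ sup_le (norm_of_cent (cZ.trans (centralizer_le hH.right_le))) le_normalizer
  have := eq_bot_of_pcore_eq_bot O1 ⟨le_top, (h2.charIn n).norm nY⟩ h2.piGrp
  rw [← hH.sup_eq, this, sup_bot_eq]

theorem oo_map {X : Type u} {Y : Type v} [Group X] [Finite X] [Group Y] [Finite Y] (O1 : OO (⊤ : Subgroup X) = ⊥)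
    {f : X →* Y} (hf : Function.Surjective f) (c : f.ker ≤ center X) (p : IsPGrp 2 f.ker) :
    OO (⊤ : Subgroup Y) = ⊥ := by
  haveI : (OO (⊤ : Subgroup Y)).Normal := normalIn_top.1 (pcore_normal _ _)
  have := eq_of_cent_odd O1 (Y := (OO ⊤).comap f) (Z := f.ker) (normalizer_eq_top _).ge (ker_le_comap _ _)
    (c.trans (center_le_centralizer _)) p (by
      rw [← MonoidHom.comap_bot, relIndex_comap, map_comap_eq_self_of_surjective hf, relIndex_bot_left]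
      exact (piGrp_compl_singleton_iff Nat.prime_two).1 (pcore_piGrp _ _))
  rw [← map_comap_eq_self_of_surjective hf (OO ⊤), this, Subgroup.map_eq_bot_iff]

theorem central_of_wc (n : ℕ) : ∀ (X : Type u) [Group X] [Finite X] (S : Subgroup X) (z : X), orderOf z = n →
    OO (⊤ : Subgroup X) = ⊥ → IsSylowOf 2 S ⊤ → z ∈ S →
    (∀ g, ∀ y ∈ zpowers z, g * y * g⁻¹ ∈ S → g * y * g⁻¹ = y) → z ∈ center X := by
  induction n using Nat.strong_induction_on with | _ n ih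
  intro X _ _ S z oz O1 hS hz wc
  have := Fintype.ofFinite X
  by_cases z1 : z = 1
  · exact z1 ▸ one_mem _
  obtain ⟨t, ht, t2, t1⟩ := exists_inv_mem_zpowers (x := z) (by
    rw [← Nat.card_zpowers]
    exact IsPGrp.dvd_card (IsPiGrp.of_le hS.piGrp (zpowers_le.2 hz)) (by simpa using z1))
  have tS : t ∈ S := zpowers_le.2 hz ht
  have tc : t ∈ center X := by
    obtain ⟨P, rfl⟩ := hS.exists_sylow_top Nat.prime_two
    exact Blk.Zstar_center ((pPrimeCore_eq_top Nat.prime_two).trans O1) (orderOf_two t2 t1)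
      (Blk.isolated_of_sylow (orderOf_two t2 t1) P tS fun g => wc g t ht)
  haveI : (zpowers t).Normal := ⟨fun a ha g => by
    rwa [mem_center_iff.1 (zpowers_le.2 tc ha) g, mul_inv_cancel_right]⟩
  let f := QuotientGroup.mk' (zpowers t)
  have fs : Function.Surjective f := QuotientGroup.mk'_surjective _
  have k : f.ker = zpowers t := QuotientGroup.ker_mk' _
  have back : ∀ x, f x ∈ S.map f → x ∈ S := fun x hx =>
    (comap_map_eq_self (k.le.trans (zpowers_le.2 tS))).le (mem_comap.2 hx)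
  have := ih (orderOf (f z)) (by
      rw [← oz]
      refine lt_of_le_of_ne (Nat.le_of_dvd (orderOf_pos z) (orderOf_map_dvd f z)) fun e => t1 ?_
      obtain ⟨i, rfl⟩ := ht
      have : f z ^ i = 1 := by rw [← map_zpow, ← MonoidHom.mem_ker, k]; exact mem_zpowers _
      rwa [← orderOf_dvd_iff_zpow_eq_one, e, orderOf_dvd_iff_zpow_eq_one] at this) _ (S.map f) (f z) rfl
    (oo_map O1 fs (k.le.trans (zpowers_le.2 tc)) (hS.piGrp.of_le (k.le.trans (zpowers_le.2 tS))))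
    (by simpa [map_top_of_surjective f fs] using hS.map f) ⟨z, hz, rfl⟩ (by
      rintro g _ ⟨i, rfl⟩ e
      obtain ⟨g, rfl⟩ := fs g
      simp only [← map_zpow, ← map_inv, ← map_mul] at e ⊢
      rw [wc g _ ⟨i, rfl⟩ (back _ e)])
  refine mem_center_iff.2 fun g => mul_inv_eq_iff_eq_mul.1 (wc g z (mem_zpowers z) (back _ ?_))
  rw [map_mul, map_mul, mem_center_iff.1 this, map_inv, mul_inv_cancel_right]
  exact ⟨z, hz, rfl⟩

theorem PM.comp {Γ Δ : Type*} [Group Γ] [Group Δ] {F : Type*} [Field F] [Fintype F] {ι : SL(2, F) →* Γ} (h : PM ι)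
    (e : Γ ≃* Δ) : PM (e.toMonoidHom.comp ι) where
  two := h.two
  ker A := by simpa using h.ker A
  norm γ A := by
    obtain ⟨γ, rfl⟩ := e.surjective γ
    obtain ⟨B, hB⟩ := h.norm γ A
    exact ⟨B, by simpa using congrArg e hB⟩
  cent γ hγ := by
    obtain ⟨γ, rfl⟩ := e.surjective γ
    rw [h.cent γ fun A => e.injective (by simpa using hγ A), map_one]

theorem pm_s4 : ∃ ι : SL(2, ZMod 3) →* Equiv.Perm (Fin 4), PM ι ∧ ι.range = alternatingGroup (Fin 4) := by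
  obtain ⟨e⟩ := Agent.S0251.result (F := ZMod 3) rfl
  refine exists_pm (eq_bot_iff.2 fun x hx => ?_) (by decide) e.symm
  have k : ∀ x : Equiv.Perm (Fin 4), (∀ y, Equiv.Perm.sign y = 1 → y * x = x * y) → x = 1 := by decide +kernel
  exact k x hx

variable {Γ : Type u} [Group Γ] [Finite Γ]

/-- dihedral Sylow subgroup with an inner reflection `s` and an outer reflection `σ` -/
structure DG (D : Subgroup Γ) (b s σ : Γ) (m : ℕ) : Prop where
  syl : IsSylowOf 2 D ⊤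
  O1 : OO (⊤ : Subgroup Γ) = ⊥
  dih : IsDih D b
  ob : orderOf b = m
  m4 : ∃ e, m = 2 ^ (e + 2)
  sD : s ∈ D
  σD : σ ∈ D
  sb : s ∉ zpowers b
  σb : σ ∉ zpowers b
  odd : ∃ k : ℤ, σ * s = b ^ (2 * k + 1)
  cs : IsConj (b ^ (m / 2)) s
  nσ : ¬ IsConj (b ^ (m / 2)) σ

namespace DG
variable {D : Subgroup Γ} {b s σ : Γ} {m : ℕ} (h : DG D b s σ m)
include h

theorem exists_n : ∃ n : ℕ, 0 < n ∧ m = 4 * n := by
  obtain ⟨e, he⟩ := h.m4
  exact ⟨2 ^ e, by positivity, by rw [he]; ring⟩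

theorem id : IsInv (b ^ (m / 2)) := by
  obtain ⟨n, n0, e⟩ := h.exists_n
  refine ⟨by rw [← pow_add, show m / 2 + m / 2 = m by omega, ← h.ob, pow_orderOf_eq_one], fun e' => ?_⟩
  have := Nat.le_of_dvd (by omega) (h.ob ▸ orderOf_dvd_of_pow_eq_one e')
  omega

theorem hd : HasDih Γ := ⟨D, b, h.syl, h.dih, fun e => h.id.2 (by simp [e])⟩

theorem r2 : R2 Γ := r2_of_dih h.syl h.dih

theorem refl {a : Γ} (ha : a ∈ D) (hb : a ∉ zpowers b) : IsInv a := ⟨h.dih.sq a ha hb, fun e => hb (e ▸ one_mem _)⟩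

theorem inverts {a : Γ} (ha : a ∈ D) (hb : a ∉ zpowers b) (i : ℤ) : a * b ^ i * a⁻¹ = b ^ (-i) := by
  have m := zpow_mem (mem_zpowers b) i
  have := h.dih.sq (a * b ^ i) (mul_mem ha (zpow_mem h.dih.mem i)) fun e => hb ((mul_mem_cancel_right m).1 e)
  rw [(h.refl ha hb).inv_eq, zpow_neg, eq_inv_iff_mul_eq_one, ← this]; group

theorem uniq {a : Γ} (ha : a ∈ zpowers b) (ia : IsInv a) : a = b ^ (m / 2) :=
  have := Fintype.ofFinite Γ
  eq_of_cyclic_inv (cyclic_zpowers b) ha (pow_mem (mem_zpowers b) _) ia.1 ia.2 h.id.1 h.id.2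

theorem mn {M : Subgroup Γ} (n : ⊤ ≤ 𝒩(M)) (M1 : M ≠ ⊥) : b ^ (m / 2) ∈ M := by
  haveI : M.Normal := normalIn_top.1 ⟨le_top, n⟩
  obtain ⟨a, ha, ia⟩ := exists_inv_of_not_odd (M := M) fun e => M1 (eq_bot_of_pcore_eq_bot h.O1 ⟨le_top, n⟩ e)
  obtain ⟨g, -, hg⟩ := sylow_Jsub Nat.prime_two h.syl (piGrp_zpowers_iff.2 ia.two) le_top
  have aD := hg (conj_mem_conjg g (mem_zpowers a))
  have aM : g * a * g⁻¹ ∈ M := Normal.conj_mem ‹_› a ha g
  by_cases e : g * a * g⁻¹ ∈ zpowers b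
  · exact h.uniq e (ia.conj g) ▸ aM
  · obtain ⟨k, -, rfl⟩ := h.exists_n
    have := mul_mem (Normal.conj_mem ‹M.Normal› _ aM (b ^ (k : ℤ))) (inv_mem aM)
    rwa [show b ^ (k : ℤ) * (g * a * g⁻¹) * (b ^ (k : ℤ))⁻¹ * (g * a * g⁻¹)⁻¹ =
      b ^ (k : ℤ) * (g * a * g⁻¹ * b ^ (-k : ℤ) * (g * a * g⁻¹)⁻¹) by group, h.inverts aD e, neg_neg, ← zpow_add,
      show (k : ℤ) + k = (4 * k / 2 : ℕ) by omega, zpow_natCast] at this

theorem s4 (sol : Group.IsSolvable Γ) : ∃ e : Equiv.Perm (Fin 4) ≃* Γ, e (Equiv.swap 0 1) = σ := by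
  have := Fintype.ofFinite Γ
  set d := b ^ (m / 2) with hd
  have id : IsInv d := h.id
  have is := h.refl h.sD h.sb
  have iσ := h.refl h.σD h.σb
  have fixd : ∀ a ∈ D, a ∉ zpowers b → a * d * a⁻¹ = d := fun a ha hb => by
    have := h.inverts ha hb (m / 2 : ℕ)
    rwa [zpow_neg, zpow_natCast, id.inv_eq] at this
  have ds : Commute d s := (mul_inv_eq_iff_eq_mul.1 (fixd s h.sD h.sb)).symm
  have dσ := fixd σ h.σD h.σb
  have nds : d ≠ s := fun e => h.sb (e ▸ pow_mem (mem_zpowers b) _)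
  obtain ⟨M, -, hM⟩ := minNormal_exists (K := (⊤ : Subgroup Γ)) (A := ⊤)
    (fun e => id.2 (mem_bot.1 (e ▸ mem_top d))) (norm_of_le le_rfl)
  haveI : M.Normal := normalIn_top.1 ⟨le_top, hM.norm⟩
  have dM : d ∈ M := h.mn hM.norm hM.ne_bot
  obtain ⟨g, hg⟩ := isConj_iff.1 h.cs
  have sM : s ∈ M := hg ▸ Normal.conj_mem ‹_› d dM g
  obtain ⟨p, hp, eM⟩ := hM.abelem inferInstance
  obtain rfl : 2 = p := (abelem_pGrp hp eM).piElt dM 2 Nat.prime_two id.ord.symm.dvd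
  have cm : ∀ x ∈ M, ∀ y ∈ M, Commute x y := fun x hx y hy => congrArg Subtype.val (eM.1.is_comm.comm ⟨x, hx⟩ ⟨y, hy⟩)
  have sq : ∀ x ∈ M, x * x = 1 := fun x hx => by simpa [pow_two] using eM.2 x hx
  have four : ∀ x, x * x = 1 → Commute d x → Commute s x → x = 1 ∨ x = d ∨ x = s ∨ x = d * s := fun x x2 c1 c2 =>
    h.r2 d s x id.1 is.1 x2 ds c1 c2 id.2 is.2 nds
  have mM : ∀ x ∈ M, x = 1 ∨ x = d ∨ x = s ∨ x = d * s := fun x hx => four x (sq x hx) (cm _ dM _ hx) (cm _ sM _ hx)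
  have cM : ∀ x, x * d * x⁻¹ = d → x * s * x⁻¹ = s → x ∈ M := by
    have c1 : ∀ x, x * d * x⁻¹ = d → x * s * x⁻¹ = s → x ∈ 𝒞(M) := fun x e1 e2 => mem_centralizer_iff.2 fun y hy => by
      have e1 := mul_inv_eq_iff_eq_mul.1 e1
      have e2 := mul_inv_eq_iff_eq_mul.1 e2
      rcases mM y hy with rfl | rfl | rfl | rfl
      exacts [by simp, e1.symm, e2.symm, by rw [mul_assoc, ← e2, ← mul_assoc, ← e1, mul_assoc]]
    have MC : M ≤ 𝒞(M) := fun x hx => mem_centralizer_iff.2 fun y hy => cm y hy x hx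
    have nC : ⊤ ≤ 𝒩(𝒞(M)) := norm_cent hM.norm
    have sy : IsSylowOf 2 (𝒞(M) ⊓ D) 𝒞(M) := by
      have := h.syl.normal_inf (K := 𝒞(M)) ⟨le_top, nC⟩
      exact this
    have e : 𝒞(M) ⊓ D ≤ M := fun x ⟨x1, x2⟩ => by
      have c1 : Commute d x := x1 d dM
      have c2 : Commute s x := x1 s sM
      have : x * x = 1 := by
        by_cases e : x ∈ zpowers b
        · obtain ⟨i, rfl⟩ := e
          have := h.inverts h.sD h.sb i
          simp only at c2 ⊢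
          rw [c2.eq, mul_inv_cancel_right] at this
          nth_rewrite 1 [this]; group
        · exact h.dih.sq x x2 e
      rcases four x this c1 c2 with rfl | rfl | rfl | rfl
      exacts [one_mem _, dM, sM, mul_mem dM sM]
    have := eq_of_cent_odd h.O1 nC MC (le_cent_symm le_rfl) (abelem_pGrp hp eM)
      fun e' => sy.not_dvd_index Nat.prime_two (e'.trans (relIndex_dvd_of_le_left _ e))
    exact fun x e1 e2 => this.le (c1 x e1 e2)
  have ids : IsInv (d * s) := id.mul is (mem_centralizer_singleton_iff.2 ds.symm.eq) nds.symm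
  have act : ∀ x a, a ∈ M → IsInv a → x * a * x⁻¹ = d ∨ x * a * x⁻¹ = s ∨ x * a * x⁻¹ = d * s := fun x a ha ia =>
    (mM _ (Normal.conj_mem ‹_› a ha x)).resolve_left (ia.conj x).2
  have cj : ∀ x a a' : Γ, x * (a * a') * x⁻¹ = x * a * x⁻¹ * (x * a' * x⁻¹) := fun x a a' => by group
  have cj2 : ∀ x y a : Γ, x * y * a * (x * y)⁻¹ = x * (y * a * y⁻¹) * x⁻¹ := fun x y a => by group
  have dds : d * (d * s) = s := by rw [← mul_assoc, id.1, one_mul]
  have sds : s * (d * s) = d := by rw [← mul_assoc, ← ds.eq, mul_assoc, is.1, mul_one]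
  have σs : σ * s * σ⁻¹ = d * s := by
    rcases act σ s sM is with e | e | e
    · rw [← dσ, mul_left_inj, mul_right_inj] at e; exact absurd e.symm nds
    · obtain ⟨k, hk⟩ := h.odd
      obtain ⟨n, n0, e4⟩ := h.exists_n
      have : b ^ (2 * (2 * k + 1)) = 1 := by
        rw [mul_comm, zpow_mul, ← hk, zpow_two, ← mul_assoc, ← iσ.inv_eq, iσ.inv_eq]
        nth_rewrite 2 [← iσ.inv_eq]
        rw [e, is.1]
      have := (Dvd.intro _ rfl : (4 : ℤ) ∣ 4 * n).trans (by exact_mod_cast e4 ▸ h.ob ▸ orderOf_dvd_iff_zpow_eq_one.2 this)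
      omega
    · exact e
  obtain ⟨θ, θd, θs⟩ : ∃ θ, θ * d * θ⁻¹ = s ∧ θ * s * θ⁻¹ = d * s := by
    rcases act g s sM is with e | e | e
    · exact ⟨g * σ, by rw [cj2, dσ, hg], by rw [cj2, σs, cj, hg, e, ds.eq]⟩
    · rw [← hg, mul_left_inj, mul_right_inj] at e; exact absurd (hg.symm.trans e).symm nds
    · exact ⟨g, hg, e⟩
  have fix3 : ∀ x, x * d * x⁻¹ = s → x * s * x⁻¹ = d * s → x * x * x = 1 := fun x e1 e2 => by
    have e3 : x * (d * s) * x⁻¹ = d := by rw [cj, e1, e2, sds]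
    have a := cM (x * x * x) (by rw [cj2, cj2, e1, e2, e3]) (by rw [cj2, cj2, e2, e3, e1])
    have c : x * (x * x * x) * x⁻¹ = x * x * x := by group
    rcases mM _ a with e | e | e | e
    · exact e
    · rw [e, e1] at c; exact absurd c.symm nds
    · rw [e, e2] at c; exact absurd c id.mul_ne'
    · rw [e, e3] at c; exact absurd c.symm is.mul_ne
  obtain ⟨β, β2, βd, βs⟩ : ∃ β, β * β = 1 ∧ β * d * β⁻¹ = d * s ∧ β * s * β⁻¹ = s := by
    have e1 : σ * θ * d * (σ * θ)⁻¹ = d * s := by rw [cj2, θd, σs]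
    have e2 : σ * θ * s * (σ * θ)⁻¹ = s := by rw [cj2, θs, cj, dσ, σs, dds]
    generalize σ * θ = β at e1 e2
    have e3 : β * (d * s) * β⁻¹ = d := by rw [cj, e1, e2, mul_assoc, is.1, mul_one]
    have c : β * (β * β) * β⁻¹ = β * β := by group
    rcases mM _ (cM (β * β) (by rw [cj2, e1, e3]) (by rw [cj2, e2, e2])) with e | e | e | e
    · exact ⟨β, e, e1, e2⟩
    · rw [e, e1] at c; exact absurd c is.mul_ne
    · refine ⟨β * d, ?_, by rw [cj2, mul_inv_cancel_right, e1], by rw [cj2, ds.eq, mul_inv_cancel_right, e2]⟩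
      calc _ = β * d * β⁻¹ * (β * β) * d := by group
        _ = 1 := by rw [e1, e, mul_assoc d, is.1, mul_one, id.1]
    · rw [e, e3] at c; exact absurd c.symm is.mul_ne
  have βi : β⁻¹ = β := inv_eq_of_mul_eq_one_right β2
  have br : ∀ x y : Γ, x * x = 1 → y * y = 1 → x * y * (x * y) * (x * y) = 1 → x * y * x = y * x * y := fun x y x2 y2 e => by
    have xi : x⁻¹ = x := inv_eq_of_mul_eq_one_right x2
    have yi : y⁻¹ = y := inv_eq_of_mul_eq_one_right y2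
    calc _ = x * y * (x * y) * (x * y) * (y⁻¹ * x⁻¹ * y⁻¹) := by group
      _ = _ := by rw [e, one_mul, xi, yi]
  have σd : Commute σ d := mul_inv_eq_iff_eq_mul.1 dσ
  have s1 : σ * β * d * (σ * β)⁻¹ = s := by rw [cj2, βd, cj, dσ, σs, dds]
  have s2 : σ * β * s * (σ * β)⁻¹ = d * s := by rw [cj2, βs, σs]
  have c2 : σ * d * (σ * d) = 1 := by rw [mul_assoc, ← mul_assoc d, ← σd.eq, mul_assoc, id.1, mul_one, iσ.1]
  obtain ⟨φ, f1, f2, f3⟩ := CA.Fi.exists_hom_S4 (a := σ) (b := β) (c := σ * d) iσ.1 β2 c2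
    (br _ _ iσ.1 β2 (fix3 _ s1 s2)) (br _ _ c2 β2 (fix3 _
      (by rw [cj2, βd, cj2, show d * (d * s) * d⁻¹ = d * s by rw [((Commute.refl d).mul_right ds).eq, mul_inv_cancel_right], cj, dσ, σs, dds])
      (by rw [cj2, βs, cj2, show d * s * d⁻¹ = s by rw [ds.eq, mul_inv_cancel_right], σs]))).symm
    (by rw [mul_assoc, ← σd.eq])
  refine ⟨MulEquiv.ofBijective φ ⟨CA.Fi.injective_S4 φ (by rw [f1, f3]; exact id.mul_ne.symm), ?_⟩, f1⟩
  have m1 : σ ∈ φ.range := ⟨_, f1⟩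
  have m2 : σ * β ∈ φ.range := mul_mem m1 ⟨_, f2⟩
  have m3 : d ∈ φ.range := (mul_mem_cancel_left m1).1 ⟨_, f3⟩
  have m4 : s ∈ φ.range := s1 ▸ mul_mem (mul_mem m2 m3) (inv_mem m2)
  have k1 : ∀ x, x * d * x⁻¹ = d → x ∈ φ.range := fun x e => by
    have k0 : ∀ x ∈ M, x ∈ φ.range := fun x hx => by
      rcases mM x hx with rfl | rfl | rfl | rfl
      exacts [one_mem _, m3, m4, mul_mem m3 m4]
    rcases act x s sM is with e' | e' | e'
    · rw [← e, mul_left_inj, mul_right_inj] at e'; exact absurd e'.symm nds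
    · exact k0 _ (cM x e e')
    · exact (mul_mem_cancel_left m1).1 (k0 _ (cM _ (by rw [cj2, e, dσ]) (by rw [cj2, e', cj, dσ, σs, dds])))
  have s3 : σ * β * (d * s) * (σ * β)⁻¹ = d := by rw [cj, s1, s2, sds]
  intro x
  rcases act x d dM id with e | e | e
  · exact k1 x e
  · exact (mul_mem_cancel_left (mul_mem m2 m2)).1 (k1 _ (by rw [cj2, e, cj2, s2, s3]))
  · exact (mul_mem_cancel_left m2).1 (k1 _ (by rw [cj2, e, s3]))

theorem model : ∃ (F : Type) (_ : Field F) (_ : Fintype F) (ι : SL(2, F) →* Γ), PM ι ∧ σ ∉ ι.range ∧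
    (Fintype.card F = 3 ∨ AS ι.range) := by
  by_cases sol : Group.IsSolvable Γ
  · obtain ⟨e, he⟩ := h.s4 sol
    obtain ⟨ι, p, hr⟩ := pm_s4
    refine ⟨ZMod 3, inferInstance, inferInstance, _, PM.comp p e, ?_, .inl rfl⟩
    rintro ⟨A, hA⟩
    have : ι A = Equiv.swap 0 1 := e.injective (he ▸ hA)
    have := hr.le ⟨A, this⟩
    rw [Equiv.Perm.mem_alternatingGroup] at this
    revert this; decide
  obtain ⟨L, n, sim, ns, c⟩ := dstruct h.hd h.O1 sol
  have a : AS L := ⟨h.hd, n, sim, ns, c⟩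
  have dL := h.mn a.norm fun e => ns (e ▸ inferInstance)
  have σL : σ ∉ L := fun e => by
    obtain ⟨g, -, hg⟩ := a.conj dL e h.id (h.refl h.σD h.σb)
    exact h.nσ (isConj_iff.2 ⟨g, hg⟩)
  rcases gw_simple ch (step_of fun G _ _ _ S M E K c t s q r l a b d => l.noB a b d) L a.nab (h.hd.sub ns) with
    ⟨K, t, w⟩ | e
  · obtain ⟨F, _, _, ι, p, rfl⟩ := a.model w
    exact ⟨F, inferInstance, inferInstance, ι, p, σL, .inr a⟩
  · exact absurd (a7_top L c e h.hd ▸ mem_top σ) σL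

end DG

end CA.Abg
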