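/-
The structure of `C(t)`: passing to `C(t) / O(C(t))` and to the quotient by the centre.
-/
import Cfsg.Agent.Abg.A2

set_option autoImplicit false
set_option linter.unusedSectionVars false

namespace CA.Abg

open Subgroup Cfsg CA.FG CA.BG CA.GW CA.Dih

universe u v

variable {C : Type u} [Group C] [Finite C] {X : Type v} [Group X] [Finite X]

theorem conj_two {K : Subgroup C} (oK : IsPiGrp {2}ᶜ K) {a b : C} (nb : b ∈ 𝒩(K)) (a2 : IsPiElt {2} a)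
    (b2 : IsPiElt {2} b) (e : a * b⁻¹ ∈ K) : ∃ k ∈ K, k * a * k⁻¹ = b := by
  have nK : zpowers b ≤ 𝒩(K) := zpowers_le.2 nb
  have pb : IsPGrp 2 (zpowers b) := piGrp_zpowers_iff.2 b2
  have i : zpowers b ⊓ K = ⊥ := pb.inf_eq_bot oK
  have hS : IsSylowOf 2 (zpowers b) (K ⊔ zpowers b) := pHall_right_of_sup (.inr nK) rfl oK pb
  have ha : a ∈ K ⊔ zpowers b := by
    simpa using mul_mem (mem_sup_left e) (mem_sup_right (S := K) (mem_zpowers b))
  obtain ⟨x, hx, h⟩ := sylow_Jsub Nat.prime_two hS (piGrp_zpowers_iff.2 a2) (zpowers_le.2 ha)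
  obtain ⟨y, hy, k, hk, rfl⟩ := (mem_sup_of_right_le_norm' nK).1 hx
  have h1 : k * a * k⁻¹ ∈ zpowers b := by
    have := mul_mem (mul_mem (inv_mem hy) (h (conj_mem_conjg (y * k) (mem_zpowers a)))) hy
    rwa [show y⁻¹ * (y * k * a * (y * k)⁻¹) * y = k * a * k⁻¹ by group] at this
  refine ⟨k, hk, mul_inv_eq_one.1 (mem_bot.1 (i ▸ mem_inf.2 ⟨mul_mem h1 (inv_mem (mem_zpowers b)), ?_⟩))⟩
  rw [show k * a * k⁻¹ * b⁻¹ = k * (a * b⁻¹) * (b * k⁻¹ * b⁻¹) by group]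
  exact mul_mem (mul_mem hk e) (conj_mem_of_le_norm nK (mem_zpowers b) (inv_mem hk))

theorem ZS.map' {S : Subgroup C} {c ζ r : C} {m o : ℕ} (h : ZS S c ζ r m o) (f : C →* X)
    (hf : ∀ s ∈ S, f s = 1 → s = 1) : ZS (S.map f) (f c) (f ζ) (f r) m o := by
  have inj : ∀ a ∈ S, ∀ b ∈ S, f a = f b → a = b := fun a ha b hb e =>
    mul_inv_eq_one.1 (hf _ (mul_mem ha (inv_mem hb)) (by rw [map_mul, map_inv, e, mul_inv_cancel]))
  exact {
    cS := ⟨c, h.cS, rfl⟩, zS := ⟨ζ, h.zS, rfl⟩, rS := ⟨r, h.rS, rfl⟩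
    mem := by
      rintro _ ⟨s, hs, rfl⟩
      obtain ⟨i, j, e⟩ := h.mem s hs
      exact ⟨i, j, e.imp (fun e => by simp [e]) fun e => by simp [e]⟩
    cz := h.cz.map f, rz := h.rz.map f
    r2 := by rw [← map_mul, h.r2, map_one]
    rc := by simpa using congrArg f h.rc
    oz := by
      rw [← h.oz]
      exact Nat.dvd_antisymm (orderOf_map_dvd f ζ) (orderOf_dvd_of_pow_eq_one (hf _ (pow_mem h.zS _) (by
        rw [map_pow, pow_orderOf_eq_one])))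
    m4 := h.m4
    cas := h.cas.imp (fun e => ⟨e.1, by rw [← map_pow, e.2]⟩) fun e => ⟨e.1, by rw [← map_pow, e.2, map_one]⟩
    min := fun i j e => h.min i j (inj _ (zpow_mem h.cS i) _ (zpow_mem h.zS j) (by simpa using e))
    nr := fun i j e => h.nr i j (inj _ (mul_mem (zpow_mem h.cS i) (zpow_mem h.zS j)) _ h.rS (by simpa using e)) }

theorem ZS.comap {S : Subgroup X} {c ζ r : C} {m o : ℕ} (f : C →* X) (hf : Function.Injective f)
    (h : ZS S (f c) (f ζ) (f r) m o) : ZS (S.comap f) c ζ r m o where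
  cS := h.cS
  zS := h.zS
  rS := h.rS
  mem s hs := by
    obtain ⟨i, j, e⟩ := h.mem _ hs
    exact ⟨i, j, e.imp (fun e => hf (by simpa using e)) fun e => hf (by simpa using e)⟩
  cz := hf (by simpa using h.cz.eq)
  rz := hf (by simpa using h.rz.eq)
  r2 := hf (by simpa using h.r2)
  rc := hf (by simpa using h.rc)
  oz := by rw [← h.oz, orderOf_injective f hf]
  m4 := h.m4
  cas := h.cas.imp (fun e => ⟨e.1, hf (by simpa using e.2)⟩) fun e => ⟨e.1, hf (by simpa using e.2)⟩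
  min i j e := h.min i j (by simpa using congrArg f e)
  nr i j e := h.nr i j (by simpa using congrArg f e)

/-- the `2`-local data of `C(t)` -/
structure CD (S : Subgroup C) (c ζ r : C) (m o : ℕ) : Prop where
  zs : ZS S c ζ r m o
  syl : IsSylowOf 2 S ⊤
  tc : ζ ^ (o / 2) ∈ center C
  wc : ∀ g, ∀ z ∈ zpowers ζ, g * z * g⁻¹ ∈ S → g * z * g⁻¹ = z
  fus : (o = 2 ∧ c ^ m = ζ ∧ ∃ g, g * c ^ (m / 2) * g⁻¹ = c * r) ∨
    (o = m ∧ c ^ m = 1 ∧ ∃ g, g * r * g⁻¹ = c ^ (m / 2) ∧ g * ζ * g⁻¹ = ζ)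

theorem ZS.cr {S : Subgroup C} {c ζ r : C} {m o : ℕ} (h : ZS S c ζ r m o) (a i j : ℤ) :
    c ^ a * (c ^ i * ζ ^ j * r) * (c ^ a)⁻¹ = c ^ (i + 2 * a) * ζ ^ (j - a) * r := by
  have := h.rT (-a) 0
  have e := h.mul a 0 i j
  have e' := h.mul (a + i) (0 + j) (- -a) (-a + 0)
  simp only [zpow_zero, mul_one] at this e
  calc _ = c ^ a * (c ^ i * ζ ^ j) * (r * c ^ (-a) * r⁻¹) * r := by group
    _ = _ := by rw [e, this, e']; congr 3 <;> ring

theorem ZS.qd_conj {S : Subgroup C} {c ζ r : C} {m o : ℕ} (h : ZS S c ζ r m o) (q : o = 2 ∧ c ^ m = ζ) {i i' : ℤ}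
    (j : ℤ) (e : 2 ∣ i' - i) : ∃ b : ℤ, c ^ b * (c ^ i * ζ ^ j * r) * (c ^ b)⁻¹ = c ^ i' * r := by
  obtain ⟨n, n0, e4, -⟩ := h.exists_n
  obtain ⟨a, ha⟩ := e
  have cm : c ^ (m : ℤ) = ζ := by rw [zpow_natCast, q.2]
  have z2 : ∀ l : ℤ, 2 ∣ l → ζ ^ l = 1 := fun l hl => h.zeq.2 (by rw [q.1]; exact hl)
  rcases Int.even_or_odd' (j - a) with ⟨l, hl | hl⟩
  · exact ⟨a, by rw [h.cr, z2 (j - a) ⟨l, hl⟩, mul_one, show i + 2 * a = i' by omega]⟩
  · exact ⟨a + 2 * n, by rw [h.cr, show i + 2 * (a + 2 * n) = i' + m by omega, zpow_add, cm, mul_assoc (c ^ i'),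
      ← zpow_one_add, z2 _ (by omega), mul_one]⟩

theorem exists_cd {G : Type u} [Group G] [Finite G] [IsSimpleGroup G] (nab : ¬ IsMulCommutative G) {S : Subgroup G}
    {c ζ r : G} {m o : ℕ} (h : ZS S c ζ r m o) (hS : IsSylowOf 2 S ⊤) :
    CD (S.subgroupOf 𝒞[ζ ^ (o / 2)]) ⟨c, h.SC h.cS⟩ ⟨ζ, h.SC h.zS⟩ ⟨r, h.SC h.rS⟩ m o where
  zs := ZS.comap (Subgroup.subtype _) (subtype_injective _) h
  syl := by simpa using (pHall_subgroupOf_iff h.SC le_rfl).2 (hS.of_le h.SC le_top)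
  tc := mem_center_iff.2 fun g => Subtype.ext (by simpa using mem_centralizer_singleton_iff.1 g.2)
  wc g z hz e := Subtype.ext (h.wc nab hS g.2 (by obtain ⟨i, rfl⟩ := hz; exact ⟨i, by simp⟩) e)
  fus := by
    rcases h.cas with q | q
    · refine .inl ⟨q.1, Subtype.ext q.2, ?_⟩
      obtain ⟨g, hg, i, j, k, e⟩ := h.fus_qd nab hS q
      obtain ⟨n, n0, e4, -⟩ := h.exists_n
      have o2 := q.1
      subst o2
      have z2 : ∀ l : ℤ, ζ ^ (2 * l) = 1 := fun l => h.zeq.2 (Dvd.intro _ rfl)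
      have gz : g * ζ * g⁻¹ = ζ := by simpa using mul_inv_eq_iff_eq_mul.2 (mem_centralizer_singleton_iff.1 hg)
      have cm : c ^ (m : ℤ) = ζ := by rw [zpow_natCast, q.2]
      have h2 : (m / 2 : ℕ) = (2 * n : ℤ) := by omega
      rw [← zpow_natCast, h2] at e
      have sq := h.sq i j
      rw [← e, show ∀ y, g * y * g⁻¹ * (g * y * g⁻¹) = g * (y * y) * g⁻¹ from fun y => by group, h.mul,
        show (2 * n + 2 * n : ℤ) = m by omega, cm, ← two_mul, z2, mul_one, gz] at sq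
      obtain ⟨a, ha⟩ : (2 : ℤ) ∣ i + 2 * j - 1 := h.zeq.1 (by rw [zpow_sub, ← sq, zpow_one, mul_inv_cancel])
      have e1 : g * c ^ (2 * n : ℤ) * g⁻¹ = c ^ i * ζ ^ (j - k) * r := by
        have gk : g * ζ ^ k * g⁻¹ = ζ ^ k := by rw [← conj_zpow, gz]
        calc _ = g * (c ^ (2 * n : ℤ) * ζ ^ k) * g⁻¹ * (g * ζ ^ k * g⁻¹)⁻¹ := by group
          _ = _ := by rw [e, gk, mul_assoc, ← zpow_neg, (h.rz.zpow_right _).eq]; group
      obtain ⟨b, hb⟩ := h.qd_conj q (i := i) (i' := 1) (j - k) (by omega)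
      refine ⟨⟨c ^ b * g, mul_mem (zpow_mem (h.SC h.cS) b) hg⟩, Subtype.ext ?_⟩
      simp only [coe_mul, coe_inv, SubmonoidClass.coe_pow]
      rw [← zpow_natCast, h2, show c ^ b * g * c ^ (2 * n : ℤ) * (c ^ b * g)⁻¹ =
        c ^ b * (g * c ^ (2 * n : ℤ) * g⁻¹) * (c ^ b)⁻¹ by group, e1, hb, zpow_one]
    · obtain ⟨g, hg, e1, e2⟩ := h.fus_w q nab hS
      exact .inr ⟨q.1, Subtype.ext q.2, ⟨g, hg⟩, Subtype.ext e1, Subtype.ext e2⟩

theorem fix_step {x y z : C} (ox : IsPiElt {2}ᶜ x) (z2 : IsPiElt {2} z) (e : x * y * x⁻¹ = y * z)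
    (c : x * z * x⁻¹ = z) : x * y * x⁻¹ = y := by
  have k : ∀ n : ℕ, x ^ n * y * (x ^ n)⁻¹ = y * z ^ n := fun n => by
    induction n with
    | zero => simp
    | succ n ih =>
      rw [pow_succ', show x * x ^ n * y * (x * x ^ n)⁻¹ = x * (x ^ n * y * (x ^ n)⁻¹) * x⁻¹ by group, ih,
        show x * (y * z ^ n) * x⁻¹ = x * y * x⁻¹ * (x * z * x⁻¹) ^ n by rw [conj_pow]; group, e, c, pow_succ', mul_assoc]
  have := k (orderOf x)
  rw [pow_orderOf_eq_one, one_mul, inv_one, mul_one, left_eq_mul] at this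
  rw [e, z2.eq_one (PiNat.of_dvd ox (orderOf_dvd_of_pow_eq_one this)), mul_one]

theorem DG.cent_odd {D : Subgroup C} {b s σ x : C} {m : ℕ} (h : DG D b s σ m) (ox : IsPiElt {2}ᶜ x) (nx : x ∈ 𝒩(D))
    {y : C} (hy : y ∈ D) : x * y * x⁻¹ = y := by
  have bD : zpowers b ≤ D := zpowers_le.2 h.dih.mem
  have n : x ∈ 𝒩(zpowers b) := mem_normalizer_fintype fun a ha => by
    obtain ⟨i, rfl⟩ := ha
    by_contra e
    have := h.dih.sq _ ((mem_normalizer_iff.1 nx b).1 h.dih.mem) fun e' => e (by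
      simpa [conj_zpow] using zpow_mem e' i)
    rw [show x * b * x⁻¹ * (x * b * x⁻¹) = x * b ^ 2 * x⁻¹ by simp [pow_two, mul_assoc], conj_eq_one_iff] at this
    obtain ⟨n, n0, e4⟩ := h.exists_n
    have := Nat.le_of_dvd two_pos (h.ob ▸ orderOf_dvd_of_pow_eq_one this)
    omega
  have c : ∀ a ∈ zpowers b, x * a * x⁻¹ = a := fun a ha => mul_inv_eq_iff_eq_mul.2
    (cent_of_cyclic_two (cyclic_zpowers b) (h.syl.piGrp.of_le bD) (zpowers_le.2 n)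
      ((piGrp_compl_singleton_iff Nat.prime_two).1 (piGrp_zpowers_iff.2 ox)) (mem_zpowers x) a ha).symm
  by_cases e : y ∈ zpowers b
  · exact c y e
  have : y⁻¹ * (x * y * x⁻¹) ∈ zpowers b := mul_mem_of_relIndex_two h.dih.index (inv_mem hy)
    ((mem_normalizer_iff.1 nx y).1 hy) (fun e' => e (inv_mem_iff.1 e')) fun e' => e ((mem_normalizer_iff.1 n y).2 e')
  exact fix_step ox (h.syl.piGrp.piElt (bD this)) (by group) (c _ this)

namespace ZS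
variable {S : Subgroup C} {c ζ r : C} {m o : ℕ} (h : ZS S c ζ r m o)
include h

theorem cT' {a s : C} (ha : a ∈ TT c ζ) (hs : s ∈ S) (hT : s ∉ TT c ζ) (e : Commute s a) : a ∈ zpowers ζ := by
  rcases h.cas with q | q
  swap
  · exact h.cT q ha hs hT e
  obtain ⟨i, j, rfl⟩ := h.out hs hT
  have e' : r * a * r⁻¹ = a := by
    have := h.comT (h.memT.2 ⟨i, j, rfl⟩) ha
    calc _ = (c ^ i * ζ ^ j)⁻¹ * (c ^ i * ζ ^ j * r * a) * r⁻¹ := by group
      _ = _ := by rw [e.eq, ← mul_assoc a, ← this.eq]; group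
  obtain ⟨k, l, rfl⟩ := h.memT.1 ha
  obtain ⟨n, n0, e4, -⟩ := h.exists_n
  rw [h.rT] at e'
  have e2 : c ^ (2 * k) = ζ ^ k := by
    calc _ = c ^ k * (c ^ k * ζ ^ l) * (ζ ^ l)⁻¹ := by group
      _ = _ := by rw [← e']; group
  obtain ⟨a, ha⟩ := h.min _ _ e2
  have cm : c ^ (m : ℤ) = ζ := by rw [zpow_natCast, q.2]
  rw [ha, zpow_mul, cm, ← mul_inv_eq_one, ← zpow_sub, h.zeq, q.1] at e2
  obtain ⟨b, hb⟩ : 2 ∣ a := by
    have : k = 2 * (n * a) := by rw [e4] at ha; push_cast at ha; linarith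
    omega
  rw [show k = m * b by rw [hb] at ha; linarith, zpow_mul, cm, ← zpow_add]
  exact zpow_mem (mem_zpowers ζ) _

theorem invT' (q : o = 2 ∧ c ^ m = ζ) {a : C} (ha : a ∈ TT c ζ) (ia : IsInv a) : a = ζ ^ (o / 2) := by
  refine h.invZ ?_ ia
  obtain ⟨i, j, rfl⟩ := h.memT.1 ha
  have e := ia.1
  have cm : c ^ (m : ℤ) = ζ := by rw [zpow_natCast, q.2]
  rw [h.mul, h.zeq.2 (by rw [q.1]; exact ⟨j, by ring⟩), mul_one] at e
  obtain ⟨a, ha⟩ := h.min _ 0 (by rw [e, zpow_zero])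
  rw [ha, zpow_mul, cm, h.zeq, q.1] at e
  obtain ⟨b, hb⟩ := e
  rw [show i = m * b by rw [hb] at ha; push_cast at ha; linarith, zpow_mul, cm, ← zpow_add]
  exact zpow_mem (mem_zpowers ζ) _

theorem cent_cases {v : C} (hv : v ∈ S) (iv : IsInv v) (vt : v ≠ ζ ^ (o / 2)) :
    (v ∈ TT c ζ ∧ ∀ x ∈ S, Commute x v → x ∈ TT c ζ) ∨
      (v ∉ TT c ζ ∧ ∀ x ∈ S, Commute x v → x ∈ zpowers ζ ∨ x * v ∈ zpowers ζ) := by
  by_cases e : v ∈ TT c ζ
  · exact .inl ⟨e, fun x hx cx => by_contra fun e' => vt (h.invZ (h.cT' e hx e' cx) iv)⟩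
  · refine .inr ⟨e, fun x hx cx => ?_⟩
    by_cases e' : x ∈ TT c ζ
    · exact .inl (h.cT' e' hv e cx.symm)
    · exact .inr (h.cT' (mul_mem_of_relIndex_two h.idx hx hv e' e) hv e (cx.symm.mul_right (Commute.refl v)))

theorem cent_comm {v x y : C} (hv : v ∈ S) (iv : IsInv v) (vt : v ≠ ζ ^ (o / 2)) (hx : x ∈ S) (hy : y ∈ S)
    (cx : Commute x v) (cy : Commute y v) : Commute x y := by
  have z : ∀ a ∈ zpowers ζ, ∀ s ∈ S, Commute a s := by
    rintro _ ⟨i, rfl⟩ s hs; exact (h.cen hs).symm.zpow_left i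
  rcases h.cent_cases hv iv vt with ⟨-, k⟩ | ⟨-, k⟩
  · exact h.comT (k x hx cx) (k y hy cy)
  · rcases k x hx cx with e | e
    · exact z x e y hy
    · have := (z _ e y hy).mul_left cy.symm
      rwa [mul_assoc, iv.1, mul_one] at this

theorem cent_inv {v x : C} (hv : v ∈ S) (iv : IsInv v) (vt : v ≠ ζ ^ (o / 2)) (hx : x ∈ S) (ix : IsInv x)
    (cx : Commute x v) : x = ζ ^ (o / 2) ∨ x = v ∨ x = ζ ^ (o / 2) * v := by
  have ct : ∀ s ∈ S, ζ ^ (o / 2) * s = s * ζ ^ (o / 2) := fun s hs => ((h.cen hs).pow_right _).symm.eq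
  rcases h.cent_cases hv iv vt with ⟨vT, k⟩ | ⟨-, k⟩
  · rcases h.cas with q | q
    · exact absurd (h.invT' q vT iv) vt
    rcases h.invT q vT iv with e | e | e
    · exact absurd e vt
    · rw [ct v hv, e]; exact h.invT q (k x hx cx) ix
    · rw [ct v hv, e, mul_assoc, h.tinv.1, mul_one]
      exact (h.invT q (k x hx cx) ix).imp_right Or.symm
  · rcases k x hx cx with e | e
    · exact .inl (h.invZ e ix)
    · by_cases e1 : x * v = 1
      · exact .inr (.inl (by rw [eq_inv_of_mul_eq_one_left e1, iv.inv_eq]))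
      · refine .inr (.inr ?_)
        rw [← h.invZ e ⟨by rw [mul_assoc, ← mul_assoc v, ← cx.eq, mul_assoc, iv.1, mul_one, ix.1], e1⟩, mul_assoc,
          iv.1, mul_one]

end ZS

/-- the facts about `u`, `w`, `j` inside `C = C(t)` -/
structure UW (t u w j : C) : Prop where
  iu : IsInv u
  iw : IsInv w
  ut : u ≠ t
  wt : w ≠ t
  i2 : u * w * (u * w) = t
  j2 : j * j = t
  ji : j * (u * w) * j⁻¹ = (u * w)⁻¹
  cju : ∀ v, IsInv v → v ≠ t → ∃ c, c * u * c⁻¹ = v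
  cjj : ∃ c, c * (u * w) * c⁻¹ = j
  cjk : ∃ c, c * (u * w) * c⁻¹ = u * w * j
  cjw : ∀ v, IsInv v → v * u * v⁻¹ = t * u → ∃ c, Commute c u ∧ c * w * c⁻¹ = v
  invV : ∀ v, Commute v u → IsInv v → v = t ∨ v = u ∨ v = t * u
  ab : ∀ Q : Subgroup C, IsPGrp 2 Q → Q ≤ 𝒞[u] → Q ≤ 𝒞(Q)

namespace CD
variable {S : Subgroup C} {c ζ r : C} {m o : ℕ} (h : CD S c ζ r m o)
include h

theorem ct (g : C) : g * ζ ^ (o / 2) * g⁻¹ = ζ ^ (o / 2) := by rw [mem_center_iff.1 h.tc g, mul_inv_cancel_right]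

theorem toS {Q : Subgroup C} (pQ : IsPGrp 2 Q) : ∃ g, ∀ x ∈ Q, g * x * g⁻¹ ∈ S := by
  obtain ⟨g, -, hg⟩ := sylow_Jsub Nat.prime_two h.syl pQ le_top
  exact ⟨g, fun x hx => hg (conj_mem_conjg g hx)⟩

theorem ne_t {v : C} (vt : v ≠ ζ ^ (o / 2)) (g : C) : g * v * g⁻¹ ≠ ζ ^ (o / 2) := fun e => vt (by
  rw [← h.ct g, mul_left_inj, mul_right_inj] at e; exact e)

theorem toS' {Q : Subgroup C} {u : C} (iu : IsInv u) (pQ : IsPGrp 2 Q) (c : Q ≤ 𝒞[u]) :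
    ∃ g, g * u * g⁻¹ ∈ S ∧ ∀ x ∈ Q, g * x * g⁻¹ ∈ S := by
  obtain ⟨g, hg⟩ := h.toS (IsPiGrp.sup pQ (piGrp_zpowers_iff.2 iu.two)
    (.inl (norm_of_cent (by rwa [cent_zpowers]))))
  exact ⟨g, hg u (mem_sup_right (mem_zpowers u)), fun x hx => hg x (mem_sup_left hx)⟩

theorem ab {u : C} (iu : IsInv u) (ut : u ≠ ζ ^ (o / 2)) (Q : Subgroup C) (pQ : IsPGrp 2 Q) (c : Q ≤ 𝒞[u]) :
    Q ≤ 𝒞(Q) := fun x hx y hy => by
  obtain ⟨g, hu, hg⟩ := h.toS' iu pQ c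
  have k : ∀ x ∈ Q, Commute (g * x * g⁻¹) (g * u * g⁻¹) := fun x hx =>
    (Commute.conj_iff g).2 (mem_centralizer_singleton_iff.1 (c hx))
  exact (Commute.conj_iff g).1 (h.zs.cent_comm hu (iu.conj g) (h.ne_t ut g) (hg y hy) (hg x hx) (k y hy) (k x hx))

theorem invV {u : C} (iu : IsInv u) (ut : u ≠ ζ ^ (o / 2)) (v : C) (c : Commute v u) (iv : IsInv v) :
    v = ζ ^ (o / 2) ∨ v = u ∨ v = ζ ^ (o / 2) * u := by
  obtain ⟨g, hu, hg⟩ := h.toS' iu (piGrp_zpowers_iff.2 iv.two) (zpowers_le.2 (mem_centralizer_singleton_iff.2 c))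
  have := h.zs.cent_inv hu (iu.conj g) (h.ne_t ut g) (hg v (mem_zpowers v)) (iv.conj g) ((Commute.conj_iff g).2 c)
  rw [← h.ct g, show ∀ a b : C, g * a * g⁻¹ * (g * b * g⁻¹) = g * (a * b) * g⁻¹ from fun a b => by group] at this
  simpa only [mul_left_inj, mul_right_inj] using this

/-- the normalizer of `⟨t, u⟩` -/
def NV (u : C) : Subgroup C where
  carrier := {g | g * u * g⁻¹ = u ∨ g * u * g⁻¹ = ζ ^ (o / 2) * u}
  one_mem' := by simp
  mul_mem' := fun {a b} ha hb => by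
    have k : a * (ζ ^ (o / 2) * u) * a⁻¹ = ζ ^ (o / 2) * (a * u * a⁻¹) := by
      nth_rewrite 2 [← h.ct a]; group
    simp only [Set.mem_setOf_eq, show a * b * u * (a * b)⁻¹ = a * (b * u * b⁻¹) * a⁻¹ by group]
    rcases hb with hb | hb <;> rw [hb]
    · exact ha
    · rw [k]
      rcases ha with ha | ha <;> rw [ha]
      · exact .inr rfl
      · exact .inl (by rw [← mul_assoc, h.zs.tinv.1, one_mul])
  inv_mem' := fun {a} ha => by
    rcases ha with ha | ha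
    · exact .inl (by nth_rewrite 1 [← ha]; group)
    · refine .inr ?_
      calc _ = a⁻¹ * (ζ ^ (o / 2) * (ζ ^ (o / 2) * u)) * a := by rw [← mul_assoc (ζ ^ _), h.zs.tinv.1]; group
        _ = (a⁻¹ * ζ ^ (o / 2) * a⁻¹⁻¹) * (a⁻¹ * (a * u * a⁻¹) * a) := by rw [← ha]; group
        _ = _ := by rw [h.ct]; group

theorem toE {u w v : C} {E : Subgroup C} (hE : IsSylowOf 2 E (h.NV u)) (hw : w ∈ E)
    (wu : w * u * w⁻¹ = ζ ^ (o / 2) * u) (iv : IsInv v) (vu : v * u * v⁻¹ = ζ ^ (o / 2) * u) :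
    ∃ g, Commute g u ∧ g * v * g⁻¹ ∈ E ∧ g * v * g⁻¹ * u * (g * v * g⁻¹)⁻¹ = ζ ^ (o / 2) * u := by
  have k : ∀ g, g * u * g⁻¹ = u → g * v * g⁻¹ * u * (g * v * g⁻¹)⁻¹ = ζ ^ (o / 2) * u := fun g e => by
    calc _ = g * (v * (g⁻¹ * (g * u * g⁻¹) * g) * v⁻¹) * g⁻¹ := by rw [e]; group
      _ = g * ζ ^ (o / 2) * g⁻¹ * (g * u * g⁻¹) := by rw [show g⁻¹ * (g * u * g⁻¹) * g = u by group, vu]; group
      _ = _ := by rw [h.ct, e]
  obtain ⟨g, hg, e⟩ := sylow_Jsub Nat.prime_two hE (piGrp_zpowers_iff.2 iv.two) (zpowers_le.2 (Or.inr vu))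
  have e := e (conj_mem_conjg g (mem_zpowers v))
  rcases hg with hg | hg
  · exact ⟨g, mul_inv_eq_iff_eq_mul.1 hg, e, k g hg⟩
  · have : w * g * u * (w * g)⁻¹ = u := by
      calc _ = w * ζ ^ (o / 2) * w⁻¹ * (w * u * w⁻¹) := by
            rw [show w * g * u * (w * g)⁻¹ = w * (g * u * g⁻¹) * w⁻¹ by group, hg]; group
        _ = _ := by rw [h.ct, wu, ← mul_assoc, h.zs.tinv.1, one_mul]
    refine ⟨w * g, mul_inv_eq_iff_eq_mul.1 this, ?_, k _ this⟩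
    simpa [mul_assoc] using mul_mem (mul_mem hw e) (inv_mem hw)

theorem uw_qd (q : o = 2 ∧ c ^ m = ζ) : UW (ζ ^ (o / 2)) r (r * c ^ (m / 2)) (c * r) := by
  have z := h.zs
  obtain ⟨n, n0, e4, -⟩ := z.exists_n
  have h2 : c ^ (m / 2) = c ^ (2 * n : ℤ) := by rw [← zpow_natCast]; congr 1; omega
  have t1 : ζ ^ (o / 2) = ζ := by rw [q.1]; simp
  have z2 : ∀ l : ℤ, 2 ∣ l → ζ ^ l = 1 := fun l hl => z.zeq.2 (by rw [q.1]; exact hl)
  have cm : c ^ (4 * n : ℤ) = ζ := by rw [← q.2, e4, ← zpow_natCast]; simp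
  have ir : IsInv r := ⟨z.r2, fun e => z.rnT (e ▸ one_mem _)⟩
  have tT : ζ ^ (o / 2) ∈ TT c ζ := pow_mem (mem_sup_right (mem_zpowers ζ)) _
  have rt : r ≠ ζ ^ (o / 2) := fun e => z.rnT (e ▸ tT)
  have ri : r * c ^ (2 * n : ℤ) * r⁻¹ = c ^ (-(2 * n) : ℤ) := by
    simpa [z2 (2 * n) (Dvd.intro _ rfl)] using z.rT (2 * n) 0
  have we : r * c ^ (m / 2) = c ^ (-(2 * n) : ℤ) * ζ ^ (0 : ℤ) * r := by rw [h2, ← ri]; group
  have uw : r * (r * c ^ (m / 2)) = c ^ (2 * n : ℤ) := by rw [← mul_assoc, z.r2, one_mul, h2]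
  have iw : IsInv (r * c ^ (m / 2)) :=
    ⟨by rw [we, z.sq, z2 _ (by omega)], fun e => z.out_not _ _ (we ▸ e ▸ one_mem _)⟩
  have i2 : c ^ (2 * n : ℤ) * c ^ (2 * n : ℤ) = ζ ^ (o / 2) := by rw [t1, ← zpow_add, ← cm]; congr 1; ring
  have wu : r * c ^ (m / 2) * r * (r * c ^ (m / 2))⁻¹ = ζ ^ (o / 2) * r := by
    calc _ = r * c ^ (2 * n : ℤ) * r⁻¹ * r * (r * c ^ (2 * n : ℤ) * r⁻¹)⁻¹ := by rw [h2]; group
      _ = c ^ (-(2 * n) : ℤ) * (r * c ^ (2 * n : ℤ) * r⁻¹) * r := by nth_rewrite 1 2 [ri]; group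
      _ = (c ^ (2 * n : ℤ) * c ^ (2 * n : ℤ))⁻¹ * r := by rw [ri]; group
      _ = _ := by rw [i2, z.tinv.inv_eq]
  obtain ⟨g, hg⟩ : ∃ g, g * c ^ (m / 2) * g⁻¹ = c * r := by
    rcases h.fus with e | e
    · exact e.2.2
    · omega
  exact {
    iu := ir, iw := iw, ut := rt
    wt := fun e => z.out_not _ _ (we ▸ e ▸ tT)
    i2 := by rw [uw, i2]
    j2 := by simpa [t1] using z.sq 1 0
    ji := by rw [uw, show c * r * c ^ (2 * n : ℤ) * (c * r)⁻¹ = c * (r * c ^ (2 * n : ℤ) * r⁻¹) * c⁻¹ by group, ri]; group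
    cju := fun v iv vt => by
      obtain ⟨g, hg⟩ := h.toS (piGrp_zpowers_iff.2 iv.two)
      have hg := hg v (mem_zpowers v)
      obtain ⟨i, j, e⟩ := z.out hg fun e => h.ne_t vt g (z.invT' q e (iv.conj g))
      have s := (iv.conj g).1
      rw [e, z.sq, z.zeq, q.1] at s
      obtain ⟨b, hb⟩ := z.qd_conj q (i := i) (i' := 0) j (by omega)
      exact ⟨g⁻¹ * (c ^ b)⁻¹, by
        rw [← e, zpow_zero, one_mul] at hb
        rw [← hb]; group⟩
    cjj := ⟨g, by rw [uw, ← h2, hg]⟩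
    cjk := by
      obtain ⟨b, hb⟩ := z.qd_conj q (i := 1) (i' := 2 * n + 1) 0 (by omega)
      exact ⟨c ^ b * g, by
        rw [uw, ← mul_assoc (c ^ _) c, ← zpow_add_one, ← hb, zpow_one, zpow_zero, mul_one, ← hg, h2]; group⟩
    cjw := fun v iv vu => by
      obtain ⟨E, hE, SE⟩ := sylow_superset Nat.prime_two (h.syl.piGrp.inf_left (h.NV r)) inf_le_right
      have wE : r * c ^ (m / 2) ∈ E := SE ⟨mul_mem z.rS (pow_mem z.cS _), .inr wu⟩
      have uE : r ∈ E := SE ⟨z.rS, .inl (by group)⟩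
      obtain ⟨g, gu, vE, e⟩ := h.toE hE wE wu iv vu
      generalize r * c ^ (m / 2) = w at *
      have iv' := iv.conj g
      suffices g * v * g⁻¹ = w ∨ g * v * g⁻¹ = r * w * r⁻¹ by
        rcases this with e | e
        · exact ⟨g⁻¹, gu.inv_left, by rw [← e]; group⟩
        · exact ⟨g⁻¹ * r, gu.inv_left.mul_left (Commute.refl r), by
            rw [show g⁻¹ * r * w * (g⁻¹ * r)⁻¹ = g⁻¹ * (r * w * r⁻¹) * g by group, ← e]; group⟩
      generalize g * v * g⁻¹ = v' at *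
      have cu : Commute (v' * w) r := by
        refine mul_inv_eq_iff_eq_mul.1 ?_
        calc _ = v' * ζ ^ (o / 2) * v'⁻¹ * (v' * r * v'⁻¹) := by
              rw [show v' * w * r * (v' * w)⁻¹ = v' * (w * r * w⁻¹) * v'⁻¹ by group, wu]; group
          _ = _ := by rw [h.ct, e, ← mul_assoc, z.tinv.1, one_mul]
      obtain ⟨x, hu, hx⟩ := h.toS' ir (piGrp_zpowers_iff.2 (hE.piGrp.piElt (mul_mem vE wE)))
        (zpowers_le.2 (mem_centralizer_singleton_iff.2 cu))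
      have s2 : v' * w * (v' * w) = 1 := by
        have zz : ∀ a ∈ zpowers ζ, a * a = 1 := by
          rintro _ ⟨i, rfl⟩; simp only; rw [← zpow_add, z2 _ (by omega)]
        rcases z.cent_cases hu (ir.conj x) (h.ne_t rt x) with ⟨e, -⟩ | ⟨-, k⟩
        · exact absurd (z.invT' q e (ir.conj x)) (h.ne_t rt x)
        · rcases k _ (hx _ (mem_zpowers _)) ((Commute.conj_iff x).2 cu) with e | e
          · have := zz _ e
            rwa [show ∀ a : C, x * a * x⁻¹ * (x * a * x⁻¹) = x * (a * a) * x⁻¹ from fun a => by group,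
              conj_eq_one_iff] at this
          · have := zz _ e
            rwa [show ∀ a b : C, x * a * x⁻¹ * (x * b * x⁻¹) * (x * a * x⁻¹ * (x * b * x⁻¹)) =
              x * (a * b * (a * b)) * x⁻¹ from fun a b => by group, conj_eq_one_iff, mul_assoc _ r, ← mul_assoc r,
              ← cu.eq, mul_assoc _ r r, z.r2, mul_one] at this
      have ve : v' = v' * w * w := by rw [mul_assoc, iw.1, mul_one]
      have rw' : r * w * r⁻¹ = ζ ^ (o / 2) * w := by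
        calc _ = (w * r * w⁻¹ * r⁻¹)⁻¹ * w := by group
          _ = _ := by rw [wu, mul_inv_cancel_right, z.tinv.inv_eq]
      by_cases e1 : v' * w = 1
      · exact .inl (by rw [ve, e1, one_mul])
      rcases h.invV ir rt _ cu ⟨s2, e1⟩ with e2 | e2 | e2
      · exact .inr (by rw [ve, e2, rw'])
      · have := iv'.1
        rw [ve, e2, uw, i2] at this
        exact absurd this z.tinv.2
      · have := iv'.1
        rw [ve, e2, mul_assoc (ζ ^ _), uw, mul_assoc, ← mul_assoc (c ^ _), mem_center_iff.1 h.tc, mul_assoc, i2,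
          z.tinv.1, mul_one] at this
        exact absurd this z.tinv.2
    invV := h.invV ir rt
    ab := h.ab ir rt }

theorem uw_w (q : o = m ∧ c ^ m = 1) : UW (ζ ^ (o / 2)) (c ^ (m / 2)) r (c ^ (m / 2) * ζ ^ (m / 4)) := by
  have z := h.zs
  obtain ⟨n, n0, e4, -⟩ := z.exists_n
  have h2 : c ^ (m / 2) = c ^ (2 * n : ℤ) := by rw [← zpow_natCast]; congr 1; omega
  have h4 : ζ ^ (m / 4) = ζ ^ (n : ℤ) := by rw [← zpow_natCast]; congr 1; omega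
  have t1 : ζ ^ (o / 2) = ζ ^ (2 * n : ℤ) := by rw [← zpow_natCast]; congr 1; omega
  have cm : c ^ (4 * n : ℤ) = 1 := by rw [← q.2, e4, ← zpow_natCast]; simp
  have zm : ζ ^ (4 * n : ℤ) = 1 := z.zeq.2 (by rw [q.1, e4]; simp)
  have ir : IsInv r := ⟨z.r2, fun e => z.rnT (e ▸ one_mem _)⟩
  have tZ : ζ ^ (o / 2) ∈ zpowers ζ := pow_mem (mem_zpowers ζ) _
  have uT : c ^ (m / 2) ∈ TT c ζ := pow_mem (mem_sup_left (mem_zpowers c)) _
  have iu : IsInv (c ^ (m / 2)) := ⟨z.u2 q, fun e => z.uZ q (e ▸ one_mem _)⟩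
  have ut : c ^ (m / 2) ≠ ζ ^ (o / 2) := fun e => z.uZ q (e ▸ tZ)
  have ru : r * c ^ (m / 2) * r⁻¹ = ζ ^ (o / 2) * c ^ (m / 2) := by rw [z.ru q, mem_center_iff.1 h.tc]
  obtain ⟨g, hg, gz⟩ : ∃ g, g * r * g⁻¹ = c ^ (m / 2) ∧ g * ζ * g⁻¹ = ζ := by
    rcases h.fus with e | e
    · omega
    · exact e.2.2
  have gk : ∀ k : ℤ, g * (c ^ (0 : ℤ) * ζ ^ k * r) * g⁻¹ = c ^ (2 * n : ℤ) * ζ ^ k := fun k => by
    calc _ = (g * ζ * g⁻¹) ^ k * (g * r * g⁻¹) := by rw [conj_zpow]; group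
      _ = _ := by rw [gz, hg, h2, (z.cz.zpow_zpow _ _).eq]
  have ie : c ^ (m / 2) * r = c ^ (2 * n : ℤ) * ζ ^ (0 : ℤ) * r := by rw [h2]; simp
  have cjj : c ^ (-n : ℤ) * (c ^ (m / 2) * r) * (c ^ (-n : ℤ))⁻¹ = c ^ (0 : ℤ) * ζ ^ (n : ℤ) * r := by
    rw [ie, z.cr]; congr 3 <;> ring
  exact {
    iu := iu, iw := ir, ut := ut
    wt := fun e => z.rnT (e ▸ mem_sup_right tZ)
    i2 := by rw [ie, z.sq, t1]; simp
    j2 := by rw [h2, h4, z.mul, t1, show (2 * n + 2 * n : ℤ) = 4 * n by ring, cm, one_mul, two_mul]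
    ji := by
      calc _ = c ^ (m / 2) * (ζ ^ (m / 4) * (c ^ (m / 2) * r) * (ζ ^ (m / 4))⁻¹) * (c ^ (m / 2))⁻¹ := by group
        _ = _ := by
          rw [← ((z.cen (mul_mem (pow_mem z.cS _) z.rS)).pow_right _).eq, mul_inv_cancel_right, ← mul_assoc, iu.1,
            one_mul, mul_inv_rev, z.ri]
    cju := fun v iv vt => by
      obtain ⟨x, hx⟩ := h.toS (piGrp_zpowers_iff.2 iv.two)
      have hx := hx v (mem_zpowers v)
      by_cases e : x * v * x⁻¹ ∈ TT c ζ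
      · rcases z.invT q e (iv.conj x) with e | e | e
        · exact absurd e (h.ne_t vt x)
        · exact ⟨x⁻¹, by rw [← e]; group⟩
        · exact ⟨x⁻¹ * r, by
            rw [show x⁻¹ * r * c ^ (m / 2) * (x⁻¹ * r)⁻¹ = x⁻¹ * (r * c ^ (m / 2) * r⁻¹) * x by group, z.ru q, ← e]
            group⟩
      · obtain ⟨i, j, e⟩ := z.out hx e
        obtain ⟨b, -, hb⟩ := z.conj_r q (e ▸ (iv.conj x).1)
        exact ⟨x⁻¹ * b * g⁻¹, by
          rw [← hg, show x⁻¹ * b * g⁻¹ * (g * r * g⁻¹) * (x⁻¹ * b * g⁻¹)⁻¹ = x⁻¹ * (b * r * b⁻¹) * x by group, hb, ← e]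
          group⟩
    cjj := ⟨g * c ^ (-n : ℤ), by
      rw [show ∀ a, g * c ^ (-n : ℤ) * a * (g * c ^ (-n : ℤ))⁻¹ = g * (c ^ (-n : ℤ) * a * (c ^ (-n : ℤ))⁻¹) * g⁻¹ from
        fun a => by group, cjj, gk, h2, h4]⟩
    cjk := ⟨g⁻¹ * r * g * c ^ (-n : ℤ), by
      have e : c ^ (m / 2) * r * (c ^ (m / 2) * ζ ^ (m / 4)) = c ^ (0 : ℤ) * ζ ^ (2 * n + n : ℤ) * r := by
        calc _ = c ^ (m / 2) * (r * c ^ (m / 2) * r⁻¹) * (r * ζ ^ (m / 4)) := by group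
          _ = _ := by
            rw [z.ru q, ← mul_assoc (c ^ (m / 2)) (c ^ (m / 2)), iu.1, one_mul, (z.rz.pow_right _).eq, t1, h4]; group
      rw [show ∀ a, g⁻¹ * r * g * c ^ (-n : ℤ) * a * (g⁻¹ * r * g * c ^ (-n : ℤ))⁻¹ =
        g⁻¹ * (r * (g * (c ^ (-n : ℤ) * a * (c ^ (-n : ℤ))⁻¹) * g⁻¹) * r⁻¹) * g from fun a => by group, cjj, gk, z.rT, e,
        show c ^ (-(2 * n) : ℤ) = c ^ (2 * n : ℤ) by rw [← mul_one (c ^ (-(2 * n) : ℤ)), ← cm]; group, ← gk]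
      group⟩
    cjw := fun v iv vu => by
      have SN : S ≤ h.NV (c ^ (m / 2)) := fun s hs => by
        by_cases e : s ∈ TT c ζ
        · exact .inl (by rw [(z.comT e uT).eq, mul_inv_cancel_right])
        · obtain ⟨i, j, rfl⟩ := z.out hs e
          refine .inr ?_
          rw [show ∀ a b : C, a * r * b * (a * r)⁻¹ = a * (r * b * r⁻¹) * a⁻¹ from fun a b => by group, ru,
            (z.comT (z.memT.2 ⟨i, j, rfl⟩) (mul_mem (mem_sup_right tZ) uT)).eq, mul_inv_cancel_right]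
      obtain ⟨x, xu, vE, e⟩ := h.toE (h.syl.of_le SN le_top) z.rS ru iv vu
      obtain ⟨i, j, e'⟩ := z.out vE fun e' => by
        rw [(z.comT e' uT).eq, mul_inv_cancel_right, right_eq_mul] at e
        exact z.tinv.2 e
      obtain ⟨b, bT, hb⟩ := z.conj_r q (e' ▸ (iv.conj x).1)
      exact ⟨x⁻¹ * b, xu.inv_left.mul_left (z.comT bT uT), by
        rw [show x⁻¹ * b * r * (x⁻¹ * b)⁻¹ = x⁻¹ * (b * r * b⁻¹) * x by group, hb, ← e']; group⟩
    invV := h.invV iu ut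
    ab := h.ab iu ut }

theorem map (f : C →* X) (fs : Function.Surjective f) (ok : IsPiGrp {2}ᶜ f.ker) :
    CD (S.map f) (f c) (f ζ) (f r) m o where
  zs := h.zs.map' f fun s hs e => (h.syl.piGrp.piElt hs).eq_one (ok.piElt e)
  syl := by simpa [map_top_of_surjective f fs] using h.syl.map f
  tc := mem_center_iff.2 fun g => by
    obtain ⟨g, rfl⟩ := fs g
    simpa using congrArg f (mem_center_iff.1 h.tc g)
  wc := by
    rintro g _ ⟨i, rfl⟩ ⟨s, hs, e⟩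
    obtain ⟨g, rfl⟩ := fs g
    obtain ⟨k, -, hk⟩ := conj_two ok (a := g * ζ ^ i * g⁻¹) (b := s) ((normalizer_eq_top _).ge trivial)
      ((h.syl.piGrp.piElt (zpow_mem h.zs.zS i)).conj g) (h.syl.piGrp.piElt hs) (by simp [e])
    rw [show k * (g * ζ ^ i * g⁻¹) * k⁻¹ = k * g * ζ ^ i * (k * g)⁻¹ by group] at hk
    rw [← e, ← hk, h.wc _ _ ⟨i, rfl⟩ (hk ▸ hs), map_zpow]
  fus := h.fus.imp (fun ⟨a, b, g, e⟩ => ⟨a, by rw [← map_pow, b], f g, by simpa using congrArg f e⟩)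
    fun ⟨a, b, g, e, e'⟩ => ⟨a, by rw [← map_pow, b, map_one], f g, by simpa using congrArg f e,
      by simpa using congrArg f e'⟩

theorem central (O1 : OO (⊤ : Subgroup C) = ⊥) : ζ ∈ center C := central_of_wc _ C S ζ rfl O1 h.syl h.zs.zS h.wc

theorem dg (O1 : OO (⊤ : Subgroup C) = ⊥) {Γ : Type u} [Group Γ] [Finite Γ] {p : C →* Γ} (ps : Function.Surjective p)
    (kp : p.ker = zpowers ζ) : (o = 2 ∧ c ^ m = ζ → DG (S.map p) (p c) (p (c * r)) (p r) m) ∧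
      (o = m ∧ c ^ m = 1 → DG (S.map p) (p c) (p r) (p (c * r)) m) := by
  have z := h.zs
  obtain ⟨n, n0, e4, -⟩ := z.exists_n
  have pz : ∀ j : ℤ, p ζ ^ j = 1 := fun j => by rw [show p ζ = 1 from kp.ge (mem_zpowers ζ), one_zpow]
  have eT : (TT c ζ).map p = zpowers (p c) := by
    rw [Subgroup.map_sup, MonoidHom.map_zpowers, MonoidHom.map_zpowers, show p ζ = 1 by simpa using pz 1]; simp
  have kT : p.ker ≤ TT c ζ := kp.le.trans le_sup_right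
  have mT : ∀ x, p x ∈ zpowers (p c) → x ∈ TT c ζ := fun x hx => (comap_map_eq_self kT).le (mem_comap.2 (eT ▸ hx))
  have syl : IsSylowOf 2 (S.map p) ⊤ := by simpa [map_top_of_surjective p ps] using h.syl.map p
  have O2 : OO (⊤ : Subgroup Γ) = ⊥ := oo_map O1 ps (kp.le.trans (zpowers_le.2 (h.central O1)))
    (h.syl.piGrp.of_le (kp.le.trans (zpowers_le.2 z.zS)))
  have dih : IsDih (S.map p) (p c) := ⟨⟨c, z.cS, rfl⟩, by
    rw [← eT, relIndex_map_map, sup_eq_left.2 kT, sup_eq_left.2 (kT.trans z.TS), z.idx], by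
    rintro _ ⟨s, hs, rfl⟩ e
    obtain ⟨i, j, rfl⟩ := z.out hs fun e' => e (eT ▸ ⟨s, e', rfl⟩)
    rw [← map_mul, z.sq, map_zpow, pz]⟩
  have ob : orderOf (p c) = m := Nat.dvd_antisymm (orderOf_dvd_of_pow_eq_one (by
      rcases z.cas with q | q <;> rw [← map_pow, q.2]
      exacts [by simpa using pz 1, map_one p])) (by
    obtain ⟨j, hj⟩ := kp.le (show c ^ orderOf (p c) ∈ p.ker by simp [pow_orderOf_eq_one])
    exact_mod_cast z.min (orderOf (p c)) j (by simpa using hj.symm))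
  have rb : p r ∉ zpowers (p c) := fun e => z.rnT (mT r e)
  have crb : p (c * r) ∉ zpowers (p c) := fun e => z.out_not 1 0 (by simpa using mT _ e)
  have lift : ∀ a b : C, IsConj (p a) (p b) → ∃ g, ∃ k : ℤ, g * a * g⁻¹ = ζ ^ k * b := fun a b e => by
    obtain ⟨g, hg⟩ := isConj_iff.1 e
    obtain ⟨g, rfl⟩ := ps g
    obtain ⟨k, hk⟩ := kp.le (show g * a * g⁻¹ * b⁻¹ ∈ p.ker by simp [hg])
    exact ⟨g, k, by simp only at hk; rw [hk]; group⟩
  have sq : ∀ g a : C, g * a * g⁻¹ * (g * a * g⁻¹) = g * (a * a) * g⁻¹ := fun g a => by group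
  have cc : c ^ (m / 2) * c ^ (m / 2) = c ^ m := by rw [← pow_add]; congr 1; omega
  refine ⟨fun q => ⟨syl, O2, dih, ob, z.m4, ⟨_, mul_mem z.cS z.rS, rfl⟩, ⟨_, z.rS, rfl⟩, crb, rb, ⟨-1, ?_⟩, ?_, ?_⟩,
    fun q => ⟨syl, O2, dih, ob, z.m4, ⟨_, z.rS, rfl⟩, ⟨_, mul_mem z.cS z.rS, rfl⟩, rb, crb, ⟨0, ?_⟩, ?_, ?_⟩⟩
  · rw [← map_mul, ← mul_assoc, ← z.ri, z.ri]
    nth_rewrite 2 [← z.ri]
    simpa [z.rc] using pz 1
  · rcases h.fus with ⟨-, -, g, e⟩ | e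
    · exact isConj_iff.2 ⟨p g, by simpa using congrArg p e⟩
    · omega
  · intro e
    obtain ⟨g, k, e⟩ := lift _ _ (map_pow p c _ ▸ e)
    have := sq g (c ^ (m / 2))
    have t1 : ζ = ζ ^ (o / 2) := by rw [q.1]; simp
    rw [e, cc, q.2, show ζ ^ k * r = c ^ (0 : ℤ) * ζ ^ k * r by simp, z.sq, z.zeq.2 (by rw [q.1]; omega), eq_comm,
      conj_eq_one_iff] at this
    exact z.tinv.2 (t1 ▸ this)
  · simp [mul_assoc, ← map_mul, z.r2]
  · rcases h.fus with e | ⟨-, -, g, e, -⟩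
    · omega
    · exact (isConj_iff.2 ⟨p g, by simpa using congrArg p e⟩).symm
  · intro e
    obtain ⟨g, k, e⟩ := lift _ _ (map_pow p c _ ▸ e)
    have := sq g (c ^ (m / 2))
    rw [e, cc, q.2, show ζ ^ k * (c * r) = c ^ (1 : ℤ) * ζ ^ k * r by
      rw [← mul_assoc, ← (z.cz.zpow_right k).eq, zpow_one], z.sq, mul_one, mul_inv_cancel] at this
    have := (Dvd.intro (o / 2 : ℕ) (by have := z.o2; omega) : (2 : ℤ) ∣ o).trans (z.zeq.1 this)
    omega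

end CD

theorem realizeEqns_AbgA3 : True := by
  have := @CA.Abg.CD.NV.eq_1.{0}
  have := @CA.Abg.CD.NV.eq_def.{0}
  have := @CA.Abg.CD.NV.congr_simp.{0}
  trivial

end CA.Abg
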