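/-
Lifting a central extension: the abstract part.
-/
import Cfsg.Agent.Abg.A3

set_option autoImplicit false
set_option linter.unusedSectionVars false
set_option maxHeartbeats 400000

namespace CA.Abg

open Subgroup Cfsg CA.FG CA.BG CA.GW CA.Dih

universe u v w

theorem split_central {P : Type v} [Group P] [Finite P] {T V : Subgroup P} (cV : V ≤ center P) (i : T ⊓ V = ⊥)
    (pV : IsPGrp 2 V) (odd : ¬ 2 ∣ (T ⊔ V).index) :
    ∃ K : Subgroup P, K ⊓ V = ⊥ ∧ (∀ g, ∃ v ∈ V, g * v⁻¹ ∈ K) ∧ ∀ z ∈ T, z ∈ center P → z ∈ K := by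
  have nT : V ≤ 𝒩(T) := (cV.trans (center_le_centralizer _)).trans (centralizer_le_normalizer _)
  haveI : (T.subgroupOf (T ⊔ V)).Normal := normal_subgroupOf_of_le_normalizer (sup_le le_normalizer nT)
  let τ := QuotientGroup.mk' (T.subgroupOf (T ⊔ V))
  have red : ∀ q, ∃ v, ∃ hv : v ∈ V, q = τ ⟨v, mem_sup_right hv⟩ := fun q => by
    obtain ⟨⟨x, hx⟩, rfl⟩ := QuotientGroup.mk'_surjective _ q
    obtain ⟨v, hv, t, ht, rfl⟩ := (mem_sup_of_right_le_norm' nT).1 hx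
    refine ⟨v, hv, QuotientGroup.eq.2 ?_⟩
    show (v * t)⁻¹ * v ∈ T
    rw [show (v * t)⁻¹ * v = t⁻¹ by group]; exact inv_mem ht
  letI : CommGroup ((T ⊔ V : Subgroup P) ⧸ T.subgroupOf (T ⊔ V)) :=
    { (inferInstance : Group _) with
      mul_comm := fun a b => by
        obtain ⟨x, hx, rfl⟩ := red a
        obtain ⟨y, hy, rfl⟩ := red b
        rw [← map_mul, ← map_mul]
        exact congrArg τ (Subtype.ext (mem_center_iff.1 (cV hy) x)) }
  have tr : ∀ z ∈ center P, ∃ h, MonoidHom.transfer τ z = τ ⟨z ^ (T ⊔ V).index, h⟩ := fun z hz =>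
    ⟨_, MonoidHom.transfer_eq_pow τ z fun k g _ => by
      rw [mem_center_iff.1 (pow_mem hz k) g⁻¹, inv_mul_cancel_right]⟩
  have cop : ∀ v ∈ V, (T ⊔ V).index.Coprime (orderOf v) := fun v hv =>
    ((piNat_compl_singleton_iff Nat.prime_two).2 odd).coprime' (pV.piElt hv)
  refine ⟨(MonoidHom.transfer τ).ker, eq_bot_iff.2 fun v hv => ?_, fun g => ?_, fun z hz hc => ?_⟩
  · obtain ⟨h, e⟩ := tr v (cV hv.2)
    have : v ^ (T ⊔ V).index ∈ T ⊓ V := ⟨(QuotientGroup.eq_one_iff (N := T.subgroupOf (T ⊔ V)) ⟨_, h⟩).1 (e.symm.trans hv.1), pow_mem hv.2 _⟩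
    rw [i, mem_bot, ← orderOf_dvd_iff_pow_eq_one] at this
    exact orderOf_eq_one_iff.1 (Nat.eq_one_of_dvd_coprimes (cop v hv.2) this dvd_rfl)
  · obtain ⟨v, hv, e⟩ := red (MonoidHom.transfer τ g)
    obtain ⟨k, hk⟩ := exists_pow_eq_self_of_coprime (cop v hv)
    obtain ⟨h, e'⟩ := tr (v ^ k) (cV (pow_mem hv k))
    refine ⟨v ^ k, pow_mem hv k, ?_⟩
    rw [MonoidHom.mem_ker, map_mul, map_inv, mul_inv_eq_one, e, e']
    exact congrArg τ (Subtype.ext (show v = (v ^ k) ^ _ by rw [← pow_mul, mul_comm, pow_mul, hk]))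
  · obtain ⟨h, e⟩ := tr z hc
    exact e.trans ((QuotientGroup.eq_one_iff _).2 (pow_mem hz _))

theorem odd_index_of {P : Type v} {Γ : Type w} [Group P] [Finite P] [Group Γ] [Finite Γ] {H : Subgroup P} (ψ : P →* Γ)
    (kc : ψ.ker ≤ center P) {n : ℕ} (o : Odd n) (hk : ∀ z ∈ ψ.ker, z ^ n ∈ H) {D : Subgroup Γ} (hD : ¬ 2 ∣ D.index)
    (le : D ≤ H.map ψ) : ¬ 2 ∣ H.index := by
  rw [← relIndex_mul_index (le_sup_left : H ≤ H ⊔ ψ.ker), Nat.prime_two.dvd_mul, not_or]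
  refine ⟨?_, fun e => hD ((e.trans (Dvd.intro _ (index_map H ψ).symm)).trans (index_dvd_of_le le))⟩
  have nH : ψ.ker ≤ 𝒩(H) := (kc.trans (center_le_centralizer _)).trans (centralizer_le_normalizer _)
  rw [relIndex_sup_left' (.inr nH)]
  intro e
  haveI : (H.subgroupOf ψ.ker).Normal := normal_subgroupOf_of_le_normalizer nH
  have := Fact.mk Nat.prime_two
  obtain ⟨x, hx⟩ := exists_prime_orderOf_dvd_card' (G := ψ.ker ⧸ H.subgroupOf ψ.ker) 2 e
  obtain ⟨z, rfl⟩ := QuotientGroup.mk'_surjective _ x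
  have := orderOf_dvd_of_pow_eq_one (show QuotientGroup.mk' (H.subgroupOf ψ.ker) z ^ n = 1 by
    rw [← map_pow]; exact (QuotientGroup.eq_one_iff _).2 (hk z z.2))
  rw [hx] at this
  exact (Nat.not_even_iff_odd.2 o) (even_iff_two_dvd.2 this)

theorem cyc_two {A : Type v} [Group A] [Finite A] {Z : Subgroup A} (cy : IsCyclic Z) {β : A} (hβ : β ∈ Z)
    (ns : ¬ ∃ z ∈ Z, β = z * z) :
    ∃ e n, Odd n ∧ Nat.card Z = 2 ^ e * n ∧ orderOf (β ^ n) = 2 ^ e ∧ ∀ z ∈ Z, z ^ n ∈ zpowers (β ^ n) := by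
  obtain ⟨e, n, o, hn⟩ := Nat.exists_eq_two_pow_mul_odd (Nat.card_pos (α := Z)).ne'
  obtain ⟨g, hg⟩ := IsCyclic.exists_monoid_generator (α := Z)
  have og : orderOf g.1 = 2 ^ e * n := by
    rw [← hn, Subgroup.orderOf_coe]
    exact orderOf_eq_card_of_forall_mem_powers hg
  obtain ⟨j, hj⟩ := hg ⟨β, hβ⟩
  have hj : g.1 ^ j = β := congrArg Subtype.val hj
  have oj : Odd j := Nat.not_even_iff_odd.1 fun ⟨k, hk⟩ => ns ⟨g.1 ^ k, pow_mem g.2 k, by rw [← pow_add, ← hk, hj]⟩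
  have oh : orderOf (g.1 ^ n) = 2 ^ e := by
    rw [orderOf_pow' _ o.pos.ne', og, Nat.gcd_eq_right (Dvd.intro_left _ rfl), Nat.mul_div_cancel _ o.pos]
  have cp : (orderOf (g.1 ^ n)).Coprime j := by
    rw [oh]; exact Nat.Coprime.pow_left _ (Nat.coprime_two_left.2 oj)
  have eb : β ^ n = (g.1 ^ n) ^ j := by rw [← hj, ← pow_mul, mul_comm, pow_mul]
  refine ⟨e, n, o, hn, by rw [eb, cp.orderOf_pow, oh], fun z hz => ?_⟩
  obtain ⟨i, hi⟩ := hg ⟨z, hz⟩
  have hi : g.1 ^ i = z := congrArg Subtype.val hi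
  obtain ⟨k, hk⟩ := exists_pow_eq_self_of_coprime cp.symm
  rw [← hi, ← pow_mul, mul_comm, pow_mul, eb]
  exact pow_mem (by nth_rewrite 2 [← hk]; exact pow_mem (mem_zpowers _) k) i

/-- the subgroup generated by `c`, `ζ`, `r` -/
def zsT {P : Type v} [Group P] {c ζ r : P} (cz : Commute c ζ) (rz : Commute r ζ) (r2 : r * r = 1)
    (rc : r * c * r⁻¹ = c⁻¹ * ζ) : Subgroup P where
  carrier := {s | ∃ i j : ℤ, s = c ^ i * ζ ^ j ∨ s = c ^ i * ζ ^ j * r}
  one_mem' := ⟨0, 0, .inl (by simp)⟩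
  mul_mem' := by
    have mul : ∀ i j k l : ℤ, c ^ i * ζ ^ j * (c ^ k * ζ ^ l) = c ^ (i + k) * ζ ^ (j + l) := fun i j k l => by
      rw [mul_assoc, ← mul_assoc (ζ ^ j), ← (cz.zpow_zpow k j).eq]; group
    have rT : ∀ i j : ℤ, r * (c ^ i * ζ ^ j) = c ^ (-i) * ζ ^ (i + j) * r := fun i j => by
      have a : r * ζ * r⁻¹ = ζ := by rw [rz.eq, mul_inv_cancel_right]
      calc _ = (r * c * r⁻¹) ^ i * (r * ζ * r⁻¹) ^ j * r := by rw [conj_zpow, conj_zpow]; group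
        _ = _ := by rw [rc, a, cz.inv_left.mul_zpow]; group
    rintro _ _ ⟨i, j, rfl | rfl⟩ ⟨k, l, rfl | rfl⟩
    · exact ⟨_, _, .inl (mul ..)⟩
    · exact ⟨_, _, .inr (by rw [← mul_assoc, mul])⟩
    · exact ⟨_, _, .inr (by rw [mul_assoc, rT, ← mul_assoc, mul])⟩
    · exact ⟨_, _, .inl (by rw [mul_assoc, ← mul_assoc r, rT, mul_assoc _ r r, r2, mul_one, mul])⟩
  inv_mem' := by
    rintro _ ⟨i, j, rfl | rfl⟩
    · exact ⟨-i, -j, .inl (by rw [mul_inv_rev, ← zpow_neg, ← zpow_neg, (cz.zpow_zpow _ _).eq])⟩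
    · refine ⟨i, -i - j, .inr ?_⟩
      have a : r * ζ * r⁻¹ = ζ := by rw [rz.eq, mul_inv_cancel_right]
      calc _ = r⁻¹ * ζ ^ (-j) * c ^ (-i) := by group
        _ = r * ζ ^ (-j) * c ^ (-i) := by rw [inv_eq_of_mul_eq_one_right r2]
        _ = (r * ζ * r⁻¹) ^ (-j) * (r * c * r⁻¹) ^ (-i) * r := by rw [conj_zpow, conj_zpow]; group
        _ = _ := by
          rw [rc, a, cz.inv_left.mul_zpow, ← mul_assoc, ← (cz.inv_left.zpow_zpow _ _).eq]; group

variable {X Γ : Type u} [Group X] [Finite X] [Group Γ] [Finite Γ] {S : Subgroup X} {c ζ r : X} {m o : ℕ}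
  {A : Type v} [Group A] [Finite A]

theorem lift_rel (h : CD S c ζ r m o) (cz : ζ ∈ center X) {p : X →* Γ} (ps : Function.Surjective p)
    (kp : p.ker = zpowers ζ) (πA : A →* Γ) (kc : πA.ker ≤ center A) {a γ α : A} (pa : πA a = p r) (pγ : πA γ = p c)
    (pα : πA α = 1) (a2 : a * a = 1) (aγ : a * γ * a⁻¹ = γ⁻¹ * α) (oα : orderOf α = o) {n : ℕ} (on : Odd n)
    (hn : ∀ z ∈ πA.ker, z ^ n ∈ zpowers α) (cas : (c ^ m = ζ ∧ γ ^ m = α) ∨ (c ^ m = 1 ∧ γ ^ m = 1)) :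
    ∃ φ : A →* X, (∀ g, p (φ g) = πA g) ∧ φ α = ζ ∧ Odd (Nat.card φ.ker) ∧ ∀ x, x ∈ φ.range ↔ p x ∈ πA.range := by
  have z := h.zs
  have pz : p ζ = 1 := kp.ge (mem_zpowers ζ)
  let P : Subgroup (A × X) := (πA.comp (MonoidHom.fst A X)).eqLocus (p.comp (MonoidHom.snd A X))
  let f : P →* A := (MonoidHom.fst A X).comp P.subtype
  let g : P →* X := (MonoidHom.snd A X).comp P.subtype
  have fg : ∀ x : P, πA (f x) = p (g x) := fun x => x.2
  have ext : ∀ x y : P, f x = f y → g x = g y → x = y := fun x y e1 e2 => Subtype.ext (Prod.ext e1 e2)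
  let c' : P := ⟨(γ, c), pγ⟩
  let ζ' : P := ⟨(α, ζ), pα.trans pz.symm⟩
  let r' : P := ⟨(a, r), pa⟩
  let v : P := ⟨(1, ζ), (map_one πA).trans pz.symm⟩
  have cen : ∀ x : P, πA (f x) = 1 → x ∈ center P := fun x e => mem_center_iff.2 fun y => ext _ _
    (by rw [map_mul, map_mul]; exact mem_center_iff.1 (kc e) _)
    (by rw [map_mul, map_mul]; exact mem_center_iff.1 (zpowers_le.2 cz (kp.le ((fg x).symm.trans e))) _)
  have cζ := cen ζ' pα
  let T := zsT (c := c') (ζ := ζ') (r := r') (mem_center_iff.1 cζ _) (mem_center_iff.1 cζ _)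
    (ext _ _ a2 z.r2) (ext _ _ aγ z.rc)
  have fk : ∀ x, x ∈ zpowers v ↔ f x = 1 := fun x => ⟨by rintro ⟨j, rfl⟩; simp only [map_zpow]; exact one_zpow j,
    fun e => by
      obtain ⟨j, hj⟩ := kp.le (show g x ∈ p.ker from (fg x).symm.trans (by rw [e, map_one]))
      exact ⟨j, ext _ _ (by simp only [map_zpow]; exact (one_zpow j).trans e.symm) (by simp only [map_zpow]; exact hj)⟩⟩
  have zz : ∀ j : ℤ, α ^ j = 1 → ζ ^ j = 1 := fun j e => z.zeq.2 (oα ▸ orderOf_dvd_iff_zpow_eq_one.2 e)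
  have i1 : T ⊓ zpowers v = ⊥ := eq_bot_iff.2 fun x hx => by
    obtain ⟨⟨i, j, hx⟩, hv⟩ := hx
    have e1 := (fk x).1 hv
    obtain ⟨k, hk⟩ := kp.le (show g x ∈ p.ker from (fg x).symm.trans (by rw [e1, map_one]))
    have hk : ζ ^ k = g x := hk
    rcases hx with rfl | rfl
    · simp only [map_mul, map_zpow] at e1 hk
      change γ ^ i * α ^ j = 1 at e1
      change ζ ^ k = c ^ i * ζ ^ j at hk
      obtain ⟨l, rfl⟩ := z.min i (k - j) (by rw [zpow_sub, hk, mul_inv_cancel_right])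
      refine mem_bot.2 (ext _ _ (by simp only [map_mul, map_zpow, map_one]; exact e1) ?_)
      simp only [map_mul, map_zpow, map_one]
      change c ^ ((m : ℤ) * l) * ζ ^ j = 1
      rw [zpow_mul, zpow_natCast] at e1 ⊢
      rcases cas with q | q <;> rw [q.2] at e1 <;> rw [q.1]
      · rw [← zpow_add] at e1 ⊢; exact zz _ e1
      · rw [one_zpow, one_mul] at e1 ⊢; exact zz _ e1
    · simp only [map_mul, map_zpow] at hk
      change ζ ^ k = c ^ i * ζ ^ j * r at hk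
      exact absurd (by
        calc c ^ (-i) * ζ ^ (k - j) = (ζ ^ j)⁻¹ * c ^ (-i) * ζ ^ k := by
              rw [← zpow_neg, ← (z.cz.zpow_zpow _ _).eq]; group
          _ = ζ ^ (-j) * (c ^ (-i) * c ^ i) * ζ ^ j * r := by rw [hk]; group
          _ = r := by group) (z.nr (-i) (k - j))
  have i2 : IsPGrp 2 (zpowers v) := PiNat.of_dvd (h.syl.piGrp.of_le (zpowers_le.2 z.zS)) (by
    rw [Nat.card_zpowers, Nat.card_zpowers]
    exact orderOf_dvd_of_pow_eq_one (ext _ _ (by simp only [map_pow, map_one]; exact one_pow _)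
      (by simp only [map_pow, map_one]; exact pow_orderOf_eq_one ζ)))
  have i3 : ¬ 2 ∣ (T ⊔ zpowers v).index := odd_index_of (p.comp g) (fun x hx => cen x ((fg x).trans hx)) on
    (fun x hx => by
      obtain ⟨j, hj⟩ := hn (f x) ((fg x).trans hx)
      have : x ^ n = ζ' ^ j * ((ζ' ^ j)⁻¹ * x ^ n) := by group
      rw [this]
      exact mul_mem_sup ⟨0, j, .inl (by simp)⟩ ((fk _).2 (by
        rw [map_mul, map_inv, map_zpow, map_pow, inv_mul_eq_one]; exact hj)))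
    (D := S.map p) (by
      have := IsSylowOf.not_dvd_index (h.syl.map p) Nat.prime_two
      rwa [map_top_of_surjective p ps, relIndex_top_right] at this) (by
      rintro _ ⟨s, hs, rfl⟩
      obtain ⟨i, j, e | e⟩ := z.mem s hs
      · exact ⟨c' ^ i * ζ' ^ j, mem_sup_left ⟨i, j, .inl rfl⟩, by rw [e]; simp only [map_mul, map_zpow]; rfl⟩
      · exact ⟨c' ^ i * ζ' ^ j * r', mem_sup_left ⟨i, j, .inr rfl⟩, by rw [e]; simp only [map_mul, map_zpow]; rfl⟩)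
  obtain ⟨K, k1, k2, k3⟩ := split_central (fun x hx => cen x (by rw [(fk x).1 hx, map_one])) i1 i2 i3
  have bij : Function.Bijective (f.comp K.subtype) := ⟨(injective_iff_map_eq_one _).2 fun x e =>
    Subtype.ext (mem_bot.1 (k1.le ⟨x.2, (fk _).2 e⟩)), fun y => by
      obtain ⟨x, hx⟩ := ps (πA y)
      obtain ⟨w, hw, e⟩ := k2 ⟨(y, x), hx.symm⟩
      exact ⟨⟨_, e⟩, by
        show f (_ * w⁻¹) = y
        rw [map_mul, map_inv, (fk w).1 hw, inv_one, mul_one]; rfl⟩⟩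
  let e := MulEquiv.ofBijective _ bij
  let φ := (g.comp K.subtype).comp e.symm.toMonoidHom
  have hφ : ∀ x (hx : x ∈ K), φ (f x) = g x := fun x hx => congrArg (fun y : K => g y.1) (e.symm_apply_apply ⟨x, hx⟩)
  have pφ : ∀ y, p (φ y) = πA y := fun y => by
    obtain ⟨x, rfl⟩ := bij.2 y
    exact (congrArg p (hφ x.1 x.2)).trans (fg x.1).symm
  have φα : φ α = ζ := hφ ζ' (k3 _ ⟨0, 1, .inl (by simp)⟩ cζ)
  refine ⟨φ, pφ, φα, Nat.not_even_iff_odd.1 fun ev => ?_, fun x => ⟨by rintro ⟨y, rfl⟩; exact ⟨y, (pφ y).symm⟩, ?_⟩⟩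
  · have := Fact.mk Nat.prime_two
    obtain ⟨y, hy⟩ := exists_prime_orderOf_dvd_card' (G := φ.ker) 2 (even_iff_two_dvd.1 ev)
    have y1 : φ y.1 = 1 := y.2
    obtain ⟨j, hj⟩ := hn y.1 (by rw [MonoidHom.mem_ker, ← pφ, y1, map_one])
    have hj : α ^ j = y.1 ^ n := hj
    have : α ^ j = 1 := by
      rw [← orderOf_dvd_iff_zpow_eq_one, oα, ← z.zeq, ← φα, ← map_zpow, hj, map_pow, y1, one_pow]
    have := orderOf_dvd_of_pow_eq_one (show y ^ n = 1 from Subtype.ext (hj.symm.trans this))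
    rw [hy] at this
    exact (Nat.not_even_iff_odd.2 on) (even_iff_two_dvd.2 this)
  · rintro ⟨y, hy⟩
    obtain ⟨j, hj⟩ := kp.le (show (φ y)⁻¹ * x ∈ p.ker by rw [MonoidHom.mem_ker, map_mul, map_inv, pφ, hy, inv_mul_cancel])
    exact ⟨y * α ^ j, by rw [map_mul, map_zpow, φα, show ζ ^ j = _ from hj, mul_inv_cancel_left]⟩

theorem realizeEqns_Abg_A4a : True := by
  have := @CA.Abg.zsT.eq_1.{0}
  have := @CA.Abg.zsT.eq_def.{0}
  have := @CA.Abg.zsT.congr_simp.{0}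
  trivial

end CA.Abg
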