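/-
Lifting a central extension: the relations in the covering group.
-/
import Cfsg.Agent.Abg.A4a

set_option autoImplicit false
set_option linter.unusedSectionVars false
set_option maxHeartbeats 400000

namespace CA.Abg

open Subgroup Cfsg CA.FG CA.BG CA.GW CA.Dih

universe u v w

theorem two_pow_eq {a b j k : ℕ} (hj : Odd j) (hk : Odd k) (e : 2 ^ a * j = 2 ^ b * k) : a = b := by
  have k1 : ∀ {a b j k : ℕ}, Odd k → 2 ^ a * j = 2 ^ b * k → a ≤ b := fun {a b j k} hk e =>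
    (Nat.pow_dvd_pow_iff_le_right one_lt_two).1 ((Nat.Coprime.pow_left a (Nat.coprime_two_left.2 hk)).dvd_of_dvd_mul_right
      ⟨j, e.symm⟩)
  exact le_antisymm (k1 hk e) (k1 hj e.symm)

variable {X Γ : Type u} [Group X] [Finite X] [Group Γ] [Finite Γ] {S : Subgroup X} {c ζ r : X} {m o : ℕ}
  {A : Type v} [Group A] [Finite A]

theorem lift_abs (h : CD S c ζ r m o) (cz : ζ ∈ center X) {p : X →* Γ} (ps : Function.Surjective p)
    (kp : p.ker = zpowers ζ) (πA : A →* Γ) (kc : πA.ker ≤ center A) (cy : IsCyclic πA.ker) {η : A}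
    (ηk : η ∈ πA.ker) (iη : IsInv η) (hD : S.map p ≤ πA.range) (dih : IsDih (S.map p) (p c)) (ob : orderOf (p c) = m)
    (s1 : ∀ x, πA x = p r → ∃ z ∈ πA.ker, x * x = z * z)
    (s2 : ∀ x, πA x = p (c * r) → ¬ ∃ z ∈ πA.ker, x * x = z * z)
    (s3 : ∀ x, πA x = p c ^ (m / 2) → ((∃ z ∈ πA.ker, x * x = z * z) ↔ c ^ m = 1))
    (nc : ∀ x y, πA x = p r → πA y = p c ^ (m / 2) → ¬ Commute x y)
    (cnt : 4 ∣ Nat.card πA.ker → ∃ k, Odd k ∧ Nat.card πA.range = 2 * Nat.card πA.ker * k) :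
    ∃ φ : A →* X, (∀ g, p (φ g) = πA g) ∧ φ η = ζ ^ (o / 2) ∧ Odd (Nat.card φ.ker) ∧
      ∀ x, x ∈ φ.range ↔ p x ∈ πA.range := by
  have z := h.zs
  have := Fintype.ofFinite A
  have pz : p ζ = 1 := kp.ge (mem_zpowers ζ)
  have cm : ∀ x ∈ πA.ker, ∀ y, Commute y x := fun x hx y => mem_center_iff.1 (kc hx) y
  obtain ⟨x, hx⟩ := hD ⟨r, z.rS, rfl⟩
  obtain ⟨w, hw, e⟩ := s1 x hx
  have pa : πA (x * w⁻¹) = p r := by rw [map_mul, map_inv, hx, show πA w = 1 from hw, inv_one, mul_one]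
  have a2 : x * w⁻¹ * (x * w⁻¹) = 1 := by
    rw [← sq, (cm w hw x).inv_right.mul_pow, sq, e, inv_pow, sq, mul_inv_cancel]
  generalize x * w⁻¹ = a at pa a2
  obtain ⟨y, hy⟩ := hD ⟨c * r, mul_mem z.cS z.rS, rfl⟩
  have hβ : y * y ∈ πA.ker := by
    have := z.sq 1 0
    simp only [zpow_one, zpow_zero, mul_one, mul_zero, add_zero] at this
    rw [MonoidHom.mem_ker, map_mul, hy, ← map_mul, this, pz]
  obtain ⟨e, n, on, hn, oα, hα⟩ := cyc_two cy hβ (s2 y hy)
  obtain ⟨k, hk⟩ := id on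
  have αk : (y * y) ^ n ∈ πA.ker := pow_mem hβ n
  have b2 : y * (y * y) ^ k * (y * (y * y) ^ k) = (y * y) ^ n := by
    rw [← sq, (cm _ (pow_mem hβ k) y).mul_pow, hk, sq y, ← pow_mul, ← pow_succ', mul_comm k]
  have pb : πA (y * (y * y) ^ k) = p (c * r) := by
    rw [map_mul, hy, show πA ((y * y) ^ k) = 1 from pow_mem hβ k, mul_one]
  generalize y * (y * y) ^ k = b at b2 pb
  generalize (y * y) ^ n = α at *
  have pγ : πA (b * a) = p c := by rw [map_mul, pa, pb, ← map_mul, mul_assoc, z.r2, mul_one]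
  have ai : a⁻¹ = a := inv_eq_of_mul_eq_one_right a2
  have aγ : a * (b * a) * a⁻¹ = (b * a)⁻¹ * α := by rw [← b2, mul_inv_rev, ai]; nth_rewrite 3 [← ai]; group
  generalize b * a = γ at pγ aγ
  obtain ⟨l, l0, hl, -⟩ := z.exists_n
  have m2 : m / 2 = 2 * l := by omega
  have mm : m / 2 + m / 2 = m := by omega
  have pd : πA (γ ^ (m / 2)) = p c ^ (m / 2) := by rw [map_pow, pγ]
  have γk : γ ^ m ∈ πA.ker := by rw [MonoidHom.mem_ker, map_pow, pγ, ← ob, pow_orderOf_eq_one]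
  have ad : a * γ ^ (m / 2) * a⁻¹ = (γ ^ m)⁻¹ * α ^ (m / 2) * γ ^ (m / 2) := by
    rw [← conj_pow, aγ, (cm α αk _).mul_pow, mul_assoc, ← (cm _ (pow_mem αk _) _).eq, ← mul_assoc]
    rw [show γ ^ m = γ ^ (m / 2) * γ ^ (m / 2) by rw [← pow_add, mm]]; group
  have wk := mul_mem (inv_mem γk) (pow_mem αk (m / 2))
  have wη : (γ ^ m)⁻¹ * α ^ (m / 2) = η := eq_of_cyclic_inv cy wk ηk (by
    generalize (γ ^ m)⁻¹ * α ^ (m / 2) = w at ad wk
    have : a * (a * γ ^ (m / 2) * a⁻¹) * a⁻¹ = γ ^ (m / 2) := by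
      calc _ = a * a * γ ^ (m / 2) * (a * a)⁻¹ := by group
        _ = _ := by rw [a2]; group
    rw [ad, ← mul_assoc, (cm w wk a).eq, mul_assoc w, mul_assoc w, ad, ← mul_assoc] at this
    exact mul_eq_right.1 this) (fun e => nc a _ pa pd (by
      rw [e, one_mul] at ad
      exact mul_inv_eq_iff_eq_mul.1 ad)) iη.1 iη.2
  have γm : γ ^ m = α ^ (m / 2) * η := by rw [← iη.inv_eq, ← wη]; group
  have sq' : ∀ u ∈ πA.ker, ∀ v, u * u * (v * v) = u * v * (u * v) := fun u hu v => by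
    rw [← sq, ← sq, ← sq, (cm u hu v).symm.mul_pow]
  have key : orderOf α = o ∧ ((c ^ m = ζ ∧ γ ^ m = α) ∨ (c ^ m = 1 ∧ γ ^ m = 1)) := by
    have s3' := s3 _ pd
    rw [← pow_add, mm, γm, m2, two_mul, pow_add] at s3'
    rcases z.cas with q | q
    · have ns : ¬ ∃ u ∈ πA.ker, η = u * u := fun ⟨u, hu, e⟩ => z.tinv.2 (by
        rw [q.1, ← q.2, s3'.1 ⟨_, mul_mem (pow_mem αk l) hu, by rw [e, sq' _ (pow_mem αk l)]⟩, one_pow])
      obtain ⟨j, hj⟩ := hα η ηk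
      have hj : α ^ j = η := by
        rw [show α ^ j = η ^ n from hj, hk, pow_succ, pow_mul, sq, iη.1, one_pow, one_mul]
      obtain ⟨i, rfl | rfl⟩ := Int.even_or_odd' j
      · exact absurd ⟨α ^ i, zpow_mem αk i, by rw [← hj, two_mul, zpow_add]⟩ ns
      have d : (orderOf α : ℤ) ∣ 2 * (2 * i + 1) := orderOf_dvd_iff_zpow_eq_one.2 (by
        rw [two_mul, zpow_add, hj, iη.1])
      have α2 : α ^ (2 : ℤ) = 1 := orderOf_dvd_iff_zpow_eq_one.1 (by
        rw [oα] at d ⊢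
        push_cast at d ⊢
        exact (IsCoprime.pow_left ⟨-i, 1, by ring⟩).dvd_of_dvd_mul_right d)
      rw [zpow_add, zpow_mul, α2, one_zpow, one_mul, zpow_one] at hj
      subst hj
      exact ⟨q.1 ▸ iη.ord, .inl ⟨q.2, by rw [γm, m2, pow_mul, sq, iη.1, one_pow, one_mul]⟩⟩
    · obtain ⟨u, hu, eu⟩ := s3'.2 q.2
      have hv := mul_mem (inv_mem (pow_mem αk l)) hu
      have ev : (α ^ l)⁻¹ * u * ((α ^ l)⁻¹ * u) = η := by
        rw [← sq' _ (inv_mem (pow_mem αk l)), ← eu]; group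
      have : Fact (Nat.Prime 2) := ⟨Nat.prime_two⟩
      have o4 : orderOf ((α ^ l)⁻¹ * u) = 2 ^ (1 + 1) := orderOf_eq_prime_pow (by rw [pow_one, sq, ev]; exact iη.2)
        (by rw [pow_succ, pow_mul, pow_one, sq, sq, ev, iη.1])
      obtain ⟨k', ok, e'⟩ := cnt (by simpa [o4] using orderOf_dvd_card_of_mem hv)
      have c1 := card_mul_relIndex (zpowers_le.2 dih.mem)
      have c2 := card_mul_relIndex hD
      have c3 : Odd ((S.map p).relIndex πA.range) := Nat.not_even_iff_odd.1 fun ev => by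
        have := IsSylowOf.not_dvd_index (h.syl.map p) Nat.prime_two
        rw [map_top_of_surjective p ps, relIndex_top_right] at this
        exact this ((even_iff_two_dvd.1 ev).trans (relIndex_dvd_index_of_le hD))
      obtain ⟨e0, he⟩ := z.m4
      rw [dih.index, Nat.card_zpowers, ob] at c1
      rw [← c1, e', hn, he] at c2
      have := two_pow_eq (a := e0 + 2) (b := e) c3 (on.mul ok) (by linarith)
      have oα' : orderOf α = m := by rw [oα, he, this]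
      refine ⟨oα'.trans q.1.symm, .inr ⟨q.2, ?_⟩⟩
      rw [γm, eq_of_cyclic_inv cy (pow_mem αk (m / 2)) ηk (by rw [← pow_add, mm, ← oα', pow_orderOf_eq_one])
        (fun e => by have := Nat.le_of_dvd (by omega) (oα' ▸ orderOf_dvd_of_pow_eq_one e); omega) iη.1 iη.2, iη.1]
  obtain ⟨φ, h1, h2, h3, h4⟩ := lift_rel h cz ps kp πA kc pa pγ αk a2 aγ key.1 on hα key.2
  refine ⟨φ, h1, ?_, h3, h4⟩
  rw [← eq_of_cyclic_inv cy (pow_mem αk (o / 2)) ηk (by rw [← sq, ← pow_mul, z.o2, ← key.1, pow_orderOf_eq_one])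
    (fun e => by
      have := Nat.le_of_dvd z.opos (key.1 ▸ orderOf_dvd_of_pow_eq_one e)
      have := z.opos
      omega) iη.1 iη.2, map_pow, h2]

theorem realizeEqns_Abg_A4b : True := by

  trivial

end CA.Abg
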