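/-
Facts about `PSL₂(q) ≤ Γ ≤ PΓL₂(q)`: odd elements centralizing a torus, and central extensions.
-/
import Cfsg.Agent.Abg.A3

set_option autoImplicit false
set_option linter.unusedSectionVars false

namespace CA.Abg

open Subgroup Cfsg CA.FG CA.BG CA.GW CA.Dih Cfsg.Agent.Lin
open scoped MatrixGroups commutatorElement

universe u v

variable {Γ : Type*} [Group Γ] [Finite Γ] {F : Type*} [Field F] [Fintype F] {ι : SL(2, F) →* Γ} (h : PM ι)
include h

theorem rr_scal {γ : Γ} {g g' : M2 F} {σ : F ≃+* F} (r : RR ι γ g σ) (r' : RR ι γ g' σ) :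
    ∃ c : F, c ≠ 0 ∧ g' = c • g := by
  obtain ⟨k, τ, rk⟩ := h.exists_rr γ⁻¹
  obtain ⟨-, c, c0, e⟩ := h.of_one (mul_inv_cancel γ ▸ r.mul rk)
  obtain ⟨-, c', c0', e'⟩ := h.of_one (mul_inv_cancel γ ▸ r'.mul rk)
  refine ⟨c' / c, div_ne_zero c0' c0, cancel_r (g := k.map σ) (by rw [det_map2]; simpa using rk.1) ?_⟩
  rw [e', Matrix.smul_mul, e, smul_smul, div_mul_cancel₀ _ c0]

theorem tz0 {w x y : Γ} {g k : M2 F} (r : RR ι w g 1) (z : TZ g) (rx : RR ι x k 1) (e : k * g = g * k)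
    (hy : y ∈ ι.range) (oy : IsPiElt {2}ᶜ y) (i : w * y * w⁻¹ = y⁻¹) (c : Commute x y) (y1 : y ≠ 1) : x = 1 := by
  obtain ⟨Y, rfl⟩ := hy
  have y2 : ι Y * ι Y ≠ 1 := fun e => y1 ((pElt_of_pow_eq_one Nat.prime_two (by rwa [pow_two])).eq_one oy)
  obtain ⟨a, b, rfl⟩ := exists_eq_of_commute (z.ns h.two) e
  by_cases b0 : b = 0
  · have a0 : a ≠ 0 := by rintro rfl; exact rx.1 (by simp [b0])
    exact h.uniq rx (by simpa [b0] using (rr_one (ι := ι)).smul a0)
  rcases (h.comm_cases rx).1 c with e | e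
  · have : Y ∈ CT g := by
      have e := mem_CT.1 e
      simp only [mul_add, add_mul, Matrix.mul_smul, Matrix.smul_mul, mul_one, one_mul, add_right_inj] at e
      exact smul_right_injective _ b0 e
    rw [((h.comm_cases r).2 (.inl this)).eq, mul_inv_cancel_right] at i
    exact absurd (mul_eq_one_iff_eq_inv.2 i) y2
  · refine absurd (h.sq_of_tz ?_) y2
    have := trace_of_rel (A := -Y.1) rx.1 (by rw [e, mul_neg])
    simp only [Matrix.neg_apply] at this
    exact (mul_eq_zero.1 (show 2 * (Y 0 0 + Y 1 1) = 0 by linear_combination this)).resolve_left h.two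

theorem f4core (h2 : R2 Γ) {w x y : Γ} (iw : IsInv w) (ox : IsPiElt {2}ᶜ x) (cx : Commute x w) {R : Subgroup Γ}
    (hy : y ∈ R) (oy : IsPiElt {2}ᶜ y) (y1 : y ≠ 1) (i : w * y * w⁻¹ = y⁻¹) (cR : x ∈ 𝒞(R))
    (nR : ∀ a, Commute a w → a * a ∈ 𝒩(R)) : x = 1 := by
  obtain ⟨g, r, z⟩ := h.inv_model h2 iw.1 iw.2
  obtain ⟨k, σ, rx⟩ := h.exists_rr x
  have yL : y ∈ ι.range := by
    have := h.comm_mem y w
    rw [commutatorElement_def, show y * w * y⁻¹ * w⁻¹ = y * (w * y * w⁻¹)⁻¹ by group, i, inv_inv, ← pow_two] at this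
    obtain ⟨n, hn⟩ := exists_pow_eq_self_of_coprime (x := y) (n := 2)
      ((Nat.Prime.coprime_iff_not_dvd Nat.prime_two).2 fun e => oy 2 Nat.prime_two e rfl)
    exact hn ▸ pow_mem this n
  obtain ⟨c, c0, hc⟩ : ∃ c : F, c ≠ 0 ∧ k * g.map σ = c • (g * k) := by
    have a := r.mul rx
    rw [map_one2, one_mul, ← cx.eq] at a
    exact rr_scal h a (by simpa using rx.mul r)
  have fix : ∀ s : F, σ s = s ∨ σ s = -s → σ s = s := fun s e => e.elim id fun e => by
    obtain ⟨n, hn⟩ := Nat.not_even_iff_odd.1 fun e => ox 2 Nat.prime_two e.two_dvd rfl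
    have k : ∀ n : ℕ, (σ ^ (2 * n + 1)) s = -s := fun n => by
      induction n with
      | zero => simpa using e
      | succ n ih => rw [show 2 * (n + 1) + 1 = 2 * n + 1 + 1 + 1 by ring, pow_succ, pow_succ]; simp [e, ih]
    have := k n
    rw [← hn, h.sig_pow rx (pow_orderOf_eq_one x)] at this
    rw [e]; exact this.symm
  have key : ∀ A ∈ CT g, Commute x (ι (A * A)) := fun A hA => by
    have hAA := mul_mem hA hA
    obtain ⟨B, hB⟩ := exB rx.1 σ (A * A)
    have e := rx.2 _ _ hB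
    have BC : B ∈ CT g := cancel_r rx.1 (smul_right_injective _ c0 (by
      simp only
      rw [mul_assoc, ← Matrix.mul_smul, ← hc, ← mul_assoc, hB, mul_assoc k, ← map_mul2, mem_CT.1 hAA, map_mul2,
        ← mul_assoc, hc, mul_assoc g, hB, Matrix.smul_mul, mul_assoc]))
    have n := nR (ι A) ((h.comm_cases r).2 (.inl hA)).symm
    rw [← map_mul] at n
    have c' : Commute (ι (B * (A * A)⁻¹)) y := by
      have : ι (B * (A * A)⁻¹) ∈ 𝒞(R) := by
        rw [map_mul, ← e, map_inv, mul_assoc, mul_assoc, ← mul_assoc (ι _)]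
        exact mul_mem cR (conj_mem_of_le_norm (norm_cent (zpowers_le.2 n)) (mem_zpowers _) (inv_mem cR))
      exact (this y hy).symm
    have := tz0 h r z (rr_sl _) (mem_CT.1 (mul_mem BC (inv_mem hAA))) yL oy i c' y1
    rw [map_mul, map_inv, ← e, mul_inv_eq_one] at this
    exact mul_inv_eq_iff_eq_mul.1 this
  have fd : ∀ s : F, σ (g.det * (s * s)) = g.det * (s * s) := fun s => by
    by_cases e : 1 + g.det * (s * s) = 0
    · rw [eq_neg_of_add_eq_zero_right e]; simp
    set a := (1 - g.det * (s * s)) / (1 + g.det * (s * s)) with ha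
    set b := 2 * s / (1 + g.det * (s * s)) with hb
    have ab : a * a + g.det * (b * b) = 1 := by
      rw [ha, hb, div_mul_div_comm, div_mul_div_comm, mul_div_assoc', ← add_div, div_eq_one_iff_eq (mul_ne_zero e e)]
      ring
    let A : SL(2, F) := ⟨a • 1 + b • g, (z.det_comb a b).trans ab⟩
    have AA : (A * A).1 = (2 * (a * a) - 1) • (1 : M2 F) + (2 * a * b) • g := by
      change (a • 1 + b • g) * (a • 1 + b • g) = _
      rw [show 2 * (a * a) - 1 = a * a - g.det * (b * b) by linear_combination ab]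
      simp only [mul_add, add_mul, Matrix.mul_smul, Matrix.smul_mul, mul_one, one_mul, z.sq]
      module
    have m : k * (A * A).1.map σ = (σ (2 * (a * a) - 1) • (1 : M2 F) + (σ (2 * a * b) * c) • g) * k := by
      have : (A * A).1.map σ = σ (2 * (a * a) - 1) • (1 : M2 F) + σ (2 * a * b) • g.map σ := by
        rw [AA]; apply m2_ext <;> simp
      rw [this, mul_add, add_mul, Matrix.mul_smul, Matrix.mul_smul, hc, Matrix.smul_mul, Matrix.smul_mul, smul_smul,
        mul_one, one_mul]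
    have f1 : σ (2 * (a * a) - 1) = 2 * (a * a) - 1 := fix _ (by
      rcases h.of_rr rx (mul_inv_eq_iff_eq_mul.2 (key A (by
        change (a • 1 + b • g) * g = g * (a • 1 + b • g); simp [add_mul, mul_add])).eq) with e | e
      · rw [m, AA] at e
        exact .inl (comb_unique (z.ns h.two) (cancel_r rx.1 e)).1.symm
      · rw [m, AA, ← neg_mul, neg_add, ← neg_smul, ← neg_smul] at e
        exact .inr (neg_eq_iff_eq_neg.1 (comb_unique (z.ns h.two) (cancel_r rx.1 e)).1.symm))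
    have f2 : σ a = a := fix _ (mul_self_eq_mul_self_iff.1 (mul_left_cancel₀ h.two (by
      simpa [map_ofNat] using f1)))
    have f3 : g.det * (s * s) = 2 / (a + 1) - 1 := by
      have : a + 1 = 2 / (1 + g.det * (s * s)) := by rw [ha, div_add_one e]; congr 1; ring
      rw [this]; have := h.two; field_simp; ring
    rw [f3]; simp [f2, map_ofNat]
  obtain rfl : σ = 1 := RingEquiv.ext fun s => fix s (mul_self_eq_mul_self_iff.1 (mul_left_cancel₀ z.det (by
    have a := fd s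
    have b := fd 1
    rw [mul_one, mul_one] at b
    rwa [map_mul, map_mul, b] at a)))
  rw [map_one2] at hc
  have cc : c * c = 1 := by
    have := congrArg Matrix.det hc
    rw [Matrix.det_smul, Matrix.det_mul, Matrix.det_mul, mul_comm k.det, Fintype.card_fin, pow_two] at this
    exact (mul_right_cancel₀ (mul_ne_zero z.det rx.1) (by rw [one_mul, ← this])).symm
  rcases mul_self_eq_one_iff.1 cc with rfl | rfl
  · exact tz0 h r z rx (by simpa using hc) yL oy i (cR y hy).symm y1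
  · have t := z.tr_of_anti h.two (k := k) (by simpa using hc)
    have := rx.pow_one 2
    rw [pow_two k, (TZ.mk rx.1 t).sq, ← neg_smul] at this
    exact (pElt_of_pow_eq_one Nat.prime_two (h.uniq this (rr_one.smul (neg_ne_zero.2 rx.1)))).eq_one ox

omit h in
theorem tr_cent {L : Type*} [Group L] [Finite L] (H : Subgroup L) (ab : ∀ a ∈ H, ∀ b ∈ H, a * b = b * a) {z : L}
    (hz : z ∈ center L) (hd : z ∈ commutator L) : z ^ H.index = 1 := by
  letI : CommGroup H := { (inferInstance : Group H) with mul_comm := fun a b => Subtype.ext (ab _ a.2 _ b.2) }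
  have := MonoidHom.transfer_eq_pow (MonoidHom.id H) z fun k g _ => by
    rw [mul_assoc, ← mem_center_iff.1 (pow_mem hz k) g, inv_mul_cancel_left]
  rw [Abelianization.commutator_subset_ker _ hd] at this
  exact (congrArg Subtype.val this).symm

omit h in
theorem ab_of_cyc {L : Type*} [Group L] {π : L →* Γ} (kc : π.ker ≤ center L) {U : Subgroup Γ} (c : IsCyclic U)
    (hU : U ≤ π.range) : ∀ a ∈ U.comap π, ∀ b ∈ U.comap π, a * b = b * a := fun a ha b hb => by
  obtain ⟨g, hg⟩ := c.exists_generator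
  obtain ⟨x, hx⟩ := hU g.2
  have k : ∀ a ∈ U.comap π, ∃ i : ℤ, ∃ z ∈ center L, a = x ^ i * z := fun a ha => by
    obtain ⟨i, hi⟩ := hg ⟨π a, ha⟩
    refine ⟨i, (x ^ i)⁻¹ * a, kc ?_, by group⟩
    have : π a = π x ^ i := by rw [hx]; exact (congrArg Subtype.val hi).symm
    simp [this]
  obtain ⟨i, y, hy, rfl⟩ := k a ha
  obtain ⟨j, z, hz, rfl⟩ := k b hb
  rw [← mul_assoc, mul_assoc _ y, ← mem_center_iff.1 hy, ← mul_assoc, ← mul_assoc, mul_assoc _ z,
    ← mem_center_iff.1 hz, ← mul_assoc, mul_assoc _ y, mem_center_iff.1 hz y, ← zpow_add, ← zpow_add, add_comm,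
    mul_assoc]

theorem mult_core {L : Type*} [Group L] [Finite L] {π : L →* Γ} (hr : π.range = ι.range) (kc : π.ker ≤ center L) {z : L}
    (hz : z ∈ π.ker) (hd : z ∈ commutator L) {r : ℕ} (pr : r.Prime) (r2 : r ≠ 2) (zr : orderOf z = r) :
    r = 3 ∧ Fintype.card F = 9 := by
  obtain ⟨p, _⟩ := CharP.exists F
  obtain ⟨n, pp, hq⟩ := FiniteField.card F p
  haveI := Fact.mk pp
  haveI := Fact.mk pr
  have key : ∀ U : Subgroup Γ, (∀ a ∈ U.comap π, ∀ b ∈ U.comap π, a * b = b * a) → r ∣ U.relIndex ι.range :=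
    fun U ab => by
      rw [← hr, ← index_comap, ← zr]
      exact orderOf_dvd_of_pow_eq_one (tr_cent _ ab (kc hz) hd)
  by_cases rp : r = p
  swap
  · obtain ⟨R, hR⟩ := sylow_exists pr ι.range
    exact absurd (key R (ab_of_cyc kc (h.cyc_sub r2 rp hR.le (hR.piGrp.isPGroup pr)) (hr ▸ hR.le)))
      (hR.not_dvd_index pr)
  subst rp
  let uH : Multiplicative F →* Γ := MonoidHom.mk' (fun a => ι (uu a.toAdd)) fun a b => by simp [uu_add]
  have inj : Function.Injective uH := (injective_iff_map_eq_one _).2 fun a ha => by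
    rcases (h.ker _).1 ha with e | e
    · simpa [uu] using congrArg (fun A : SL(2, F) => A 0 1) e
    · simpa [uu] using congrArg (fun A : SL(2, F) => A 0 1) e
  have cU : Nat.card uH.range = Fintype.card F := by
    rw [← Nat.card_congr (MonoidHom.ofInjective inj).toEquiv]; simp
  have UL : uH.range ≤ ι.range := by rintro _ ⟨a, rfl⟩; exact ⟨_, rfl⟩
  have nd : ¬ r ∣ uH.range.relIndex ι.range := fun e => by
    have a := h.card_range
    rw [← card_mul_relIndex UL, cU, mul_left_comm] at a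
    have a := Nat.eq_of_mul_eq_mul_left Fintype.card_pos a
    have b : r ∣ Fintype.card F ^ 2 := Dvd.dvd.pow (hq ▸ dvd_pow_self r n.ne_zero) two_ne_zero
    have c : r ∣ Fintype.card F ^ 2 - 1 := a ▸ e.mul_left 2
    exact pr.one_lt.ne' (Nat.dvd_one.1 ((Nat.dvd_sub_iff_right (Nat.one_le_pow _ _ Fintype.card_pos) b).1 c))
  by_cases n1 : n = 1
  · exact absurd (key _ (ab_of_cyc kc (isCyclic_of_prime_card (p := r) (by rw [cU, hq, n1]; simp)) (hr ▸ UL))) nd
  by_contra ne
  have big : 13 < Fintype.card F := by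
    have n2 : 2 ≤ (n : ℕ) := by have := n.pos; have : (n : ℕ) ≠ 1 := fun e => n1 (PNat.eq e); omega
    have := pr.two_le
    rw [hq] at ne ⊢
    rcases (show r = 3 ∨ 4 ≤ r by omega) with rfl | r4
    · have : (n : ℕ) ≠ 2 := fun e => ne ⟨rfl, by rw [e]; rfl⟩
      exact lt_of_lt_of_le (by norm_num) (Nat.pow_le_pow_right (by norm_num) (show 3 ≤ (n : ℕ) by omega))
    · exact lt_of_lt_of_le (by norm_num) ((Nat.pow_le_pow_left r4 2).trans (Nat.pow_le_pow_right (by omega) n2))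
  obtain ⟨s, hs⟩ : ∃ s : F, s * (1 - s ^ 2) * (1 + s ^ 2) * (16 * s ^ 4 - 4 * s ^ 2 * (1 + s ^ 2) ^ 2 + (1 + s ^ 2) ^ 4) ≠ 0 := by
    obtain ⟨s, hs⟩ := Polynomial.exists_eval_ne_zero_of_natDegree_lt_card
      (.X * (1 - .X ^ 2) * (1 + .X ^ 2) * (16 * .X ^ 4 - 4 * .X ^ 2 * (1 + .X ^ 2) ^ 2 + (1 + .X ^ 2) ^ 4) : Polynomial F)
      (by
        refine mul_ne_zero (mul_ne_zero (mul_ne_zero Polynomial.X_ne_zero ?_) ?_) ?_ <;>
          exact fun e => by simpa using congrArg (Polynomial.eval 0) e)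
      (by
        rw [Cardinal.mk_fintype, Nat.cast_lt]
        refine lt_of_le_of_lt ?_ big
        compute_degree)
    exact ⟨s, by simpa using hs⟩
  simp only [mul_ne_zero_iff] at hs
  obtain ⟨⟨⟨s0, s1⟩, s2⟩, s3⟩ := hs
  choose l hl using fun a : F => hr.ge (⟨uu a, rfl⟩ : ι (uu a) ∈ ι.range)
  have bc : ∀ a b, ⁅l a, l b⁆ ∈ center L := fun a b => kc (by
    rw [MonoidHom.mem_ker, map_commutatorElement, hl, hl, commutatorElement_eq_one_iff_mul_comm, ← map_mul, ← map_mul,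
      ← uu_add, ← uu_add, add_comm])
  have wd : ∀ x y a b, π x = ι (uu a) → π y = ι (uu b) → ⁅x, y⁆ = ⁅l a, l b⁆ := fun x y a b hx hy => by
    have c1 := mem_center_iff.1 (kc (show (l a)⁻¹ * x ∈ π.ker by simp [hx, hl]))
    have c2 := mem_center_iff.1 (kc (show (l b)⁻¹ * y ∈ π.ker by simp [hy, hl]))
    calc _ = l a * ((l a)⁻¹ * x * y) * x⁻¹ * y⁻¹ := by rw [commutatorElement_def]; group
      _ = l a * (l b * ((l b)⁻¹ * y * (l a)⁻¹)) * y⁻¹ := by rw [← c1]; group
      _ = _ := by rw [← c2, commutatorElement_def]; group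
  have ad1 : ∀ a a' b, ⁅l (a + a'), l b⁆ = ⁅l a', l b⁆ * ⁅l a, l b⁆ := fun a a' b => by
    rw [← wd (l a * l a') (l b) _ _ (by rw [map_mul, hl, hl, uu_add, map_mul]) (hl b)]
    calc _ = l a * ⁅l a', l b⁆ * (l a)⁻¹ * ⁅l a, l b⁆ := by simp only [commutatorElement_def]; group
      _ = _ := by rw [mem_center_iff.1 (bc a' b) (l a), mul_inv_cancel_right]
  have ad2 : ∀ a b b', ⁅l a, l (b + b')⁆ = ⁅l a, l b⁆ * ⁅l a, l b'⁆ := fun a b b' => by
    rw [← commutatorElement_inv, ad1, mul_inv_rev, commutatorElement_inv, commutatorElement_inv]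
  have inv : ∀ (m : F) (t u : F), m ≠ 0 → ⁅l t, l (u * m ^ 2)⁆ = ⁅l (t / m ^ 2), l u⁆ := fun m t u m0 => by
    obtain ⟨d, hd⟩ := hr.ge (⟨sl2 m 0 0 m⁻¹ (by simp [m0]), rfl⟩ : ι _ ∈ ι.range)
    have k : ∀ a, π (d * l a * d⁻¹) = ι (uu (a * m ^ 2)) := fun a => by
      rw [map_mul, map_mul, map_inv, hd, hl, mul_inv_eq_iff_eq_mul, ← map_mul, ← map_mul]
      congr 1
      apply Subtype.ext
      apply m2_ext <;> simp [uu, Matrix.mul_apply, Fin.sum_univ_two] <;> field_simp
    rw [← wd _ _ _ _ (by rw [k (t / m ^ 2), div_mul_cancel₀ _ (pow_ne_zero 2 m0)]) (k u), ← conjugate_commutatorElement,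
      mem_center_iff.1 (bc _ _) d, mul_inv_cancel_right]
  refine nd (key _ ?_)
  rintro x ⟨a, ha⟩ y ⟨b, hb⟩
  rw [← commutatorElement_eq_one_iff_mul_comm, wd x y _ _ ha.symm hb.symm]
  generalize a.toAdd = a
  generalize b.toAdd = b
  have two := h.two
  set m := 2 * s / (1 + s ^ 2) with hm
  set m' := (1 - s ^ 2) / (1 + s ^ 2) with hm'
  have m0 : m ≠ 0 := div_ne_zero (mul_ne_zero two s0) s2
  have m0' : m' ≠ 0 := div_ne_zero s1 s2
  have mm : m ^ 2 + m' ^ 2 = 1 := by rw [hm, hm', div_pow, div_pow, ← add_div, div_eq_one_iff_eq (pow_ne_zero 2 s2)]; ring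
  have k0 : 1 - m ^ 2 * m' ^ 2 ≠ 0 := by
    rw [show m' ^ 2 = 1 - m ^ 2 by rw [← mm]; ring, hm]
    intro e
    apply s3
    field_simp at e
    linear_combination e
  set t := a * (m ^ 2 * m' ^ 2) / (1 - m ^ 2 * m' ^ 2) with ht
  have e1 := ad2 t (b * m ^ 2) (b * m' ^ 2)
  rw [← mul_add, mm, mul_one, inv _ _ _ m0, inv _ _ _ m0', ← ad1, show t / m' ^ 2 + t / m ^ 2 = t + a by
    have : t / m' ^ 2 + t / m ^ 2 = t * (m ^ 2 + m' ^ 2) / (m ^ 2 * m' ^ 2) := by field_simp
    rw [this, mm, ht]; field_simp; ring, ad1, right_eq_mul] at e1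
  exact e1

end CA.Abg
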