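import Cfsg.Agent.FG.Defs

/-!
# The local hypothesis for the character theory
-/

set_option autoImplicit false

open Subgroup CA.FG

namespace CA.Abg

universe u w

variable {G : Type u} {N : Type w} [Group G] [Group N]

/-- `C₀ ⊴ C(t)` has odd index and abelian quotient, `C(t) = C₀ C(S)`, `κ : C₀ → N` is onto with kernel of odd order,
all involutions are conjugate -/
structure AG (t u : G) (C0 : Subgroup G) (κ : C0 →* N) (tN uN : N) : Prop where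
  t2 : t * t = 1
  u2 : u * u = 1
  le : C0 ≤ 𝒞[t]
  com : ∀ a ∈ 𝒞[t], ∀ b ∈ 𝒞[t], a * b * a⁻¹ * b⁻¹ ∈ C0
  odd : Odd (C0.relIndex 𝒞[t])
  syl : ∀ g ∈ 𝒞[t], ∃ n ∈ C0, ¬ 2 ∣ (𝒞[g * n]).relIndex 𝒞[t]
  sur : Function.Surjective κ
  ko : Odd (Nat.card κ.ker)
  tC : t ∈ C0
  uC : u ∈ C0
  κt : κ ⟨t, tC⟩ = tN
  κu : κ ⟨u, uC⟩ = uN
  cj : ∀ i : G, i * i = 1 → i ≠ 1 → IsConj t i

end CA.Abg
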