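/-
The model of `C(t)`: `C(t) → X = C(t) / O(C(t)) → Γ = X / Z`, `PSL₂(q) ≤ Γ ≤ PΓL₂(q)`.
-/
import Cfsg.Agent.Abg.Defs
import Cfsg.Agent.Abg.AG
import Cfsg.Agent.Br.Defs
import Cfsg.Agent.Bu.Defs

set_option autoImplicit false
set_option linter.unusedSectionVars false

namespace CA.Abg

open Subgroup Cfsg CA.FG CA.BG CA.GW
open scoped MatrixGroups

universe u

variable {G X Γ N : Type u} [Group G] [Group X] [Group Γ] [Group N] [Finite Γ] {F : Type} [Field F] [Fintype F]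

/-- `f : C(t) → X` has kernel `K = O(C(t))`, `p : X → Γ` has kernel the central cyclic `2`-group `⟨ζ⟩ ∋ f t` -/
structure MD (t u w j : G) (S : Subgroup G) (f : (𝒞[t] : Subgroup G) →* X) (p : X →* Γ) (ι : SL(2, F) →* Γ) (ζ : X) :
    Prop where
  lh : LH t u w j
  syl : IsSylowOf 2 S ⊤
  SC : S ≤ 𝒞[t]
  uS : u ∈ S
  wS : w ∈ S
  jS : j ∈ S
  fs : Function.Surjective f
  kf : ∀ x, f x = 1 ↔ (x : G) ∈ UU t
  ps : Function.Surjective p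
  kp : p.ker = zpowers ζ
  cz : ζ ∈ center X
  z2 : IsPiElt {2} ζ
  zS : ζ ∈ img f S
  tz : ∀ x : (𝒞[t] : Subgroup G), (x : G) = t → p (f x) = 1
  zt : ∀ z ∈ zpowers ζ, z * z = 1 → z = 1 ∨ ∃ x : (𝒞[t] : Subgroup G), (x : G) = t ∧ z = f x
  pm : PM ι
  r2 : R2 Γ
  O1 : OO (⊤ : Subgroup Γ) = ⊥
  pgl : ∀ g : M2 F, g.det ≠ 0 → ∃ γ, RR ι γ g 1
  q5 : Fintype.card F = 3 ∨ (AS ι.range ∧ LH5 t u w j ∧ img (p.comp f) (LL t (u * w)) = ι.range)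

/-- `C₀` is the preimage of `PGL₂(q)`, and `κ : C₀ → N ≤ X` is the restriction of `f` -/
structure MK (t u w : G) (S : Subgroup G) (f : (𝒞[t] : Subgroup G) →* X) (p : X →* Γ) (ι : SL(2, F) →* Γ)
    (C0 : Subgroup G) (κ : C0 →* N) (e : N →* X) (tN uN : N) : Prop where
  ag : AG t u C0 κ tN uN
  ker : ∀ m, κ m = 1 ↔ (m : G) ∈ UU t
  mem : ∀ x : (𝒞[t] : Subgroup G), (x : G) ∈ C0 ↔ ∃ g, RR ι (p (f x)) g 1
  ei : Function.Injective e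
  eκ : ∀ m : C0, e (κ m) = f ⟨m, ag.le m.2⟩
  SC0 : S ≤ C0
  LC0 : LL t (u * w) ≤ C0
  KC0 : UU t ≤ C0
  k1 : Fintype.card F ≠ 3 → ∀ n, ∃ m : C0, (m : G) ∈ LL t (u * w) ⊔ S ∧ κ m = n
  k1K : (LL t (u * w) ⊔ S) ⊓ UU t ≤ LL t (u * w)

/-- `N` is a quotient of `GL₂(q)` or of `GU₂(q)` by a central subgroup of odd order -/
def NM (p : X →* Γ) (ι : SL(2, F) →* Γ) (e : N →* X) (tN uN : N) : Prop :=
  (∃ φ : GL (Fin 2) F →* N, Br.BK φ ∧ Function.Surjective φ ∧ tN = Br.tt φ ∧ uN = Br.uu φ ∧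
    ∀ g, RR ι (p (e (φ g))) g 1) ∨
  ∃ (K : Type) (_ : Field K) (_ : StarRing K) (φ : Bu.U2 K →* N), Bu.UK φ (Fintype.card F) ∧ Function.Surjective φ ∧
    tN = Bu.tt φ ∧ uN = Bu.uu φ

/-- all the local data -/
def Model (G : Type u) [Group G] : Prop := ∃ (t u w j : G) (S : Subgroup G) (X Γ N : Type u) (_ : Group X) (_ : Group Γ)
  (_ : Group N) (_ : Finite X) (_ : Finite Γ) (_ : Finite N) (F : Type) (_ : Field F) (_ : Fintype F)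
  (f : (𝒞[t] : Subgroup G) →* X) (p : X →* Γ) (ι : SL(2, F) →* Γ) (ζ : X) (C0 : Subgroup G) (κ : C0 →* N) (e : N →* X)
  (tN uN : N), MD t u w j S f p ι ζ ∧ MK t u w S f p ι C0 κ e tN uN ∧ NM p ι e tN uN

theorem realizeEqns_AbgADefs : True := by
  have := @CA.Abg.NM.eq_1.{0}
  have := @CA.Abg.NM.eq_def.{0}
  have := @CA.Abg.NM.congr_simp.{0}
  have := @CA.Abg.Model.eq_1.{0}
  have := @CA.Abg.Model.eq_def.{0}
  have := @CA.Abg.Model.congr_simp.{0}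
  trivial

end CA.Abg
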