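/-
Groups with quasi-dihedral or wreathed Sylow 2-subgroups: simple sections of proper subgroups.
-/
import Cfsg.Agent.Abg.Defs
import Cfsg.Agent.GW.L1a
import Cfsg.Agent.GW.Ch7
import Cfsg.Agent.GW.Step
import Cfsg.Agent.GW.B11
import Cfsg.Agent.Dih.Rk2D

set_option autoImplicit false
set_option linter.unusedSectionVars false

namespace CA.Abg

open Subgroup Cfsg CA.FG CA.BG CA.Dih CA.GW CA.GW.BA
open scoped commutatorElement IsMulCommutative Classical

universe u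

variable {G : Type u} [Group G] [Finite G]

/-- rank two, and `2`-groups with a central four-group are abelian -/
def RA (Γ : Type u) [Group Γ] : Prop := ∀ (T : Type u) [Group T] (f : T →* Γ), Function.Injective f → IsPGroup 2 T →
  R2 T ∧ ∀ a b : T, Four a b → (∀ x, x * a = a * x) → (∀ x, x * b = b * x) → IsMulCommutative T

theorem RA.sub (h : RA G) (L : Subgroup G) : RA L := fun T _ f hf pT =>
  h T (L.subtype.comp f) (L.subtype_injective.comp hf) pT

theorem RA.quot (h : RA G) {X : Subgroup G} {Γ : Type u} [Group Γ] [Finite Γ] {f : X →* Γ}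
    (hf : Function.Surjective f) (o : IsPiGrp {2}ᶜ (pre f ⊥)) : RA Γ := fun T _ g hg pT => by
  have pR : IsPGrp 2 g.range := pGrp_of_isPGroup Nat.prime_two (pT.of_equiv (MonoidHom.ofInjective hg))
  obtain ⟨P, hP⟩ := sylow_exists Nat.prime_two (pre f g.range)
  have e : img f P = g.range := by
    have := hP.img (f := f) (pre_le f _)
    rw [img_pre (by rw [MonoidHom.range_eq_top.2 hf]; exact le_top)] at this
    exact this.eq_self pR
  obtain ⟨φ⟩ := img_equiv (f := f) (hP.le.trans (pre_le f _)) (by rw [inf_comm]; exact IsPiGrp.inf_eq_bot hP.piGrp o)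
  let ψ : T ≃* P := ((MonoidHom.ofInjective hg).trans (MulEquiv.subgroupCongr e.symm)).trans φ.symm
  exact h T (P.subtype.comp ψ.toMonoidHom) (P.subtype_injective.comp ψ.injective) pT

theorem RA.r2 (h : RA G) : R2 G := fun a b c a2 b2 c2 ab ac bc a1 b1 ne => by
  have n : ∀ {x y : G}, Commute x y → zpowers x ≤ 𝒞(zpowers y) := fun e =>
    zpowers_le.2 (by rw [cent_zpowers]; exact mem_c1.2 e)
  have p : IsPGrp 2 (zpowers a ⊔ zpowers b ⊔ zpowers c : Subgroup G) :=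
    ((two_zpowers a2).sup (two_zpowers b2) (.inl (norm_of_cent (n ab)))).sup (two_zpowers c2)
      (.inl (norm_of_cent (sup_le (n ac) (n bc))))
  have ma : a ∈ zpowers a ⊔ zpowers b ⊔ zpowers c := mem_sup_left (mem_sup_left (mem_zpowers a))
  have mb : b ∈ zpowers a ⊔ zpowers b ⊔ zpowers c := mem_sup_left (mem_sup_right (mem_zpowers b))
  have mc : c ∈ zpowers a ⊔ zpowers b ⊔ zpowers c := mem_sup_right (mem_zpowers c)
  have := (h _ (Subgroup.subtype _) (subtype_injective _) (p.isPGroup Nat.prime_two)).1 ⟨a, ma⟩ ⟨b, mb⟩ ⟨c, mc⟩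
    (Subtype.ext a2) (Subtype.ext b2) (Subtype.ext c2) (Subtype.ext ab) (Subtype.ext ac) (Subtype.ext bc)
    (fun e => a1 (congrArg Subtype.val e)) (fun e => b1 (congrArg Subtype.val e)) fun e => ne (congrArg Subtype.val e)
  simpa only [Subtype.ext_iff, coe_mul, coe_one] using this

theorem prank_of_r2 (h : R2 G) : PRankLE 2 2 G := fun A cA sq => by
  have cm := abelian_iff_forall.1 cA
  have s : ∀ a ∈ A, a * a = 1 := fun a ha => by rw [← pow_two, sq a ha]
  have k : ∀ a b : G, (∀ x ∈ A, x = 1 ∨ x = a ∨ x = b ∨ x = a * b) → Nat.card A ≤ 2 ^ 2 := fun a b e => by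
    have : (A : Set G) ⊆ {1, a, b, a * b} := fun x hx => by simpa using e x hx
    refine (Set.ncard_le_ncard this).trans ?_
    refine (Set.ncard_insert_le _ _).trans (Nat.succ_le_succ ((Set.ncard_insert_le _ _).trans
      (Nat.succ_le_succ ((Set.ncard_insert_le _ _).trans (by simp)))))
  by_cases e : ∃ a ∈ A, ∃ b ∈ A, a ≠ 1 ∧ b ≠ 1 ∧ a ≠ b
  · obtain ⟨a, ha, b, hb, a1, b1, ab⟩ := e
    exact k a b fun x hx => h a b x (s a ha) (s b hb) (s x hx) (cm a ha b hb) (cm a ha x hx) (cm b hb x hx) a1 b1 ab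
  · push Not at e
    by_cases e' : ∃ a ∈ A, a ≠ 1
    · obtain ⟨a, ha, a1⟩ := e'
      exact k a 1 fun x hx => or_iff_not_imp_left.2 fun x1 => .inl (e x hx a ha x1 a1)
    · push Not at e'
      exact k 1 1 fun x hx => .inl (e' x hx)

theorem four_in {V : Subgroup G} (h4 : Nat.card V = 4) (sq : ∀ v ∈ V, v * v = 1) :
    ∃ a ∈ V, ∃ b ∈ V, Four a b := by
  obtain ⟨a, ha, a1⟩ := exists_mem_ne_one (ne_bot_of_prime_dvd_card (H := V) Nat.prime_two (by rw [h4]; norm_num))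
  obtain ⟨b, hb, ba⟩ := SetLike.not_le_iff_exists.1 (show ¬ V ≤ zpowers a from fun e => by
    have := card_le_of_le e
    rw [Nat.card_zpowers, orderOf_two (sq a ha) a1] at this
    omega)
  exact ⟨a, ha, b, hb, ⟨sq a ha, a1⟩, ⟨sq b hb, fun e => ba (e ▸ one_mem _)⟩, fun e => ba (e ▸ mem_zpowers _),
    CA.TG.Four.comm_of_sq (fun v hv => by rw [pow_two, sq v hv]) ha hb⟩

theorem RA.types [IsSimpleGroup G] (h : RA G) (hG : ¬ IsMulCommutative G) : HasDih G ∨ QW G := by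
  haveI : Fact (Nat.Prime 2) := ⟨Nat.prime_two⟩
  obtain ⟨S⟩ : Nonempty (Sylow 2 G) := inferInstance
  have h2 := prank_of_r2 h.r2
  cases nonempty_fintype G
  have hS := sylow_top Nat.prime_two S
  have pS := hS.pGrp
  have D : (∃ n : ℕ, 2 ≤ n ∧ Nonempty ((S : Subgroup G) ≃* DihedralGroup n)) → HasDih G := fun ⟨n, hn, e⟩ => by
    obtain ⟨c, d, oc⟩ := exists_isDih (by omega) e
    exact ⟨S, c, hS, d, fun e => by simp [e] at oc; omega⟩
  by_cases hn : ∀ A : Subgroup (S : Subgroup G), A.Normal → IsMulCommutative A → IsCyclic A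
  · have ev : 2 ∣ Nat.card (⊤ : Subgroup G) := by
      by_contra e
      exact hG (IsSimpleGroup.comm_iff_isSolvable.2 (sol_top_iff.1 (CA.FT.odd_sol
        (Nat.odd_iff.2 (Nat.two_dvd_ne_zero.1 e))))|> fun h => ⟨⟨h⟩⟩)
    obtain ⟨t, ht, ot⟩ := pS.exists_orderOf_eq (hS.ne_bot' Nat.prime_two ev)
    have t1 := ne_one_of_orderOf Nat.prime_two ot
    have t2 := sq_eq_one_of_orderOf ot
    obtain ⟨u, hu, ut, c⟩ := exists_fused hG hS ht t2 t1
    have ou := (CA.Blk.orderOf_eq_of_isConj c).trans ot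
    have u1 := ne_one_of_orderOf Nat.prime_two ou
    have u2 := sq_eq_one_of_orderOf ou
    obtain h | ⟨m, c, y, -, ho, hy, gen, ⟨h1, h2⟩ | ⟨hm, y2, h | h⟩⟩ := CA.TG.struct_of_normal_cyclic S.2 hn
    · exact absurd (eq_of_cyclic_inv h hu ht u2 u1 t2 t1) ut
    · have k : ∀ g : (S : Subgroup G), g * g = 1 → g ∈ zpowers c := fun g e => (gen g).resolve_right fun ⟨i, hi⟩ => by
        have e1 : y⁻¹ * c ^ i * y = (c ^ i)⁻¹ := by
          rw [← inv_zpow, ← inv_inv y, inv_inv y⁻¹, ← conj_zpow, inv_inv, mul_assoc, h1, inv_mul_cancel_left]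
        have e2 : g * g = y * y * (y⁻¹ * c ^ i * y * c ^ i) := by
          rw [show g = y * c ^ i by rw [show c ^ i = y⁻¹ * g from hi, mul_inv_cancel_left]]; group
        rw [e, e1, inv_mul_cancel, mul_one, h2, eq_comm, ← orderOf_dvd_iff_pow_eq_one, ho,
          Nat.pow_dvd_pow_iff_le_right one_lt_two] at e2
        omega
      letI := Fintype.ofFinite (S : Subgroup G)
      exact absurd (congrArg Subtype.val (eq_of_cyclic_inv (cyclic_zpowers c) (k ⟨u, hu⟩ (Subtype.ext u2))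
        (k ⟨t, ht⟩ (Subtype.ext t2)) (Subtype.ext u2) (fun e => u1 (congrArg Subtype.val e)) (Subtype.ext t2)
        fun e => t1 (congrArg Subtype.val e))) ut
    · exact Or.inl (D ⟨_, Nat.pow_le_pow_right (n := 2) (i := 1) two_pos (by omega),
        Cfsg.Agent.Lin.nonempty_equiv_dihedral _ c y ho h y2 hy gen⟩)
    · exact Or.inr ⟨S, Or.inl ⟨m + 1, by omega, by rw [CA.TG.card_of_index_two hy gen, ho, ← pow_succ'], c, y, ho,
        orderOf_eq_prime (by rw [sq, y2]) fun e => hy (e ▸ one_mem _), h⟩⟩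
  push Not at hn
  obtain ⟨A₀, nA, cA, hA⟩ := hn
  have nA' := normalIn_map_subtype A₀
  have cA' := abelian_map (S : Subgroup G).subtype cA
  rw [← cyclic_map_iff_of_inj (S : Subgroup G).subtype_injective] at hA
  generalize A₀.map (S : Subgroup G).subtype = A at nA' cA' hA
  have nV := nA'.ohm1 2
  have ab := ohm1_abelem 2 cA'
  have h4 : Nat.card (ohm1 2 A) = 4 := by
    obtain ⟨E, hE⟩ := (p_rank_geP Nat.prime_two).1 (two_le_pRank_of_abelian Nat.prime_two (pS.of_le nA'.1) cA' hA)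
    exact le_antisymm (h2 _ ab.1 ab.2) (hE.card.ge.trans (card_le_of_le (abelem_le_ohm1 hE.abelem hE.le)))
  have sq : ∀ v ∈ ohm1 2 A, v * v = 1 := fun v hv => by rw [← pow_two, ab.2 v hv]
  generalize ohm1 2 A = V at nV h4 sq
  by_cases hc : (S : Subgroup G) ≤ 𝒞(V)
  swap
  · exact (noncentral_four hG h2 hS h4 sq nV.1 nV.2 hc).imp D fun h => ⟨S, Or.inr h⟩
  obtain ⟨t, ht, t1⟩ := exists_mem_ne_one (ne_bot_of_prime_dvd_card (H := V) Nat.prime_two (by rw [h4]; norm_num))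
  obtain ⟨u, hu, ut, c⟩ := exists_fused hG hS (nV.1 ht) (sq t ht) t1
  obtain ⟨g, rfl⟩ := isConj_iff.1 c.symm
  have hu' := mem_four_of_cent h2 h4 sq (by
    rw [show g * t * g⁻¹ * (g * t * g⁻¹) = g * (t * t) * g⁻¹ by group, sq t ht]; group) (hc hu)
  obtain ⟨n, hn, e⟩ := S.conj_eq_normalizer_conj_of_mem_centralizer t g⁻¹ (le_cent_symm hc ht)
    (by rw [inv_inv]; exact le_cent_symm hc hu')
  obtain ⟨ρ, H⟩ := exists_H4 h2 hS h4 sq nV.1 nV.2 ht (hc.trans (cent_le_cent_singleton ht))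
    (n := n) (by rwa [inf_eq_left.2 hc]) fun c => ut (by
      rw [inv_inv] at e
      rw [e, mul_assoc, ← mem_centralizer_singleton_iff.1 c, inv_mul_cancel_left])
  rw [inf_eq_left.2 hc] at H
  obtain ⟨a, ha, b, hb, f⟩ := four_in h4 sq
  have cS : IsMulCommutative (S : Subgroup G) := (h _ (Subgroup.subtype _) (subtype_injective _) S.2).2
    ⟨a, nV.1 ha⟩ ⟨b, nV.1 hb⟩ ⟨⟨Subtype.ext f.it.1, fun e => f.it.2 (congrArg Subtype.val e)⟩,
      ⟨Subtype.ext f.is.1, fun e => f.is.2 (congrArg Subtype.val e)⟩, fun e => f.ne (congrArg Subtype.val e),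
      Subtype.ext f.comm⟩ (fun x => Subtype.ext (comm_of_le_cent hc x.2 ha)) fun x => Subtype.ext (comm_of_le_cent hc x.2 hb)
  have := CA.TG.Four.kleinFour_iff.2 ⟨h4, fun x hx => by rw [pow_two, sq x hx]⟩
  rw [← le_antisymm (H.brauer cS hG) nV.1] at this
  exact Or.inl (D ⟨2, le_rfl, IsKleinFour.nonempty_mulEquiv⟩)

set_option maxRecDepth 100000 in
theorem s7_three : ∀ y : Equiv.Perm (Fin 7), y * (Equiv.swap 0 1 * Equiv.swap 2 3) = Equiv.swap 0 1 * Equiv.swap 2 3 * y →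
    y * y * y = 1 → y = 1 ∨ y = c[4, 5, 6] ∨ y = c[4, 6, 5] := by
  decide +kernel

theorem a7_cyc {t x y : alternatingGroup (Fin 7)} (ht : IsInv t) (hx : x * t = t * x) (hy : y * t = t * y)
    (ox : ¬ 2 ∣ orderOf x) (oy : ¬ 2 ∣ orderOf y) (x1 : x ≠ 1) : y ∈ zpowers x := by
  obtain ⟨σ, hσ⟩ := isConj_iff.1 (s7_conj2 (a := Equiv.swap 0 1 * Equiv.swap 2 3) (b := t)
    (orderOf_eq_prime (by decide +kernel) (by decide +kernel)) (by rw [orderOf_coe, ht.ord]) (by decide +kernel) t.2)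
  have k : ∀ z : alternatingGroup (Fin 7), z * t = t * z → ¬ 2 ∣ orderOf z →
      z.1 = 1 ∨ z.1 = σ * c[4, 5, 6] * σ⁻¹ ∨ z.1 = σ * (c[4, 5, 6] * c[4, 5, 6]) * σ⁻¹ := fun z hz o => by
    have e : σ⁻¹ * z.1 * σ * (Equiv.swap 0 1 * Equiv.swap 2 3) = Equiv.swap 0 1 * Equiv.swap 2 3 * (σ⁻¹ * z.1 * σ) := by
      have := congrArg Subtype.val hz
      rw [coe_mul, coe_mul, ← hσ] at this
      calc _ = σ⁻¹ * (z.1 * (σ * (Equiv.swap 0 1 * Equiv.swap 2 3) * σ⁻¹)) * σ := by group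
        _ = _ := by rw [this]; group
    have o3 : (σ⁻¹ * z.1 * σ) ^ 3 = 1 := orderOf_dvd_iff_pow_eq_one.1 (((Nat.prime_two.coprime_iff_not_dvd.2 (by
      rwa [show σ⁻¹ * z.1 * σ = σ⁻¹ * z.1 * σ⁻¹⁻¹ by simp, orderOf_conj, orderOf_coe])).symm.pow_right 2).dvd_of_dvd_mul_left
        (orderOf_dvd_of_pow_eq_one (s7_cent _ e).1))
    rw [show (c[4, 5, 6] * c[4, 5, 6] : Equiv.Perm (Fin 7)) = c[4, 6, 5] by decide +kernel]
    rcases s7_three _ e (by rw [← o3, pow_three, mul_assoc]) with e | e | e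
    · left; calc z.1 = σ * (σ⁻¹ * z.1 * σ) * σ⁻¹ := by group
        _ = 1 := by rw [e]; group
    · right; left; rw [← e]; group
    · right; right; rw [← e]; group
  have c3 : (c[4, 5, 6] * c[4, 5, 6] * (c[4, 5, 6] * c[4, 5, 6]) : Equiv.Perm (Fin 7)) = c[4, 5, 6] := by decide +kernel
  have m : ∀ z : alternatingGroup (Fin 7), z.1 = 1 ∨ z.1 = x.1 ∨ z.1 = x.1 * x.1 → z ∈ zpowers x := fun z e => by
    rcases e with e | e | e
    · exact (show z = 1 from Subtype.ext e) ▸ one_mem _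
    · exact (show z = x from Subtype.ext e) ▸ mem_zpowers _
    · exact (show z = x * x from Subtype.ext e) ▸ mul_mem (mem_zpowers _) (mem_zpowers _)
  refine m y ?_
  rcases k x hx ox with e | e | e
  · exact (x1 (Subtype.ext e)).elim
  · rw [e, conj_mul]; exact k y hy oy
  · rw [e, conj_mul, c3]
    rcases k y hy oy with e | e | e
    exacts [.inl e, .inr (.inr e), .inr (.inl e)]

theorem dih_cyc [IsSimpleGroup G] (nab : ¬ IsMulCommutative G) (hd : HasDih G) {t x y : G} {p : ℕ} (hp : p.Prime)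
    (p2 : p ≠ 2) (ht : IsInv t) (hx : x ∈ 𝒞[t]) (hy : y ∈ 𝒞[t]) (px : x ^ p = 1) (py : y ^ p = 1) (x1 : x ≠ 1) :
    y ∈ zpowers x := by
  have od : ∀ z : G, z ^ p = 1 → ¬ 2 ∣ orderOf z := fun z e d =>
    p2 ((Nat.prime_dvd_prime_iff_eq Nat.prime_two hp).1 (d.trans (orderOf_dvd_of_pow_eq_one e))).symm
  have ns : ¬ Group.IsSolvable G := fun e => nab ⟨⟨IsSimpleGroup.comm_iff_isSolvable.2 e⟩⟩
  have a : AS (⊤ : Subgroup G) := ⟨hd, inferInstance, topEquiv.isSimpleGroup, fun e => ns (sol_top_iff.1 e),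
    (eq_bot_or_top (norm_cent (norm_of_le le_rfl))).resolve_right fun e =>
      nab (abelian_top_iff.1 (abelian_iff_le_cent.2 e.ge))⟩
  have := a.simple
  rcases gw_simple ch (step_of fun G _ _ _ S M E K c t s q r l a b d => l.noB a b d) (⊤ : Subgroup G) a.nab
    (hd.sub a.nsol) with ⟨K, s, b⟩ | ⟨⟨e⟩⟩
  · obtain ⟨K, q, r, T⟩ := a.tg b (mem_top t) ht
    have m : ∀ z ∈ 𝒞[t], z ^ p = 1 → z ∈ K := fun z hz e => by_contra fun n => n (by
      have := T.sq z ⟨trivial, hz⟩ n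
      by_cases z1 : z = 1
      exacts [z1 ▸ one_mem _, (od z e (orderOf_two this z1).symm.dvd).elim])
    have := Fact.mk hp
    exact zpowers_le.1 (le_of_cyclic_of_card_dvd T.cyc (zpowers_le.2 (m y hy py)) (zpowers_le.2 (m x hx px)) (by
      rw [Nat.card_zpowers, Nat.card_zpowers, orderOf_eq_prime px x1]; exact orderOf_dvd_of_pow_eq_one py))
  replace e := topEquiv.symm.trans e
  · have := a7_cyc (t := e t) (x := e x) (y := e y) ⟨by rw [← map_mul, ht.1, map_one], by simpa using ht.2⟩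
      (by rw [← map_mul, ← map_mul, mem_c1.1 hx]) (by rw [← map_mul, ← map_mul, mem_c1.1 hy])
      (by rw [MulEquiv.orderOf_eq]; exact od x px) (by rw [MulEquiv.orderOf_eq]; exact od y py) (by simpa using x1)
    obtain ⟨k, hk⟩ := this
    exact ⟨k, e.injective (by rw [map_zpow]; exact hk)⟩

theorem realizeEqns_AbgL1 : True := by
  have := @CA.Abg.RA.eq_1.{0}
  have := @CA.Abg.RA.eq_def.{0}
  trivial

end CA.Abg
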