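/-
Groups with quasi-dihedral or wreathed Sylow 2-subgroups: the dihedral section of a proper subgroup.
-/
import Cfsg.Agent.Abg.L1

set_option autoImplicit false
set_option linter.unusedSectionVars false

namespace CA.Abg

open Subgroup Cfsg CA.FG CA.BG CA.Dih CA.GW CA.GW.BA
open scoped commutatorElement IsMulCommutative Classical

universe u

variable {G : Type u} [Group G] [Finite G] {t u w j v x : G}

theorem conj_of_odd {O : Subgroup G} (o : IsPiGrp {2}ᶜ O) {a b : G} (a2 : a * a = 1) (b2 : b * b = 1)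
    (h : a * b ∈ O) : ∃ g ∈ O, g * b * g⁻¹ = a := by
  by_contra e
  obtain ⟨z, hz, iz, -⟩ := exists_comm_inv a2 b2 fun ⟨g, hg, e'⟩ => e ⟨g, zpowers_le.2 h hg, e'⟩
  exact iz.2 (eq_one_of_odd o (zpowers_le.2 h hz) iz.1)

theorem mem_of_inv {M : Subgroup G} (hx : x ∈ 𝒩(M)) (hv : v ∈ M) (o : IsPiElt {2}ᶜ x) (e : v * x * v⁻¹ = x⁻¹) :
    x ∈ M := by
  have h1 : x * x ∈ M := by
    have := mul_mem (conj_mem_of_mem_norm hx hv) (inv_mem hv)
    rwa [show x * v * x⁻¹ * v⁻¹ = x * (v * x * v⁻¹)⁻¹ by group, e, inv_inv] at this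
  obtain ⟨z, hz, ez⟩ := exists_sqrt (piGrp_zpowers_iff.2 o) (mem_zpowers x)
  obtain ⟨k, rfl⟩ := hz
  rw [← ez]
  simpa only [(Commute.refl x).mul_zpow] using zpow_mem h1 k

theorem simple_of_r2 (h : R2 G) {L : Subgroup G} (hL : MinNormal L ⊤) (nL : ¬ Group.IsSolvable L) :
    IsSimpleGroup L := by
  have : Nontrivial L := (nontrivial_iff_ne_bot L).2 hL.ne_bot
  refine ⟨fun A hA => or_iff_not_imp_left.2 fun A1 => ?_⟩
  obtain ⟨V, VA, hV⟩ := minNormal_exists (K := A.map L.subtype) (A := L)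
    (fun e => A1 ((map_eq_bot_iff_of_injective _ L.subtype_injective).1 e)) (normalIn_map_subtype A).2
  have VL := VA.trans (map_subtype_le A)
  suffices H : V = L from eq_top_iff.2 fun x _ => by simpa using VA (H.ge x.2)
  by_cases e : ⊤ ≤ 𝒩(V)
  · exact hL.2.2 V VL hV.ne_bot e
  obtain ⟨g, -, hg⟩ := SetLike.not_le_iff_exists.1 e
  have gL : L :^ g = L := conjg_of_mem_norm (hL.norm trivial)
  have nW : L ≤ 𝒩(V :^ g) := by rw [← gL, ← conjg_norm]; exact conjg_mono g hV.norm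
  have WL : V :^ g ≤ L := (conjg_mono g VL).trans gL.le
  have d : V ⊓ V :^ g = ⊥ := (hV.inf_eq_bot_or_le nW).resolve_right fun e' =>
    hg (mem_norm_of_conjg_le (eq_of_le_of_card_ge e' (card_conjg _ _).le).ge)
  have c : V :^ g ≤ 𝒞(V) := le_cent_symm (le_cent_of_norm_of_inf_eq_bot (WL.trans hV.norm) (VL.trans nW) d)
  have sV : Group.IsSolvable V := by
    by_cases o : IsPiGrp {2}ᶜ V
    · exact odd_sol o
    obtain ⟨a, ha, ia⟩ := exists_inv_of_not_odd o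
    have s := CA.Blk.Zstar_sup_of ia.ord ha fun y hy cy => by_contra fun ne => by
      have m := conj_mem_conjg g ha
      have m' := conj_mem_of_mem_norm (le_normalizer hy) ha
      have k : g * a * g⁻¹ ∉ V := fun e => (ia.conj g).2 (d.le ⟨e, m⟩)
      rcases h a _ _ ia.1 (ia.conj y).1 (ia.conj g).1 cy (comm_of_le_cent c m ha).symm (comm_of_le_cent c m m').symm ia.2
        (ia.conj y).2 (Ne.symm ne) with e | e | e | e
      exacts [(ia.conj g).2 e, k (e.symm ▸ ha), k (e.symm ▸ m'), k (e.symm ▸ mul_mem ha m')]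
    rw [show pPrimeCoreOf 2 V = ⊥ from (hV.eq_bot_or_eq (pcore_le _ V) (norm_pcore _ hV.norm)).resolve_right
      fun e => o (e ▸ pcore_piGrp _ V), bot_sup_eq, inf_eq_left] at s
    have := (hV.eq_bot_or_eq (W := 𝒵(V)) inf_le_left (norm_inf hV.norm (norm_cent hV.norm))).resolve_left
      (ne_bot_of_mem ⟨ha, mem_cent_iff_le_cent_singleton.2 s⟩ ia.2)
    exact sol_of_abelian (abelian_iff_le_cent.2 (this.ge.trans inf_le_right))
  obtain ⟨p, hp, pV⟩ := hV.exists_pGrp sV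
  have := hL.2.2 (pCoreOf p L) (pcore_le _ _) (fun e => hV.ne_bot (eq_bot_of_pcore_eq_bot e ⟨VL, hV.norm⟩ pV))
    (norm_pcore _ hL.norm)
  exact (nL (this ▸ (pcore_pGrp p L).sol)).elim

theorem dd_noQ (h : DD (⊤ : Subgroup G)) (it : IsInv t) {a b : G} (ha : a * a = t) (hb : b * b = t)
    (e : b * a * b⁻¹ = a⁻¹) : False := by
  have p : ∀ {a : G}, a * a = t → IsPGrp 2 (zpowers a) := fun {a} e => piGrp_zpowers_iff.2
    ((pElt_iff Nat.prime_two).2 ⟨2, by rw [show 2 ^ 2 = 2 * 2 from rfl, pow_mul, pow_two, pow_two, e, it.1]⟩)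
  obtain ⟨c, -, -, hs⟩ := h (zpowers a ⊔ zpowers b) le_top ((p ha).sup (p hb) (.inr (zpowers_le.2
    (mem_norm_of_forall fun y hy => inv_of_mem_zpowers e hy ▸ inv_mem hy))))
  have k : ∀ y ∈ zpowers a ⊔ zpowers b, y * y = t → y ∈ zpowers c := fun y hy e =>
    by_contra fun n => it.2 (e ▸ hs y hy n)
  have := abelian_iff_forall.1 (abelian_zpowers c) b (k b (mem_sup_right (mem_zpowers b)) hb) a
    (k a (mem_sup_left (mem_zpowers a)) ha)
  rw [this, mul_inv_cancel_right, eq_inv_iff_mul_eq_one, ha] at e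
  exact it.2 e

/-- `M/O(X)` is a simple normal subgroup of `X/O(X)` with dihedral Sylow `2`-subgroups -/
structure SB (X M : Subgroup G) (t : G) : Prop where
  le : M ≤ X
  norm : X ≤ 𝒩(M)
  tM : t ∈ M
  conj : OO X ≤ 𝒞[t] → ∀ a ∈ M, IsInv a → ∃ g ∈ M ⊓ 𝒞(OO X), g * t * g⁻¹ = a
  cyc : ∀ p : ℕ, p.Prime → p ≠ 2 → ∀ x ∈ M ⊓ 𝒞[t], ∀ y ∈ M ⊓ 𝒞[t], x ^ p = 1 → y ^ p = 1 → x ∉ OO X →
    ∃ k : ℤ, (x ^ k)⁻¹ * y ∈ OO X
  noQ : ∀ a ∈ M, ∀ b ∈ M, a * a = t → b * b = t → b * a * b⁻¹ = a⁻¹ → False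

theorem sub_core (ra : RA G) (ih : IH G) {X : Subgroup G} {Γ : Type u} [Group Γ] [Finite Γ] {φ : X →* Γ}
    (hf : Function.Surjective φ) (hk : pre φ ⊥ = OO X) (h2 : OO (⊤ : Subgroup Γ) = ⊥) (cΓ : Nat.card Γ < Nat.card G)
    {t v x : X} (f : Four (t : G) v) (c1 : ∃ g : X, g * t * g⁻¹ = v) (c2 : ∃ g : X, g * t * g⁻¹ = t * v)
    (hx : (x : G) ∈ OO (X ⊓ 𝒞[(t : G)])) (e : v * x * v⁻¹ = x⁻¹) (xO : (x : G) ∉ OO X) : ∃ M, SB X M t := by
  have oO : IsPiGrp {2}ᶜ (OO X) := pcore_piGrp _ _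
  have rΓ := ra.quot hf (hk ▸ oO)
  have k1 : ∀ y : X, φ y = 1 ↔ (y : G) ∈ OO X := fun y => by rw [← hk, coe_mem_pre, mem_bot]
  have iv : ∀ {y : X}, IsInv (y : G) → IsInv (φ y) := fun {y} h =>
    ⟨by rw [← map_mul, show y * y = 1 from Subtype.ext h.1, map_one], fun e => h.2 (eq_one_of_odd oO ((k1 y).1 e) h.1)⟩
  have f' : Four (φ t) (φ v) := ⟨iv f.it, iv f.is, fun e => (iv (y := t * v) f.ts).2 (by rw [map_mul, ← e, (iv f.it).1]),
    by rw [← map_mul, ← map_mul, show t * v = v * t from Subtype.ext f.comm]⟩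
  have cj : ∀ {a b : X}, IsInv (a : G) → IsInv (b : G) → φ a = φ b → ∃ g ∈ OO X, g * b * g⁻¹ = a := fun {a b} ia ib e =>
    conj_of_odd oO ia.1 ib.1 ((k1 (a * b)).1 (by rw [map_mul, e, (iv ib).1]))
  obtain ⟨L, -, hL⟩ := minNormal_exists (K := (⊤ : Subgroup Γ)) (A := ⊤) (ne_bot_of_mem (mem_top _) f'.it.2)
    (norm_of_le le_rfl)
  have nm : ∀ (g : Γ) {a : Γ}, a ∈ L → g * a * g⁻¹ ∈ L := fun g _ h => conj_mem_of_mem_norm (hL.norm trivial) h
  have tL : φ t ∈ L := by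
    obtain ⟨T, hT, VT⟩ := sylow_superset Nat.prime_two f'.two le_top
    have h1 := hT.normal_inf (K := L) ⟨le_top, hL.norm⟩
    obtain ⟨z0, ⟨hz, -, cz⟩, z1⟩ := exists_mem_ne_one (meet_center_nil (K := L ⊓ T) (IsPGrp.nil hT.piGrp)
      ⟨inf_le_right, norm_inf (le_top.trans hL.norm) (norm_of_le le_rfl)⟩ fun e =>
        hL.ne_bot (eq_bot_of_pcore_eq_bot h2 ⟨le_top, hL.norm⟩ (h1.eq_bot_iff.1 e)))
    obtain ⟨z, hz', z2, z1⟩ := exists_inv_of_piElt (hT.piGrp.piElt hz.2) z1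
    have zL := zpowers_le.2 hz.1 hz'
    have cz' := zpowers_le.2 cz hz'
    obtain ⟨g1, e1⟩ := c1
    obtain ⟨g2, e2⟩ := c2
    have k : ∀ g : X, φ (g * t * g⁻¹) ∈ L → φ t ∈ L := fun g h => by
      have := nm (φ g)⁻¹ h
      simpa only [map_mul, map_inv, inv_inv, mul_assoc, inv_mul_cancel_left, inv_mul_cancel, mul_one] using this
    rcases rΓ.r2 _ _ z f'.it.1 f'.is.1 z2 f'.comm (cz' _ (VT (Four.t_mem _ _))) (cz' _ (VT (Four.s_mem _ _))) f'.it.2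
      f'.is.2 f'.ne with e | e | e | e
    exacts [(z1 e).elim, e ▸ zL, k g1 (e1 ▸ e ▸ zL), k g2 (by rw [e2, map_mul]; exact e ▸ zL)]
  have vL : φ v ∈ L := by obtain ⟨g, rfl⟩ := c1; rw [map_mul, map_mul, map_inv]; exact nm _ tL
  have ox : IsPiElt {2}ᶜ (φ x) := by
    have : IsPiElt {2}ᶜ x := by simpa only [IsPiElt, orderOf_coe] using (pcore_piGrp _ _).piElt hx
    exact this.map φ
  have ex : φ v * φ x * (φ v)⁻¹ = (φ x)⁻¹ := by rw [← map_inv, ← map_mul, ← map_mul, e, map_inv]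
  have xL : φ x ∈ L := mem_of_inv (hL.norm trivial) vL ox ex
  have x1 : φ x ≠ 1 := fun e => xO ((k1 x).1 e)
  have nL : ¬ Group.IsSolvable L := fun s => by
    obtain ⟨p, hp, pL⟩ := hL.exists_pGrp s
    obtain rfl : 2 = p := pL.piElt tL 2 Nat.prime_two f'.it.ord.symm.dvd
    exact x1 ((pL.piElt xL).eq_one ox)
  have := simple_of_r2 rΓ.r2 hL nL
  have nab : ¬ IsMulCommutative L := fun e => nL (sol_of_abelian e)
  have sb : ∀ {a : Γ} (h : a ∈ L), IsInv a → IsInv (⟨a, h⟩ : L) := fun h i =>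
    ⟨Subtype.ext i.1, fun e => i.2 (congrArg Subtype.val e)⟩
  have hd : HasDih L := ((rΓ.sub L).types nab).resolve_right fun q => x1 (congrArg Subtype.val (ih L
    ((Nat.le_of_dvd Nat.card_pos (card_subgroup_dvd_card L)).trans_lt cΓ) q ⟨_, tL⟩ ⟨_, vL⟩ (sb tL f'.it) (sb vL f'.is)
    (mem_c1.2 (Subtype.ext f'.comm.symm)) ⟨_, xL⟩ ?_ (Subtype.ext ex)))
  swap
  · have h1 : 𝒞[φ t] ≤ img φ (X ⊓ 𝒞[(t : G)]) := fun γ hγ => by
      obtain ⟨g, rfl⟩ := hf γ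
      obtain ⟨o, ho, e⟩ := cj (a := g * t * g⁻¹) (b := t) (f.it.conj g) f.it (by
        rw [map_mul, map_mul, map_inv]; exact conj_eq_iff.2 hγ)
      lift o to X using pcore_le _ _ ho
      refine mem_img.2 ⟨o⁻¹ * g, ⟨(o⁻¹ * g).2, conj_eq_iff.1 ?_⟩, by rw [map_mul, map_inv, (k1 o).2 ho, inv_one, one_mul]⟩
      simp only [coe_mul, coe_inv] at e ⊢
      calc _ = (o : G)⁻¹ * (g * t * (g : G)⁻¹) * o := by group
        _ = _ := by rw [← e]; group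
    have h3 := img_normalIn (f := φ) (pcore_normal {2}ᶜ (X ⊓ 𝒞[(t : G)]))
    refine pcore_max (K := (img φ (OO (X ⊓ 𝒞[(t : G)]))).subgroupOf L) ⟨?_, ?_⟩
      ((IsPiGrp.img φ (pcore_piGrp _ _)).subgroupOf L) (mem_img.2 ⟨x, hx, rfl⟩)
    · rw [cent1_subgroupOf]; exact subgroupOf_mono _ (img_cent1 ((pcore_le _ _).trans inf_le_right))
    · rw [cent1_subgroupOf]; exact subgroupOf_norm L (h1.trans h3.2)
  obtain ⟨S, c, t0, s0, d⟩ := hd.exists_DS nab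
  have nM : X ≤ 𝒩(pre φ L) := le_norm_pre le_rfl (le_top.trans hL.norm)
  refine ⟨pre φ L, pre_le _ _, nM, coe_mem_pre.2 tL, fun hO a ha ia => ?_, fun p hp p2 a ha b hb pa pb aO => ?_,
    fun a ha b hb a2 b2 e => ?_⟩
  · lift a to X using pre_le _ _ ha
    have nC : X ≤ 𝒩(pre φ L ⊓ 𝒞(OO X)) := norm_inf nM (norm_cent (pcore_norm _ X))
    have h1 : img φ (pre φ L ⊓ 𝒞(OO X)) = L := (hL.eq_bot_or_eq (img_le_of_le_pre inf_le_left) (img_norm_top hf nC)).resolve_left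
      (ne_bot_of_mem (mem_img.2 ⟨t, ⟨coe_mem_pre.2 tL, mem_cent_iff_le_cent_singleton.2 hO⟩, rfl⟩) f'.it.2)
    obtain ⟨γ, eγ⟩ := isConj_iff.1 ((d.one _ (sb tL f'.it)).symm.trans (d.one _ (sb (coe_mem_pre.1 ha) (iv ia))))
    obtain ⟨g, hg, eg⟩ := mem_img.1 (h1.ge γ.2)
    obtain ⟨o, ho, e⟩ := cj (a := a) (b := g * t * g⁻¹) ia (f.it.conj g) (by
      rw [map_mul, map_mul, map_inv, eg]; exact (congrArg Subtype.val eγ).symm)
    refine ⟨g, hg, ?_⟩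
    have : ((g * t * g⁻¹ : X) : G) ∈ 𝒞(OO X) :=
      mul_mem (mul_mem hg.2 (mem_cent_iff_le_cent_singleton.2 hO)) (inv_mem hg.2)
    rw [← e, this o ho, mul_inv_cancel_right]; rfl
  · lift a to X using pre_le _ _ ha.1
    lift b to X using pre_le _ _ hb.1
    have cm : ∀ {y : X} (h : φ y ∈ L), (y : G) ∈ 𝒞[(t : G)] → (⟨φ y, h⟩ : L) ∈ 𝒞[(⟨φ t, tL⟩ : L)] := fun {y} h c =>
      mem_c1.2 (Subtype.ext (by
        change φ y * φ t = φ t * φ y
        rw [← map_mul, ← map_mul, show y * t = t * y from Subtype.ext (mem_c1.1 c)]))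
    have pw : ∀ {y : X} (h : φ y ∈ L), (y : G) ^ p = 1 → (⟨φ y, h⟩ : L) ^ p = 1 := fun {y} h c => Subtype.ext (by
      change φ y ^ p = 1
      rw [← map_pow, show y ^ p = 1 from Subtype.ext c, map_one])
    obtain ⟨k, hk⟩ := dih_cyc nab hd hp p2 (sb tL f'.it) (cm (coe_mem_pre.1 ha.1) ha.2) (cm (coe_mem_pre.1 hb.1) hb.2)
      (pw _ pa) (pw _ pb) fun e => aO ((k1 a).1 (congrArg Subtype.val e))
    refine ⟨k, (k1 ((a ^ k)⁻¹ * b)).1 ?_⟩
    rw [map_mul, map_inv, map_zpow, show φ a ^ k = φ b from congrArg Subtype.val hk, inv_mul_cancel]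
  · lift a to X using pre_le _ _ ha
    lift b to X using pre_le _ _ hb
    refine dd_noQ hd.dd (sb tL f'.it) (a := ⟨_, coe_mem_pre.1 ha⟩) (b := ⟨_, coe_mem_pre.1 hb⟩) (Subtype.ext ?_)
      (Subtype.ext ?_) (Subtype.ext ?_)
    · exact (map_mul φ a a).symm.trans (congrArg φ (Subtype.ext a2))
    · exact (map_mul φ b b).symm.trans (congrArg φ (Subtype.ext b2))
    · change φ b * φ a * (φ b)⁻¹ = (φ a)⁻¹
      rw [← map_inv, ← map_mul, ← map_mul, ← map_inv]; exact congrArg φ (Subtype.ext e)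

theorem sub (ra : RA G) (ih : IH G) {X : Subgroup G} (hX : X ≠ ⊤) (f : Four t v) (tX : t ∈ X) (vX : v ∈ X)
    (c1 : ∃ g ∈ X, g * t * g⁻¹ = v) (c2 : ∃ g ∈ X, g * t * g⁻¹ = t * v) (hx : x ∈ OO (X ⊓ 𝒞[t]))
    (e : v * x * v⁻¹ = x⁻¹) (xO : x ∉ OO X) : ∃ M, SB X M t := by
  have := normal_subgroupOf_of_normalIn (pcore_normal {2}ᶜ X)
  let φ := QuotientGroup.mk' ((OO X).subgroupOf X)
  have hf : Function.Surjective φ := QuotientGroup.mk'_surjective _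
  have hk : pre φ ⊥ = OO X := by
    rw [pre_def, MonoidHom.comap_bot, QuotientGroup.ker_mk', subgroupOf_map_subtype, inf_eq_left.2 (pcore_le _ _)]
  have h1 : φ.ker = piCoreOf {2}ᶜ ⊤ := by rw [← pre_bot_subgroupOf, hk, pcore_subgroupOf_self, pcore_top]
  have h2 := pcore_map_of_ker (π := {2}ᶜ) (H := ⊤) (f := φ) le_top (by rw [h1]; exact pcore_piGrp _ _)
  rw [map_top_of_surjective φ hf, (Subgroup.map_eq_bot_iff _).2 h1.ge] at h2
  obtain ⟨g1, m1, e1⟩ := c1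
  obtain ⟨g2, m2, e2⟩ := c2
  exact sub_core ra ih hf hk h2.symm ((Nat.card_le_card_of_surjective φ hf).trans_lt
    ((card_lt_of_lt (lt_top_iff_ne_top.2 hX)).trans_eq card_top)) (t := ⟨t, tX⟩) (v := ⟨v, vX⟩)
    (x := ⟨x, (pcore_le _ _ hx).1⟩) f ⟨⟨g1, m1⟩, Subtype.ext e1⟩ ⟨⟨g2, m2⟩, Subtype.ext e2⟩ hx (Subtype.ext e) xO

end CA.Abg
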