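/-
Groups with quasi-dihedral or wreathed Sylow 2-subgroups: first consequences of the local facts.
-/
import Cfsg.Agent.Abg.L2

set_option autoImplicit false
set_option linter.unusedSectionVars false

namespace CA.Abg

open Subgroup Cfsg CA.FG CA.BG CA.Dih CA.GW CA.GW.BA CA.GW.L1
open scoped commutatorElement IsMulCommutative Classical

universe u

variable {G : Type u} [Group G] [Finite G] {t u w j v x : G}

theorem cj_mul (g a b : G) : g * a * g⁻¹ * (g * b * g⁻¹) = g * (a * b) * g⁻¹ := by group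

theorem cj_cent {g a b : G} : g * a * g⁻¹ ∈ 𝒞[g * b * g⁻¹] ↔ a ∈ 𝒞[b] := by rw [← conjg_cent1, conj_mem_conjg_iff]

theorem LL_conj (t i g : G) : LL t i :^ g = LL (g * t * g⁻¹) (g * i * g⁻¹) := by
  rw [LL, conjg_closure, LL]
  congr 1
  ext y
  constructor
  · rintro ⟨_, ⟨c, hc, rfl⟩, rfl⟩
    exact ⟨_, cj_cent.2 hc, by group⟩
  · rintro ⟨c, hc, rfl⟩
    exact ⟨_, ⟨g⁻¹ * c * g, by rwa [← conjg_cent1, mem_conjg] at hc, rfl⟩, by group⟩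

theorem LL_norm (t i : G) : 𝒞[t] ≤ 𝒩(LL t i) := norm_closure fun a ha _ ⟨c, hc, e⟩ =>
  ⟨a * c, mul_mem ha hc, by rw [← e]; group⟩

theorem LL_mem (t i : G) : i ∈ LL t i := subset_closure ⟨1, one_mem _, by simp⟩

theorem LL_le {t i : G} {D : Subgroup G} (n : 𝒞[t] ≤ 𝒩(D)) (hi : i ∈ D) : LL t i ≤ D :=
  (closure_le _).2 fun _ ⟨_, hc, e⟩ => e ▸ conj_mem_of_mem_norm (n hc) hi

theorem exists_inv_mul' {U : Subgroup G} (oU : IsPiGrp {2}ᶜ U) {a : G} (a2 : a * a ∈ 𝒞(U)) (ha : a ∈ 𝒩(U)) {y : G}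
    (hy : y ∈ U) : ∃ i ∈ U, a * i * a⁻¹ = i⁻¹ ∧ ∃ b ∈ U ⊓ 𝒞[a], y = i * b := by
  have h1 : y * (a * y⁻¹ * a⁻¹) ∈ U := mul_mem hy (conj_mem_of_mem_norm ha (inv_mem hy))
  obtain ⟨z, hz, e⟩ := exists_sqrt oU h1
  have h2 : a * z * a⁻¹ = z⁻¹ := inv_of_mem_zpowers (by
    calc a * (y * (a * y⁻¹ * a⁻¹)) * a⁻¹ = a * y * a⁻¹ * (a * a * y⁻¹ * (a * a)⁻¹) := by group
      _ = (y * (a * y⁻¹ * a⁻¹))⁻¹ := by rw [← a2 _ (inv_mem hy)]; group) hz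
  have zU := zpowers_le.2 h1 hz
  refine ⟨z, zU, h2, z⁻¹ * y, mem_inf.2 ⟨mul_mem (inv_mem zU) hy, ?_⟩, by group⟩
  rw [mem_centralizer_singleton_iff, eq_comm, ← mul_inv_eq_iff_eq_mul]
  calc a * (z⁻¹ * y) * a⁻¹ = (a * z * a⁻¹)⁻¹ * (y * (a * y⁻¹ * a⁻¹))⁻¹ * y := by group
    _ = z⁻¹ * y := by rw [h2, ← e]; group

/-- a proper subgroup of a `p`-group containing the fixed points of `a` normalizes an element inverted by `a` -/
theorem exists_inverted {p : ℕ} {P X : Subgroup G} (pP : IsPGrp p P) (p2 : p ≠ 2) {a : G} (a2 : a * a = 1)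
    (nP : a ∈ 𝒩(P)) (nX : a ∈ 𝒩(X)) (lt : X < P) (h : P ⊓ 𝒞[a] ≤ X) :
    ∃ x ∈ P ⊓ 𝒩(X), x ≠ 1 ∧ x ^ p = 1 ∧ a * x * a⁻¹ = x⁻¹ := by
  obtain ⟨y, hy, yX⟩ := SetLike.exists_of_lt (nilpotent_proper_norm pP.nil lt)
  obtain ⟨i, ⟨hi, e⟩, b, hb, rfl⟩ := exists_inv_mul ((odd_of_pGrp pP p2).of_le inf_le_left) a2
    (zpowers_le.1 (norm_inf (zpowers_le.2 nP) (norm_norm (zpowers_le.2 nX)))) hy
  have i1 : i ≠ 1 := fun e => yX (by rw [e, one_mul]; exact h ⟨hb.1.1, hb.2⟩)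
  obtain ⟨z, hz, oz⟩ := IsPGrp.exists_orderOf_eq (H := zpowers i) (piGrp_zpowers_iff.2 (pP.piElt hi.1)) (by simpa using i1)
  have hp := pP.prime (ne_bot_of_mem hi.1 i1)
  exact ⟨z, zpowers_le.2 hi hz, fun e => hp.one_lt.ne (by rw [← oz, e, orderOf_one]), oz ▸ pow_orderOf_eq_one z,
    inv_of_mem_zpowers e hz⟩

theorem one_of_inv_cent {U : Subgroup G} (oU : IsPiGrp {2}ᶜ U) {a y : G} (hy : y ∈ U) (e : a * y * a⁻¹ = y⁻¹)
    (c : y ∈ 𝒞[a]) : y = 1 :=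
  eq_one_of_odd oU hy (by rw [← mem_c1.1 c, mul_inv_cancel_right] at e; rw [← eq_inv_iff_mul_eq_one, ← e])

theorem LH5.conj (h : LH5 t u w j) (g : G) : LH5 (g * t * g⁻¹) (g * u * g⁻¹) (g * w * g⁻¹) (g * j * g⁻¹) := by
  refine ⟨fun R h1 h2 h3 => ?_, ?_, ?_, fun c => ?_⟩
  · rw [cj_mul, ← LL_conj, ← conjg_cancel_inv R g, conjg_le_norm_iff] at h3
    rw [← conjg_cent1, le_conjg_iff] at h1
    rw [← UU_conj, le_conjg_iff]
    exact h.f5 _ h1 (h2.conjg _) h3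
  · obtain ⟨c, hc, e⟩ := h.lj
    exact ⟨_, by rw [cj_mul, ← LL_conj]; exact conj_mem_conjg g hc, by rw [← e]; group⟩
  · obtain ⟨c, hc, e⟩ := h.lw
    exact ⟨_, by rw [cj_mul, ← LL_conj]; exact conj_mem_conjg g hc, by rw [← e]; group⟩
  · rw [cj_mul, ← LL_conj, ← UU_conj, conjg_le_cent_iff] at c
    rw [cj_mul, ← LL_conj, ← UU_conj, ← conjg_inf, conjg_eq_bot, ← conjg_cent1, ← conjg_cent1, ← conjg_inf]
    refine (h.mult c).imp_right fun ⟨a, b⟩ => ⟨a.conjg g, fun x hx px => ?_⟩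
    obtain ⟨x, hx', rfl⟩ := mem_conjg'.1 hx
    exact conj_mem_conjg g (b x hx' (by simpa only [IsPiElt, orderOf_conj] using px))

namespace LH

variable (h : LH t u w j)
include h

theorem four : Four t u := L1.four_of h.it h.uC h.iu h.ut

theorem wu : w * u * w⁻¹ = t * u := by
  rw [h.iw.inv_eq, h.four.comm, ← h.i2, ← mul_assoc, ← mul_assoc, ← mul_assoc, h.iu.1, one_mul]

theorem uw : u * w * u⁻¹ = t * w := by
  rw [h.iu.inv_eq, ← h.i2, mul_assoc _ _ w, mul_assoc u w w, h.iw.1, mul_one]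

theorem iC : u * w ∈ 𝒞[t] := mul_mem h.uC h.wC

theorem iu' : u * w * u * (u * w)⁻¹ = t * u := by
  calc _ = u * (w * u * w⁻¹) * u⁻¹ := by group
    _ = _ := by rw [h.wu, ← mul_assoc, mul_assoc _ u, mul_inv_cancel, mul_one, h.four.comm]

theorem wtu : w * (t * u) * w⁻¹ = u := by
  rw [← cj_mul, conj_eq_of_cent h.wC, h.wu, h.four.tts]

theorem i_two : IsPiElt {2} (u * w) :=
  (pElt_iff Nat.prime_two).2 ⟨2, by rw [show 2 ^ 2 = 2 * 2 from rfl, pow_mul, pow_two, pow_two, h.i2, h.it.1]⟩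

theorem conj (g : G) : LH (g * t * g⁻¹) (g * u * g⁻¹) (g * w * g⁻¹) (g * j * g⁻¹) := by
  have ne : ∀ {a b : G}, a ≠ b → g * a * g⁻¹ ≠ g * b * g⁻¹ := fun e e' => e (by simpa using e')
  have sj : ∀ a : G, ∃ b, a = g * b * g⁻¹ := fun a => ⟨g⁻¹ * a * g, by group⟩
  have sj' : ∀ A : Subgroup G, ∃ B, A = B :^ g := fun A => ⟨_, (conjg_cancel_inv A g).symm⟩
  refine ⟨h.it.conj g, h.iu.conj g, h.iw.conj g, cj_cent.2 h.uC, cj_cent.2 h.wC, cj_cent.2 h.jC, ne h.ut, ne h.wt,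
    by rw [cj_mul, cj_mul, h.i2], by rw [cj_mul, h.j2], ?_, fun a ia => ?_, fun v hv iv n => ?_, ?_, ?_,
    fun v hv iv e => ?_, fun v hv iv => ?_, fun Q pQ hQ => ?_, fun D h1 h2 h3 x hx ox => ?_,
    fun R h1 h2 h3 h4 h5 x hx ox c => ?_⟩
  · calc _ = g * (j * (u * w) * j⁻¹) * g⁻¹ := by group
      _ = _ := by rw [h.ji]; group
  · obtain ⟨k, e⟩ := h.one a ia
    exact ⟨k * g⁻¹, by rw [← e]; group⟩
  · obtain ⟨v, rfl⟩ := sj v
    obtain ⟨c, hc, e⟩ := h.cju v (cj_cent.1 hv) (isInv_conj.1 iv) fun e => n (by rw [e])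
    exact ⟨_, cj_cent.2 hc, by rw [← e]; group⟩
  · obtain ⟨c, hc, e⟩ := h.cjj
    exact ⟨_, cj_cent.2 hc, by rw [← e]; group⟩
  · obtain ⟨c, hc, e⟩ := h.cjk
    exact ⟨_, cj_cent.2 hc, by rw [cj_mul g u, cj_mul g (u * w), ← e]; group⟩
  · obtain ⟨v, rfl⟩ := sj v
    obtain ⟨c, hc, e⟩ := h.cjw v (cj_cent.1 hv) (isInv_conj.1 iv) (by
      calc _ = g⁻¹ * (g * v * g⁻¹ * (g * u * g⁻¹) * (g * v * g⁻¹)⁻¹) * g := by group
        _ = _ := by rw [e]; group)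
    exact ⟨_, ⟨cj_cent.2 hc.1, cj_cent.2 hc.2⟩, by rw [← e]; group⟩
  · obtain ⟨v, rfl⟩ := sj v
    rcases h.invV v ⟨cj_cent.1 hv.1, cj_cent.1 hv.2⟩ (isInv_conj.1 iv) with e | e | e
    exacts [.inl (by rw [e]), .inr (.inl (by rw [e])), .inr (.inr (by rw [e, cj_mul]))]
  · obtain ⟨Q, rfl⟩ := sj' Q
    rw [← conjg_cent1, ← conjg_cent1, ← conjg_inf, conjg_le_conjg] at hQ
    exact conjg_le_cent_iff.2 (h.ab Q (piGrp_conjg.1 pQ) hQ)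
  · obtain ⟨D, rfl⟩ := sj' D
    obtain ⟨x, rfl⟩ := sj x
    rw [← conjg_cent1] at h1 h2
    rw [cj_mul, conj_mem_conjg_iff] at h3
    rw [← UU_conj, conj_mem_conjg_iff]
    exact h.f3 D (conjg_le_conjg.1 h1) (conjg_le_norm_iff.1 h2) h3 x (conj_mem_conjg_iff.1 hx)
      (by simpa only [IsPiElt, orderOf_conj] using ox)
  · obtain ⟨R, rfl⟩ := sj' R
    obtain ⟨x, rfl⟩ := sj x
    rw [← conjg_cent1] at h1
    rw [← conjg_cent1, ← conjg_cent1, ← conjg_inf] at h5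
    rw [← UU_conj, conjg_le_conjg] at h3
    rw [← conjg_cent, conj_mem_conjg_iff] at c
    rw [← UU_conj, conj_mem_conjg_iff]
    refine h.f4 R (conjg_le_conjg.1 h1) (piGrp_conjg.1 h2) h3 (fun r hr => ?_) (conjg_le_norm_iff.1 h5) x
      ⟨cj_cent.1 hx.1, cj_cent.1 hx.2⟩ (by simpa only [IsPiElt, orderOf_conj] using ox) c
    calc _ = g⁻¹ * (g * u * g⁻¹ * (g * r * g⁻¹) * (g * u * g⁻¹)⁻¹) * g := by group
      _ = _ := by rw [h4 _ (conj_mem_conjg g hr)]; group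

theorem pair {a b : G} (f : Four a b) : ∃ g, g * t * g⁻¹ = a ∧ g * u * g⁻¹ = b := by
  obtain ⟨g, rfl⟩ := h.one a f.it
  obtain ⟨c, hc, e⟩ := (h.conj g).cju b f.ct f.is f.ne.symm
  exact ⟨c * g, by rw [← conj_eq_of_cent hc]; group, by rw [← e]; group⟩

theorem ra : RA G := fun T _ f hf pT => by
  have iv : ∀ {a : T}, a * a = 1 → a ≠ 1 → IsInv (f a) := fun a2 a1 =>
    ⟨by rw [← map_mul, a2, map_one], (map_ne_one_iff f hf).2 a1⟩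
  have cm : ∀ {a b : T}, a * b = b * a → f a ∈ 𝒞[f b] := fun e => mem_c1.2 (by rw [← map_mul, e, map_mul])
  refine ⟨fun a b c a2 b2 c2 ab ac bc a1 b1 ne => or_iff_not_imp_left.2 fun c1 => ?_, fun a b F ca cb => ?_⟩
  · obtain ⟨g, e1, e2⟩ := h.pair (a := f a) (b := f b) ⟨iv a2 a1, iv b2 b1, hf.ne ne, mem_c1.1 (cm ab)⟩
    have := (h.conj g).invV (f c) (by rw [e1, e2]; exact ⟨cm ac.symm, cm bc.symm⟩) (iv c2 c1)
    rwa [e1, e2, ← map_mul, hf.eq_iff, hf.eq_iff, hf.eq_iff] at this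
  · obtain ⟨g, e1, e2⟩ := h.pair (a := f a) (b := f b) ⟨iv F.it.1 F.it.2, iv F.is.1 F.is.2, hf.ne F.ne,
      mem_c1.1 (cm F.comm)⟩
    have := (h.conj g).ab f.range (pGrp_of_isPGroup Nat.prime_two (pT.of_equiv (MonoidHom.ofInjective hf))) (by
      rw [e1, e2]; rintro _ ⟨x, rfl⟩; exact ⟨cm (ca x), cm (cb x)⟩)
    exact ⟨⟨fun x y => hf (by rw [map_mul, map_mul]; exact comm_of_le_cent this ⟨x, rfl⟩ ⟨y, rfl⟩)⟩⟩

/-- fusion inside a subgroup of `C(t)` normalized by `C(V)` that contains `u` but not `w` -/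
theorem fus {Y : Subgroup G} (YC : Y ≤ 𝒞[t]) (nY : 𝒞[t] ⊓ 𝒞[u] ≤ 𝒩(Y)) (uY : u ∈ Y) (wY : w ∉ Y) (hv : v ∈ Y)
    (iv : IsInv v) (ne : v ≠ t) : ∃ n ∈ Y, n * v * n⁻¹ = u ∨ n * v * n⁻¹ = t * u := by
  obtain ⟨T, hT, uT⟩ := sylow_superset Nat.prime_two (two_zpowers h.iu.1) (zpowers_le.2 uY)
  obtain ⟨n, hn, e⟩ := sylow_Jsub Nat.prime_two hT (two_zpowers iv.1) (zpowers_le.2 hv)
  refine ⟨n, hn, ?_⟩
  have m := e (conj_mem_conjg n (mem_zpowers v))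
  have iv' := iv.conj n
  have ne' : n * v * n⁻¹ ≠ t := fun e => ne (by
    rw [← conj_eq_of_cent (inv_mem (YC hn)), ← e]; group)
  generalize n * v * n⁻¹ = v at m iv' ne'
  by_cases c : v ∈ 𝒞[u]
  · exact (h.invV v ⟨YC (hT.le m), c⟩ iv').resolve_left ne'
  exfalso
  have uT' := zpowers_le.1 uT
  have y2 : u * v * (u * v) ≠ 1 := fun e => c (mem_c1.2 (by
    rw [← inv_eq_of_mul_eq_one_right e, mul_inv_rev, iv'.inv_eq, h.iu.inv_eq]))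
  have mm := mul_mem uT' m
  obtain ⟨_, ⟨k, rfl⟩, z2, z1⟩ := exists_inv_of_piElt (hT.piGrp.piElt (mul_mem mm mm)) y2
  simp only [(Commute.refl (u * v)).mul_zpow] at z2 z1
  have iy : u * (u * v) ^ k * u⁻¹ = ((u * v) ^ k)⁻¹ := inv_of_mem_zpowers (y := u * v) (by
    rw [← mul_assoc, h.iu.1, one_mul, mul_inv_rev, iv'.inv_eq]) (zpow_mem_zpowers _ k)
  have my := hT.le (zpow_mem mm k)
  generalize (u * v) ^ k = y at *
  have iz : (y * y)⁻¹ = y * y := inv_eq_of_mul_eq_one_right z2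
  have ia : IsInv (u * y) := ⟨by
    calc _ = u * y * u⁻¹ * y := by rw [h.iu.inv_eq]; group
      _ = 1 := by rw [iy, inv_mul_cancel], fun e => z1 (by rw [eq_inv_of_mul_eq_one_right e, h.iu.inv_eq, h.iu.1])⟩
  have ea : u * y * u * (u * y)⁻¹ = y * y * u := by
    calc _ = u * y * u⁻¹ * (u * u) * y⁻¹ * u⁻¹ := by group
      _ = (y * y)⁻¹ * u := by rw [iy, h.iu.1, h.iu.inv_eq]; group
      _ = _ := by rw [iz]
  rcases h.invV (y * y) ⟨YC (mul_mem my my), mem_cent_singleton_comm.1 (conj_eq_iff.1 (by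
    rw [← cj_mul, iy, ← mul_inv_rev, iz]))⟩ ⟨z2, z1⟩ with e | e | e
  · obtain ⟨c, hc, e'⟩ := h.cjw _ (YC (mul_mem uY my)) ia (ea.trans (by rw [e]))
    refine wY ?_
    have := conj_mem_of_mem_norm' (nY hc) (mul_mem uY my)
    rwa [← e', show c⁻¹ * (c * w * c⁻¹) * c = w by group] at this
  · rw [e, h.iu.1] at ea
    exact (h.iu.conj _).2 ea
  · rw [e, mul_assoc t, h.iu.1, mul_one] at ea
    refine h.ut ?_
    rw [← conj_eq_of_cent (inv_mem (YC (mul_mem uY my))), ← ea]; group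

/-- an involution `t` is either fused in `N` or `N = O(N) C_N(t)` -/
theorem zs {N : Subgroup G} (tN : t ∈ N) (hO : OO N ≤ 𝒞[t]) (hN : ¬ N ≤ 𝒞[t]) :
    ∃ g ∈ N, g * t * g⁻¹ ∈ 𝒞[t] ∧ g * t * g⁻¹ ≠ t := by
  by_contra! e
  exact hN ((CA.Blk.Zstar_sup_of h.it.ord tN fun g hg c => e g hg (mem_c1.2 c.symm)).ge.trans (sup_le hO inf_le_right))

theorem a1 (hu : u ∈ 𝒞(UU t)) : A1 G := fun a v ia iv c x hx e => by
  by_cases n : v = a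
  · exact one_of_inv_cent (UU_odd a) hx e (n ▸ UU_le a hx)
  obtain ⟨g, rfl, rfl⟩ := h.pair (L1.four_of ia c iv n)
  refine one_of_inv_cent (UU_odd _) hx e ?_
  rw [← UU_conj] at hx
  obtain ⟨x, hx', rfl⟩ := mem_conjg'.1 hx
  exact cj_cent.2 (mem_c1.2 (hu x hx'))

/-- in a proper overgroup `M` of `C(t)` fusing `t` and `u`, `[K, u] ≤ O(M)` -/
theorem sub_over (ih : IH G) {M : Subgroup G} (hM : M ≠ ⊤) (CM : 𝒞[t] ≤ M) {g : G} (hg : g ∈ M)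
    (e : g * t * g⁻¹ = u) (hx : x ∈ UU t) (ex : u * x * u⁻¹ = x⁻¹) : x ∈ OO M := by
  by_contra xO
  obtain ⟨E, s⟩ := sub h.ra ih hM h.four (CM (mem_cent_singleton_self t)) (CM h.uC) ⟨g, hg, e⟩
    ⟨w * g, mul_mem (CM h.wC) hg, by rw [← h.wu, ← e]; group⟩ (by rwa [inf_eq_right.2 CM]) ex xO
  have uE : u ∈ E := e ▸ conj_mem_of_mem_norm (s.norm hg) s.tM
  obtain ⟨c, hc, ec⟩ := h.cju w h.wC h.iw h.wt
  have iE := mul_mem uE (ec ▸ conj_mem_of_mem_norm (s.norm (CM hc)) uE)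
  obtain ⟨d, hd, ed⟩ := h.cjj
  exact s.noQ _ iE j (ed ▸ conj_mem_of_mem_norm (s.norm (CM hd)) iE) h.i2 h.j2 h.ji

end LH

end CA.Abg
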