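/-
The local facts `LH`, `LH5` from the model.
-/
import Cfsg.Agent.Abg.A5
import Cfsg.Agent.Abg.ADefs
import Cfsg.Agent.Abg.L3

set_option autoImplicit false
set_option linter.unusedSectionVars false

namespace CA.Abg

open Subgroup Cfsg CA.FG CA.BG CA.GW CA.Dih
open scoped MatrixGroups commutatorElement

universe u

theorem pgl_of {Γ : Type u} [Group Γ] [Finite Γ] {F : Type} [Field F] [Fintype F] {ι : SL(2, F) →* Γ} (pm : PM ι)
    (h2 : R2 Γ) {σ : Γ} (iσ : IsInv σ) (hσ : σ ∉ ι.range) (g : M2 F) (hg : g.det ≠ 0) : ∃ γ, RR ι γ g 1 := by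
  classical
  have sq : ∀ g : M2 F, g.det ≠ 0 → IsSquare g.det → ∃ γ, RR ι γ g 1 := fun g hg ⟨s, hs⟩ => by
    have s0 : s ≠ 0 := by rintro rfl; exact hg (by simpa using hs)
    have := (rr_sl (ι := ι) ⟨s⁻¹ • g, by rw [Matrix.det_smul, hs]; simp; field_simp⟩).smul s0
    exact ⟨_, by simpa [smul_smul, s0] using this⟩
  by_cases e : IsSquare g.det
  · exact sq g hg e
  obtain ⟨k, r, z⟩ := pm.inv_model h2 iσ.1 iσ.2
  have e' : ¬ IsSquare k.det := fun ⟨s, hs⟩ => by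
    obtain ⟨B, -, hB⟩ := pm.mem_of_sq r hs
    exact hσ ⟨B, hB.symm⟩
  have d0 : (g * k).det ≠ 0 := by rw [Matrix.det_mul]; exact mul_ne_zero hg z.det
  obtain ⟨γ, r'⟩ := sq (g * k) d0 ((quadraticChar_one_iff_isSquare d0).1 (by
    rw [Matrix.det_mul, map_mul, quadraticChar_neg_one_iff_not_isSquare.2 e, quadraticChar_neg_one_iff_not_isSquare.2 e']
    rfl))
  have := (r'.mul r).smul (neg_ne_zero.2 (inv_ne_zero z.det))
  rw [map_one2, mul_assoc, z.sq] at this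
  exact ⟨_, by simpa [smul_smul, z.det] using this⟩

/-- the two quotient maps -/
structure QQ {C X Γ : Type u} [Group C] [Group X] [Group Γ] (f : C →* X) (p : X →* Γ) (ζ : X) (t : C) : Prop where
  ok : IsPiGrp {2}ᶜ f.ker
  fs : Function.Surjective f
  ps : Function.Surjective p
  kp : p.ker = zpowers ζ
  cz : ζ ∈ center X
  z2 : IsPiElt {2} ζ
  zt : ∀ z ∈ zpowers ζ, z * z = 1 → z = 1 ∨ z = f t

namespace QQ
variable {C X Γ : Type u} [Group C] [Group X] [Group Γ] [Finite C] [Finite X] [Finite Γ] {f : C →* X} {p : X →* Γ} {ζ : X}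
  {t u w j : C} (h : QQ f p ζ t)
include h

theorem surj : Function.Surjective (p.comp f) := h.ps.comp h.fs

theorem odd_ker {x : C} (ox : IsPiElt {2}ᶜ x) (e : p (f x) = 1) : f x = 1 :=
  (h.z2.of_mem_zpowers (h.kp.le e)).eq_one (ox.map f)

theorem cen {x y : X} (e : p x = p y) : ∃ z ∈ zpowers ζ, z ∈ center X ∧ x = y * z :=
  have : y⁻¹ * x ∈ zpowers ζ := h.kp.le (by simp [e])
  ⟨_, this, zpowers_le.2 h.cz this, by group⟩

theorem conj {a b : C} (a2 : IsPiElt {2} a) (b2 : IsPiElt {2} b) (e : f a = f b) : ∃ k, f k = 1 ∧ k * a * k⁻¹ = b :=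
  conj_two h.ok ((normalizer_eq_top _).ge trivial) a2 b2 (by simp [e])

theorem two_mem {D : Subgroup C} [D.Normal] {a y : C} (a2 : IsPiElt {2} a) (hy : y ∈ D) (e : f y = f a) : a ∈ D := by
  obtain ⟨y2, y3, m2, m3, p2, p3, e', -⟩ := exists_piPart {2} y
  have : f y3 = 1 := ((a2.map f).of_mem_zpowers (by
    obtain ⟨i, rfl⟩ := m3; exact ⟨i, by simp [e]⟩)).eq_one (p3.map f)
  obtain ⟨k, -, rfl⟩ := h.conj p2 a2 (by rw [← e, e', map_mul, this, mul_one])
  exact Normal.conj_mem ‹_› _ (zpowers_le.2 hy m2) k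

theorem lift_cent (iu : IsInv u) {a : Γ} (c : Commute a (p (f u))) : ∃ y, Commute y u ∧ p (f y) = a * a := by
  obtain ⟨x, rfl⟩ := h.surj a
  obtain ⟨z, -, cz, e⟩ := h.cen (x := f x * f u * (f x)⁻¹) (y := f u) (by
    simpa [mul_inv_eq_iff_eq_mul] using c.eq)
  have z2 : z * z = 1 := by
    have : f u * z * (f u * z) = 1 := by rw [← e, cj_mul, ← map_mul, iu.1]; simp
    rwa [mul_assoc, ← mul_assoc z, ← mem_center_iff.1 cz, mul_assoc, ← mul_assoc, ← map_mul, iu.1, map_one,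
      one_mul] at this
  obtain ⟨k, hk, e'⟩ := h.conj (a := x * x * u * (x * x)⁻¹) (iu.two.conj _) iu.two (by
    calc _ = f x * (f x * f u * (f x)⁻¹) * (f x)⁻¹ := by simp [mul_assoc]
      _ = f x * f u * (f x)⁻¹ * z := by
        nth_rewrite 1 [e]; rw [mul_assoc (f x * f u), mem_center_iff.1 cz (f x)⁻¹]; group
      _ = _ := by rw [e, mul_assoc, z2, mul_one])
  exact ⟨k * (x * x), mul_inv_eq_iff_eq_mul.1 (by nth_rewrite 2 [← e']; group), by simp [hk]⟩

theorem f3 {S : Subgroup Γ} {b s σ : Γ} {m : ℕ} (dg : DG S b s σ m) (uw : UW t u w j) (it : IsInv t)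
    (ha : IsConj (b ^ (m / 2)) (p (f (u * w)))) {D : Subgroup C} [D.Normal] (hi : u * w ∉ D) {x : C} (hx : x ∈ D)
    (ox : IsPiElt {2}ᶜ x) : f x = 1 := by
  haveI := Normal.map ‹D.Normal› _ h.surj
  by_cases e : D.map (p.comp f) = ⊥
  · exact h.odd_ker ox (mem_bot.1 (e ▸ ⟨x, hx, rfl⟩ : (p.comp f) x ∈ (⊥ : Subgroup Γ)))
  obtain ⟨g, hg⟩ := isConj_iff.1 ha
  obtain ⟨y, hy, e'⟩ : p (f (u * w)) ∈ D.map (p.comp f) :=
    hg ▸ Normal.conj_mem ‹_› _ (dg.mn (normalizer_eq_top _).ge e) g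
  obtain ⟨z, -, cz, e'⟩ := h.cen e'
  obtain ⟨c, hc⟩ := uw.cjk
  obtain ⟨c', hc'⟩ := uw.cjj
  have j2 : IsPiElt {2} j := (pElt_iff Nat.prime_two).2 ⟨2, by
    rw [show j ^ 2 ^ 2 = j * j * (j * j) by simp [pow_succ, mul_assoc], uw.j2, it.1]⟩
  have := h.two_mem j2 (mul_mem (inv_mem hy) (Normal.conj_mem ‹D.Normal› y hy c)) (by
    have : f j = (f (u * w))⁻¹ * (f c * f (u * w) * (f c)⁻¹) := by
      rw [← map_mul, ← map_inv, ← map_inv, ← map_mul, hc, ← map_mul, inv_mul_cancel_left]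
    rw [this, map_mul, map_mul, map_mul, map_inv, map_inv, e', ← mul_assoc (f c), mul_assoc _ z,
      ← mem_center_iff.1 cz, mul_inv_rev, ← mul_assoc, ← mul_assoc, mem_center_iff.1 cz]
    group)
  exact absurd (by simpa [← hc', mul_assoc] using Normal.conj_mem ‹D.Normal› j this c'⁻¹) hi

variable {F : Type} [Field F] [Fintype F] {ι : SL(2, F) →* Γ}

theorem ne_one (iu : IsInv u) (it : IsInv t) (tc : t ∈ center C) (ut : u ≠ t) : p (f u) ≠ 1 := fun e => by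
  rcases h.zt _ (h.kp.le e) (by rw [← map_mul, iu.1, map_one]) with e | e
  · exact iu.2 (iu.two.eq_one (h.ok.piElt e))
  · obtain ⟨k, -, hk⟩ := h.conj it.two iu.two e.symm
    exact ut (by rw [← hk, mem_center_iff.1 tc, mul_inv_cancel_right])

theorem f4 (pm : PM ι) (h2 : R2 Γ) (iu : IsInv u) (u1 : p (f u) ≠ 1) {R : Subgroup C} (oR : IsPiGrp {2}ᶜ R)
    (nK : ¬ R ≤ f.ker) (i : ∀ r ∈ R, u * r * u⁻¹ = r⁻¹) (n : 𝒞[u] ≤ 𝒩(R)) {x : C} (c : Commute x u)
    (ox : IsPiElt {2}ᶜ x) (cR : x ∈ 𝒞(R)) : f x = 1 := by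
  obtain ⟨y, hy, y1⟩ := SetLike.not_le_iff_exists.1 nK
  refine h.odd_ker ox (f4core pm h2 (w := p (f u)) (R := R.map (p.comp f)) ⟨by simp [← map_mul, iu.1], u1⟩
    ((ox.map f).map p) ((c.map f).map p) ⟨y, hy, rfl⟩ ((oR.piElt hy).map _) (fun e => y1 (h.odd_ker (oR.piElt hy) e))
    (by simpa using congrArg (p.comp f) (i y hy)) ?_ fun a ha => ?_)
  · rintro _ ⟨r, hr, rfl⟩
    simpa using congrArg (p.comp f) (cR r hr)
  · obtain ⟨y, cy, e⟩ := h.lift_cent iu ha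
    exact le_normalizer_map (p.comp f) ⟨y, n (mem_centralizer_singleton_iff.2 cy), e⟩

theorem range_le (a : AS ι.range) {L : Subgroup C} [L.Normal] {i : C} (hi : i ∈ L) (i1 : p (f i) ≠ 1) :
    ι.range ≤ L.map (p.comp f) :=
  haveI := Normal.map ‹L.Normal› _ h.surj
  a.le_of_normal (normalizer_eq_top _).ge fun e => i1 (mem_bot.1 (e ▸ ⟨i, hi, rfl⟩ : (p.comp f) i ∈ (⊥ : Subgroup Γ)))

theorem f5 (a : AS ι.range) {L R : Subgroup C} (hL : ι.range ≤ L.map (p.comp f)) (oR : IsPiGrp {2}ᶜ R)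
    (n : L ≤ 𝒩(R)) : R ≤ f.ker := fun x hx => by
  have n' : ι.range ≤ 𝒩(R.map (p.comp f)) := hL.trans ((map_mono n).trans (le_normalizer_map _))
  have oR' := oR.map (p.comp f)
  have xR : p (f x) ∈ R.map (p.comp f) := ⟨x, hx, rfl⟩
  generalize R.map (p.comp f) = Q at *
  haveI := a.simple
  haveI := a.normal
  have e : Q ⊓ ι.range = ⊥ := by
    rcases (normal_subgroupOf_of_le_normalizer n').eq_bot_or_eq_top with e | e
    · exact disjoint_iff.1 (subgroupOf_eq_bot.1 e)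
    · obtain ⟨y, hy, iy⟩ := a.exists_inv
      exact absurd (iy.two.eq_one (oR'.piElt (subgroupOf_eq_top.1 e hy))) iy.2
  refine h.odd_ker (oR.piElt hx) (mem_bot.1 (a.cent ▸ fun l hl => ?_))
  rw [← commutatorElement_eq_one_iff_mul_comm, ← mem_bot, ← e, commutatorElement_def]
  exact mem_inf.2 ⟨mul_mem ((mem_normalizer_iff.1 (n' hl) _).1 xR) (inv_mem xR), by
    simpa [mul_assoc] using mul_mem hl (Normal.conj_mem ‹_› _ (inv_mem hl) (p (f x)))⟩

theorem cj_in {L : Subgroup C} [L.Normal] (hL : ι.range ≤ L.map (p.comp f)) {a b i : C} (a2 : IsPiElt {2} a)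
    (b2 : IsPiElt {2} b) (ab : a * b⁻¹ ∈ L) (sq : a * a = b * b) (hi : i ∈ L) (e : i * b * i⁻¹ = b * t) (it : IsInv t)
    (tc : t ∈ center C) (hl : ∃ l ∈ ι.range, l * p (f a) * l⁻¹ = p (f b)) (ca : a * a ∈ center C) :
    ∃ c ∈ L, c * a * c⁻¹ = b := by
  have key : ∀ c ∈ L, f (c * a * c⁻¹) = f b → ∃ c ∈ L, c * a * c⁻¹ = b := fun c hc e => by
    obtain ⟨k, hk, e'⟩ := conj_two (K := f.ker ⊓ L) (h.ok.inf_left _) ((normalizer_eq_top _).ge trivial) (a2.conj c) b2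
      ⟨show f _ = 1 by rw [map_mul f _ b⁻¹, e, map_inv, mul_inv_cancel], by
        rw [show c * a * c⁻¹ * b⁻¹ = c * (a * c⁻¹ * a⁻¹) * (a * b⁻¹) by group]
        exact mul_mem (mul_mem hc (Normal.conj_mem ‹_› _ (inv_mem hc) a)) ab⟩
    exact ⟨k * c, mul_mem hk.2 hc, by rw [← e']; group⟩
  obtain ⟨l, hl, e'⟩ := hl
  obtain ⟨c, hc, rfl⟩ := hL hl
  obtain ⟨z, hz, cz, e'⟩ := h.cen (x := f (c * a * c⁻¹)) (y := f b) (by simpa using e')
  rcases h.zt z hz (by
    have : f b * z * (f b * z) = f b * f b := by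
      rw [← e', ← map_mul, cj_mul, mem_center_iff.1 ca, mul_inv_cancel_right, sq, map_mul]
    rwa [mul_assoc, ← mul_assoc z, ← mem_center_iff.1 cz, mul_assoc, ← mul_assoc, mul_eq_left] at this) with rfl | rfl
  · exact key c hc (by rw [e', mul_one])
  · refine key (i * c) (mul_mem hi hc) ?_
    rw [show i * c * a * (i * c)⁻¹ = i * (c * a * c⁻¹) * i⁻¹ by group, map_mul, map_mul, e', ← map_mul, ← map_mul,
      ← map_mul, ← mul_assoc, mul_assoc _ t, ← mem_center_iff.1 tc, ← mul_assoc, e, mul_assoc, it.1, mul_one]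

end QQ

variable {G X Γ : Type u} [Group G] [Finite G] [Group X] [Group Γ] [Finite X] [Finite Γ] {F : Type} [Field F] [Fintype F]

theorem LL_two {t i : G} (i2 : IsPiElt {2} i) {A : Type*} [CommGroup A] (φ : LL t i →* A) (x : LL t i) :
    IsPiElt {2} (φ x) := by
  obtain ⟨x, hx⟩ := x
  induction hx using closure_induction with
  | mem x hx =>
    obtain ⟨c, -, rfl⟩ := hx
    exact IsPiElt.map (by simpa [IsPiElt, ← orderOf_coe] using i2.conj c) φ
  | one => exact (map_one φ).symm ▸ (by simpa [IsPiElt] using PiNat.one _)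
  | mul x y hx hy a b => exact (map_mul φ ⟨x, hx⟩ ⟨y, hy⟩).symm ▸ a.mul b (mul_comm _ _)
  | inv x hx a => exact (map_inv φ ⟨x, hx⟩).symm ▸ a.inv

theorem md_of [IsSimpleGroup G] (nab : ¬ IsMulCommutative G) {t : G} {S : Subgroup G} (hS : IsSylowOf 2 S ⊤)
    (SC : S ≤ 𝒞[t]) (it : IsInv t) {t' u w j : (𝒞[t] : Subgroup G)} (ht : (t' : G) = t) (uw : UW t' u w j) (uS : (u : G) ∈ S)
    (wS : (w : G) ∈ S) (jS : (j : G) ∈ S) {f : (𝒞[t] : Subgroup G) →* X} {p : X →* Γ} {ζ : X} (h : QQ f p ζ t')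
    (kf : ∀ x, f x = 1 ↔ (x : G) ∈ UU t) (zS : ζ ∈ img f S) (pt : p (f t') = 1) {ι : SL(2, F) →* Γ} (pm : PM ι)
    {D : Subgroup Γ} {b s σ : Γ} {m : ℕ} (dg : DG D b s σ m) (hσ : σ ∉ ι.range)
    (ha : IsConj (b ^ (m / 2)) (p (f (u * w))))
    (q : Fintype.card F = 3 ∨ AS ι.range ∧ ∃ l ∈ ι.range, l * p (f u) * l⁻¹ = p (f w)) : MD t u w j S f p ι ζ := by
  have ci : ∀ {a : (𝒞[t] : Subgroup G)}, IsInv a → IsInv (a : G) := fun ia =>
    ⟨congrArg Subtype.val ia.1, fun e => ia.2 (Subtype.ext e)⟩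
  have ic : ∀ {a : (𝒞[t] : Subgroup G)}, IsInv (a : G) → IsInv a := fun ia =>
    ⟨Subtype.ext ia.1, fun e => ia.2 (congrArg Subtype.val e)⟩
  have it' : IsInv t' := ic (by rwa [ht])
  have tc : t' ∈ center (𝒞[t] : Subgroup G) := mem_center_iff.2 fun g => Subtype.ext (by
    simpa [ht] using mem_centralizer_singleton_iff.1 g.2)
  have pc : ∀ {π : Set ℕ} {a : (𝒞[t] : Subgroup G)}, IsPiElt π (a : G) → IsPiElt π a := fun e => by
    simpa [IsPiElt, ← orderOf_coe] using e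
  have u1 := h.ne_one uw.iu it' tc uw.ut
  have cju : ∀ v ∈ 𝒞[t], IsInv v → v ≠ t → ∃ c ∈ 𝒞[t], c * u * c⁻¹ = v := fun v hv iv vt => by
    obtain ⟨c, hc⟩ := uw.cju ⟨v, hv⟩ (ic iv) fun e => vt (ht ▸ congrArg Subtype.val e)
    exact ⟨c, c.2, congrArg Subtype.val hc⟩
  have lh : LH t u w j := {
    it := it, iu := ci uw.iu, iw := ci uw.iw, uC := u.2, wC := w.2, jC := j.2
    ut := fun e => uw.ut (Subtype.ext (e.trans ht.symm))
    wt := fun e => uw.wt (Subtype.ext (e.trans ht.symm))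
    i2 := (congrArg Subtype.val uw.i2).trans ht
    j2 := (congrArg Subtype.val uw.j2).trans ht
    ji := congrArg Subtype.val uw.ji
    one := fun a ia => by
      have := Fintype.ofFinite G
      obtain ⟨g, c, n⟩ := Blk.exists_fused_of_simple nab it.ord
      obtain ⟨c1, -, h1⟩ := cju _ (mem_centralizer_singleton_iff.2 c.symm.eq) (it.conj g) n
      obtain ⟨x, -, hx⟩ := sylow_Jsub Nat.prime_two hS (piGrp_zpowers_iff.2 ia.two) le_top
      have hx := SC (hx (conj_mem_conjg x (mem_zpowers a)))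
      by_cases e : x * a * x⁻¹ = t
      · exact ⟨x⁻¹, by rw [← e]; group⟩
      · obtain ⟨c2, -, h2⟩ := cju _ hx (ia.conj x) e
        exact ⟨x⁻¹ * c2 * c1⁻¹ * g, by
          rw [show x⁻¹ * c2 * c1⁻¹ * g * t * (x⁻¹ * c2 * c1⁻¹ * g)⁻¹ =
            x⁻¹ * (c2 * (c1⁻¹ * (g * t * g⁻¹) * c1) * c2⁻¹) * x by group, ← h1,
            show c1⁻¹ * (c1 * u * c1⁻¹) * c1 = u by group, h2]; group⟩
    cju := cju
    cjj := by obtain ⟨c, hc⟩ := uw.cjj; exact ⟨c, c.2, congrArg Subtype.val hc⟩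
    cjk := by obtain ⟨c, hc⟩ := uw.cjk; exact ⟨c, c.2, congrArg Subtype.val hc⟩
    cjw := fun v hv iv e => by
      obtain ⟨c, cu, hc⟩ := uw.cjw ⟨v, hv⟩ (ic iv) (Subtype.ext (by simpa [ht] using e))
      exact ⟨c, ⟨c.2, mem_centralizer_singleton_iff.2 (congrArg Subtype.val cu.eq)⟩, congrArg Subtype.val hc⟩
    invV := fun v hv iv => by
      have := uw.invV ⟨v, hv.1⟩ (Subtype.ext (mem_centralizer_singleton_iff.1 hv.2)) (ic iv)
      simpa [Subtype.ext_iff, ht] using this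
    ab := fun Q pQ le x hx y hy => congrArg Subtype.val (uw.ab (Q.subgroupOf _) (pQ.subgroupOf _)
      (fun a ha => mem_centralizer_singleton_iff.2 (Subtype.ext (mem_centralizer_singleton_iff.1 (le ha).2)))
      (show (⟨x, (le hx).1⟩ : (𝒞[t] : Subgroup G)) ∈ _ from hx) ⟨y, (le hy).1⟩ hy)
    f3 := fun D _ n hi x hx ox => by
      haveI := normal_subgroupOf_of_le_normalizer n
      exact (kf ⟨x, ‹D ≤ _› hx⟩).1 (h.f3 dg uw it' ha (D := D.subgroupOf _) hi hx (pc ox))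
    f4 := fun R le oR nK i n x hx ox cR => (kf ⟨x, hx.1⟩).1 (h.f4 pm dg.r2 uw.iu u1 (R := R.subgroupOf _)
      (oR.subgroupOf _) (fun e => nK fun r hr => (kf ⟨r, le hr⟩).1 (e hr)) (fun r hr => Subtype.ext (i r hr))
      (fun a ha => mem_normalizer_iff.2 fun y => mem_normalizer_iff.1
        (n ⟨a.2, mem_centralizer_singleton_iff.2 (congrArg Subtype.val (mem_centralizer_singleton_iff.1 ha))⟩) y)
      (Subtype.ext (mem_centralizer_singleton_iff.1 hx.2)) (pc ox) fun r hr => Subtype.ext (cR r hr)) }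
  refine ⟨lh, hS, SC, uS, wS, jS, h.fs, kf, h.ps, h.kp, h.cz, h.z2, zS, fun x e => by rwa [show x = t' from Subtype.ext (e.trans ht.symm)],
    fun z hz e => (h.zt z hz e).imp_right fun e => ⟨t', ht, e⟩, pm, dg.r2, dg.O1,
    pgl_of pm dg.r2 (dg.refl dg.σD dg.σb) hσ, q.imp_right fun ⟨a, lw⟩ => ?_⟩
  have LC : LL t (u * w) ≤ 𝒞[t] := LL_le le_normalizer lh.iC
  haveI := normal_subgroupOf_of_le_normalizer (LL_norm t (u * w))
  haveI := a.normal
  have iL : u * w ∈ (LL t (u * w)).subgroupOf 𝒞[t] := LL_mem t (u * w : G)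
  obtain ⟨g, hg⟩ := isConj_iff.1 ha
  have ii : IsInv (p (f (u * w))) := hg ▸ dg.id.conj g
  have iL0 : p (f (u * w)) ∈ ι.range := hg ▸ Normal.conj_mem ‹_› _ (dg.mn a.norm fun e => a.nsol (e ▸ inferInstance)) g
  have hL := h.range_le a iL ii.2
  have eL : img (p.comp f) (LL t (u * w)) = ι.range := le_antisymm (img_le_of_le_pre (LL_le
    (le_norm_pre le_rfl (le_top.trans a.norm)) (coe_mem_pre (x := u * w).2 iL0))) hL
  have i2 : IsPiElt {2} (u * w) := pc lh.i_two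
  refine ⟨a, ⟨fun R le oR n r hr => (kf ⟨r, le hr⟩).1 (h.f5 a hL (R := R.subgroupOf _) (oR.subgroupOf _)
    (fun a ha => mem_normalizer_iff.2 fun y => mem_normalizer_iff.1 (n ha) y) hr), ?_, ?_, fun LK => ?_⟩, eL⟩
  · obtain ⟨c, hc⟩ := uw.cjj
    have jL : j ∈ (LL t (u * w)).subgroupOf 𝒞[t] := hc ▸ Normal.conj_mem ‹_› _ iL c
    obtain ⟨c, cL, e⟩ := h.cj_in hL i2 (hc ▸ i2.conj c) (mul_mem iL (inv_mem jL)) (by rw [uw.i2, uw.j2]) iL (by
        calc _ = u * w * (j * (u * w) * j⁻¹) * j * (u * w * (u * w))⁻¹ := by group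
          _ = _ := by rw [uw.ji, uw.i2, it'.inv_eq, mul_inv_cancel, one_mul]) it' tc (by
        obtain ⟨l, hl, e⟩ := a.conj iL0 (show p (f j) ∈ _ from eL.le ⟨j, jL, rfl⟩) ii (by
          simpa [← hc] using ii.conj (p (f c)))
        exact ⟨l, hl, e⟩) (uw.i2 ▸ tc)
    exact ⟨c, cL, congrArg Subtype.val e⟩
  · obtain ⟨c, cL, e⟩ := h.cj_in hL uw.iu.two uw.iw.two (uw.iw.inv_eq.symm ▸ iL) (by rw [uw.iu.1, uw.iw.1]) iL (by
      calc _ = u * w * u⁻¹ := by group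
        _ = t' * w := Subtype.ext (by simpa [ht] using lh.uw)
        _ = _ := (mem_center_iff.1 tc w).symm) it' tc lw (uw.iu.1 ▸ one_mem _)
    exact ⟨c, cL, congrArg Subtype.val e⟩
  · let π := (p.comp f).comp (inclusion LC)
    have hr : π.range = ι.range := by rw [← eL, MonoidHom.range_comp, inclusion_range, img_def]
    have kc : π.ker ≤ center _ := fun x hx => mem_center_iff.2 fun l => Subtype.ext (by
      obtain ⟨y, z, my, mz, p2, p3, e, -⟩ := exists_piPart {2} x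
      have pz : π z = 1 := zpowers_le.2 hx mz
      have py : π y = 1 := zpowers_le.2 hx my
      have zK := (kf _).1 (h.odd_ker (p3.map (inclusion LC)) pz)
      have kK : (l : G) * y * (l : G)⁻¹ * (y : G)⁻¹ ∈ UU t := (kf (inclusion LC (l * y * l⁻¹ * y⁻¹))).1 (by
        simp only [map_mul, map_inv]
        rw [mem_center_iff.1 (zpowers_le.2 h.cz (h.kp.le py))]; group)
      have c1 : (l : G) * y * (l : G)⁻¹ * (y : G)⁻¹ * y = y * ((l : G) * y * (l : G)⁻¹ * (y : G)⁻¹) := LK y.2 _ kK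
      have p2' : IsPiElt {2} (y : G) := p2.map (Subgroup.subtype _)
      have := ((p2'.conj l).mul p2'.inv (by
        rw [inv_mul_cancel_right] at c1
        rw [eq_inv_mul_iff_mul_eq, ← c1])).eq_one ((UU_odd t).piElt kK)
      rw [mul_inv_eq_one, mul_inv_eq_iff_eq_mul] at this
      have c2 : (z : G) * l = l * z := LK l.2 _ zK
      simp only [e, coe_mul]
      rw [← mul_assoc, this, mul_assoc, mul_assoc, c2])
    have key : ∀ r : ℕ, r.Prime → r ∣ Nat.card (LL t (u * w) ⊓ UU t : Subgroup G) → r = 3 ∧ Fintype.card F = 9 :=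
      fun r pr d => by
        haveI := Fact.mk pr
        obtain ⟨z, hz⟩ := exists_prime_orderOf_dvd_card' r d
        have oz := (UU_odd t).piElt z.2.2
        refine mult_core pm hr kc (z := ⟨z, z.2.1⟩) ?_ ?_ pr (fun e => (UU_odd t).inf_right _ r pr d e)
          (by rw [← hz, ← orderOf_coe, ← orderOf_coe z])
        · show p (f _) = 1
          rw [(kf _).2 z.2.2, map_one]
        · rw [← Abelianization.ker_of]
          exact (LL_two lh.i_two _ _).eq_one (IsPiElt.map (by simpa [IsPiElt, ← orderOf_coe] using oz) _)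
    by_cases e : LL t (u * w) ⊓ UU t = ⊥
    · exact .inl e
    obtain ⟨r, pr, d⟩ := Nat.exists_prime_and_dvd (n := Nat.card (LL t (u * w) ⊓ UU t : Subgroup G)) (fun e' => e (card_eq_one.1 e'))
    have q9 := (key r pr d).2
    refine .inr ⟨fun r pr d => (key r pr d).1, fun x hx x3 => (kf ⟨x, hx.1⟩).1 (h.odd_ker (pc (x3.mono (by simp))) ?_)⟩
    obtain ⟨pp, _⟩ := CharP.exists F
    obtain ⟨n, ppp, hq⟩ := FiniteField.card F pp
    obtain rfl : pp = 3 := (Nat.prime_dvd_prime_iff_eq ppp Nat.prime_three).1 (ppp.dvd_of_dvd_pow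
      (show pp ∣ 3 ^ 2 by rw [show 3 ^ 2 = pp ^ (n : ℕ) by rw [← hq, q9]; rfl]; exact dvd_pow_self _ n.ne_zero))
    haveI := Fact.mk Nat.prime_three
    have y3 : IsPiElt {3} (p (f ⟨x, hx.1⟩)) := ((pc x3).map f).map p
    have cy : Commute (p (f u)) (p (f ⟨x, hx.1⟩)) :=
      ((show Commute u ⟨x, hx.1⟩ from Subtype.ext (mem_centralizer_singleton_iff.1 hx.2).symm).map f).map p
    generalize p (f ⟨x, hx.1⟩) = y at y3 cy
    obtain ⟨k, hk⟩ := (pElt_iff Nat.prime_three).1 y3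
    refine pm.inv_unip dg.r2 (p := 3) (by simp [← map_mul, uw.iu.1]) u1 ?_ hk cy
    obtain ⟨g, τ, r⟩ := pm.exists_rr y
    obtain rfl : τ = 1 := by
      have a := card_fixed (σ := τ) rfl
      obtain ⟨i, -, hi⟩ := (Nat.dvd_prime_pow Nat.prime_three).1 (orderOf_dvd_of_pow_eq_one (pm.sig_pow r hk))
      rcases i with _ | i
      · simpa using hi
      · rw [q9, hi, pow_succ, pow_mul] at a
        generalize Nat.card _ ^ _ = c at a
        have : c < 3 := by by_contra e; have := Nat.pow_le_pow_left (not_lt.1 e) 3; omega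
        interval_cases c <;> simp at a
    obtain ⟨B, -, hB⟩ := pm.mem_of_sq (r.pow_one 2) (s := g.det) (by rw [Matrix.det_pow, pow_two])
    obtain ⟨n, hn⟩ := exists_pow_eq_self_of_coprime (x := y) (n := 2)
      ((Nat.Prime.coprime_iff_not_dvd Nat.prime_two).2 fun e => absurd (y3 2 Nat.prime_two e) (by simp))
    exact hn ▸ pow_mem (show y ^ 2 ∈ ι.range from ⟨B, hB.symm⟩) n

end CA.Abg
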