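/-
Lifting a central extension: the groups covering `PGL₂(q)`.
-/
import Cfsg.Agent.Abg.A4b
import Cfsg.Agent.Abg.A6
import Cfsg.Agent.Bu.Base1

set_option autoImplicit false
set_option linter.unusedSectionVars false
set_option maxHeartbeats 400000

namespace CA.Abg

open Subgroup Cfsg CA.FG CA.BG CA.GW CA.Dih Cfsg.Agent.Lin
open scoped MatrixGroups

universe u v

theorem sq_mul_iff {F : Type*} [Field F] [Fintype F] {a b : F} (a0 : a ≠ 0) (b0 : b ≠ 0) :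
    IsSquare (a * b) ↔ (IsSquare a ↔ IsSquare b) := by
  classical
  rw [← quadraticChar_one_iff_isSquare (mul_ne_zero a0 b0), ← quadraticChar_one_iff_isSquare a0,
    ← quadraticChar_one_iff_isSquare b0, map_mul]
  rcases quadraticChar_dichotomy a0 with e | e <;> rcases quadraticChar_dichotomy b0 with e' | e' <;> simp [e, e']

section
variable {Γ : Type u} [Group Γ] [Finite Γ] {F : Type} [Field F] [Fintype F] {ι : SL(2, F) →* Γ} (pm : PM ι)
include pm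

theorem exists_pi (pgl : ∀ g : M2 F, g.det ≠ 0 → ∃ γ, RR ι γ g 1) :
    ∃ π : GL (Fin 2) F →* Γ, ∀ g, RR ι (π g) g 1 := by
  choose f hf using fun g : GL (Fin 2) F => pgl g g.det_ne_zero
  exact ⟨MonoidHom.mk' f fun a b => pm.uniq (hf _) ((hf a).mul (hf b)), hf⟩

variable {π : GL (Fin 2) F →* Γ} (rπ : ∀ g, RR ι (π g) g 1)
include rπ

theorem pi_range {γ : Γ} : γ ∈ π.range ↔ ∃ g, RR ι γ g 1 :=
  ⟨by rintro ⟨g, rfl⟩; exact ⟨_, rπ g⟩, fun ⟨g, r⟩ =>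
    ⟨Matrix.GeneralLinearGroup.mkOfDetNeZero g r.1, pm.uniq (rπ _) r⟩⟩

theorem pi_ker : π.ker = center (GL (Fin 2) F) := Subgroup.ext fun g => by
  refine ⟨fun e => ?_, fun e => ?_⟩
  · obtain ⟨-, c, -, hc⟩ := pm.of_one ((show π g = 1 from e) ▸ rπ g)
    exact Br.mem_cen.2 (by simp [hc])
  · obtain ⟨a, rfl⟩ := Br.mem_cen'.1 e
    refine pm.uniq (rπ _) ?_
    convert (rr_one (ι := ι)).smul a.ne_zero using 1
    apply m2_ext <;> simp

theorem pi_inner {g : GL (Fin 2) F} : π g ∈ ι.range ↔ IsSquare (g : M2 F).det := by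
  refine ⟨fun ⟨B, e⟩ => ?_, fun ⟨s, hs⟩ => ?_⟩
  · obtain ⟨c, -, hc⟩ := rr_scal pm (rr_sl B) (e ▸ rπ g)
    exact ⟨c, by rw [hc, Matrix.det_smul, B.2]; simp [sq]⟩
  · obtain ⟨B, -, e⟩ := pm.mem_of_sq (rπ g) hs
    exact ⟨B, e.symm⟩

theorem pi_tz {g : GL (Fin 2) F} (i : IsInv (π g)) : TZ (g : M2 F) := by
  obtain ⟨-, c, -, hc⟩ := pm.of_one (i.1 ▸ (rπ g).mul (rπ g))
  exact ⟨g.det_ne_zero, (trace_zero hc fun a e => i.2 (pm.uniq (rπ g) (e ▸ rr_one.smul fun a0 =>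
    g.det_ne_zero (by simp [e, a0])))).1⟩

theorem pi_comm {g k : GL (Fin 2) F} (i : IsInv (π g)) (j : IsInv (π k)) (c : Commute g k) : π g = π k := by
  have z := pi_tz pm rπ i
  have z' := pi_tz pm rπ j
  obtain ⟨a, b, e⟩ := exists_eq_of_commute (y := (g : M2 F)) (z'.ns pm.two) (congrArg Units.val c.eq)
  have t := z.tr
  rw [e] at t
  simp at t
  obtain rfl : a = 0 := mul_left_cancel₀ pm.two (by linear_combination t - b * z'.tr)
  rw [zero_smul, zero_add] at e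
  exact pm.uniq (rπ g) (e ▸ (rπ k).smul fun b0 => z.det (by simp [e, b0]))

theorem pi_card : Nat.card π.range = Fintype.card F * (Fintype.card F - 1) * (Fintype.card F + 1) := by
  have c := π.ker.card_mul_index
  rw [index_ker, pi_ker pm rπ, Br.card_cen, card_GL2 rfl] at c
  obtain ⟨n, hn⟩ := Nat.exists_eq_add_of_lt (Fintype.one_lt_card (α := F))
  rw [hn] at c ⊢
  refine Nat.eq_of_mul_eq_mul_left (show 0 < 1 + n + 1 - 1 by omega) (c.trans ?_)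
  rw [show (1 + n + 1) ^ 2 - 1 = (n + 1) * (n + 3) from Nat.sub_eq_of_eq_add (by ring),
    show (1 + n + 1) ^ 2 - (1 + n + 1) = (n + 1) * (n + 2) from Nat.sub_eq_of_eq_add (by ring),
    show 1 + n + 1 - 1 = n + 1 by omega]
  ring

end

variable {X Γ : Type u} [Group X] [Finite X] [Group Γ] [Finite Γ] {S : Subgroup X} {c ζ r : X} {m o : ℕ}
  {F : Type} [Field F] [Fintype F] {ι : SL(2, F) →* Γ} {s σ : Γ}

theorem lift_mid (h : CD S c ζ r m o) (cz : ζ ∈ center X) {p : X →* Γ} (ps : Function.Surjective p)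
    (kp : p.ker = zpowers ζ) (pm : PM ι) (dg : DG (S.map p) (p c) s σ m) (hσ : σ ∉ ι.range)
    (cas : (o = 2 ∧ c ^ m = ζ ∧ s = p (c * r) ∧ σ = p r) ∨ (o = m ∧ c ^ m = 1 ∧ s = p r ∧ σ = p (c * r)))
    {π : GL (Fin 2) F →* Γ} (rπ : ∀ g, RR ι (π g) g 1) :
    ∃ P : Prop, ∀ {A : Type v} [Group A] [Finite A] (πA : A →* Γ), πA.range = π.range → πA.ker ≤ center A →
      IsCyclic πA.ker → ∀ η ∈ πA.ker, IsInv η →
      (∀ x g, πA x = π g → TZ (g : M2 F) → ((∃ z ∈ πA.ker, x * x = z * z) ↔ (IsSquare (-(g : M2 F).det) ↔ P))) →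
      (∀ x y g k, πA x = π g → πA y = π k → Commute x y → Commute g k) →
      (4 ∣ Nat.card πA.ker → ∃ k, Odd k ∧ Nat.card π.range = 2 * Nat.card πA.ker * k) →
      ∃ φ : A →* X, (∀ g, p (φ g) = πA g) ∧ φ η = ζ ^ (o / 2) ∧ Odd (Nat.card φ.ker) ∧
        ∀ x, x ∈ φ.range ↔ ∃ g, RR ι (p x) g 1 := by
  have z := h.zs
  have pz : p ζ = 1 := kp.ge (mem_zpowers ζ)
  haveI : ι.range.Normal := ⟨by rintro _ ⟨A, rfl⟩ γ; obtain ⟨B, e⟩ := pm.norm γ A; exact ⟨B, e.symm⟩⟩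
  have dι : p c ^ (m / 2) ∈ ι.range := dg.mn (normalizer_eq_top _).ge fun e => by
    have := (pm.ker (GW.uu 1)).1 (mem_bot.1 (e ▸ ⟨_, rfl⟩))
    rcases this with e | e <;> simpa [GW.uu, coe_sl2] using congrArg (fun A : SL(2, F) => A 0 1) e
  have sι : s ∈ ι.range := by
    obtain ⟨g, e⟩ := isConj_iff.1 dg.cs
    exact e ▸ Normal.conj_mem ‹_› _ dι g
  have is := dg.refl dg.sD dg.sb
  have iσ := dg.refl dg.σD dg.σb
  have iπ : ∀ w, IsInv w → w ∈ π.range := fun w i => (pi_range pm rπ).2 (by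
    obtain ⟨g, r, -⟩ := pm.inv_model dg.r2 i.1 i.2
    exact ⟨g, r⟩)
  have ir : IsInv (p r) ∧ IsInv (p (c * r)) ∧ p r ∉ zpowers (p c) := by
    rcases cas with ⟨-, -, rfl, rfl⟩ | ⟨-, -, rfl, rfl⟩
    exacts [⟨iσ, is, dg.σb⟩, ⟨is, iσ, dg.sb⟩]
  obtain ⟨a, ha⟩ := iπ _ ir.1
  obtain ⟨b, hb⟩ := iπ _ ir.2.1
  obtain ⟨d, hd⟩ := iπ _ dg.id
  have za := pi_tz pm rπ (ha ▸ ir.1)
  have zb := pi_tz pm rπ (hb ▸ ir.2.1)
  have zd := pi_tz pm rπ (hd ▸ dg.id)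
  have k : ∀ g : GL (Fin 2) F, IsSquare (-(g : M2 F).det) ↔ (IsSquare (-1 : F) ↔ π g ∈ ι.range) := fun g => by
    rw [neg_eq_neg_one_mul, sq_mul_iff (neg_ne_zero.2 one_ne_zero) g.det_ne_zero, pi_inner pm rπ]
  have hD : S.map p ≤ π.range := by
    have cm : p c ∈ π.range := by
      rw [show p c = p (c * r) * p r by rw [← map_mul, mul_assoc, z.r2, mul_one]]
      exact mul_mem (iπ _ ir.2.1) (iπ _ ir.1)
    rintro _ ⟨x, hx, rfl⟩
    obtain ⟨i, j, rfl | rfl⟩ := z.mem x hx <;> simp only [map_mul, map_zpow, pz, one_zpow, mul_one]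
    exacts [zpow_mem cm i, mul_mem (zpow_mem cm i) (iπ _ ir.1)]
  refine ⟨IsSquare (-(a : M2 F).det), fun πA e kc cy η ηk iη hs hc cnt => ?_⟩
  obtain ⟨φ, h1, h2, h3, h4⟩ := lift_abs h cz ps kp πA kc cy ηk iη (e ▸ hD) dg.dih dg.ob
    (fun x hx => (hs x a (hx.trans ha.symm) za).2 Iff.rfl)
    (fun x hx => (hs x b (hx.trans hb.symm) zb).not.2 (by
      rw [k, k, ha, hb]
      rcases cas with ⟨-, -, rfl, rfl⟩ | ⟨-, -, rfl, rfl⟩ <;> tauto))
    (fun x hx => (hs x d (hx.trans hd.symm) zd).trans (by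
      rw [k, k, ha, hd]
      rcases cas with ⟨o2, e, rfl, rfl⟩ | ⟨-, e, rfl, rfl⟩
      · have : c ^ m ≠ 1 := fun e' => by
          have := z.oz
          rw [← e, e', orderOf_one] at this
          omega
        tauto
      · tauto))
    (fun x y hx hy cxy => ir.2.2 (by
      rw [← ha, pi_comm pm rπ (ha ▸ ir.1) (hd ▸ dg.id) (hc x y a d (hx.trans ha.symm) (hy.trans hd.symm) cxy), hd]
      exact pow_mem (mem_zpowers _) _)) (e ▸ cnt)
  exact ⟨φ, h1, h2, h3, fun x => by rw [h4, e, pi_range pm rπ]⟩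

theorem realizeEqns_Abg_A4c : True := by

  trivial

end CA.Abg
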