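/-
The preimage of `PGL₂(q)` in `X` is a quotient of `GL₂(q)` or of `GU₂(q)`.
-/
import Cfsg.Agent.Abg.A4c

set_option autoImplicit false
set_option linter.unusedSectionVars false
set_option maxHeartbeats 400000

namespace CA.Abg

open Subgroup Cfsg CA.FG CA.BG CA.GW CA.Dih Cfsg.Agent.Lin Cfsg.Agent.Unit
open scoped MatrixGroups

universe u v

section
variable {F K : Type} [Field F] [Field K] [StarRing K] (a : F →+* K) (ω : K)

/-- `u = l • J⁻¹ g J` with `J = diag(ω, 1)` -/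
def RU (u : GL (Fin 2) K) (g : GL (Fin 2) F) (l : K) : Prop :=
  u 0 0 = l * a (g 0 0) ∧ ω * u 0 1 = l * a (g 0 1) ∧ u 1 0 = l * ω * a (g 1 0) ∧
    u 1 1 = l * a (g 1 1)

variable {a ω} {u v : GL (Fin 2) K} {g k : GL (Fin 2) F} {l l' : K}

theorem RU.mul (w0 : ω ≠ 0) (h : RU a ω u g l) (h' : RU a ω v k l') : RU a ω (u * v) (g * k) (l * l') := by
  obtain ⟨a1, a2, a3, a4⟩ := h
  obtain ⟨b1, b2, b3, b4⟩ := h'
  simp only [RU, Br.mul_ent, map_add, map_mul]
  refine ⟨?_, ?_, ?_, mul_left_cancel₀ w0 ?_⟩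
  · rw [a1, b1, b3]; linear_combination l' * a (k 1 0) * a2
  · rw [a1, b4]; linear_combination l * a (g 0 0) * b2 + l' * a (k 1 1) * a2
  · rw [a3, a4, b1, b3]; ring
  · rw [a3, a4, b4]; linear_combination l * ω * a (g 1 0) * b2

theorem RU.det (h : RU a ω u g l) : (Matrix.GeneralLinearGroup.det u : K) = l * l * a (g : M2 F).det := by
  obtain ⟨a1, a2, a3, a4⟩ := h
  rw [Br.det_ent, Matrix.det_fin_two, map_sub, map_mul, map_mul, a1, a3, a4]
  linear_combination -l * a (g 1 0) * a2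

theorem RU.ne (h : RU a ω u g l) : l ≠ 0 := fun e => (Matrix.GeneralLinearGroup.det u).ne_zero (by rw [h.det, e]; simp)

theorem RU.cen (w0 : ω ≠ 0) (h : RU a ω u g l) : u ∈ center _ ↔ g ∈ center _ := by
  have l0 := h.ne
  obtain ⟨a1, a2, a3, a4⟩ := h
  rw [Br.mem_cen, Br.mem_cen, a1, a3, a4, ← mul_right_inj' w0, a2]
  simp [l0, w0, a.injective.eq_iff]

theorem RU.inj (w0 : ω ≠ 0) (h : RU a ω u g l) (h' : RU a ω v k l) : u = v ↔ g = k := by
  have l0 := h.ne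
  obtain ⟨a1, a2, a3, a4⟩ := h
  obtain ⟨b1, b2, b3, b4⟩ := h'
  refine ⟨fun e => ?_, fun e => ?_⟩
  · subst e
    refine Br.gl_ext (a.injective (mul_left_cancel₀ l0 (a1.symm.trans b1)))
      (a.injective (mul_left_cancel₀ l0 (a2.symm.trans b2)))
      (a.injective (mul_left_cancel₀ (mul_ne_zero l0 w0) (a3.symm.trans b3)))
      (a.injective (mul_left_cancel₀ l0 (a4.symm.trans b4)))
  · subst e
    exact Br.gl_ext (a1.trans b1.symm) (mul_left_cancel₀ w0 (a2.trans b2.symm)) (a3.trans b3.symm) (a4.trans b4.symm)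

theorem RU.mem (w0 : ω ≠ 0) (sw : star ω = -ω) (sa : ∀ x, star (a x) = a x) (h : RU a ω u g l) :
    u ∈ Bu.U2 K ↔ l * star l * a (g : M2 F).det = 1 := by
  have l0 := h.ne
  have d := h.det
  obtain ⟨a1, a2, a3, a4⟩ := h
  have s2 := congrArg star a2
  rw [Bu.mem_U2', d, a1, a3, a4]
  simp only [star_mul', sa, sw] at s2 ⊢
  refine ⟨fun ⟨b1, b2, _, _⟩ => ?_, fun e => ⟨by linear_combination l * a (g 0 0) * e, mul_left_cancel₀ w0 ?_,
    by linear_combination -l * ω * a (g 1 0) * e, by linear_combination l * a (g 1 1) * e⟩⟩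
  · by_contra e
    have c1 : a (g 0 0) = 0 := mul_left_cancel₀ (mul_ne_zero l0 (sub_ne_zero.2 e)) (by linear_combination b1)
    have c2 : a (g 0 1) = 0 := mul_left_cancel₀ (mul_ne_zero l0 (sub_ne_zero.2 e)) (by
      linear_combination -ω * b2 - l * l * a (g : M2 F).det * s2 + a2)
    exact Br.dne g (by rw [(map_eq_zero a).1 c1, (map_eq_zero a).1 c2]; ring)
  · linear_combination -l * l * a (g : M2 F).det * s2 - l * a (g 0 1) * e + a2

theorem exists_RU (w0 : ω ≠ 0) (g : GL (Fin 2) F) (l0 : l ≠ 0) : ∃ u, RU a ω u g l :=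
  ⟨Br.mk2 (l * a (g 0 0)) (l * a (g 0 1) / ω) (l * ω * a (g 1 0)) (l * a (g 1 1)) (by
    have := mul_ne_zero (mul_ne_zero l0 l0) ((map_ne_zero a).2 (Br.dne g))
    convert this using 1
    simp only [map_sub, map_mul]; field_simp), rfl, mul_div_cancel₀ _ w0, rfl, rfl⟩

theorem exists_RU' {q : ℕ} (fq : FQ K q) (w0 : ω ≠ 0) (sw : star ω = -ω) (sa : ∀ x, star x = x → ∃ y, a y = x)
    (hu : u ∈ Bu.U2 K) : ∃ g l, RU a ω u g l := by
  obtain ⟨l, hl⟩ := Bu.hilb90 fq (Bu.det_norm hu)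
  obtain ⟨b1, b2, b3, b4⟩ := Bu.mem_U2'.1 hu
  have l0 := l.ne_zero
  have s0 : star (l : K) ≠ 0 := by simpa using l0
  rw [← hl] at b1 b2 b3 b4
  simp only [Units.val_mul, Units.val_inv_eq_inv_val, Units.coe_star] at b1 b2 b3 b4
  obtain ⟨x, hx⟩ := sa (u 0 0 / l) (by
    rw [star_div₀, div_eq_div_iff s0 l0]; field_simp at b1; linear_combination b1)
  obtain ⟨y, hy⟩ := sa (ω * u 0 1 / l) (by
    rw [star_div₀, star_mul', sw, div_eq_div_iff s0 l0]; field_simp at b2; linear_combination -ω * b2)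
  obtain ⟨z, hz⟩ := sa (u 1 0 / (l * ω)) (by
    rw [star_div₀, star_mul', sw, div_eq_div_iff (mul_ne_zero s0 (neg_ne_zero.2 w0)) (mul_ne_zero l0 w0)]
    field_simp at b3; linear_combination ω * b3)
  obtain ⟨w, hw⟩ := sa (u 1 1 / l) (by
    rw [star_div₀, div_eq_div_iff s0 l0]; field_simp at b4; linear_combination b4)
  refine ⟨Br.mk2 x y z w fun e => Br.dne u ?_, l, ?_, ?_, ?_, ?_⟩
  · have := congrArg a e
    rw [map_sub, map_mul, map_mul, hx, hy, hz, hw, map_zero] at this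
    field_simp at this
    linear_combination this
  · change _ = _ * a x; rw [hx]; field_simp
  · change _ = _ * a y; rw [hy]; field_simp
  · change _ = _ * a z; rw [hz]; field_simp
  · change _ = _ * a w; rw [hw]; field_simp

theorem exists_piU {Γ : Type u} [Group Γ] {π : GL (Fin 2) F →* Γ} (kπ : π.ker = center _) {q : ℕ} (fq : FQ K q)
    (w0 : ω ≠ 0) (sw : star ω = -ω) (sa : ∀ x, star (a x) = a x) (sa' : ∀ x, star x = x → ∃ y, a y = x) :
    ∃ πU : Bu.U2 K →* Γ, πU.range = π.range ∧ πU.ker = (center _).subgroupOf _ ∧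
      ∀ u g, πU u = π g → ∃ k l, RU a ω u k l ∧ π k = π g := by
  choose f l hf using fun u : Bu.U2 K => exists_RU' fq w0 sw sa' u.2
  have wd : ∀ (u : Bu.U2 K) g l, RU a ω u g l → π (f u) = π g := fun u g l h => by
    have k : ∀ g l, RU a ω u g l → π (g * f u⁻¹) = 1 := fun g l h =>
      kπ.ge (((h.mul w0 (hf u⁻¹)).cen w0).1 (by simp))
    exact mul_right_cancel (by rw [← map_mul, ← map_mul, k _ _ h, k _ _ (hf u)])
  refine ⟨MonoidHom.mk' (fun u => π (f u)) fun u v => by rw [← map_mul]; exact wd _ _ _ ((hf u).mul w0 (hf v)),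
    le_antisymm (by rintro _ ⟨u, rfl⟩; exact ⟨_, rfl⟩) ?_, Subgroup.ext fun u => ?_, fun u g e => ⟨_, _, hf u, e⟩⟩
  · rintro _ ⟨g, rfl⟩
    have d0 : a (g : M2 F).det ≠ 0 := (map_ne_zero a).2 g.det_ne_zero
    obtain ⟨l, hl⟩ := fq.exists_norm_eq (c := (a (g : M2 F).det)⁻¹) (by rw [star_inv₀, sa])
    obtain ⟨u, hu⟩ := exists_RU (a := a) w0 g (left_ne_zero_of_mul (hl ▸ inv_ne_zero d0))
    exact ⟨⟨u, (hu.mem w0 sw sa).2 (by rw [hl, inv_mul_cancel₀ d0])⟩, wd _ _ _ hu⟩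
  · exact (kπ ▸ Iff.rfl : π (f u) = 1 ↔ f u ∈ center _).trans ((hf u).cen w0).symm

end

theorem gl_sq {F : Type*} [Field F] [Fintype F] {x : GL (Fin 2) F} (t : x 0 0 + x 1 1 = 0) (z : Fˣ) :
    x * x = Br.dg z z * Br.dg z z ↔ -(Matrix.GeneralLinearGroup.det x : F) = z * z := by
  have e := TZ.sq (g := (x : M2 F)) ⟨x.det_ne_zero, t⟩
  rw [← Units.val_inj, Units.val_mul, e, Br.dg_mul]
  refine ⟨fun h => by simpa using congrFun (congrFun h 0) 0, fun h => ?_⟩
  rw [Matrix.GeneralLinearGroup.val_det_apply] at h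
  apply m2_ext <;> simp [h]

theorem cyc_cen {F : Type*} [Field F] [Finite F] : IsCyclic (center (GL (Fin 2) F)) :=
  isCyclic_of_surjective ((Br.dgH.comp ((MonoidHom.id Fˣ).prod (MonoidHom.id Fˣ))).codRestrict _ Br.dg_cen)
    fun ⟨_, hg⟩ => let ⟨a, e⟩ := Br.mem_cen'.1 hg; ⟨a, Subtype.ext e.symm⟩

theorem lift_model {X Γ : Type u} [Group X] [Finite X] [Group Γ] [Finite Γ] {S : Subgroup X} {c ζ r : X} {m o : ℕ}
    (h : CD S c ζ r m o) (cz : ζ ∈ center X) {p : X →* Γ} (ps : Function.Surjective p) (kp : p.ker = zpowers ζ)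
    {F : Type} [Field F] [Fintype F] {ι : SL(2, F) →* Γ} (pm : GW.PM ι) {s σ : Γ} (dg : DG (S.map p) (p c) s σ m)
    (hσ : σ ∉ ι.range)
    (cas : (o = 2 ∧ c ^ m = ζ ∧ s = p (c * r) ∧ σ = p r) ∨ (o = m ∧ c ^ m = 1 ∧ s = p r ∧ σ = p (c * r))) :
    (∃ φ : GL (Fin 2) F →* X, Br.BK φ ∧ Br.tt φ = ζ ^ (o / 2) ∧ (∀ g, RR ι (p (φ g)) g 1) ∧
      ∀ x, x ∈ φ.range ↔ ∃ g, RR ι (p x) g 1) ∨
    (∃ (K : Type) (_ : Field K) (_ : StarRing K) (φ : Bu.U2 K →* X), Bu.UK φ (Fintype.card F) ∧ Bu.tt φ = ζ ^ (o / 2) ∧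
      ∀ x, x ∈ φ.range ↔ ∃ g, RR ι (p x) g 1) := by
  obtain ⟨π, rπ⟩ := exists_pi pm (pgl_of pm dg.r2 (dg.refl dg.σD dg.σb) hσ)
  have kπ := pi_ker pm rπ
  have cπ := pi_card pm rπ
  have oq := Nat.odd_iff.2 (odd_card pm.two)
  have q1 := Fintype.one_lt_card (α := F)
  have cmm : ∀ x g : GL (Fin 2) F, π x = π g → ∃ z : Fˣ, x = Br.dg z z * g := fun x g e => by
    obtain ⟨z, hz⟩ := Br.mem_cen'.1 (kπ.le (show π (x * g⁻¹) = 1 by rw [map_mul, map_inv, e, mul_inv_cancel]))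
    exact ⟨z, by rw [← hz, inv_mul_cancel_right]⟩
  have hc : ∀ x y g k : GL (Fin 2) F, π x = π g → π y = π k → Commute x y → Commute g k := fun x y g k e e' cxy => by
    obtain ⟨z, rfl⟩ := cmm g x e.symm
    obtain ⟨w, rfl⟩ := cmm k y e'.symm
    exact Commute.mul_left (Br.dg_comm z _).symm (Commute.mul_right (Br.dg_comm w _) cxy)
  have tz : ∀ x g : GL (Fin 2) F, π x = π g → TZ (g : M2 F) → TZ (x : M2 F) ∧
      (IsSquare (-(x : M2 F).det) ↔ IsSquare (-(g : M2 F).det)) := fun x g e z => by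
    obtain ⟨w, rfl⟩ := cmm x g e
    refine ⟨⟨Matrix.GeneralLinearGroup.det_ne_zero _, ?_⟩, ?_⟩
    · simp only [Br.mul_ent, Br.dg_val]
      simp
      linear_combination w * z.tr
    · rw [Units.val_mul, Matrix.det_mul, ← mul_neg, sq_mul_iff (Matrix.GeneralLinearGroup.det_ne_zero _)
        (neg_ne_zero.2 z.det)]
      simp
  obtain ⟨P, H⟩ := lift_mid.{u, 0} h cz ps kp pm dg hσ cas rπ
  by_cases hP : P
  · have n1 : Br.dg (-1 : Fˣ) (-1) ≠ 1 := fun e => pm.two (by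
      have : (-1 : F) = 1 := by simpa using congrArg (fun g : GL (Fin 2) F => g 0 0) e
      linear_combination -this)
    obtain ⟨φ, h1, h2, h3, h4⟩ := H π rfl kπ.le (kπ ▸ cyc_cen) (Br.dg (-1) (-1)) (kπ.ge (Br.dg_cen _))
      ⟨by simp [Br.dg_mul, Br.dg_one], n1⟩ (fun x g e z => by
        obtain ⟨zx, e'⟩ := tz x g e z
        rw [← e', iff_true_right hP, kπ]
        refine ⟨fun ⟨w, hw, e⟩ => ?_, fun ⟨w, e⟩ => ?_⟩
        · obtain ⟨a, rfl⟩ := Br.mem_cen'.1 hw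
          exact ⟨a, (gl_sq zx.tr a).1 e⟩
        · have w0 : w ≠ 0 := by rintro rfl; exact zx.det (by simpa using e)
          exact ⟨_, Br.dg_cen (Units.mk0 w w0), (gl_sq zx.tr _).2 e⟩) hc (fun d => by
        rw [kπ, Br.card_cen] at d ⊢
        obtain ⟨n, hn⟩ := d
        rw [cπ, hn, show Fintype.card F = 4 * n + 1 by omega]
        exact ⟨(4 * n + 1) * (2 * n + 1), ⟨4 * n * n + 3 * n, by ring⟩, by ring⟩)
    exact .inl ⟨φ, ⟨oq, fun g e => kπ.le (by rw [MonoidHom.mem_ker, ← h1, show φ g = 1 from e, map_one]), h3⟩, h2,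
      fun g => h1 g ▸ rπ g, h4⟩
  obtain ⟨ε, hε⟩ := FiniteField.exists_nonsquare (F := F) fun e =>
    pm.two (by simpa [e] using ringChar.Nat.cast_ringChar (R := F))
  haveI : Fact (∀ r : F, r ^ 2 ≠ ε + 0 * r) := ⟨fun r e => hε ⟨r, by linear_combination -e⟩⟩
  have fq := fq_QA ε 0
  let ω : QuadraticAlgebra F ε 0 := QuadraticAlgebra.omega
  let a := algebraMap F (QuadraticAlgebra F ε 0)
  have w0 : ω ≠ 0 := fun e => by simpa [ω] using congrArg QuadraticAlgebra.im e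
  have sw : star ω = -ω := by ext <;> simp [ω]
  have ww : ω * ω = a ε := by ext <;> simp [ω, a]
  have sa : ∀ x, star (a x) = a x := fun x => by ext <;> simp [a]
  have sa' : ∀ x, star x = x → ∃ y, a y = x := fun x e => ⟨x.re, by
    have := congrArg QuadraticAlgebra.im e
    ext <;> simp [a] at this ⊢
    exact mul_left_cancel₀ pm.two (by linear_combination this)⟩
  refine .inr ⟨QuadraticAlgebra F ε 0, inferInstance, inferInstance, ?_⟩
  obtain ⟨πU, rU, kU, hU⟩ := exists_piU kπ fq w0 sw sa sa'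
  have two : (2 : QuadraticAlgebra F ε 0) ≠ 0 := map_ofNat a 2 ▸ (map_ne_zero a).2 pm.two
  have n1 : Bu.tU (QuadraticAlgebra F ε 0) ≠ 1 := fun e => two (by
    have : (-1 : QuadraticAlgebra F ε 0) = 1 := by simpa using congrArg (fun g : Bu.U2 _ => g.1 0 0) e
    linear_combination -this)
  obtain ⟨φ, h1, h2, h3, h4⟩ := H πU rU (fun x e => mem_center_iff.2 fun y => (Bu.cen_comm (kU.le e) y).symm)
    (kU ▸ haveI := cyc_cen (F := QuadraticAlgebra F ε 0); isCyclic_of_injective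
      ((Subgroup.subtype _).subgroupComap _) fun _ _ e => Subtype.ext (Subtype.ext (Subtype.ext_iff.1 e :)))
    (Bu.tU _) (kU.ge (Br.dg_cen _)) ⟨Bu.tU_mul, n1⟩ (fun x g e z => by
      obtain ⟨k, l, R, e⟩ := hU x g e
      obtain ⟨zk, e'⟩ := tz k g e z
      have N := (R.mem w0 sw sa).1 x.2
      have l0 := R.ne
      have t : x.1 0 0 + x.1 1 1 = 0 := by rw [R.1, R.2.2.2, ← mul_add, ← map_add, zk.tr, map_zero, mul_zero]
      have k1 : ∀ w, x.1 * x.1 = Br.dg w w * Br.dg w w ↔ -(l * l * a (k : M2 F).det) = w * w := fun w => by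
        have := Fintype.ofFinite (QuadraticAlgebra F ε 0)
        rw [gl_sq t, R.det]
      rw [← e', iff_false_right hP, kU]
      refine ⟨fun ⟨w, hw, e⟩ ⟨y, hy⟩ => ?_, fun ns => ?_⟩
      · obtain ⟨b, hb⟩ := Br.mem_cen'.1 (show w.1 ∈ _ from hw)
        have nb := Bu.dg_U2.1 (hb ▸ w.2)
        have e := (k1 b).1 (by rw [← hb]; exact congrArg Subtype.val e)
        have hy := congrArg a hy
        rw [map_neg, map_mul] at hy
        have : (b : QuadraticAlgebra F ε 0) * star (b : QuadraticAlgebra F ε 0) = l * star l * (a y * a y) := by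
          rcases mul_self_eq_mul_self_iff.1 (show (b : QuadraticAlgebra F ε 0) * b = l * a y * (l * a y) by
            linear_combination -e + l * l * hy) with e | e <;> rw [e] <;> simp only [star_neg, star_mul', sa] <;> ring
        exact two (by linear_combination -N - nb + this - l * star l * hy)
      · have e0 : ε ≠ 0 := by rintro rfl; exact hε IsSquare.zero
        obtain ⟨y, hy⟩ := (sq_mul_iff (neg_ne_zero.2 zk.det) e0).2 (iff_of_false ns hε)
        have hy := congrArg a hy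
        rw [map_mul, map_neg, map_mul, ← ww] at hy
        have y0 : a y ≠ 0 := fun e => mul_ne_zero (neg_ne_zero.2 ((map_ne_zero a).2 zk.det)) (mul_ne_zero w0 w0)
          (by rw [hy, e, mul_zero])
        let b := Units.mk0 (l * a y / ω) (div_ne_zero (mul_ne_zero l0 y0) w0)
        refine ⟨⟨Br.dg b b, Bu.dg_U2.2 ?_⟩, Br.dg_cen b, Subtype.ext ((k1 b).2 ?_)⟩
        · simp only [b, Units.val_mk0, star_div₀, star_mul', sa, sw]
          field_simp
          linear_combination ω * ω * N + l * star l * hy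
        · simp only [b, Units.val_mk0]
          field_simp
          linear_combination hy)
    (fun x y g k e e' cxy => by
      obtain ⟨g', l, R, e⟩ := hU x g e
      obtain ⟨k', l', R', e'⟩ := hU y k e'
      exact hc _ _ _ _ e e' (((R.mul w0 R').inj w0 (mul_comm l' l ▸ R'.mul w0 R)).1 (congrArg Subtype.val cxy.eq)))
    (fun d => by
      rw [kU, Bu.card_Z0 fq] at d ⊢
      obtain ⟨n, hn⟩ := d
      obtain ⟨n, rfl⟩ : ∃ k, n = k + 1 := ⟨n - 1, by omega⟩
      rw [cπ, show Fintype.card F = 4 * n + 3 by omega, show 4 * n + 3 - 1 = 4 * n + 2 from rfl]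
      exact ⟨(4 * n + 3) * (2 * n + 1), ⟨4 * n * n + 5 * n + 1, by ring⟩, by ring⟩)
  exact ⟨φ, ⟨fq, oq, fun g e => kU.le (by rw [MonoidHom.mem_ker, ← h1, e, map_one]), h3⟩, h2, h4⟩

theorem realizeEqns_Abg_A4 : True := by
  have := @CA.Abg.RU.eq_1
  have := @CA.Abg.RU.eq_def
  have := @CA.Abg.RU.congr_simp
  trivial

end CA.Abg
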