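/-
Construction of the model of `C(t)`.
-/
import Cfsg.Agent.Abg.A6
import Cfsg.Agent.Br.Base2
import Cfsg.Agent.Bu.Base2

set_option autoImplicit false
set_option linter.unusedSectionVars false

namespace CA.Abg

open Subgroup Cfsg CA.FG CA.BG CA.GW CA.GW.BA CA.Dih
open scoped MatrixGroups commutatorElement

universe u

variable {G X Γ : Type u} [Group G] [Finite G] [Group X] [Group Γ] [Finite X] [Finite Γ] {F : Type} [Field F] [Fintype F]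

/-- the linear elements: `PGL₂(q) ≤ Γ` -/
def G0 (ι : SL(2, F) →* Γ) : Subgroup Γ where
  carrier := {γ | ∃ g, RR ι γ g 1}
  one_mem' := ⟨1, rr_one⟩
  mul_mem' := fun ⟨g, r⟩ ⟨k, r'⟩ => ⟨_, by simpa using r.mul r'⟩
  inv_mem' := fun {a} ⟨g, r⟩ => ⟨_, by
    have := r.pow_one (orderOf a - 1)
    rwa [show a ^ (orderOf a - 1) = a⁻¹ from eq_inv_of_mul_eq_one_left (by
      rw [← pow_succ, Nat.sub_add_cancel (orderOf_pos a), pow_orderOf_eq_one])] at this⟩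

theorem range_le_G0 (ι : SL(2, F) →* Γ) : ι.range ≤ G0 ι := by rintro _ ⟨A, rfl⟩; exact ⟨_, rr_sl A⟩

theorem G0_normal {ι : SL(2, F) →* Γ} (pm : PM ι) : (G0 ι).Normal := ⟨fun a ha g => by
  simpa [commutatorElement_def] using mul_mem (range_le_G0 ι (pm.comm_mem g a)) ha⟩

theorem G0_odd {ι : SL(2, F) →* Γ} (pm : PM ι) {x y : Γ} (hx : x ∈ G0 ι) (hy : y ∈ zpowers x) (oy : IsPiElt {2}ᶜ y) :
    y ∈ ι.range := by
  obtain ⟨g, r⟩ := zpowers_le.2 hx hy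
  obtain ⟨B, -, hB⟩ := pm.mem_of_sq (r.pow_one 2) (s := g.det) (by rw [Matrix.det_pow, pow_two])
  obtain ⟨n, hn⟩ := exists_pow_eq_self_of_coprime (x := y) (n := 2)
    ((Nat.Prime.coprime_iff_not_dvd Nat.prime_two).2 fun e => oy 2 Nat.prime_two e rfl)
  exact hn ▸ pow_mem (show y ^ 2 ∈ ι.range from ⟨B, hB.symm⟩) n

variable {t u w j : G} {S : Subgroup G} {f : (𝒞[t] : Subgroup G) →* X} {p : X →* Γ} {ι : SL(2, F) →* Γ} {ζ : X}

theorem MD.adj (h : MD t u w j S f p ι ζ) (c : (𝒞[t] : Subgroup G)) (x : X) :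
    MD t (c * u * (c : G)⁻¹) (c * w * (c : G)⁻¹) (c * j * (c : G)⁻¹) (S :^ (c : G))
      ((MulAut.conj x).toMonoidHom.comp f) p ι ζ := by
  have ct : c * t * (c : G)⁻¹ = t := mul_inv_eq_iff_eq_mul.2 (mem_centralizer_singleton_iff.1 c.2)
  have cz : ∀ y, ∀ z ∈ zpowers ζ, y * z * y⁻¹ = z := fun y z hz => by
    rw [mem_center_iff.1 (zpowers_le.2 h.cz hz), mul_inv_cancel_right]
  refine ⟨by simpa only [ct] using h.lh.conj c, h.syl.conjg_of_mem trivial,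
    conjg_le_of_mem h.SC c.2, conj_mem_conjg _ h.uS, conj_mem_conjg _ h.wS, conj_mem_conjg _ h.jS,
    (MulAut.conj x).surjective.comp h.fs, fun y => by simp [h.kf], h.ps, h.kp, h.cz, h.z2, ?_,
    fun y e => by simp [h.tz y e], fun z hz e => (h.zt z hz e).imp_right fun ⟨y, e, e'⟩ => ⟨y, e, by
      simp [← e', cz x z hz]⟩, h.pm, h.r2, h.O1, h.pgl, h.q5.imp_right fun ⟨a, l5, e⟩ => ⟨a, by
      simpa only [ct] using l5.conj c, ?_⟩⟩
  · obtain ⟨s, hs, e⟩ := mem_img.1 h.zS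
    exact mem_img.2 ⟨c * s * c⁻¹, conj_mem_conjg _ hs, by simp [e, cz _ ζ (mem_zpowers ζ)]⟩
  · have := LL_conj t (u * w) c
    rw [ct, conjg_of_mem_norm (LL_norm _ _ c.2), ← cj_mul] at this
    rw [← this, ← conjg_of_mem_norm (a.norm (mem_top (p x))), ← e]
    ext y
    simp only [mem_img, mem_conjg]
    refine exists_congr fun z => and_congr_right fun _ => ?_
    simp only [MonoidHom.comp_apply, MulEquiv.coe_toMonoidHom, MulAut.conj_apply, map_mul, map_inv]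
    exact ⟨fun e => by rw [← e]; group, fun e => by rw [e]; group⟩

theorem mk_of (h : MD t u w j S f p ι ζ) (two : ∀ x, IsPiElt {2} x → p (f x) ∈ G0 ι)
    (sy : ∀ g : (𝒞[t] : Subgroup G), ∃ n, p (f n) ∈ G0 ι ∧ ¬ 2 ∣ (𝒞[(g : G) * n]).relIndex 𝒞[t]) {Y : Subgroup X}
    (hY : ∀ x, x ∈ Y ↔ p x ∈ G0 ι) {tN uN : Y} (ht : ∀ x : (𝒞[t] : Subgroup G), (x : G) = t → f x = tN)
    (hu : f ⟨u, h.lh.uC⟩ = uN) : ∃ (C0 : Subgroup G) (κ : C0 →* Y), MK t u w S f p ι C0 κ Y.subtype tN uN := by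
  haveI := G0_normal h.pm
  have pc : ∀ {π : Set ℕ} {a : (𝒞[t] : Subgroup G)}, IsPiElt π (a : G) → IsPiElt π a := fun e => by
    simpa [IsPiElt, ← orderOf_coe] using e
  have le := pre_le f Y
  have mem : ∀ x : (𝒞[t] : Subgroup G), (x : G) ∈ pre f Y ↔ p (f x) ∈ G0 ι := fun x => coe_mem_pre.trans (hY _)
  let κ : pre f Y →* Y := (f.comp (inclusion le)).codRestrict Y fun m => (coe_mem_pre (f := f) (x := inclusion le m)).1 m.2
  have ker : ∀ m, κ m = 1 ↔ (m : G) ∈ UU t := fun m => Subtype.ext_iff.trans (h.kf _)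
  have m2 : ∀ x ∈ 𝒞[t], IsPiElt {2} x → x ∈ pre f Y := fun x hx x2 => (mem ⟨x, hx⟩).2 (two _ (pc x2))
  have SC0 : S ≤ pre f Y := fun s hs => m2 s (h.SC hs) (h.syl.piGrp.piElt hs)
  have n0 : 𝒞[t] ≤ 𝒩(pre f Y) := le_norm_pre le_rfl (le_top.trans (normalizer_eq_top_iff.2 ⟨fun a ha g =>
    (hY _).2 (by simpa using Normal.conj_mem ‹_› _ ((hY a).1 ha) (p g))⟩).ge)
  have LC0 : LL t (u * w) ≤ pre f Y := LL_le n0 (m2 _ h.lh.iC h.lh.i_two)
  have KC0 : UU t ≤ pre f Y := fun k hk => (mem ⟨k, UU_le t hk⟩).2 (by rw [(h.kf _).2 hk, map_one]; exact one_mem _)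
  have tC : t ∈ 𝒞[t] := mem_centralizer_singleton_iff.2 rfl
  have nL : S ≤ 𝒩(LL t (u * w)) := h.SC.trans (LL_norm _ _)
  refine ⟨pre f Y, κ, ⟨h.lh.it.1, h.lh.iu.1, le, fun a ha b hb => (mem ⁅(⟨a, ha⟩ : (𝒞[t] : Subgroup G)), ⟨b, hb⟩⁆).2 (by
      rw [map_commutatorElement, map_commutatorElement]; exact range_le_G0 ι (h.pm.comm_mem _ _)),
    Nat.not_even_iff_odd.1 fun e => IsSylowOf.not_dvd_index (h.syl.of_le h.SC le_top) Nat.prime_two
      (e.two_dvd.trans (relIndex_dvd_of_le_left _ SC0)), fun g hg => ?_, fun y => ?_, ?_, m2 t tC h.lh.it.two,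
    SC0 h.uS, Subtype.ext (ht _ rfl), Subtype.ext hu, fun i i2 i1 => isConj_iff.2 (h.lh.one i ⟨i2, i1⟩)⟩, ker, mem,
    subtype_injective _, fun m => rfl, SC0, LC0, KC0, fun q3 n => ?_, fun x hx => ?_⟩
  · obtain ⟨n, hn, e⟩ := sy ⟨g, hg⟩
    exact ⟨n, (mem n).2 hn, e⟩
  · obtain ⟨x, hx⟩ := h.fs y
    exact ⟨⟨x, coe_mem_pre.2 (hx ▸ y.2)⟩, Subtype.ext hx⟩
  · rw [show κ.ker = (UU t).subgroupOf _ from Subgroup.ext ker, Nat.card_congr (subgroupOfEquivOfLe KC0).toEquiv]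
    exact Nat.not_even_iff_odd.1 fun e => UU_odd t 2 Nat.prime_two e.two_dvd rfl
  · obtain ⟨a, -, eL⟩ := h.q5.resolve_left q3
    have sup := sup_le LC0 SC0
    have hS : IsSylowOf 2 (img (p.comp f) S) ⊤ := by
      simpa [img_dom, MonoidHom.range_eq_top.2 (show Function.Surjective (p.comp f) from h.ps.comp h.fs)] using
        (h.syl.of_le h.SC le_top).img (f := p.comp f) le_rfl
    obtain ⟨y, hy, e⟩ : p n ∈ img (p.comp f) (LL t (u * w) ⊔ S) := by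
      rw [img_sup (LC0.trans le) h.SC, eL]
      obtain ⟨y, z, my, mz, p2, p3, e, -⟩ := exists_piPart {2} (p n)
      obtain ⟨d, -, hd⟩ := sylow_Jsub Nat.prime_two hS (piGrp_zpowers_iff.2 p2) le_top
      rw [e, show y = ⁅y, d⁆ * (d * y * d⁻¹) by rw [commutatorElement_def]; group]
      exact mul_mem (mul_mem (mem_sup_left (h.pm.comm_mem _ _)) (mem_sup_right (hd (conj_mem_conjg d (mem_zpowers y)))))
        (mem_sup_left (G0_odd h.pm ((hY _).1 n.2) mz p3))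
    obtain ⟨s, hs, e'⟩ := zpowers_le.2 h.zS (h.kp.le (show (f y)⁻¹ * n ∈ p.ker by simp [← e]))
    have m : ((y * s : (𝒞[t] : Subgroup G)) : G) ∈ LL t (u * w) ⊔ S := mul_mem hy (mem_sup_right hs)
    exact ⟨⟨_, sup m⟩, m, Subtype.ext (show f (y * s) = n by rw [map_mul, e', mul_inv_cancel_left])⟩
  · obtain ⟨l, hl, s, hs, rfl⟩ := (mem_sup_of_right_le_norm nL).1 hx.1
    have nl : l ∈ 𝒩(LL t (u * w)) := le_normalizer hl
    refine (coset_eq_one_iff (x := ⟨l, nl⟩ * ⟨s, nL hs⟩)).1 (IsPiElt.eq_one (π := {2}) ?_ (IsPiElt.map ?_ _))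
    · rw [map_mul, coset_eq_one_iff.2 hl, one_mul]
      exact IsPiElt.map (by simpa [IsPiElt, ← orderOf_coe] using h.syl.piGrp.piElt hs) _
    · simpa [IsPiElt, ← orderOf_coe] using (UU_odd t).piElt hx.2

/-- the lifting statement -/
def LiftP : Prop := ∀ {X Γ : Type u} [Group X] [Finite X] [Group Γ] [Finite Γ] {S : Subgroup X} {c ζ r : X} {m o : ℕ},
  CD S c ζ r m o → ζ ∈ center X → ∀ {p : X →* Γ}, Function.Surjective p → p.ker = zpowers ζ →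
  ∀ {F : Type} [Field F] [Fintype F] {ι : SL(2, F) →* Γ}, PM ι → ∀ {s σ : Γ}, DG (S.map p) (p c) s σ m → σ ∉ ι.range →
  ((o = 2 ∧ c ^ m = ζ ∧ s = p (c * r) ∧ σ = p r) ∨ (o = m ∧ c ^ m = 1 ∧ s = p r ∧ σ = p (c * r))) →
  (∃ φ : GL (Fin 2) F →* X, Br.BK φ ∧ Br.tt φ = ζ ^ (o / 2) ∧ (∀ g, RR ι (p (φ g)) g 1) ∧
      ∀ x, x ∈ φ.range ↔ ∃ g, RR ι (p x) g 1) ∨
    ∃ (K : Type) (_ : Field K) (_ : StarRing K) (φ : Bu.U2 K →* X), Bu.UK φ (Fintype.card F) ∧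
      Bu.tt φ = ζ ^ (o / 2) ∧ ∀ x, x ∈ φ.range ↔ ∃ g, RR ι (p x) g 1

/-- all the local data at a given four-group -/
def ModelAt (t u : G) : Prop := ∃ (w j : G) (S : Subgroup G) (X Γ N : Type u) (_ : Group X) (_ : Group Γ)
  (_ : Group N) (_ : Finite X) (_ : Finite Γ) (_ : Finite N) (F : Type) (_ : Field F) (_ : Fintype F)
  (f : (𝒞[t] : Subgroup G) →* X) (p : X →* Γ) (ι : SL(2, F) →* Γ) (ζ : X) (C0 : Subgroup G) (κ : C0 →* N) (e : N →* X)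
  (tN uN : N), MD t u w j S f p ι ζ ∧ MK t u w S f p ι C0 κ e tN uN ∧ NM p ι e tN uN ∧ HasDih Γ

theorem model_zs (H : LiftP.{u}) [IsSimpleGroup G] (nab : ¬ IsMulCommutative G) {c ζ r t : G} {m o : ℕ}
    (z : ZS S c ζ r m o) (hS : IsSylowOf 2 S ⊤) (ht : ζ ^ (o / 2) = t) :
    (∀ a, IsInv a → ∃ g, g * t * g⁻¹ = a) ∧ (∃ b ∈ 𝒞[t], IsInv b ∧ b ≠ t) ∧
      ∀ b ∈ 𝒞[t], IsInv b → b ≠ t → ModelAt t b := by
  subst ht
  have cd := exists_cd nab z hS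
  have SC := z.SC
  have it := z.tinv
  have ht : ((⟨ζ, SC z.zS⟩ ^ (o / 2) : (𝒞[ζ ^ (o / 2)] : Subgroup G)) : G) = ζ ^ (o / 2) := rfl
  generalize (⟨c, SC z.cS⟩ : (𝒞[ζ ^ (o / 2)] : Subgroup G)) = c' at cd
  generalize (⟨r, SC z.rS⟩ : (𝒞[ζ ^ (o / 2)] : Subgroup G)) = r' at cd
  generalize (⟨ζ, SC z.zS⟩ : (𝒞[ζ ^ (o / 2)] : Subgroup G)) = ζ' at cd ht
  generalize ζ ^ (o / 2) = t at *
  clear z c ζ r
  rename' c' => c, r' => r, ζ' => ζ
  have z := cd.zs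
  haveI := normal_subgroupOf_of_le_normalizer (UU_norm t)
  let f := QuotientGroup.mk' ((UU t).subgroupOf 𝒞[t])
  have fs : Function.Surjective f := QuotientGroup.mk'_surjective _
  have kf : f.ker = (UU t).subgroupOf 𝒞[t] := QuotientGroup.ker_mk' _
  have ok : IsPiGrp {2}ᶜ f.ker := by rw [kf]; exact (UU_odd t).subgroupOf _
  have cX := cd.map f fs ok
  have O1 : OO (⊤ : Subgroup (𝒞[t] ⧸ (UU t).subgroupOf 𝒞[t])) = ⊥ := by
    have := pcore_map_of_ker (H := ⊤) le_top ok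
    rw [map_top_of_surjective f fs, ← subgroupOf_self, ← pcore_subgroupOf _ le_rfl] at this
    exact this.symm.trans ((Subgroup.map_eq_bot_iff _).2 kf.ge)
  have cz := cX.central O1
  haveI : (zpowers (f ζ)).Normal := ⟨fun a ha g => by
    rwa [mem_center_iff.1 (zpowers_le.2 cz ha) g, mul_inv_cancel_right]⟩
  let p := QuotientGroup.mk' (zpowers (f ζ))
  have ps : Function.Surjective p := QuotientGroup.mk'_surjective _
  have kp : p.ker = zpowers (f ζ) := QuotientGroup.ker_mk' _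
  have qq : QQ f p (f ζ) (ζ ^ (o / 2)) := ⟨ok, fs, ps, kp, cz, cX.syl.piGrp.piElt cX.zs.zS, fun y hy e => by
    by_cases y1 : y = 1
    exacts [.inl y1, .inr (by rw [cX.zs.invZ hy ⟨e, y1⟩, map_pow])]⟩
  obtain ⟨u, w, j, s, σ, uw, uS, wS, jS, dg, cas, ha, lw⟩ : ∃ u w j s σ, UW (ζ ^ (o / 2)) u w j ∧ (u : G) ∈ S ∧
      (w : G) ∈ S ∧ (j : G) ∈ S ∧ DG (((S.subgroupOf 𝒞[t]).map f).map p) (p (f c)) s σ m ∧
      ((o = 2 ∧ f c ^ m = f ζ ∧ s = p (f c * f r) ∧ σ = p (f r)) ∨ (o = m ∧ f c ^ m = 1 ∧ s = p (f r) ∧ σ = p (f c * f r))) ∧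
      IsConj (p (f c) ^ (m / 2)) (p (f (u * w))) ∧
      ∀ L, AS L → s ∈ L → p (f c) ^ (m / 2) ∈ L → ∃ l ∈ L, l * p (f u) * l⁻¹ = p (f w) := by
    have pz : p (f ζ) = 1 := kp.ge (mem_zpowers _)
    rcases z.cas with q | q
    · have q' : o = 2 ∧ f c ^ m = f ζ := ⟨q.1, by rw [← map_pow, q.2]⟩
      refine ⟨_, _, _, _, _, cd.uw_qd q, z.rS, mul_mem z.rS (pow_mem z.cS _), mul_mem z.cS z.rS,
        (cX.dg O1 ps kp).1 q', .inl ⟨q'.1, q'.2, rfl, rfl⟩, by rw [← mul_assoc, z.r2, one_mul, map_pow, map_pow],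
        fun L a sL _ => ?_⟩
      obtain ⟨n, n0, e4, -⟩ := z.exists_n
      have rr : p (f r) * p (f r) = 1 := by rw [← map_mul, ← map_mul, z.r2, map_one, map_one]
      have bm : p (f c) ∈ L ⊔ zpowers (p (f r)) := by
        simpa [mul_assoc, rr] using mul_mem (mem_sup_left sL) (mem_sup_right (S := L) (mem_zpowers (p (f r))))
      obtain ⟨l, hl, _, ⟨i, rfl⟩, e⟩ := (mem_sup_of_right_le_norm (le_top.trans a.norm)).1 (zpow_mem bm (-n : ℤ))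
      refine ⟨l, hl, ?_⟩
      have e1 := congrArg (fun x => p (f x)) (z.cr (-n) 0 0)
      have e2 := congrArg (fun x => p (f x)) (z.rT (2 * n) 0)
      simp only [map_mul, map_zpow, map_inv, map_pow, pz, one_zpow, mul_one, zpow_zero, one_mul] at e e1 e2 ⊢
      rw [← zpow_natCast, show ((m / 2 : ℕ) : ℤ) = 2 * n by omega, mul_inv_eq_iff_eq_mul.1 e2,
        show -(2 * n : ℤ) = 0 + 2 * -n by ring, ← e1, ← e]
      group
    · have q' : o = m ∧ f c ^ m = 1 := ⟨q.1, by rw [← map_pow, q.2, map_one]⟩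
      have dg := (cX.dg O1 ps kp).2 q'
      have uw := cd.uw_w q
      refine ⟨_, _, _, _, _, uw, pow_mem z.cS _, z.rS, mul_mem (pow_mem z.cS _) (pow_mem z.zS _), dg,
        .inr ⟨q'.1, q'.2, rfl, rfl⟩, ?_, fun L a sL dL => ?_⟩
      · obtain ⟨g, hg⟩ := uw.cjj
        exact (isConj_iff.2 ⟨p (f g), by simpa [pz] using congrArg (fun x => p (f x)) hg⟩).symm
      · simpa using a.conj dL sL dg.id (dg.refl dg.sD dg.sb)
  obtain ⟨F, _, _, ι, pm, hσ, q⟩ := dg.model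
  have md : MD t u w j S f p ι (f ζ) := md_of nab hS SC it ht uw uS wS jS qq (fun x => by
      rw [← MonoidHom.mem_ker, kf, mem_subgroupOf]) ⟨ζ, z.zS, rfl⟩ (kp.ge (by rw [map_pow]; exact pow_mem (mem_zpowers _) _))
    pm dg hσ ha (q.imp_right fun a => ⟨a, by
      haveI := a.normal
      have dL := dg.mn a.norm fun e => a.nsol (e ▸ inferInstance)
      obtain ⟨g, hg⟩ := isConj_iff.1 dg.cs
      exact lw _ a (hg ▸ Normal.conj_mem ‹_› _ dL g) dL⟩)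
  haveI := G0_normal pm
  have inv0 : ∀ a, IsInv a → a ∈ G0 ι := fun a ia => (pm.inv_model dg.r2 ia.1 ia.2).imp fun _ e => e.1
  have DG0 : ((S.subgroupOf 𝒞[t]).map f).map p ≤ G0 ι := fun y hy => by
    by_cases e : y ∈ zpowers (p (f c))
    · simpa [mul_assoc, (dg.refl dg.sD dg.sb).1] using mul_mem (inv0 _ (dg.refl (mul_mem hy dg.sD) fun e' =>
        dg.sb ((mul_mem_cancel_left e).1 e'))) (inv0 _ (dg.refl dg.sD dg.sb))
    · exact inv0 _ (dg.refl hy e)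
  have two : ∀ x, IsPiElt {2} x → p (f x) ∈ G0 ι := fun x x2 => by
    obtain ⟨g, hg⟩ := cd.toS (piGrp_zpowers_iff.2 x2)
    have := Normal.conj_mem ‹_› _ (DG0 ⟨_, ⟨_, hg x (mem_zpowers x), rfl⟩, rfl⟩) (p (f g))⁻¹
    simpa [mul_assoc] using this
  have sy : ∀ g : (𝒞[t] : Subgroup G), ∃ n, p (f n) ∈ G0 ι ∧ ¬ 2 ∣ (𝒞[(g : G) * n]).relIndex 𝒞[t] := fun g => by
    haveI : ((G0 ι).comap (p.comp f)).Normal := Normal.comap ‹_› _
    obtain ⟨x, hx, n, hn, e⟩ := frattini_arg_mem Nat.prime_two (cd.syl.of_le (K := (G0 ι).comap (p.comp f))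
      (fun s hs => two s (cd.syl.piGrp.piElt hs)) le_top) (g := g) ((normalizer_eq_top _).ge trivial)
    obtain ⟨a, y, ma, my, p2, p3, e', -⟩ := exists_piPart {2} n
    have ny := zpowers_le.2 hn my
    refine ⟨g⁻¹ * y, ?_, fun d => IsSylowOf.not_dvd_index (hS.of_le SC le_top) Nat.prime_two
      (d.trans (relIndex_dvd_of_le_left _ fun s hs => ?_))⟩
    · have : g⁻¹ * y = y⁻¹ * (x * a)⁻¹ * y⁻¹⁻¹ := by rw [e, e']; group
      exact this ▸ Normal.conj_mem ‹((G0 ι).comap (p.comp f)).Normal› _ (inv_mem (mul_mem hx (two a p2))) _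
    · have hs' : (⟨s, SC hs⟩ : (𝒞[t] : Subgroup G)) ∈ S.subgroupOf 𝒞[t] := hs
      have k := dg.cent_odd ((p3.map f).map p) (le_normalizer_map p ⟨_, le_normalizer_map f ⟨y, ny, rfl⟩, rfl⟩)
        ⟨_, ⟨_, hs', rfl⟩, rfl⟩
      have m1 := mul_mem (inv_mem hs') ((mem_normalizer_iff.1 ny _).1 hs')
      obtain ⟨i, hi⟩ := kp.le (show f ((⟨s, SC hs⟩ : (𝒞[t] : Subgroup G))⁻¹ * (y * ⟨s, SC hs⟩ * y⁻¹)) ∈ p.ker by simp [k])
      have e1 : (⟨s, SC hs⟩ : (𝒞[t] : Subgroup G))⁻¹ * (y * ⟨s, SC hs⟩ * y⁻¹) = ζ ^ i := by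
        have m2 := mul_mem m1 (inv_mem (zpow_mem z.zS i))
        exact mul_inv_eq_one.1 ((cd.syl.piGrp.piElt m2).eq_one (ok.piElt (by
          rw [MonoidHom.mem_ker, map_mul, ← hi]; simp)))
      have := fix_step p3 (cd.syl.piGrp.piElt (zpow_mem z.zS i)) (inv_mul_eq_iff_eq_mul.1 e1)
        (cd.wc y _ ⟨i, rfl⟩ ((mem_normalizer_iff.1 ny _).1 (zpow_mem z.zS i)))
      simpa using mem_centralizer_singleton_iff.2 (congrArg Subtype.val (mul_inv_eq_iff_eq_mul.1 this)).symm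
  refine ⟨md.lh.one, ⟨u, u.2, md.lh.iu, md.lh.ut⟩, fun b hb ib bt => ?_⟩
  obtain ⟨c1, hc1, rfl⟩ := md.lh.cju b hb ib bt
  have ib' : IsInv (⟨_, hb⟩ : (𝒞[t] : Subgroup G)) := ⟨Subtype.ext ib.1, fun e => ib.2 (congrArg Subtype.val e)⟩
  have b1 := qq.ne_one ib' z.tinv cd.tc fun e => bt ((congrArg Subtype.val e).trans ht)
  have key : ∀ (Y : Subgroup (𝒞[t] ⧸ (UU t).subgroupOf 𝒞[t])) (tN uN : Y), (∀ x, x ∈ Y ↔ p x ∈ G0 ι) →
      tN = f ζ ^ (o / 2) → (∀ i ∈ Y, i * i = 1 → i ≠ 1 → i ≠ tN → ∃ c ∈ Y, c * uN * c⁻¹ = i) →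
      NM p ι Y.subtype tN uN → ModelAt t (c1 * u * c1⁻¹) := fun Y tN uN hY e1 e2 nm => by
    obtain ⟨x, -, hx⟩ := e2 (f ⟨_, hb⟩) ((hY _).2 (two _ ib'.two)) (by rw [← map_mul, ib'.1, map_one])
      (fun e => b1 (by rw [e, map_one])) fun e => b1 (kp.ge (by rw [e, e1]; exact pow_mem (mem_zpowers _) _))
    have md' := md.adj ⟨c1, hc1⟩ x⁻¹
    have k : ∀ y, p (f y) ∈ G0 ι → p (((MulAut.conj x⁻¹).toMonoidHom.comp f) y) ∈ G0 ι := fun y hy => by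
      simpa using Normal.conj_mem ‹_› _ hy (p x)⁻¹
    obtain ⟨C0, κ, mk⟩ := mk_of md' (fun y hy => k y (two y hy)) (fun g => (sy g).imp fun n e => ⟨k n e.1, e.2⟩) hY
      (tN := tN) (uN := uN) (fun y e => by
        rw [show y = ζ ^ (o / 2) from Subtype.ext (e.trans ht.symm), e1]
        simp [mul_assoc, ← mem_center_iff.1 (pow_mem cz (o / 2)) x]) (by
        simp only [MonoidHom.comp_apply, MulEquiv.coe_toMonoidHom, MulAut.conj_apply]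
        rw [← hx]; group)
    exact ⟨_, _, _, _, _, Y, _, _, _, inferInstance, inferInstance, inferInstance, F, _, _, _, p, ι, _, C0, κ, _, tN, uN,
      md', mk, nm, dg.hd⟩
  rcases H cX cz ps kp pm dg hσ cas with ⟨φ, bk, e1, e2, e3⟩ | ⟨K, _, _, φ, uk, e1, e3⟩
  · exact key φ.range (Br.tt φ.rangeRestrict) (Br.uu φ.rangeRestrict) e3 e1 (fun i hi a b c => bk.inv_cj hi a b c)
      (.inl ⟨φ.rangeRestrict, ⟨bk.odd, φ.ker_rangeRestrict ▸ bk.kerc, φ.ker_rangeRestrict ▸ bk.kero⟩,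
        φ.rangeRestrict_surjective, rfl, rfl, e2⟩)
  · exact key φ.range (Bu.tt φ.rangeRestrict) (Bu.uu φ.rangeRestrict) e3 e1 (fun i hi a b c => uk.inv_cj hi a b c)
      (.inr ⟨K, _, _, φ.rangeRestrict, ⟨uk.fq, uk.odd, fun g e => uk.kerc g (congrArg Subtype.val e),
        φ.ker_rangeRestrict ▸ uk.kero⟩, φ.rangeRestrict_surjective, rfl, rfl⟩)

theorem exists_zs (qw : QW G) : ∃ (S : Subgroup G) (c ζ r : G) (m o : ℕ), ZS S c ζ r m o ∧ IsSylowOf 2 S ⊤ := by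
  obtain ⟨S, h⟩ := qw
  obtain ⟨c, ζ, r, m, o, z⟩ : ∃ (c ζ r : S) (m o : ℕ), ZS ⊤ c ζ r m o := h.elim zs_of_qd zs_of_wr
  exact ⟨S, c, ζ, r, m, o, by
    have := z.map (S : Subgroup G).subtype (subtype_injective _)
    rwa [range_subtype] at this, sylow_top Nat.prime_two S⟩

theorem model_at (H : LiftP.{u}) [IsSimpleGroup G] (nab : ¬ IsMulCommutative G) (qw : QW G) {a b : G} (f : Four a b) :
    ModelAt a b := by
  obtain ⟨S, c, ζ, r, m, o, z, hS⟩ := exists_zs qw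
  obtain ⟨g, rfl⟩ := (model_zs H nab z hS rfl).1 a f.it
  exact (model_zs H nab (z.map' (MulAut.conj g).toMonoidHom fun s _ e => by simpa using e) (hS.conjg_of_mem trivial)
    (by simp)).2.2 b (mem_centralizer_singleton_iff.2 f.comm.symm) f.is f.ne.symm

theorem model_of (H : LiftP.{u}) [IsSimpleGroup G] (nab : ¬ IsMulCommutative G) (qw : QW G) : Model G := by
  obtain ⟨S, c, ζ, r, m, o, z, hS⟩ := exists_zs qw
  obtain ⟨-, ⟨b, hb, ib, bt⟩, k⟩ := model_zs H nab z hS rfl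
  obtain ⟨w, j, S, X, Γ, N, _, _, _, _, _, _, F, _, _, f, p, ι, ζ, C0, κ, e, tN, uN, md, mk, nm, -⟩ := k b hb ib bt
  exact ⟨_, b, w, j, S, X, Γ, N, _, _, _, ‹_›, ‹_›, ‹_›, F, _, _, f, p, ι, ζ, C0, κ, e, tN, uN, md, mk, nm⟩

theorem realizeEqns_AbgA7 : True := by
  have := @CA.Abg.G0.eq_1.{0}
  have := @CA.Abg.G0.eq_def.{0}
  have := @CA.Abg.G0.congr_simp.{0}
  have := @CA.Abg.LiftP.eq_1.{0}
  have := @CA.Abg.LiftP.eq_def.{0}
  have := @CA.Abg.LiftP.congr_simp.{0}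
  have := @CA.Abg.ModelAt.eq_1.{0}
  have := @CA.Abg.ModelAt.eq_def.{0}
  have := @CA.Abg.ModelAt.congr_simp.{0}
  trivial

end CA.Abg
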