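/-
The local model exists.
-/
import Cfsg.Agent.Abg.A4
import Cfsg.Agent.Abg.A7

set_option autoImplicit false

namespace CA.Abg

open CA.GW CA.BG

universe u

theorem liftP : LiftP.{u} := fun h cz _ ps kp _ _ _ _ pm _ _ dg hσ cas => lift_model h cz ps kp pm dg hσ cas

end CA.Abg
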