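import Cfsg.Agent.Br.Ch9

/-!
# Principal blocks of `C`, of a normal subgroup of odd index and of its quotient by a subgroup of odd order
-/

set_option autoImplicit false
set_option linter.unusedSectionVars false
set_option linter.unusedVariables false

open Cfsg Subgroup CA.Chr CA.Dih CA.Blk CA.Br Finset
open scoped ComplexConjugate Classical

namespace CA.Abg

universe u v w

section general

variable {C : Type u} [Group C] [Fintype C]

theorem dot_proj' {B : Finset (C → ℂ)} (hB : B ⊆ irr C) (f g : C → ℂ) : ⟪proj B f, g⟫ = ⟪f, proj B g⟫ := by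
  rw [proj_def, proj_def, dot_sum_left, dot_sum_right]
  exact sum_congr rfl fun χ _ => by rw [dot_smul_left, dot_smul_right, conj_dot, mul_comm]

theorem proj_proj {B : Finset (C → ℂ)} (hB : B ⊆ irr C) (f : C → ℂ) : proj B (proj B f) = proj B f := by
  conv_lhs => rw [proj_def B (proj B f)]
  rw [proj_def B f]
  exact sum_congr rfl fun χ h => by rw [← proj_def, dot_proj hB f (mem_irr.1 (hB h)), if_pos h]

theorem proj_ZIrr {B : Finset (C → ℂ)} (hB : B ⊆ irr C) {f : C → ℂ} (hf : f ∈ ZIrr C) : proj B f ∈ ZIrr C :=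
  sum_mem fun χ h => ZIrr.smul_of_int (IsIrr.mem_ZIrr (mem_irr.1 (hB h)))
    (ZIrr.dot_int hf (IsIrr.mem_ZIrr (mem_irr.1 (hB h))))

theorem proj_dirr {B : Finset (C → ℂ)} (hB : B ⊆ irr C) {a : C → ℂ} (ha : Dirr a) : proj B a = a ∨ proj B a = 0 := by
  obtain ⟨ε, ψ, -, hψ, rfl⟩ := ha.exists_sign
  rw [map_smul, proj_irr hB hψ]; split_ifs <;> simp

theorem proj_of_reg {a : C → ℂ} (ha : Dirr a) (h : ⟪a, regI 2 C⟫ ≠ 0) : proj (B0 2 C) a = a := by
  obtain ⟨ε, ψ, -, hψ, rfl⟩ := ha.exists_sign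
  rw [map_smul, proj_irr (B0_subset 2) hψ, if_pos (mem_B0.2 ⟨hψ, fun e => h (by rw [dot_smul_left, e, mul_zero])⟩)]

/-- cutting off to a union of sections -/
noncomputable def cut (D : Set C) (f : C → ℂ) : C → ℂ := fun g => if g ∈ D then f g else 0

theorem cut_CF {D : Set C} (hD : ∀ g c, g ∈ D → c * g * c⁻¹ ∈ D) {f : C → ℂ} (hf : f ∈ CF C) : cut D f ∈ CF C :=
  mem_CF.2 fun g c => by
    have : c * g * c⁻¹ ∈ D ↔ g ∈ D := ⟨fun e => by simpa [mul_assoc] using hD _ c⁻¹ e, hD g c⟩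
    simp only [cut, this, CF_conj hf]

theorem proj_cut {D : Set C} (hD : ∀ g ∈ D, ∀ h ∉ D, Sep 2 g h) (f : C → ℂ) :
    proj (B0 2 C) (cut D f) = cut D (proj (B0 2 C) f) := by
  ext g
  by_cases hg : g ∈ D
  · have e : f = cut D f + cut Dᶜ f := by ext g; by_cases hg : g ∈ D <;> simp [cut, hg]
    conv_rhs => rw [cut, if_pos hg, e, map_add, Pi.add_apply]
    rw [proj0_zero Nat.prime_two (f := cut Dᶜ f) fun h k => hD g hg h (by by_contra e; simp [cut, e] at k), add_zero]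
  · rw [cut, if_neg hg]
    exact proj0_zero Nat.prime_two fun h k => (hD h (by by_contra e; simp [cut, e] at k) g hg).symm

theorem sep_DD {t : C} (t2 : t * t = 1) (hc : ∀ c, c * t * c⁻¹ = t) : ∀ g ∈ DD t, ∀ h ∉ DD t, Sep 2 g h :=
  fun g hg h hh i hi c => hh (by
    have o : Odd i := by rwa [← Nat.not_even_iff_odd, even_iff_two_dvd]
    obtain ⟨c, e⟩ := isConj_iff.1 c
    have := mem_zpowers_conj' (c := c) ((mem_zpowers_odd t2 o).2 hg)
    rw [hc, e] at this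
    exact (mem_zpowers_odd t2 o).1 this)

theorem root_eq_one {Γ : Type*} [LinearOrderedCommGroupWithZero Γ] {v : Valuation ℂ Γ} (hv : v (2 : ℕ) < 1) {ζ : ℂ}
    {m : ℕ} (hm : ¬ 2 ∣ m) (h : ζ ^ m = 1) (h1 : v (ζ - 1) < 1) : ζ = 1 := by
  by_contra e
  have s : ∑ i ∈ range m, ζ ^ i = 0 := by
    have := mul_geom_sum ζ m
    rw [h, sub_self] at this
    exact (mul_eq_zero.1 this).resolve_left (sub_ne_zero.2 e)
  have z1 : v ζ ≤ 1 := (val_eq_one_of_sub (map_one v) h1).le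
  have : v (∑ i ∈ range m, (ζ ^ i - 1)) < 1 := val_sum_lt fun i _ => by
    rw [← mul_geom_sum]
    exact val_mul_lt' h1 (val_sum_le fun j _ => by rw [map_pow]; exact pow_le_one' z1 j)
  rw [sum_sub_distrib, s, zero_sub, Valuation.map_neg, sum_const, card_range, nsmul_one,
    val_nat_eq_one Nat.prime_two hv hm] at this
  exact lt_irrefl _ this

theorem dot_res {M : Type w} [Group M] [Fintype M] {ι : M →* C} (hι : Function.Injective ι) [ι.range.Normal]
    (f g : C → ℂ) : ⟪f ∘ ι, g ∘ ι⟫ = ∑ χ ∈ (irr C).filter (fun χ => ι.range ≤ cfker χ), χ 1 * ⟪χ * f, g⟫ := by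
  have e : ∀ c, ∑ χ ∈ (irr C).filter (fun χ => ι.range ≤ cfker χ), χ 1 * (χ c * f c * conj (g c)) =
      if c ∈ ι.range then ι.range.index * (f c * conj (g c)) else 0 := fun c => by
    have := sum_deg_mul_irr_ker ι.range c
    simp only [← mul_assoc, ← sum_mul, this]; split_ifs <;> simp
  have e' : ∀ χ : C → ℂ, χ 1 * ⟪χ * f, g⟫ = (Nat.card C : ℂ)⁻¹ * ∑ c, χ 1 * (χ c * f c * conj (g c)) := fun χ => by
    rw [dot_def, mul_left_comm, mul_sum]; rfl
  simp only [e']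
  rw [← mul_sum, sum_comm, dot_def]
  simp only [e, ← card_mul_index_range hι]
  have e2 : (∑ c, if c ∈ ι.range then (ι.range.index : ℂ) * (f c * conj (g c)) else 0) = ι.range.index *
      ∑ m, f (ι m) * conj (g (ι m)) := by
    rw [← sum_filter, mul_sum]
    exact (sum_bij (fun m _ => ι m) (by simp) (fun a _ b _ e => hι e) (fun c hc => by
      obtain ⟨m, rfl⟩ := (mem_filter.1 hc).2; exact ⟨m, mem_univ _, rfl⟩) fun _ _ => rfl).symm
  rw [e2]
  have : (Nat.card M : ℂ) ≠ 0 := card_ne_zero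
  have : (ι.range.index : ℂ) ≠ 0 := Nat.cast_ne_zero.2 index_ne_zero_of_finite
  push_cast; field_simp; rfl

end general

variable {C : Type u} {M : Type v} {N : Type w} [Group C] [Fintype C] [Group M] [Fintype M] [Group N] [Fintype N]

/-- `M` is a normal subgroup of odd index with abelian quotient, `C = M C(S)`, `N` a quotient of `M` by a subgroup
of odd order -/
structure Alp (ι : M →* C) (κ : M →* N) : Prop where
  inj : Function.Injective ι
  com : ∀ a b, a * b * a⁻¹ * b⁻¹ ∈ ι.range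
  odd : ¬ 2 ∣ ι.range.index
  syl : ∀ g, ∃ n, ¬ 2 ∣ (centralizer {g * ι n}).index
  sur : Function.Surjective κ
  ko : Odd (Nat.card κ.ker)

/-- restriction of the principal block part -/
noncomputable def rho (ι : M →* C) (κ : M →* N) (f : C → ℂ) : N → ℂ := ind κ (proj (B0 2 C) f ∘ ι)

/-- extension into the principal block -/
noncomputable def ext (ι : M →* C) (κ : M →* N) (f : N → ℂ) : C → ℂ := proj (B0 2 C) (ind ι (f ∘ κ))

section
variable {ι : M →* C} {κ : M →* N}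

theorem rho_add (f g : C → ℂ) : rho ι κ (f + g) = rho ι κ f + rho ι κ g := by
  rw [rho, rho, rho, map_add (proj _), ← map_add (ind κ)]; rfl

theorem rho_sub (f g : C → ℂ) : rho ι κ (f - g) = rho ι κ f - rho ι κ g := by
  rw [rho, rho, rho, map_sub (proj _), ← map_sub (ind κ)]; rfl

theorem rho_CF (f : C → ℂ) : rho ι κ f ∈ CF N := ind_mem_CF _ _
theorem ext_CF (f : N → ℂ) : ext ι κ f ∈ CF C := proj_mem_CF (B0_subset 2) _
theorem rho_ZIrr {f : C → ℂ} (hf : f ∈ ZIrr C) : rho ι κ f ∈ ZIrr N :=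
  ZIrr.ind (ZIrr.comp (proj_ZIrr (B0_subset 2) hf) ι) κ
theorem ext_ZIrr {f : N → ℂ} (hf : f ∈ ZIrr N) : ext ι κ f ∈ ZIrr C :=
  proj_ZIrr (B0_subset 2) (ZIrr.ind (ZIrr.comp hf κ) ι)
theorem proj_ext (f : N → ℂ) : proj (B0 2 C) (ext ι κ f) = ext ι κ f := proj_proj (B0_subset 2) _
theorem rho_proj (f : C → ℂ) : rho ι κ (proj (B0 2 C) f) = rho ι κ f := by rw [rho, proj_proj (B0_subset 2), rho]

theorem dot_ext (F : C → ℂ) {f : N → ℂ} (hf : f ∈ CF N) : ⟪F, ext ι κ f⟫ = ⟪rho ι κ F, f⟫ := by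
  rw [ext, ← dot_proj' (B0_subset 2), frob_rec' _ _ (proj_mem_CF (B0_subset 2) _), rho, frob_rec _ _ hf]

theorem regI_comp {κ : M →* N} (ko : Odd (Nat.card κ.ker)) : regI 2 N ∘ κ = regI 2 M := by
  ext g
  have : 2 ∣ orderOf (κ g) ↔ 2 ∣ orderOf g := ⟨fun e => e.trans (orderOf_map_dvd _ _), fun e => by
    have m : g ^ orderOf (κ g) ∈ κ.ker := by rw [MonoidHom.mem_ker, map_pow, pow_orderOf_eq_one]
    have : orderOf g ∣ orderOf (κ g) * Nat.card κ.ker := orderOf_dvd_of_pow_eq_one (by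
      rw [pow_mul]; exact congrArg Subtype.val (pow_card_eq_one' (x := (⟨_, m⟩ : κ.ker))))
    exact ((Nat.prime_two.dvd_mul).1 (e.trans this)).resolve_right ko.not_two_dvd_nat⟩
  simp only [Function.comp, regI, this]

namespace Alp

variable (h : Alp ι κ)
include h

theorem normal : ι.range.Normal := ⟨fun n hn g => by simpa using mul_mem (h.com g n) hn⟩

theorem lin_one {l : C →* ℂˣ} (hl : ι.range ≤ l.ker) {χ : C → ℂ} (hχ : χ ∈ B0 2 C) (h' : lin l * χ ∈ B0 2 C) :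
    l = 1 := by
  haveI := h.normal
  obtain ⟨V, hV⟩ := exists_val Nat.prime_two
  have d := IsIrr.deg_ne_zero (B0_irr hχ)
  have cf := IsIrr.mem_CF (B0_irr hχ)
  rw [B0_eq_Bv Nat.prime_two hV] at hχ h'
  ext g
  obtain ⟨n, hn⟩ := h.syl g
  let c : GA C := Blk.mk fun x => if IsConj (g * ι n) x then 1 else 0
  have hc : Cen c := mem_CF.mpr fun y x => by
    have : IsConj (g * ι n) (x * y * x⁻¹) ↔ IsConj (g * ι n) y :=
      ⟨fun e => e.trans (isConj_iff.2 ⟨x, rfl⟩).symm, fun e => e.trans (isConj_iff.2 ⟨x, rfl⟩)⟩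
    simp only [c, coeff_mk, this]
  have e : ∀ f ∈ CF C, ev f c = (centralizer {g * ι n}).index * f (g * ι n) := fun f hf => by
    rw [ev_def, ← card_class, ← nsmul_eq_mul, ← sum_const, sum_filter]
    exact sum_congr rfl fun x _ => by
      simp only [c, coeff_mk]
      split_ifs with k
      · rw [one_mul, CF_isConj hf k]
      · simp
  have hi : c ∈ IntR C V.valuation := fun x => by simp only [c, coeff_mk]; split_ifs <;> simp
  rw [hc.eq_zz] at hi
  have a1 := (mem_Bv.1 hχ).2 _ hi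
  have a2 := (mem_Bv.1 h').2 _ hi
  rw [e _ cf, e _ (one_mem _)] at a1
  rw [e _ (mul_mem (lin_mem_CF l) cf), e _ (one_mem _)] at a2
  simp only [Pi.one_apply, Pi.mul_apply, lin_apply, map_one, Units.val_one, one_mul, mul_one, div_one, map_mul,
    show l (ι n) = 1 from hl ⟨n, rfl⟩] at a1 a2
  have v1 := val_eq_one_of_sub (val_nat_eq_one Nat.prime_two hV hn) a1
  refine root_eq_one hV h.odd ?_ ?_
  · rw [← Units.val_pow_eq_pow_val, ← map_pow, show l _ = 1 from hl (pow_index_mem ι.range g), Units.val_one]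
  · have := val_sub_lt a2 a1
    rw [show (centralizer {g * ι n}).index * ((l g : ℂ) * χ (g * ι n)) / χ 1 - (centralizer {g * ι n}).index -
      ((centralizer {g * ι n}).index * χ (g * ι n) / χ 1 - (centralizer {g * ι n}).index) =
      ((l g : ℂ) - 1) * ((centralizer {g * ι n}).index * χ (g * ι n) / χ 1) by ring, map_mul, v1, mul_one] at this
    simpa using this

theorem dot_res' {χ : C → ℂ} (hχ : χ ∈ B0 2 C) {g : C → ℂ} (hg : proj (B0 2 C) g = g) : ⟪χ ∘ ι, g ∘ ι⟫ = ⟪χ, g⟫ := by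
  haveI := h.normal
  rw [dot_res h.inj, sum_eq_single 1]
  · simp
  · intro ψ hψ e
    obtain ⟨a, b⟩ := mem_filter.1 hψ
    obtain ⟨l, rfl⟩ := IsIrr.exists_lin_of_comm (mem_irr.1 a) fun x y => b (h.com x y)
    rw [← hg, ← dot_proj' (B0_subset 2), proj_irr (B0_subset 2) (IsIrr.lin_mul (B0_irr hχ) l), if_neg fun k =>
      e (by rw [h.lin_one (cfker_lin l ▸ b) hχ k]; rfl)]
    simp
  · exact fun k => absurd (mem_filter.2 ⟨one_mem_irr, fun _ _ _ => rfl⟩) k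

theorem res_irr {χ : C → ℂ} (hχ : χ ∈ B0 2 C) : IsIrrCharacter M (χ ∘ ι) :=
  IsChar.irr_of_dot_self (IsChar.comp (IsIrr.isChar (B0_irr hχ)) ι) (by
    rw [h.dot_res' hχ (by rw [proj_irr (B0_subset 2) (B0_irr hχ), if_pos hχ]), IsIrr.dot_self (B0_irr hχ)])

theorem regI_res : regI 2 C ∘ ι = regI 2 M := regI_comp (by rw [(MonoidHom.ker_eq_bot_iff ι).2 h.inj]; simp)

omit h in
theorem proj_reg : proj (B0 2 C) (regI 2 C) = regI 2 C := by
  obtain ⟨V, hV⟩ := exists_val Nat.prime_two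
  rw [B0_eq_Bv Nat.prime_two hV, proj_regI Nat.prime_two hV]

theorem down {χ : C → ℂ} (hχ : χ ∈ B0 2 C) : ∃ ψ ∈ B0 2 N, χ ∘ ι = ψ ∘ κ := by
  have k : χ ∘ ι ∈ B0 2 M := mem_B0.2 ⟨h.res_irr hχ, by
    rw [← h.regI_res, h.dot_res' hχ proj_reg]; exact (mem_B0.1 hχ).2⟩
  obtain ⟨ψ, hψ, e⟩ := IsIrr.exists_infl h.sur (B0_irr k) (le_cfker_of_B0 Nat.prime_two h.ko.not_two_dvd_nat k)
  exact ⟨ψ, mem_B0.2 ⟨hψ, by rw [← dot_comp_surj κ h.sur, ← e, regI_comp h.ko]; exact (mem_B0.1 k).2⟩, e⟩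

theorem rho_spec (f : C → ℂ) : proj (B0 2 C) f ∘ ι = rho ι κ f ∘ κ ∧ proj (B0 2 N) (rho ι κ f) = rho ι κ f := by
  choose! ψ h1 h2 using fun χ => h.down (χ := χ)
  have e : proj (B0 2 C) f ∘ ι = (∑ χ ∈ B0 2 C, ⟪f, χ⟫ • ψ χ) ∘ κ := by
    ext m
    simp only [Function.comp, proj_apply, Finset.sum_apply, Pi.smul_apply, smul_eq_mul]
    exact sum_congr rfl fun χ k => by rw [show χ (ι m) = _ from congrFun (h2 χ k) m]; rfl
  have e' : rho ι κ f = ∑ χ ∈ B0 2 C, ⟪f, χ⟫ • ψ χ := by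
    rw [rho, e, ind_comp_surj_self h.sur]
    exact Subalgebra.sum_mem _ fun χ k => Subalgebra.smul_mem _ (IsIrr.mem_CF (B0_irr (h1 χ k))) _
  refine ⟨by rw [e', e], ?_⟩
  rw [e', map_sum]
  exact sum_congr rfl fun χ k => by rw [map_smul, proj_irr (B0_subset 2) (B0_irr (h1 χ k)), if_pos (h1 χ k)]

theorem rho_val (f : C → ℂ) (m : M) : proj (B0 2 C) f (ι m) = rho ι κ f (κ m) := congrFun (h.rho_spec f).1 m

theorem proj_rho (f : C → ℂ) : proj (B0 2 N) (rho ι κ f) = rho ι κ f := (h.rho_spec f).2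

theorem ext_irr {ψ : N → ℂ} (hψ : ψ ∈ B0 2 N) : ext ι κ ψ ∘ ι = ψ ∘ κ := by
  have k := IsIrr.comp_surj (B0_irr hψ) κ h.sur
  obtain ⟨χ, hχ, a, b⟩ := exists_common_constt (θ := ind ι (ψ ∘ κ)) (φ := regI 2 C) (ind_mem_CF _ _) (by
    rw [frob_rec _ _ (regI_mem_CF 2), h.regI_res, ← regI_comp h.ko, dot_comp_surj κ h.sur]; exact (mem_B0.1 hψ).2)
  have m : χ ∈ B0 2 C := mem_B0.2 ⟨hχ, fun e => b (dot_comm_zero e)⟩
  rw [frob_rec _ _ (IsIrr.mem_CF hχ)] at a
  have e : ψ ∘ κ = χ ∘ ι := by_contra fun e => a (IsIrr.dot_ne k (h.res_irr m) e)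
  rw [ext, e, proj_def, sum_eq_single χ (fun χ' k' n => by
    rw [frob_rec _ _ (IsIrr.mem_CF (B0_irr k')), h.dot_res' m (by
      rw [proj_irr (B0_subset 2) (B0_irr k'), if_pos k']), IsIrr.dot_ne hχ (B0_irr k') n.symm, zero_smul])
    (fun k => absurd m k), frob_rec _ _ (IsIrr.mem_CF hχ), IsIrr.dot_self (h.res_irr m), one_smul]

theorem ext_val {f : N → ℂ} (hf : proj (B0 2 N) f = f) (m : M) : ext ι κ f (ι m) = f (κ m) := by
  have : ext ι κ f = ∑ ψ ∈ B0 2 N, ⟪f, ψ⟫ • ext ι κ ψ := by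
    conv_lhs => rw [← hf, proj_def]
    simp only [ext, ← map_smul, ← map_sum]
    congr 2
    ext m; simp
  rw [this]
  conv_rhs => rw [← hf, proj_apply]
  rw [Finset.sum_apply]
  exact sum_congr rfl fun ψ k => by
    rw [Pi.smul_apply, smul_eq_mul, show ext ι κ ψ (ι m) = _ from congrFun (h.ext_irr k) m]; rfl

theorem rho_ext {f : N → ℂ} (hf : proj (B0 2 N) f = f) : rho ι κ (ext ι κ f) = f := by
  ext n
  obtain ⟨m, rfl⟩ := h.sur n
  rw [← h.rho_val, proj_ext, h.ext_val hf]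

theorem ext_rho (f : C → ℂ) : ext ι κ (rho ι κ f) = proj (B0 2 C) f := by
  rw [ext, ← (h.rho_spec f).1, proj_def]
  exact sum_congr rfl fun χ k => by
    rw [frob_rec _ _ (IsIrr.mem_CF (B0_irr k)), ← conj_dot, h.dot_res' k (proj_proj (B0_subset 2) f), conj_dot,
      dot_proj (B0_subset 2) f (B0_irr k), if_pos k]

theorem rho_cut {D : Set C} {D' : Set N} (hD : ∀ g ∈ D, ∀ h ∉ D, Sep 2 g h) (e : ∀ m, ι m ∈ D ↔ κ m ∈ D')
    (f : C → ℂ) : rho ι κ (cut D f) = cut D' (rho ι κ f) := by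
  ext n
  obtain ⟨m, rfl⟩ := h.sur n
  rw [← h.rho_val, proj_cut hD, cut, cut, h.rho_val]
  simp only [e]

theorem ext_cut {D : Set C} {D' : Set N} (hD : ∀ g ∈ D, ∀ h ∉ D, Sep 2 g h) (e : ∀ m, ι m ∈ D ↔ κ m ∈ D')
    {f : N → ℂ} (hf : proj (B0 2 N) f = f) : ext ι κ (cut D' f) = cut D (ext ι κ f) := by
  conv_lhs => rw [← h.rho_ext hf, ← h.rho_cut hD e, h.ext_rho, proj_cut hD, proj_ext]

end Alp

end

theorem realizeEqns_Abg_B1 : True := by
  have := @CA.Abg.cut.eq_1.{0}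
  have := @CA.Abg.cut.eq_def.{0}
  have := @CA.Abg.cut.congr_simp.{0}
  have := @CA.Abg.rho.eq_1.{0,0,0}
  have := @CA.Abg.rho.eq_def.{0,0,0}
  have := @CA.Abg.rho.congr_simp.{0,0,0}
  have := @CA.Abg.ext.eq_1.{0,0,0}
  have := @CA.Abg.ext.eq_def.{0,0,0}
  have := @CA.Abg.ext.congr_simp.{0,0,0}
  trivial

end CA.Abg
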