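import Cfsg.Agent.Abg.B9

/-!
# The principal block: degree equations
-/

set_option autoImplicit false
set_option linter.unusedSectionVars false
set_option linter.unusedVariables false

open Cfsg Subgroup CA.Chr CA.Dih CA.Blk CA.Br CA.FG Finset
open scoped ComplexConjugate Classical

namespace CA.Abg

universe u v w

variable {G : Type u} {M : Type v} {N : Type w} [Group G] [Fintype G] [Group M] [Fintype M] [Group N] [Fintype N]

theorem ND.e3 (d : ND N) : 3 ≤ d.e ∨ d.e ≤ -3 := by have := d.q3; rcases d.eq with e | e <;> omega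

theorem irr_of_gt {χ : G → ℂ} (h : Dirr χ) {s e : ℤ} {g : G} (h1 : χ 1 = s) (hg : χ g = e) (k : -|e| < s) :
    IsIrrCharacter G χ := by
  refine h.resolve_right fun h' => ?_
  have a := IsChar.norm_le (IsIrr.isChar h') g
  have b := IsChar.coe_deg (IsIrr.isChar h')
  rw [Pi.neg_apply, h1] at b
  rw [Pi.neg_apply, hg, norm_neg, Complex.norm_intCast] at a
  have b : (deg (-χ) : ℤ) = -s := by exact_mod_cast b
  have a : |e| ≤ (deg (-χ) : ℤ) := by exact_mod_cast a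
  omega

/-- two characters of the principal block and the degree equations -/
structure NU {d : ND N} {t : G} {ι : M →* 𝒞[t]} {κ : M →* N} (h : GD d t ι κ) (χ ψ : G → ℂ) (s n : ℤ) : Prop where
  d1 : Dirr χ
  d2 : Dirr ψ
  χ1 : χ 1 = s
  ψ1 : ψ 1 = n
  χt : χ t = d.e
  ψt : ψ t = d.e + 1
  v1 : ∀ m, κ m ∈ DD d.t → χ (ι m) = d.P (fun _ => 1) (fun _ => -1) (κ m)
  v2 : ∀ m, κ m ∈ DD d.t → ψ (ι m) = d.P (fun _ => 2) (fun _ => 0) (κ m)
  od : ∃ b f : G → ℂ, Dirr b ∧ Dirr f ∧ (∀ m, κ m = d.t → b (ι m) = 1 - d.e ∧ f (ι m) = d.e) ∧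
    ∀ g, Odd (orderOf g) → 1 - χ g + b g = 0 ∧ 1 + ψ g + f g = 0
  e1 : (𝒞[t]).index * (s - d.e) ^ 2 = h.A ^ 2 * (d.e * (d.e - 1) * (d.e + 1) ^ 2) * (s * (s - 1))
  e2 : (𝒞[t]).index * (n + d.e + 1) ^ 2 = h.A ^ 2 * (d.e * (d.e + 1) ^ 3) * (n * (n + 1))
  e3 : (n + d.e + 1) * (s - d.e) = d.e * (d.e + 1) * (s - d.e) + d.e * (d.e - 1) * (n + d.e + 1)
  s0 : s - d.e ≠ 0
  n0 : n + d.e + 1 ≠ 0

namespace GD

variable {d : ND N} {t : G} {ι : M →* 𝒞[t]} {κ : M →* N} (h : GD d t ι κ)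

theorem A0 : 0 < h.A := card_pos.2 ⟨h.uM, mem_filter.2 ⟨mem_univ _, h.uM2, h.κu⟩⟩

theorem x_one {x a b c f y : G → ℂ} (o : BO h 1 (B0 2 G) x a b c f y) : x = 1 := by
  have k := blk0 h.t2
  have hl : ∀ m, (1 : 𝒞[t] →* ℂˣ) (ι m) = 1 := fun _ => rfl
  have i1 : IsIrrCharacter G 1 := mem_irr.1 (B0_subset 2 (one_mem_B0 Nat.prime_two))
  obtain ⟨xt, at', bt, -⟩ := o.at_t k hl
  have e : ⟪(1 : G → ℂ), x + a + b⟫ = ⟪x, x + a + b⟫ := by
    rw [← o.e1, GD.al, ND.al0, h.dot_lift (one_mem _) (d.cfP _ _), h.dot_lift (ZIrr.mem_CF o.dx.mem_ZIrr) (d.cfP _ _)]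
    congr 1
    funext g
    obtain ⟨m, rfl⟩ := h.alp.sur g
    simp only [cut]
    split_ifs with hm
    · rw [← h.val k hl (one_mem _) (by rw [proj_irr k.sub i1, if_pos (one_mem_B0 Nat.prime_two)]) hm,
        ← h.val k hl (ZIrr.mem_CF o.dx.mem_ZIrr) o.px hm, o.x_val k hl hm]; rfl
    · rfl
  have z : ∀ {χ : G → ℂ} {n : ℤ}, Dirr χ → χ t = n → n ≠ 1 → n ≠ -1 → ⟪(1 : G → ℂ), χ⟫ = 0 := fun {χ n} hχ e a b =>
    Dirr.dot_eq_zero (Or.inl i1) hχ (fun k => a (by rw [← k, Pi.one_apply] at e; exact_mod_cast e.symm)) fun k => b (by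
      have := congrFun k t
      rw [Pi.neg_apply, e, Pi.one_apply, eq_neg_iff_add_eq_zero] at this
      have : 1 + n = 0 := by exact_mod_cast this
      omega)
  have := d.e3
  rw [dot_add_right, dot_add_right, dot_add_right, dot_add_right, o.xa, o.xb, o.dx.dot_self,
    z o.da (n := -d.e) (by rw [at']; simp) (by omega) (by omega),
    z o.db (n := 1 - d.e) (by rw [bt]; simp) (by omega) (by omega)] at e
  exact (Dirr.eq_of_dot_eq_one (Or.inl i1) o.dx (by simpa using e)).symm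

theorem num' : ∃ a b c f y s n, BO h 1 (B0 2 G) 1 a b c f y ∧ NU h (-a) c s n := by
  have k := blk0 h.t2
  have hl : ∀ m, (1 : 𝒞[t] →* ℂˣ) (ι m) = 1 := fun _ => rfl
  obtain ⟨x, a, b, c, f, y, o⟩ := h.main k hl
  obtain rfl := h.x_one o
  obtain ⟨-, at', bt, ct, ft, yt⟩ := o.at_t k hl
  obtain ⟨s, hs⟩ := ZIrr.deg_int o.da.neg.mem_ZIrr
  obtain ⟨n, hn⟩ := ZIrr.deg_int o.dc.mem_ZIrr
  obtain ⟨o1, o2, o3⟩ := o.odd (g := 1) (by simp)
  have a1 : a 1 = -s := by rw [← hs]; simp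
  simp only [Pi.one_apply, a1, hn] at o1 o2 o3
  have b1 : b 1 = s - 1 := by linear_combination o1
  have f1 : f 1 = -(n + 1) := by linear_combination o2
  have y1 : y 1 = s + n := by linear_combination o3 - o2
  have s0 : (s : ℂ) ≠ 0 := hs ▸ o.da.neg.deg_ne_zero
  have s1 : (s : ℂ) - 1 ≠ 0 := b1 ▸ o.db.deg_ne_zero
  have n0 : (n : ℂ) ≠ 0 := hn ▸ o.dc.deg_ne_zero
  have n1 : (n : ℂ) + 1 ≠ 0 := neg_ne_zero.1 (f1 ▸ o.df.deg_ne_zero)
  have y0 : (s : ℂ) + n ≠ 0 := y1 ▸ o.dy.deg_ne_zero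
  obtain ⟨e1, e2, e3⟩ := o.eqs k hl
  simp only [Pi.one_apply, a1, b1, hn, f1, y1, div_neg] at e1 e2 e3
  have e1 : (𝒞[t]).index * (s - d.e) ^ 2 = h.A ^ 2 * (d.e * (d.e - 1) * (d.e + 1) ^ 2) * (s * (s - 1)) := by
    refine Int.cast_injective (α := ℂ) ?_
    push_cast
    rw [← e1]; field_simp; ring
  have e2 : (𝒞[t]).index * (n + d.e + 1) ^ 2 = h.A ^ 2 * (d.e * (d.e + 1) ^ 3) * (n * (n + 1)) := by
    refine Int.cast_injective (α := ℂ) ?_
    push_cast
    rw [← e2]; field_simp; ring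
  have e3 : (s + n + 1) * (s * (n + 1) - d.e ^ 2 * (s + n)) = 0 := by
    refine Int.cast_injective (α := ℂ) ?_
    push_cast
    field_simp at e3
    linear_combination e3
  have s0 : s ≠ 0 := by exact_mod_cast s0
  have s1 : s - 1 ≠ 0 := by exact_mod_cast s1
  have n0 : n ≠ 0 := by exact_mod_cast n0
  have n1 : n + 1 ≠ 0 := by exact_mod_cast n1
  have A0 := h.A0.ne'
  have q3 := d.e3
  have z0 : d.e ≠ 0 := by omega
  have z1 : d.e + 1 ≠ 0 := by omega
  have z2 : d.e - 1 ≠ 0 := by omega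
  have cst : ∀ {χ : G → ℂ}, Dirr χ → proj (B0 2 G) χ = χ → ∀ m, κ m = d.t → χ (ι m) = χ t := fun {χ} hχ p m e => by
    have cf := ZIrr.mem_CF hχ.mem_ZIrr
    rw [h.val k hl cf p (e ▸ d.tD), ← congrArg χ h.ιt, h.val k hl cf p (h.κt ▸ d.tD), e, h.κt]
  refine ⟨a, b, c, f, y, s, n, o, o.da.neg, o.dc, hs, hn, by rw [Pi.neg_apply, at', neg_neg], ct, fun m hm => ?_, fun m hm => ?_,
    ⟨b, f, o.db, o.df, fun m e => ⟨(cst o.db o.pb m e).trans bt, (cst o.df o.pf m e).trans ft⟩, fun g hg => ?_⟩, e1, e2,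
    ?_, fun e => ?_, fun e => ?_⟩
  · have v1 := d.val_P (a := fun _ => 1) (b := fun _ => -1) (fun _ _ => rfl) fun _ _ => rfl
    have v2 := d.val_P (a := -1) (b := 1) (fun _ _ => rfl) fun _ _ => rfl
    have v3 := d.val_P (a := 0) (b := 0) (fun _ _ => rfl) fun _ _ => rfl
    have := (v3.sub v2).eq (v1.congr rfl (fun _ _ _ => by simp) fun _ _ _ => by simp)
      (sub_mem (d.cfP _ _) (d.cfP _ _)) (d.cfP _ _) hm
    rw [Pi.neg_apply, o.a_val k hl hm, ← this, Pi.sub_apply]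
    have := (v3.sub v3).eq (v3.congr rfl (fun _ _ _ => by simp) fun _ _ _ => by simp)
      (sub_mem (d.cfP _ _) (d.cfP _ _)) (d.cfP _ _) hm
    rw [← this]; simp
  · have v1 := d.val_P (a := fun _ => 2) (b := fun _ => 0) (fun _ _ => rfl) fun _ _ => rfl
    have v2 := d.val_P (a := 3) (b := 1) (fun _ _ => rfl) fun _ _ => rfl
    have v3 : d.Val 1 1 1 := ⟨fun g _ _ => by simpa using congrFun (d.Fk_lin d.cT 1) g,
      fun g _ _ => by simpa using congrFun (d.Fk_lin d.cY 1) g⟩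
    have := (v2.sub v3).eq (v1.congr rfl (fun _ _ _ => by simp; norm_num) fun _ _ _ => by simp)
      (sub_mem (d.cfP _ _) (one_mem _)) (d.cfP _ _) hm
    have e := congrFun o.e2 (ι m)
    rw [GD.be, h.lift_val hl (h.sg.be0_span d.lP) hm] at e
    simp only [Pi.add_apply, o.f_val k hl hm, Pi.one_apply] at e
    rw [← this, Pi.sub_apply, Pi.one_apply]
    linear_combination -e
  · obtain ⟨o1, o2, -⟩ := o.odd hg
    exact ⟨by rw [Pi.neg_apply, sub_neg_eq_add]; exact o1, o2⟩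
  · rcases mul_eq_zero.1 e3 with e3 | e3
    · obtain rfl : n = -s - 1 := by omega
      have : (h.A : ℤ) ^ 2 * (d.e * (d.e + 1) ^ 2 * s) * (2 * (s + d.e)) = 0 := by linear_combination e1 - e2
      have : s + d.e = 0 := by
        simpa [A0, z0, z1, s0] using this
      obtain ⟨l, hl⟩ := (deg3 h.four h.cj o.da (d := -s) (e := -d.e) (by rw [a1]; simp) (by rw [at']; simp)).1
      obtain ⟨j, hj⟩ := d.eo
      omega
    · linear_combination e3
  · rw [e] at e1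
    simp [A0, z0, z1, z2, s0, s1] at e1
  · rw [e] at e2
    simp [A0, z0, z1, n0, n1] at e2

theorem num : ∃ χ ψ s n, NU h χ ψ s n :=
  let ⟨_, _, _, _, _, _, _, _, o⟩ := h.num'
  ⟨_, _, _, _, o⟩

end GD

namespace NU

variable {d : ND N} {t : G} {ι : M →* 𝒞[t]} {κ : M →* N} {h : GD d t ι κ} {χ ψ : G → ℂ} {s n : ℤ} (o : NU h χ ψ s n)
include o

theorem c1 (k : 0 < s - d.e) : IsIrrCharacter G χ :=
  irr_of_gt o.d1 o.χ1 o.χt (by have := neg_abs_le d.e; omega)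

theorem c2 (k : 0 < n + d.e + 1) : IsIrrCharacter G ψ :=
  irr_of_gt o.d2 o.ψ1 (e := d.e + 1) (by rw [o.ψt]; simp) (by have := le_abs_self (d.e + 1); omega)

/-- the degree equation bounds `t₀` or `t₁` -/
theorem contra {a b : ℤ} (a0 : 0 < a) (b0 : 0 < b) (ha : 0 < s - d.e → a ≤ s - d.e)
    (hb : 0 < n + d.e + 1 → b ≤ n + d.e + 1) : a * b ≤ d.e * (d.e + 1) * a + d.e * (d.e - 1) * b := by
  have e := o.e3
  have s0 := o.s0
  have n0 := o.n0
  have p1 : 0 < d.e * (d.e + 1) := by rcases d.e3 with k | k <;> nlinarith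
  have p2 : 0 < d.e * (d.e - 1) := by rcases d.e3 with k | k <;> nlinarith
  generalize d.e * (d.e + 1) = P at *
  generalize d.e * (d.e - 1) = Q at *
  generalize s - d.e = x at *
  generalize n + d.e + 1 = y at *
  by_contra c
  push Not at c
  have k1 : Q < a := by nlinarith
  have k2 : P < b := by nlinarith
  have k : (x - Q) * (y - P) = P * Q := by linear_combination e
  have k' : P * Q < (a - Q) * (b - P) := by linear_combination c
  rcases lt_or_gt_of_ne s0 with hx | hx <;> rcases lt_or_gt_of_ne n0 with hy | hy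
  · nlinarith [mul_pos_of_neg_of_neg hx hy, mul_pos p1 (neg_pos.2 hx), mul_pos p2 (neg_pos.2 hy)]
  · nlinarith [mul_pos p1 p2, mul_pos (show 0 < Q - x by omega) (show 0 < y - P by have := hb hy; omega)]
  · nlinarith [mul_pos p1 p2, mul_pos (show 0 < x - Q by have := ha hx; omega) (show 0 < P - y by omega)]
  · have := mul_le_mul (show a - Q ≤ x - Q by have := ha hx; omega) (show b - P ≤ y - P by have := hb hy; omega)
      (by omega) (by have := ha hx; omega)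
    omega

end NU

end CA.Abg
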