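import Cfsg.Agent.Abg.B6
import Cfsg.Agent.Abg.AG
import Cfsg.Agent.Blk.BS1

/-!
# The structure of `C(t, u)`
-/

set_option autoImplicit false
set_option linter.unusedSectionVars false
set_option linter.unusedVariables false

open Cfsg Subgroup CA.Chr CA.Dih CA.Blk CA.Br CA.FG Finset
open scoped Classical

namespace CA.Abg

universe u v w

section general

variable {A : Type u} {B : Type v} [Group A] [Finite A] [Group B]

theorem eq_one_of_odd_two {g : A} (o : Odd (orderOf g)) {k : ℕ} (e : g ^ 2 ^ k = 1) : g = 1 :=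
  orderOf_eq_one_iff.1 (Nat.eq_one_of_self_dvd_coprime (orderOf_dvd_of_pow_eq_one e) o)
where Nat.eq_one_of_self_dvd_coprime {n k : ℕ} (h : n ∣ 2 ^ k) (o : Odd n) : n = 1 :=
  Nat.Coprime.eq_one_of_dvd (Nat.Coprime.pow_right k o.coprime_two_right) h

theorem cj_of_ker {φ : A →* B} (ko : ∀ g, φ g = 1 → Odd (orderOf g)) {a b : A} (a2 : a * a = 1) (b2 : b * b = 1)
    (e : φ a = φ b) : ∃ k, φ k = 1 ∧ k * a * k⁻¹ = b := by
  have k1 : φ (b * a) = 1 := by rw [map_mul, ← e, ← map_mul, a2, map_one]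
  obtain ⟨j, hj⟩ := ko _ k1
  have i : a * (b * a) * a⁻¹ = (b * a)⁻¹ := by
    rw [mul_inv_rev, inv_eq_of_mul_eq_one_right b2, inv_eq_of_mul_eq_one_right a2, mul_assoc, mul_assoc, a2, mul_one]
  refine ⟨(b * a) ^ (j + 1), by rw [map_pow, k1, one_pow], ?_⟩
  have i' : a * ((b * a) ^ (j + 1))⁻¹ * a⁻¹ = (b * a) ^ (j + 1) := by rw [← conj_inv, ← conj_pow, i, inv_pow, inv_inv]
  have := pow_orderOf_eq_one (b * a)
  rw [mul_assoc, eq_mul_of_mul_inv_eq i', ← mul_assoc, ← pow_add, show j + 1 + (j + 1) = orderOf (b * a) + 1 by omega,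
    pow_succ, this, one_mul, mul_assoc, a2, mul_one]

/-- exponents for the `2`-part -/
theorem exists_exp {m : ℕ} (hm : m ≠ 0) : ∃ a b n : ℕ, Odd b ∧ ∀ (X : Type v) [Group X] (g : X), g ^ m = 1 →
    (g ^ n) ^ 2 ^ a = 1 ∧ (g ^ b) ^ 2 ^ a = 1 ∧ (∀ k, g ^ 2 ^ k = 1 → g ^ n = g) ∧ (Odd (orderOf g) ↔ g ^ n = 1) := by
  obtain ⟨a, b, ob, rfl⟩ := Nat.exists_eq_two_pow_mul_odd hm
  obtain ⟨n, h1, h2⟩ := Nat.chineseRemainder (Nat.Coprime.pow_left a ob.coprime_two_left) 1 0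
  obtain ⟨c, rfl⟩ := (Nat.modEq_zero_iff_dvd.1 h2)
  refine ⟨a, b, b * c, ob, fun X _ g e => ?_⟩
  have d := orderOf_dvd_of_pow_eq_one e
  refine ⟨by rw [← pow_mul, mul_right_comm, mul_comm b, pow_mul, e, one_pow], by rw [← pow_mul, mul_comm, e],
    fun k hk => ?_, fun o => orderOf_dvd_iff_pow_eq_one.1 (Dvd.dvd.mul_right
      ((Nat.Coprime.pow_right a o.coprime_two_right).dvd_of_dvd_mul_left d) c), fun k => ?_⟩
  · have : orderOf g ∣ 2 ^ a := (Nat.Coprime.coprime_dvd_left (orderOf_dvd_of_pow_eq_one hk)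
      (Nat.Coprime.pow_left k ob.coprime_two_left)).dvd_of_dvd_mul_right d
    rw [pow_eq_pow_iff_modEq.2 (h1.of_dvd this), pow_one]
  · rw [← Nat.not_even_iff_odd, even_iff_two_dvd]
    intro e2
    rcases a with _ | a
    · exact ob.not_two_dvd_nat (by simpa using e2.trans d)
    · have := (h1.of_dvd (dvd_pow_self 2 a.succ_ne_zero)).symm.trans
        (Nat.modEq_zero_iff_dvd.2 (e2.trans (orderOf_dvd_of_pow_eq_one k)))
      exact absurd this (by decide)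

end general

variable {G : Type u} {M : Type v} {N : Type w} [Group G] [Fintype G] [Group M] [Fintype M] [Group N] [Fintype N]

/-- the hypotheses -/
structure GZ (d : ND N) (t : G) (ι : M →* 𝒞[t]) (κ : M →* N) (tM uM : M) : Prop where
  alp : Alp ι κ
  ιt : (ι tM : G) = t
  κt : κ tM = d.t
  κu : κ uM = d.u
  t2 : tM * tM = 1
  u2 : uM * uM = 1
  cj : ∀ i : G, i * i = 1 → i ≠ 1 → IsConj t i

namespace GZ

variable {d : ND N} {t : G} {ι : M →* 𝒞[t]} {κ : M →* N} {tM uM : M} (h : GZ d t ι κ tM uM)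
include h

theorem ko : ∀ m, κ m = 1 → Odd (orderOf m) := odd_of_ker h.alp.ko
theorem tc (c : 𝒞[t]) : c * ι tM = ι tM * c :=
  Subtype.ext (by rw [Subgroup.coe_mul, Subgroup.coe_mul, h.ιt, mem_centralizer_singleton_iff.1 c.2])
theorem tMc (m : M) : m * tM = tM * m := h.alp.inj (by rw [map_mul, map_mul, h.tc])
theorem v2 : tM * uM * (tM * uM) = 1 := by rw [mul_assoc, ← mul_assoc uM, h.tMc uM, mul_assoc, h.u2, mul_one, h.t2]

theorem two_range {c : 𝒞[t]} {k : ℕ} (e : c ^ 2 ^ k = 1) : ∃ m, ι m = c := by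
  haveI := h.alp.normal
  exact zpowers_le.2 (pow_index_mem ι.range c) (mem_zpowers_pow Nat.prime_two e h.alp.odd)

theorem icj (i : 𝒞[t]) (i2 : i * i = 1) (i1 : i ≠ 1) (it : i ≠ ι tM) : IsConj (ι uM) i := by
  obtain ⟨m, rfl⟩ := h.two_range (k := 1) (by rw [pow_one, sq, i2])
  have m2 : m * m = 1 := h.alp.inj (by rw [map_mul, i2, map_one])
  obtain ⟨c, e⟩ := d.icj (κ m) (by rw [← map_mul, m2, map_one]) (fun e => i1 (by
    rw [eq_one_of_odd_two (h.ko m e) (k := 1) (by rw [pow_one, sq, m2]), map_one])) fun e => it (by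
      obtain ⟨k, -, l⟩ := cj_of_ker h.ko h.t2 m2 (h.κt.trans e.symm)
      rw [← l, h.tMc, mul_inv_cancel_right])
  obtain ⟨c, rfl⟩ := h.alp.sur c
  obtain ⟨k, -, l⟩ := cj_of_ker h.ko (a := c * uM * c⁻¹) (by
    rw [show c * uM * c⁻¹ * (c * uM * c⁻¹) = c * (uM * uM) * c⁻¹ by group, h.u2]; group) m2 (by simp [h.κu, e])
  exact isConj_iff.2 ⟨ι (k * c), by rw [← l]; simp [mul_assoc]⟩

theorem memT {m : M} (e : ι m ∈ 𝒞[ι uM]) : κ m ∈ d.T := d.cu _ (by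
  rw [← h.κu, mul_inv_eq_iff_eq_mul, ← map_mul, ← map_mul]
  exact congrArg κ (h.alp.inj (by rw [map_mul, map_mul, mem_centralizer_singleton_iff.1 e])))

theorem tV : ι tM ∈ 𝒞[ι uM] := mem_centralizer_singleton_iff.2 (h.tc _).symm

theorem invV (g : 𝒞[ι uM]) (g2 : g * g = 1) :
    g = 1 ∨ g.1 = ι tM ∨ g.1 = ι uM ∨ g.1 = ι tM * ι uM := by
  obtain ⟨m, hm⟩ := h.two_range (c := g) (k := 1) (by rw [pow_one, sq]; exact congrArg Subtype.val g2)
  have m2 : m * m = 1 := h.alp.inj (by rw [map_mul, hm, map_one]; exact congrArg Subtype.val g2)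
  have mu : m * uM = uM * m := h.alp.inj (by rw [map_mul, map_mul, hm, mem_centralizer_singleton_iff.1 g.2])
  have key : ∀ a, a * a = 1 → m * a = a * m → κ m = κ a → m = a := fun a a2 c e => by
    have := eq_one_of_odd_two (h.ko (m * a) (by rw [map_mul, e, ← map_mul, a2, map_one])) (k := 1) (by
      rw [pow_one, sq, mul_assoc, ← mul_assoc a, ← c, mul_assoc, a2, mul_one, m2])
    rw [eq_inv_of_mul_eq_one_left this, inv_eq_of_mul_eq_one_right a2]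
  rcases d.invT _ (h.memT (hm ▸ g.2)) (by rw [← map_mul, m2, map_one]) with e | e | e | e
  · exact .inl (Subtype.ext (by rw [← hm, key 1 (by simp) (by simp) (by simpa using e), map_one]; rfl))
  · exact .inr (.inl (by rw [← hm, key tM h.t2 (h.tMc m) (e.trans h.κt.symm)]))
  · exact .inr (.inr (.inl (by rw [← hm, key uM h.u2 mu (e.trans h.κu.symm)])))
  · exact .inr (.inr (.inr (by rw [← hm, key _ h.v2 (by rw [← mul_assoc, h.tMc, mul_assoc, mu, mul_assoc])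
      (by rw [e, map_mul, h.κt, h.κu]), map_mul])))

theorem cenV (g c : 𝒞[ι uM]) (g2 : g * g = 1) : c * g * c⁻¹ = g := by
  have cu := mem_centralizer_singleton_iff.1 c.2
  rw [mul_inv_eq_iff_eq_mul, Subtype.ext_iff, Subgroup.coe_mul, Subgroup.coe_mul]
  rcases h.invV g g2 with e | e | e | e <;> rw [e]
  · simp
  · exact h.tc _
  · exact cu
  · rw [← mul_assoc, h.tc, mul_assoc, cu, mul_assoc]

theorem comm2 {a b : 𝒞[ι uM]} {i j k : ℕ} (ha : a ^ 2 ^ i = 1) (hb : b ^ 2 ^ j = 1)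
    (hc : (a * b * a⁻¹ * b⁻¹) ^ 2 ^ k = 1) : a * b * a⁻¹ = b := by
  obtain ⟨m, hm⟩ := h.two_range (c := a) (k := i) (congrArg Subtype.val ha)
  obtain ⟨n, hn⟩ := h.two_range (c := b) (k := j) (congrArg Subtype.val hb)
  have c := congrArg Subtype.val (d.abT.is_comm.comm ⟨_, h.memT (hm ▸ a.2)⟩ ⟨_, h.memT (hn ▸ b.2)⟩)
  have o := h.ko (m * n * m⁻¹ * n⁻¹) (by
    simp only [map_mul, map_inv]; rw [show κ m * κ n = κ n * κ m from c]; group)
  rw [← orderOf_injective ι h.alp.inj, map_mul, map_mul, map_mul, map_inv, map_inv, hm, hn] at o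
  exact mul_inv_eq_one.1 (eq_one_of_odd_two (by rw [← orderOf_coe]; exact o) hc)

theorem npc : ∀ g ∈ commutator 𝒞[ι uM], Odd (orderOf g) := by
  haveI := Fact.mk Nat.prime_two
  obtain ⟨P⟩ : Nonempty (Sylow 2 𝒞[ι uM]) := inferInstance
  have pw : ∀ g ∈ P, ∃ k, g ^ 2 ^ k = 1 := fun g hg =>
    let ⟨k, e⟩ := P.isPGroup' ⟨g, hg⟩; ⟨k, congrArg Subtype.val e⟩
  have c2 : ∀ a, a ∈ normalizer (P : Set 𝒞[ι uM]) → (∃ i, a ^ 2 ^ i = 1) → ∀ b ∈ P, a * b * a⁻¹ = b :=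
    fun a ha ⟨i, hi⟩ b hb => by
      obtain ⟨j, hj⟩ := pw b hb
      obtain ⟨k, hk⟩ := pw _ (mul_mem ((ha b).1 hb) (inv_mem hb))
      exact h.comm2 hi hj hk
  obtain ⟨a, b, n, ob, hn⟩ := exists_exp.{u} (Nat.card_pos (α := 𝒞[ι uM])).ne'
  obtain ⟨K, k1, k2⟩ := exists_npc' Nat.prime_two P fun g hg => by
    have key : ∀ k, ∀ v ∈ P, v ^ 2 ^ k = 1 → g * v * g⁻¹ = v := fun k => by
      induction k with
      | zero => intro v _ e; rw [pow_zero, pow_one] at e; simp [e]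
      | succ k ih =>
        intro v hv e
        have e1 := ih (v * v) (mul_mem hv hv) (by rwa [← sq, ← pow_mul, ← pow_succ'])
        have e2 := c2 v (le_normalizer hv) (pw v hv) _ ((hg v).1 hv)
        set δ := g * v * g⁻¹ * v⁻¹ with hδ
        have δ2 : δ * δ = 1 := by
          rw [hδ, show g * v * g⁻¹ * v⁻¹ * (g * v * g⁻¹ * v⁻¹) =
            g * v * g⁻¹ * v⁻¹ * (v * (g * v * g⁻¹) * v⁻¹) * v⁻¹ by rw [e2]; group]
          rw [show g * v * g⁻¹ * v⁻¹ * (v * (g * v * g⁻¹) * v⁻¹) * v⁻¹ = g * (v * v) * g⁻¹ * (v * v)⁻¹ by group, e1]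
          group
        have pj : ∀ j, g ^ j * v * (g ^ j)⁻¹ = δ ^ j * v := fun j => by
          induction j with
          | zero => simp
          | succ j ih =>
            rw [pow_succ', show g * g ^ j * v * (g * g ^ j)⁻¹ = g * (g ^ j * v * (g ^ j)⁻¹) * g⁻¹ by group, ih,
              show g * (δ ^ j * v) * g⁻¹ = (g * δ * g⁻¹) ^ j * (g * v * g⁻¹) by rw [conj_pow]; group, h.cenV δ g δ2,
              pow_succ, hδ]; group
        have := pj b
        obtain ⟨j, rfl⟩ := ob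
        rw [c2 _ (pow_mem hg _) ⟨a, (hn _ g pow_card_eq_one').2.1⟩ v hv, pow_succ, pow_mul, sq, δ2, one_pow, one_mul,
          eq_comm, mul_eq_right] at this
        exact mul_inv_eq_one.1 this
    intro v hv
    obtain ⟨k, e⟩ := pw v hv
    exact (mul_inv_eq_iff_eq_mul.1 (key k v hv e)).symm
  exact fun g hg => by rw [← Nat.not_even_iff_odd, even_iff_two_dvd]; exact (k2 g).1 (k1 hg)

theorem exists_pi : ∃ (π : 𝒞[ι uM] →* d.T) (n : ℕ), (∀ (g : 𝒞[ι uM]) (m : M), ι m = g ^ n → κ m = π g) ∧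
    (∀ g : 𝒞[ι uM], ∃ m, ι m = g ^ n) ∧ (∀ g, π g = 1 ↔ Odd (orderOf g)) ∧ (∀ g, π (g ^ n) = π g) ∧
    (∀ (g : 𝒞[ι uM]) (j : ℕ), g ^ 2 ^ j = 1 → g ^ n = g) ∧ (∀ y : d.T, ∃ g, π g = y ^ n) ∧
    ∀ z : d.T, Odd (orderOf z) → z ^ n = 1 := by
  obtain ⟨a, b, n, ob, hn⟩ := exists_exp.{u} (Nat.card_pos (α := 𝒞[t])).ne'
  have hC := fun g : 𝒞[t] => hn _ g pow_card_eq_one'
  choose p hp using fun g : 𝒞[ι uM] => h.two_range (hC g).1
  have pV : ∀ g, ι (p g) ∈ 𝒞[ι uM] := fun g => hp g ▸ pow_mem g.2 n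
  have p2 : ∀ g, p g ^ 2 ^ a = 1 := fun g => h.alp.inj (by rw [map_pow, hp, (hC _).1, map_one])
  letI : CommGroup d.T := { (inferInstance : Group d.T) with mul_comm := d.abT.is_comm.comm }
  let π0 : 𝒞[ι uM] → d.T := fun g => ⟨κ (p g), h.memT (pV g)⟩
  have π2 : ∀ g, π0 g ^ 2 ^ a = 1 := fun g => Subtype.ext (by
    rw [Subgroup.coe_pow, ← map_pow, p2, map_one, Subgroup.coe_one])
  let π : 𝒞[ι uM] →* d.T := MonoidHom.mk' π0 fun g g' => by
    have o := h.npc ((g * g') ^ n * (g ^ n * g' ^ n)⁻¹) (by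
      rw [← Abelianization.ker_of, MonoidHom.mem_ker]; simp [mul_pow])
    have o' : Odd (orderOf (κ (p (g * g') * (p g * p g')⁻¹))) := by
      refine Odd.of_dvd_nat ?_ (orderOf_map_dvd κ _)
      rw [← orderOf_injective ι h.alp.inj, map_mul, map_inv, map_mul, hp, hp, hp]
      rw [← orderOf_coe] at o; exact o
    refine mul_inv_eq_one.1 (eq_one_of_odd_two (k := a) (by rw [← orderOf_coe]; simpa using o') ?_)
    rw [mul_pow, inv_pow, mul_pow, π2, π2, π2]; simp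
  have k : ∀ (g : 𝒞[ι uM]) (m : M), ι m = g ^ n → κ m = π g := fun g m e => by
    rw [h.alp.inj (e.trans (hp g).symm)]; rfl
  refine ⟨π, n, k, fun g => ⟨_, hp g⟩, fun g => ?_, fun g => Subtype.ext (k _ _ ?_).symm, fun g j e => Subtype.ext
    ((hC g).2.2.1 j (congrArg Subtype.val e)), (fun q => ⟨q, fun z o => (q z).elim fun g e =>
      eq_one_of_odd_two (o.of_dvd_nat (orderOf_pow_dvd n)) (by rw [← e]; exact π2 g)⟩ :
        (∀ y : d.T, ∃ g, π g = y ^ n) → _) fun y => ?_⟩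
  · rw [← orderOf_coe, (hC _).2.2.2, ← hp]
    exact ⟨fun e => by rw [eq_one_of_odd_two (h.ko _ (congrArg Subtype.val e)) (p2 g), map_one],
      fun e => Subtype.ext (by rw [← k g 1 (by rw [← hp, e, map_one]), map_one]; rfl)⟩
  · rw [hp, Subgroup.coe_pow, (hC _).2.2.1 a (hC _).1]
  · obtain ⟨m, hm⟩ := h.alp.sur y
    obtain ⟨c, c1, c2⟩ := cj_of_ker h.ko (a := m * uM * m⁻¹) (by
      rw [show m * uM * m⁻¹ * (m * uM * m⁻¹) = m * (uM * uM) * m⁻¹ by group, h.u2]; group) h.u2 (by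
        simp only [map_mul, map_inv, hm, h.κu]
        rw [show (y : N) * d.u = d.u * y from congrArg Subtype.val (mul_comm y d.uT'), mul_inv_cancel_right])
    refine ⟨⟨ι (c * m), mem_centralizer_singleton_iff.2 ?_⟩, Subtype.ext ((k _ ((c * m) ^ n) (map_pow _ _ _)).symm.trans
      (by simp [c1, hm]))⟩
    rw [← map_mul, ← map_mul]; nth_rewrite 2 [← c2]; congr 1; group

theorem exists_r : ∃ r : G, r * t * r⁻¹ = ι uM ∧ r * ι uM * r⁻¹ = t * ι uM := by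
  obtain ⟨w, hw, wu⟩ : ∃ w, κ w = d.w ∧ w * uM * w⁻¹ = tM * uM := by
    obtain ⟨m, hm⟩ := h.alp.sur d.w
    obtain ⟨c, c1, c2⟩ := cj_of_ker h.ko (a := m * uM * m⁻¹) (by
      rw [show m * uM * m⁻¹ * (m * uM * m⁻¹) = m * (uM * uM) * m⁻¹ by group, h.u2]; group) h.v2 (by
        simp [hm, h.κu, h.κt, d.wu])
    exact ⟨c * m, by simp [c1, hm], by rw [← c2]; group⟩
  set u : G := (ι uM : 𝒞[t]).1 with hu
  set W : G := (ι w : 𝒞[t]).1 with hW
  have u1 : uM ≠ 1 := fun e => d.u1 (by rw [← h.κu, e, map_one])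
  have t1 : tM ≠ 1 := fun e => d.t1 (by rw [← h.κt, e, map_one])
  have ut : uM ≠ tM := fun e => d.ut (by rw [← h.κu, e, h.κt])
  have inj : Function.Injective fun m => (ι m : G) := Subtype.val_injective.comp h.alp.inj
  have u2 : u * u = 1 := by rw [hu, ← Subgroup.coe_mul, ← map_mul, h.u2, map_one, Subgroup.coe_one]
  have t2 : t * t = 1 := by rw [← h.ιt, ← Subgroup.coe_mul, ← map_mul, h.t2, map_one, Subgroup.coe_one]
  have tu : u * t = t * u := mem_centralizer_singleton_iff.1 (ι uM).2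
  have Wt : W * t * W⁻¹ = t := mul_inv_eq_iff_eq_mul.2 (mem_centralizer_singleton_iff.1 (ι w).2)
  have Wu : W * u * W⁻¹ = t * u := by
    have := congrArg (fun m => (ι m : G)) wu
    simpa [h.ιt] using this
  obtain ⟨x, hx⟩ := isConj_iff.1 (h.cj u u2 fun e => u1 (inj (e.trans (by simp)))).symm
  obtain ⟨c, hc⟩ := isConj_iff.1 (h.icj ⟨x * t * x⁻¹, mem_centralizer_singleton_iff.2 (by
    nth_rewrite 2 3 [← hx]; rw [← conj_mul', ← conj_mul', tu])⟩ (Subtype.ext (by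
      show x * t * x⁻¹ * (x * t * x⁻¹) = 1
      rw [← conj_mul', t2]; group)) (fun e => t1 (inj (by simpa [h.ιt] using congrArg Subtype.val e))) fun e => ut (by
        have : x * t * x⁻¹ = x * u * x⁻¹ := (congrArg Subtype.val e).trans (h.ιt.trans hx.symm)
        exact inj ((by simpa using this : t = u).symm.trans h.ιt.symm))).symm
  have c1 : c * x * t * (c * x)⁻¹ = u := by rw [hu, ← hc]; simp [mul_assoc]
  have c2 : c * x * u * (c * x)⁻¹ = t := by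
    rw [show c * x * u * (c * x)⁻¹ = c * (x * u * x⁻¹) * (c : G)⁻¹ by group, hx,
      mem_centralizer_singleton_iff.1 c.2, mul_inv_cancel_right]
  have : ∀ y, c * x * W * y * (c * x * W)⁻¹ = c * x * (W * y * W⁻¹) * (c * x)⁻¹ := fun y => by group
  exact ⟨c * x * W, by rw [this, Wt, c1], by rw [this, Wu, conj_mul', c1, c2, tu]⟩

theorem gd' {r : G} (rt : r * t * r⁻¹ = ι uM) (ru : r * ι uM * r⁻¹ = t * ι uM) : ∃ g : GD d t ι κ, g.tM = tM ∧ g.uM = uM ∧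
    (∀ z : d.T, Odd (orderOf z) → g.s z = z) ∧ ∀ (m m' : M) (k : ℕ) (hm : ι m ∈ 𝒞[ι uM]), m ^ 2 ^ k = 1 →
      (ι m' : G) = r * ι m * r⁻¹ → g.s ⟨κ m, h.memT hm⟩ = κ m' := by
  obtain ⟨π, n, k, k', πk, πn, π2, πs, πo⟩ := h.exists_pi
  have πi := fun g e => π2 g 1 ((pow_two g).trans e)
  obtain ⟨w, hw, wu⟩ : ∃ w, κ w = d.w ∧ w * uM * w⁻¹ = tM * uM := by
    obtain ⟨m, hm⟩ := h.alp.sur d.w
    obtain ⟨c, c1, c2⟩ := cj_of_ker h.ko (a := m * uM * m⁻¹) (by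
      rw [show m * uM * m⁻¹ * (m * uM * m⁻¹) = m * (uM * uM) * m⁻¹ by group, h.u2]; group) h.v2 (by
        simp [hm, h.κu, h.κt, d.wu])
    exact ⟨c * m, by simp [c1, hm], by rw [← c2]; group⟩
  set u : G := (ι uM : 𝒞[t]).1 with hu
  set W : G := (ι w : 𝒞[t]).1 with hW
  have u1 : uM ≠ 1 := fun e => d.u1 (by rw [← h.κu, e, map_one])
  have t1 : tM ≠ 1 := fun e => d.t1 (by rw [← h.κt, e, map_one])
  have ut : uM ≠ tM := fun e => d.ut (by rw [← h.κu, e, h.κt])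
  have inj : Function.Injective fun m => (ι m : G) := Subtype.val_injective.comp h.alp.inj
  have u2 : u * u = 1 := by rw [hu, ← Subgroup.coe_mul, ← map_mul, h.u2, map_one, Subgroup.coe_one]
  have t2 : t * t = 1 := by rw [← h.ιt, ← Subgroup.coe_mul, ← map_mul, h.t2, map_one, Subgroup.coe_one]
  have tu : u * t = t * u := mem_centralizer_singleton_iff.1 (ι uM).2
  have Wt : W * t * W⁻¹ = t := mul_inv_eq_iff_eq_mul.2 (mem_centralizer_singleton_iff.1 (ι w).2)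
  have Wu : W * u * W⁻¹ = t * u := by
    have := congrArg (fun m => (ι m : G)) wu
    simpa [h.ιt] using this
  have rv : r * (t * u) * r⁻¹ = t := by rw [conj_mul', rt, ru, ← mul_assoc, tu, mul_assoc, u2, mul_one]
  have Wv : W * (t * u) * W⁻¹ = u := by rw [conj_mul', Wt, Wu, ← mul_assoc, t2, one_mul]
  have cc : ∀ c x y g : G, c * x * c⁻¹ = y → g * x = x * g → c * g * c⁻¹ * y = y * (c * g * c⁻¹) :=
    fun c x y g e l => by rw [← e, ← conj_mul', ← conj_mul', l]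
  have gt : ∀ g : 𝒞[ι uM], (g.1 : G) * t = t * g.1 := fun g => mem_centralizer_singleton_iff.1 g.1.2
  have gu : ∀ g : 𝒞[ι uM], (g.1 : G) * u = u * g.1 := fun g =>
    congrArg Subtype.val (mem_centralizer_singleton_iff.1 g.2)
  have gv : ∀ g : 𝒞[ι uM], (g.1 : G) * (t * u) = t * u * g.1 := fun g => by
    rw [← mul_assoc, gt, mul_assoc, gu, mul_assoc]
  have mk : ∀ c x y : G, c * x * c⁻¹ = t → c * y * c⁻¹ = u → (∀ g : 𝒞[ι uM], (g.1 : G) * x = x * g.1) →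
      (∀ g : 𝒞[ι uM], (g.1 : G) * y = y * g.1) → ∃ σ : 𝒞[ι uM] →* 𝒞[ι uM], ∀ g, ((σ g).1 : G) = c * g.1 * c⁻¹ :=
    fun c x y e1 e2 l1 l2 => ⟨MonoidHom.mk' (fun g => ⟨⟨c * g.1 * c⁻¹, mem_centralizer_singleton_iff.2
      (cc _ _ _ _ e1 (l1 g))⟩, mem_centralizer_singleton_iff.2 (Subtype.ext (cc _ _ _ _ e2 (l2 g)))⟩)
        fun a b => Subtype.ext (Subtype.ext (conj_mul' _ _ _)), fun _ => rfl⟩
  obtain ⟨σ, hσ⟩ := mk r _ _ rv rt gv gt
  obtain ⟨ω, hω⟩ := mk W _ _ Wt Wv gt gv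
  letI : CommGroup d.T := { (inferInstance : Group d.T) with mul_comm := d.abT.is_comm.comm }
  have πc : ∀ (g g' : 𝒞[ι uM]) (c : G), c * t * c⁻¹ = t → c * u * c⁻¹ = u → (g'.1 : G) = c * g.1 * c⁻¹ → π g' = π g :=
    fun g g' c e1 e2 e => by
      let c' : 𝒞[ι uM] := ⟨⟨c, mem_centralizer_singleton_iff.2 (mul_inv_eq_iff_eq_mul.1 e1)⟩,
        mem_centralizer_singleton_iff.2 (Subtype.ext (mul_inv_eq_iff_eq_mul.1 e2))⟩
      rw [show g' = c' * g * c'⁻¹ from Subtype.ext (Subtype.ext e), map_mul, map_mul, map_inv, mul_inv_cancel_comm]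
  have σi : Function.Injective σ := fun a b e => Subtype.ext (Subtype.ext (by
    simpa [hσ] using congrArg (fun g : 𝒞[ι uM] => (g.1 : G)) e))
  have πe : ∀ g g', π g = π g' → π (σ g) = π (σ g') := fun g g' e => by
    rw [← mul_inv_eq_one, ← map_inv, ← map_mul, ← map_inv, ← map_mul, πk, orderOf_injective σ σi, ← πk, map_mul,
      map_inv, e, mul_inv_cancel]
  choose l hl using πs
  let s : d.T →* d.T := MonoidHom.mk' (fun y => π (σ (l y)) * (y * (y ^ n)⁻¹)) fun y z => by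
    rw [πe (l (y * z)) (l y * l z) (by rw [map_mul, hl, hl, hl, mul_pow]), map_mul, map_mul, mul_pow, mul_inv]
    ac_rfl
  have sπ : ∀ g, π (σ g) = s (π g) := fun g => by
    show _ = π (σ (l (π g))) * (π g * (π g ^ n)⁻¹)
    rw [πe (l (π g)) g (by rw [hl, ← map_pow, πn]), ← map_pow, πn]; simp
  have so : ∀ z : d.T, z ^ n = 1 → s z = z := fun z e => by
    show π (σ (l z)) * (z * (z ^ n)⁻¹) = z
    rw [πe (l z) 1 (by rw [hl, e, map_one]), e]; simp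
  have dec : ∀ y : d.T, ∃ g z, z ^ n = 1 ∧ y = π g * z := fun y =>
    ⟨l y, y * (y ^ n)⁻¹, by rw [mul_pow, inv_pow, ← hl, ← map_pow, πn, mul_inv_cancel], by rw [hl]; simp⟩
  have πω : ∀ g, π (ω g) = cjH d.wT (π g) := fun g => Subtype.ext (by
    obtain ⟨m, hm⟩ := k' g
    rw [cjH_coe, ← k g m hm, ← k (ω g) (w * m * w⁻¹) (Subtype.ext (by simp [hm, hω, hW, conj_pow]))]
    simp [hw])
  let tV : 𝒞[ι uM] := ⟨ι tM, h.tV⟩
  let uV : 𝒞[ι uM] := ⟨ι uM, mem_centralizer_singleton_iff.2 rfl⟩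
  have tV2 : tV * tV = 1 := Subtype.ext (by show ι tM * ι tM = 1; rw [← map_mul, h.t2, map_one])
  have uV2 : uV * uV = 1 := Subtype.ext (by show ι uM * ι uM = 1; rw [← map_mul, h.u2, map_one])
  have πt : π tV = d.tT := Subtype.ext ((k tV tM (congrArg Subtype.val (πi tV tV2)).symm).symm.trans h.κt)
  have πu : π uV = d.uT' := Subtype.ext ((k uV uM (congrArg Subtype.val (πi uV uV2)).symm).symm.trans h.κu)
  have σt : σ tV = uV := Subtype.ext (Subtype.ext (by rw [hσ]; simp [tV, uV, h.ιt, rt, hu]))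
  have σu : σ uV = tV * uV := Subtype.ext (Subtype.ext (by rw [hσ]; simpa [tV, uV, h.ιt] using ru))
  refine ⟨⟨tM, uM, s, σ, π, tV, uV, h.alp, h.ιt, h.κt, h.κu, rfl, rfl, h.cj, h.icj, ⟨fun y => ?_, fun y => ?_,
    by rw [← πt, ← sπ, σt, πu], by rw [← πu, ← sπ, σu, map_mul, πt]⟩, ⟨tV2, uV2,
    fun e => t1 (h.alp.inj ((congrArg Subtype.val e).trans (map_one ι).symm)),
    fun e => u1 (h.alp.inj ((congrArg Subtype.val e).trans (map_one ι).symm)),
    fun e => ut (h.alp.inj (congrArg Subtype.val e)), Subtype.ext (h.tc _).symm,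
    fun g e => (h.invV g e).imp_right (Or.imp Subtype.ext (Or.imp Subtype.ext Subtype.ext)),
    Finite.injective_iff_bijective.1 σi, σt, σu⟩, fun g => isConj_iff.2 ⟨r, (hσ g).symm⟩, sπ, πk, fun g => ?_, πu⟩,
    rfl, rfl, fun z o => so z (πo z o), fun m m' j hm e e' => ?_⟩
  · obtain ⟨g, z, e, rfl⟩ := dec y
    have k : ∀ x, r * r * r * x * (r * r * r)⁻¹ = r * (r * (r * x * r⁻¹) * r⁻¹) * r⁻¹ := fun x => by group
    simp only [map_mul, ← sπ, so z e]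
    rw [πc g _ (r * r * r) (by rw [k, rt, ru, rv]) (by rw [k, ru, rv, rt]) (by rw [k, hσ, hσ, hσ])]
  · obtain ⟨g, z, e, rfl⟩ := dec y
    have k : ∀ x, W * r * W * r⁻¹ * r⁻¹ * (r * (r * x * r⁻¹) * r⁻¹) * (W * r * W * r⁻¹ * r⁻¹)⁻¹ =
      W * (r * (W * x * W⁻¹) * r⁻¹) * W⁻¹ := fun x => by group
    simp only [map_mul, ← sπ, ← πω, so z e, so (cjH d.wT z) (by rw [← map_pow, e, map_one])]
    rw [πc (σ (σ g)) _ (W * r * W * r⁻¹ * r⁻¹) (by nth_rewrite 1 [← rv, ← ru]; rw [k, Wu, rv, Wt])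
      (by nth_rewrite 1 [← rt, ← rv]; rw [k, Wv, ru, Wv]) (by rw [hσ, hσ, k, hω, hσ, hω]),
      show cjH d.wT (cjH d.wT z) = z from Subtype.ext (sq_conj d.w2)]
  · obtain ⟨m, hm⟩ := k' g
    exact ⟨g ^ n, m, hm.symm, πn g, k g m hm⟩
  · have e1 : (⟨ι m, hm⟩ : 𝒞[ι uM]) ^ 2 ^ j = 1 := Subtype.ext (by
      rw [Subgroup.coe_pow, ← map_pow, e, map_one, Subgroup.coe_one])
    have e2 := k _ m (congrArg Subtype.val (π2 _ j e1)).symm
    show (s _ : N) = _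
    rw [show (⟨κ m, h.memT hm⟩ : d.T) = π ⟨ι m, hm⟩ from Subtype.ext e2, ← sπ]
    exact (k _ m' (((Subtype.ext (e'.trans (hσ ⟨ι m, hm⟩).symm))).trans (congrArg Subtype.val
      (π2 _ j (by rw [← map_pow, e1, map_one]))).symm)).symm

theorem gd : ∃ g : GD d t ι κ, g.tM = tM ∧ g.uM = uM :=
  let ⟨_, a, b⟩ := h.exists_r
  let ⟨g, c, e, _⟩ := h.gd' a b
  ⟨g, c, e⟩

theorem liftT {y : N} (hy : y ∈ d.T) {k : ℕ} (e : y ^ 2 ^ k = 1) :
    ∃ (m : M) (j : ℕ), m ^ 2 ^ j = 1 ∧ ι m ∈ 𝒞[ι uM] ∧ κ m = y := by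
  obtain ⟨m, rfl⟩ := h.alp.sur y
  obtain ⟨c, c1, c2⟩ := cj_of_ker h.ko (a := m * uM * m⁻¹) (by
    rw [show m * uM * m⁻¹ * (m * uM * m⁻¹) = m * (uM * uM) * m⁻¹ by group, h.u2]; group) h.u2 (by
      simp only [map_mul, map_inv, h.κu]
      rw [show κ m * d.u = d.u * κ m from congrArg Subtype.val (d.abT.is_comm.comm ⟨_, hy⟩ d.uT'), mul_inv_cancel_right])
  obtain ⟨a, b, ma, mb, pa, pb, e', -⟩ := exists_piPart {2} (c * m)
  obtain ⟨j, hj⟩ := (pElt_iff Nat.prime_two).1 pa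
  have : κ b = 1 := (((pElt_iff Nat.prime_two).2 ⟨k, e⟩).of_mem_zpowers (by
    obtain ⟨i, rfl⟩ := mb; exact ⟨i, by simp [c1]⟩)).eq_one (pb.map κ)
  refine ⟨a, j, hj, zpowers_le.2 (show c * m ∈ (𝒞[ι uM]).comap ι from mem_centralizer_singleton_iff.2 ?_) ma, by
    simpa [c1, this] using (congrArg κ e').symm⟩
  rw [← map_mul, ← map_mul]; nth_rewrite 2 [← c2]; congr 1; group

end GZ

theorem AG.g0 {t u : G} {C0 : Subgroup G} {κ : C0 →* N} {d : ND N} (h : AG t u C0 κ d.t d.u) :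
    GZ d t (inclusion h.le) κ ⟨t, h.tC⟩ ⟨u, h.uC⟩ := by
  have r : (inclusion h.le).range = C0.subgroupOf 𝒞[t] := inclusion_range h.le
  refine ⟨⟨inclusion_injective _, fun a b => r ▸ h.com a a.2 b b.2, by
    rw [r, ← even_iff_two_dvd, Nat.not_even_iff_odd]; exact h.odd, fun g => ?_, h.sur, h.ko⟩, rfl, h.κt, h.κu,
    Subtype.ext h.t2, Subtype.ext h.u2, h.cj⟩
  obtain ⟨n, hn, e⟩ := h.syl g g.2
  refine ⟨⟨n, hn⟩, ?_⟩
  rwa [show centralizer {g * inclusion h.le ⟨n, hn⟩} = (𝒞[(g : G) * n]).subgroupOf 𝒞[t] from Subgroup.ext fun x => by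
    rw [mem_subgroupOf, mem_centralizer_singleton_iff, mem_centralizer_singleton_iff, Subtype.ext_iff]; rfl]

end CA.Abg
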