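import Cfsg.Agent.Abg.B10
import Cfsg.Agent.Abg.B8
import Cfsg.Agent.Abg.L3
import Cfsg.Agent.Lin.Quat

/-!
# The case `q = 3`
-/

set_option autoImplicit false
set_option linter.unusedSectionVars false
set_option linter.unusedVariables false

open Cfsg Subgroup CA.Chr CA.Dih CA.Blk CA.Br CA.FG Finset
open CA.GW (UU IsInv)
open scoped ComplexConjugate Classical

namespace CA.Abg

universe u v w

variable {G : Type u} {M : Type v} {N : Type w} [Group G] [Fintype G] [Group M] [Fintype M] [Group N] [Fintype N]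

theorem q8_bound {φ : M → ℂ} (hφ : IsCharacter M φ) (f : QuaternionGroup 2 →* M) {k u : M} (ok : Odd (orderOf k))
    (uk : u * k * u⁻¹ = k⁻¹) (c : ∀ g, Commute (f g) k) (v : ∀ g ≠ 1, ∀ y ∈ zpowers k, φ (f g * y) = φ (f g))
    (ne : φ k ≠ φ 1) {s e : ℤ} (h1 : φ 1 = s) (he : φ (f (.a 2)) = e) : |e| + 16 ≤ s := by
  have cY : ∀ g, ∀ y : zpowers k, Commute (f g) (y : M) := fun g ⟨_, i, rfl⟩ => (c g).zpow_right i
  have iY : ∀ y ∈ zpowers k, u * y * u⁻¹ = y⁻¹ := fun _ ⟨i, e⟩ => by rw [← e]; simp only; rw [← conj_zpow, uk, inv_zpow]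
  have hs : ∀ y ∈ zpowers k, u * y * u⁻¹ ∈ zpowers k := fun y hy => iY y hy ▸ inv_mem hy
  have c0 : (Nat.card (zpowers k) : ℂ) ≠ 0 := card_ne_zero
  haveI := Fintype.ofFinite (zpowers k →* ℂˣ)
  choose m hm using fun ν : zpowers k →* ℂˣ =>
    IsChar.dot_nat (IsChar.comp hφ (zpowers k).subtype) (IsIrr.isChar (lin_irr ν))
  simp only [← co_dot] at hm
  have F : ∀ g y, f.noncommCoprod (zpowers k).subtype cY (g, y) = f g * y := fun _ _ => rfl
  have m8 : ∀ ν ≠ 1, 8 ∣ m ν := fun ν hν => by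
    obtain ⟨n, hn⟩ := IsChar.dot_nat (IsChar.comp hφ (f.noncommCoprod (zpowers k).subtype cY))
      (IsIrr.isChar (lin_irr (ν.comp (MonoidHom.snd _ _))))
    rw [dot_def, Fintype.sum_prod_type, sum_eq_single 1 (fun g _ hg => ?_) (by simp), Nat.card_prod,
      Nat.card_eq_fintype_card (α := QuaternionGroup 2), QuaternionGroup.card] at hn
    · refine ⟨n, Nat.cast_injective (R := ℂ) ?_⟩
      rw [← hm, co, Nat.cast_mul, ← hn]
      simp only [Function.comp_apply, F, map_one, one_mul, lin_apply,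
        MonoidHom.comp_apply, MonoidHom.coe_snd]
      push_cast; field_simp
    · have := sum_lin_conj 1 ν
      rw [if_neg hν.symm] at this
      refine (sum_congr rfl fun y _ => ?_).trans ((mul_sum _ _ (φ (f g))).symm.trans (by rw [this, mul_zero]))
      simp [F, v g hg y y.2]
  have m1 : |e| ≤ m 1 := by
    obtain ⟨W, hW, k⟩ := avg f (MonoidHom.id _) ⊤ (zpowers k) (fun g _ o ho => by
      rw [(cY g ⟨o, ho⟩).eq, mul_inv_cancel_right]; exact ho) (fun n => ⟨n, trivial, rfl⟩)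
      (fun g _ e => by rw [show g = 1 from e, map_one]; exact one_mem _) hφ
    have w1 : W 1 = m 1 := mul_left_cancel₀ c0 ((k 1 trivial).trans (by rw [← hm, co]; simp [c0]))
    have w2 : W (.a 2) = e := mul_left_cancel₀ c0 ((k _ trivial).trans (by
      rw [sum_congr rfl fun o _ => (congrArg φ (cY _ o).eq.symm).trans (v _ (by decide) o o.2), he]; simp))
    have := IsChar.norm_le hW (.a 2)
    rw [w2, deg_eq w1, Complex.norm_intCast] at this
    exact_mod_cast this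
  obtain ⟨ν, n1, n0⟩ : ∃ ν ≠ 1, m ν ≠ 0 := by
    by_contra! z
    have : ∀ g : zpowers k, φ g = m 1 := fun g => by
      rw [co_expand inferInstance φ g, sum_eq_single 1 (fun ν _ h => by rw [hm, z ν h]; simp) (by simp), hm]; simp
    exact ne ((this ⟨k, mem_zpowers k⟩).trans (this 1).symm)
  have ci : ∀ y, cjH hs y = y⁻¹ := fun y => Subtype.ext (iY y y.2)
  have n2 : ν.comp (cjH hs) ≠ 1 := fun e => n1 (MonoidHom.ext fun y => by simpa [ci] using DFunLike.congr_fun e y)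
  have n3 : ν.comp (cjH hs) ≠ ν := fun e => n1 (MonoidHom.ext fun y => by
    obtain ⟨r, hr⟩ : Odd (orderOf y) := ok.of_dvd_nat (Nat.card_zpowers k ▸ orderOf_dvd_natCard y)
    have := DFunLike.congr_fun e y
    rw [MonoidHom.comp_apply, ci, map_inv, inv_eq_iff_mul_eq_one] at this
    have e := congrArg ν (pow_orderOf_eq_one y)
    rwa [hr, map_pow, pow_succ, pow_mul, sq, this, one_pow, one_mul, map_one] at e)
  have n4 : m (ν.comp (cjH hs)) = m ν := Nat.cast_injective (R := ℂ) (by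
    rw [← hm, ← hm, ND.co_cj hs fun g _ => CF_conj (IsChar.mem_CF hφ) _ _])
  have e1 := co_expand inferInstance φ (1 : zpowers k)
  simp only [hm, map_one, Units.val_one, mul_one, OneMemClass.coe_one, h1] at e1
  have e1 : s = (∑ ν, m ν : ℕ) := by exact_mod_cast e1
  have := sum_le_sum_of_subset (f := m) (subset_univ {1, ν, ν.comp (cjH hs)})
  rw [sum_insert (by simp [n1.symm, n2.symm]), sum_pair n3.symm, n4] at this
  have := Nat.le_of_dvd (Nat.pos_of_ne_zero n0) (m8 ν n1)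
  omega

theorem GD.q3 [IsSimpleGroup G] {d : ND N} {t : G} {ι : M →* 𝒞[t]} {κ : M →* N} (h : GD d t ι κ) (q : d.q = 3)
    {i j k : M} (i2 : i * i = h.tM) (j2 : j * j = h.tM) (ij : i * j = j * i⁻¹) (ik : Commute i k) (jk : Commute j k)
    (k1 : κ k = 1) (uk : h.uM * k * h.uM⁻¹ = k⁻¹) : k = 1 := by
  by_contra k0
  obtain ⟨χ, ψ, s, n, o⟩ := h.num
  have i4 : i ^ (2 * 2) = 1 := by rw [pow_mul, sq i, i2, sq, h.tM2]
  let f := Agent.Lin.quatHom 2 i j i4 ij (by rw [j2, sq, i2])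
  have f2 : f (.a 2) = h.tM := (Agent.Lin.zp_natCast i4 2).trans (by rw [sq, i2])
  have fD : ∀ g ≠ 1, κ (f g) ∈ DD d.t := fun g hg => by
    rcases (by decide : ∀ g : QuaternionGroup 2, g = 1 ∨ g = .a 2 ∨ g ^ (2 : ℤ) = .a 2) g with e | e | e
    · exact absurd e hg
    · rw [e, f2, h.κt]; exact d.tD
    · exact ⟨2, by simp only; rw [← map_zpow, ← map_zpow, e, f2, h.κt]⟩
  have key : ∀ {φ : G → ℂ} {a e : ℤ} {F : N → ℂ}, IsIrrCharacter G φ → φ 1 = a → φ t = e → e ≠ 1 →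
      (∀ m, κ m ∈ DD d.t → φ (ι m) = F (κ m)) → |e| + 16 ≤ a := fun {φ a e F} hφ p1 pt e1 v => by
    refine q8_bound (IsChar.comp (IsIrr.isChar hφ) (𝒞[t].subtype.comp ι)) f (odd_of_ker h.alp.ko k k1) uk
      (fun g => ?_) (fun g hg y hy => ?_) (fun e => ?_) (by simpa using p1) (by rw [f2, ← pt, ← congrArg φ h.ιt]; rfl)
    · rcases g with g | g
      · exact ik.zpow_left _
      · exact jk.mul_left (ik.zpow_left _)
    · obtain ⟨l, rfl⟩ := hy
      have e : κ (f g * k ^ l) = κ (f g) := by simp [k1]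
      exact (v _ (e ▸ fD g hg)).trans (by rw [e]; exact (v _ (fD g hg)).symm)
    · have c := IsIrr.isChar hφ
      have := (cfker_normal (IsChar.mem_CF c)).eq_bot_or_eq_top.resolve_right (IsIrr.cfker_ne_top hφ fun z => e1 (by
        rw [z, Pi.one_apply] at pt; exact_mod_cast pt.symm))
      have m : (ι k : G) ∈ cfker φ := (IsChar.mem_cfker c).2 (by simpa using e)
      rw [this, Subgroup.mem_bot, OneMemClass.coe_eq_one] at m
      exact k0 (h.alp.inj (m.trans (map_one ι).symm))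
  have e3 : d.e = 3 ∨ d.e = -3 := by rcases d.eq with e | e <;> rw [e, q] <;> simp
  have := o.contra (a := |d.e| + 16 - d.e) (b := |d.e + 1| + 16 + d.e + 1) (by rcases e3 with e | e <;> rw [e] <;> decide)
    (by rcases e3 with e | e <;> rw [e] <;> decide)
    (fun p => by have := key (o.c1 p) o.χ1 o.χt (by omega) o.v1; omega)
    fun p => by have := key (e := d.e + 1) (o.c2 p) o.ψ1 (by rw [o.ψt]; simp) (by omega) o.v2; omega
  rcases e3 with e | e <;> rw [e] at this <;> exact absurd this (by decide)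

theorem AG.two {t u : G} {C0 : Subgroup G} {κ : C0 →* N} {d : ND N} (h : AG t u C0 κ d.t d.u) {c : G} (hc : c ∈ 𝒞[t])
    {k : ℕ} (e : c ^ 2 ^ k = 1) : c ∈ C0 := by
  obtain ⟨m, hm⟩ := h.g0.two_range (c := ⟨c, hc⟩) (k := k) (Subtype.ext e)
  have e : (m : G) = c := congrArg Subtype.val hm
  exact e ▸ m.2

/-- `q = 3` -/
theorem AG.q3p [IsSimpleGroup G] {t u w j : G} {C0 : Subgroup G} {κ : C0 →* N} {d : ND N} (h : AG t u C0 κ d.t d.u)
    (hk : ∀ m : C0, (m : G) ∈ UU t → κ m = 1) (l : LH t u w j) (q : d.q = 3) : Q3P t u w := fun hi => by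
  obtain ⟨g, gt, gu⟩ := h.g0.gd
  have p4 : ∀ a : G, a * a = t → a ^ 2 ^ 2 = 1 := fun a e => by rw [sq 2, pow_mul, sq a, e, sq, h.t2]
  have jK : j ∈ 𝒞(UU t) := by
    obtain ⟨c, hc, rfl⟩ := l.cjj
    exact (mem_normalizer_iff''.1 (inv_mem (norm_cent (GW.UU_norm t) hc)) _).1 hi |> fun x => by simpa using x
  refine mem_centralizer_iff.2 fun x hx => ?_
  have xC := GW.UU_le t hx
  have kK : u * x * u⁻¹ * x⁻¹ ∈ UU t := mul_mem ((mem_normalizer_iff.1 (GW.UU_norm t l.uC) x).1 hx) (inv_mem hx)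
  have ui : u⁻¹ = u := inv_eq_of_mul_eq_one_right h.u2
  have := g.q3 q (i := ⟨_, h.two l.iC (p4 _ l.i2)⟩) (j := ⟨_, h.two l.jC (p4 _ l.j2)⟩) (k := ⟨_, h.com u l.uC x xC⟩)
    (gt ▸ Subtype.ext l.i2) (gt ▸ Subtype.ext l.j2) (Subtype.ext (by
      have := l.ji
      simp only [Subgroup.coe_mul, Subgroup.coe_inv]
      rw [← this]
      have e : j * (j * (u * w) * j⁻¹) = j * j * (u * w) * j⁻¹ := by group
      rw [e, l.j2, ← mem_centralizer_singleton_iff.1 l.iC, ← l.j2]; group))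
    (Subtype.ext (mem_centralizer_iff.1 hi _ kK).symm) (Subtype.ext (mem_centralizer_iff.1 jK _ kK).symm) (hk _ kK)
    (gu ▸ Subtype.ext (by
      simp only [Subgroup.coe_mul, Subgroup.coe_inv, ui, mul_inv_rev, inv_inv, ← mul_assoc, h.u2, one_mul]))
  have e : u * x * u⁻¹ * x⁻¹ = 1 := congrArg Subtype.val this
  rw [mul_inv_eq_one, mul_inv_eq_iff_eq_mul] at e
  exact e.symm

end CA.Abg
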