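import Cfsg.Agent.Blk.B2

/-!
# Values on a `p`-section when the involutions of `C(y)` form a coset
-/

set_option autoImplicit false
set_option linter.unusedSectionVars false
set_option linter.unusedVariables false

open Cfsg Subgroup CA.Chr CA.Blk Finset
open scoped ComplexConjugate Classical

namespace CA.Abg

universe u

variable {G : Type u} [Group G] [Fintype G] {Γ : Type*} [LinearOrderedCommGroupWithZero Γ] {v : Valuation ℂ Γ} {p : ℕ}

theorem exists_fac {R ι : Type*} [CommRing R] (O : Subring R) {w : R} (hw : w ∈ O) (s : Finset ι) {c : ι → R}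
    (hc : ∀ i ∈ s, c i ∈ O) : ∃ b ∈ O, 1 - ∏ i ∈ s, (1 - c i * w) = b * w := by
  induction s using Finset.induction_on with
  | empty => exact ⟨0, zero_mem _, by simp⟩
  | insert i s hi ih =>
    obtain ⟨b, hb, e⟩ := ih fun j hj => hc j (mem_insert_of_mem hj)
    refine ⟨b + c i * (1 - b * w), add_mem hb (mul_mem (hc i (mem_insert_self _ _))
      (sub_mem (one_mem _) (mul_mem hb hw))), ?_⟩
    rw [prod_insert hi]
    linear_combination (1 - c i * w) * e

/-- the idempotent of the characters at which `w` is a unit -/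
theorem exists_idem {w : (G → ℂ) → ℂ} (hw : zz w ∈ IntR G v) : ∃ b, zz b ∈ IntR G v ∧
    ∀ χ, IsIrrCharacter G χ → (b * w) χ = if v (w χ) = 1 then 1 else 0 := by
  let O : Subring ((G → ℂ) → ℂ) := (IntR G v).comap (zz (G := G)).toRingHom
  let u : (G → ℂ) → ℂ := ∏ χ ∈ (irr G).filter fun χ => v (w χ) ≠ 1, (w - fun _ => w χ)
  have hu : u ∈ O := prod_mem fun χ hχ => sub_mem hw (smul_one_mem (val_le_of_zz (mem_irr.mp (mem_filter.mp hχ).1) hw))
  have hu1 : ∀ ψ, v (w ψ) = 1 → v (w ψ * u ψ) = 1 := fun ψ hψ => by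
    simp only [u, Finset.prod_apply, map_prod, map_mul, hψ, one_mul]
    refine prod_eq_one fun χ hχ => val_eq_one_of_sub hψ ?_
    simpa using (val_le_of_zz (mem_irr.mp (mem_filter.mp hχ).1) hw).lt_of_ne (mem_filter.mp hχ).2
  obtain ⟨b, hb, e⟩ := exists_fac O (w := w) hw ((irr G).filter fun χ => v (w χ) = 1)
    (c := fun ψ => (fun _ => (w ψ * u ψ)⁻¹) * u) fun ψ hψ => mul_mem (smul_one_mem (val_inv (hu1 ψ (mem_filter.mp hψ).2)).le) hu
  refine ⟨b, hb, fun χ hχ => ?_⟩
  rw [← e]
  simp only [Pi.sub_apply, Pi.one_apply, Finset.prod_apply, Pi.mul_apply]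
  split_ifs with h
  · rw [prod_eq_zero (mem_filter.2 ⟨mem_irr.2 hχ, h⟩) (by
      rw [mul_assoc, mul_comm (u χ), inv_mul_cancel₀ (val_ne_zero (hu1 χ h)), sub_self]), sub_zero]
  · have : u χ = 0 := by
      simp only [u, Finset.prod_apply]
      exact prod_eq_zero (mem_filter.2 ⟨mem_irr.2 hχ, h⟩) (by simp)
    simp [this]

theorem sec_zero (hp : p.Prime) (hv : v p < 1) {y : G} {k : ℕ} (hy : y ^ p ^ k = 1) {w : (G → ℂ) → ℂ}
    (hw : zz w ∈ IntR G v) {a e : GA G} (ia : a ∈ IntR G v) (ie : e ∈ IntR G v) (ca : Commute (dl y) a)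
    (ce : Commute (dl y) e) (me : e * e = e) (ae : a * e = 0)
    (r : ∀ g ∈ centralizer {y}, a.coeff g = (zz w).coeff g) {χ : G → ℂ} (hχ : IsIrrCharacter G χ) (h1 : v (w χ) = 1) :
    ev χ (dl y * e) = 0 := by
  obtain ⟨b, hb, k⟩ := exists_idem hw
  have cz : ∀ (f : (G → ℂ) → ℂ) (a : GA G), Commute a (zz f) := fun f a => ((cen_zz f).comm a).symm
  have mE : zz (b * w) * zz (b * w) = zz (b * w) := by
    rw [← map_mul]
    exact zz_congr fun χ hχ => by rw [Pi.mul_apply, k χ hχ]; split_ifs <;> simp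
  have := ev_idem_zero hp hv (IsIrr.mem_CF hχ) (g := y) (f := e * zz (b * w)) (by
    rw [mul_assoc, ← mul_assoc (zz _), ← (cz _ e).eq, mul_assoc, mE, ← mul_assoc, me])
    (mul_mem ie (map_mul zz b w ▸ mul_mem hb hw)) (ce.mul_right (cz _ _)) fun h i hi c => by
      have s1 := res_mul hp hv hy rfl hw ie (cz _ _) ce
      have s2 := res_mul hp hv hy rfl ia ie ca ce
      have s3 := res_mul hp hv hy rfl hb (mul_mem hw ie) (cz _ _) ((cz _ _).mul_right ce)
      rw [show res _ a = res _ (zz w) from ext_coeff fun c => r c c.2, ae] at s2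
      have s4 := (s1.trans s2.symm).mul_left (res_int hb)
      rw [map_zero, sub_zero] at s4
      have := s3.add s4 ⟨h, mem_centralizer_singleton_iff.2
        (commute_of_mem_zpowers (mem_zpowers_pow hp hy hi) c).eq.symm⟩
      rwa [sub_add_cancel, ← mul_assoc, ← map_mul, ← (cz _ e).eq] at this
  rwa [← mul_assoc, ev_mul_zz hχ, k χ hχ, if_pos h1, one_mul] at this

theorem b3a (hp : p.Prime) (p2 : p ≠ 2) {y t : G} {k : ℕ} (hy : y ^ p ^ k = 1) (t2 : t * t = 1) (t1 : t ≠ 1)
    (c : Commute y t) {R : Subgroup G} (RC : R ≤ centralizer {y}) (nR : y ∈ normalizer (R : Set G))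
    (oR : ¬ 2 ∣ Nat.card R) (pR : ¬ p ∣ Nat.card R) (iR : ∀ r ∈ R, t * r * t⁻¹ = r⁻¹)
    (hI : ∀ a ∈ centralizer {y}, a * a = 1 ∧ a ≠ 1 → ∃ r ∈ R, a = t * r) {χ : G → ℂ} (hχ : Dirr χ)
    (h0 : χ (y * t) ≠ 0) : χ y = χ (y * t) ∨ χ y = -χ (y * t) := by
  wlog hi : IsIrrCharacter G χ generalizing χ
  · simpa [neg_inj, neg_eq_iff_eq_neg] using this hχ.neg (by simpa using h0) (hχ.resolve_left hi)
  obtain ⟨V, hv⟩ := exists_val hp
  have ti : t⁻¹ = t := inv_eq_of_mul_eq_one_right t2
  have sq : ∀ r ∈ R, ∃ s ∈ R, s * s = r := fun r hr => by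
    obtain ⟨n, hn⟩ : Odd (Nat.card R) := Nat.not_even_iff_odd.1 (mt even_iff_two_dvd.1 oR)
    have e : r ^ Nat.card R = 1 := congrArg Subtype.val (pow_card_eq_one' (x := (⟨r, hr⟩ : R)))
    exact ⟨r ^ (n + 1), pow_mem hr _, by rw [← pow_add, show n + 1 + (n + 1) = Nat.card R + 1 by omega, pow_succ, e, one_mul]⟩
  have r1 := val_nat_eq_one hp hv pR
  have v2 : V.valuation (2 : ℂ) = 1 := val_nat_eq_one hp hv (n := 2) fun e => p2 ((Nat.prime_dvd_prime_iff_eq hp Nat.prime_two).1 e)
  set r : ℂ := (Nat.card R : ℂ) with hr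
  have r0 := val_ne_zero r1
  have sR : ∀ F : G → ℂ, ∑ g, (if g ∈ R then r⁻¹ else 0) * F g = r⁻¹ * ∑ g : R, F g := fun F => by
    rw [← sum_subtype (univ.filter (· ∈ R)) (p := (· ∈ R)) (by simp) F, sum_filter, mul_sum]
    exact sum_congr rfl fun g _ => by split_ifs <;> simp
  have sC : ∀ z : ℂ, r⁻¹ * ∑ g : R, z = z := fun z => by
    rw [sum_const, card_univ, ← Nat.card_eq_fintype_card, nsmul_eq_mul, inv_mul_cancel_left₀ r0]
  let e : GA G := mk fun g => if g ∈ R then r⁻¹ else 0
  have ie : e ∈ IntR G V.valuation := fun g => by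
    simp only [e, coeff_mk]; split_ifs; exacts [(val_inv r1).le, by simp]
  have it : dl t ∈ IntR G V.valuation := fun g => by
    simp only [dl, MonoidAlgebra.coeff_single, Finsupp.single_apply]; split_ifs <;> simp
  have me : e * e = e := ext_coeff fun g => by
    rw [coeff_mul, coeff_mk]
    simp only [e, coeff_mk]
    rw [sR, sum_congr rfl fun (x : R) _ => if_congr (R.mul_mem_cancel_left (inv_mem x.2)) rfl rfl, sC]
  have ce : ∀ x ∈ normalizer (R : Set G), Commute (dl x) e := fun x hx => commute_of_coeff fun g =>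
    if_congr (mem_normalizer_iff.1 hx g).symm rfl rfl
  have te := ce t (mem_normalizer_fintype fun x hx => by rw [iR x hx]; exact inv_mem hx)
  have tt : dl t * dl t = (1 : GA G) := by rw [MonoidAlgebra.single_mul_single, t2, mul_one, MonoidAlgebra.one_def]
  have yt : Commute (dl y : GA G) (dl t) := by
    simp only [Commute, SemiconjBy, MonoidAlgebra.single_mul_single, c.eq]
  let z : GA G := mk fun g => if g * g = 1 ∧ g ≠ 1 then 1 else 0
  have cz : Cen z := mem_CF.2 fun g x => if_congr (by simp [conj_mul]) rfl rfl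
  have iz : z ∈ IntR G V.valuation := fun g => by simp only [z, coeff_mk]; split_ifs <;> simp
  have hX : ev χ (dl y * (dl t * e)) = χ (y * t) := by
    rw [← mul_assoc, MonoidAlgebra.single_mul_single, mul_one, ev_dl_mul]
    simp only [e, coeff_mk]
    rw [sR, sum_congr rfl fun (x : R) _ => ?_, sC]
    obtain ⟨s, hs, e⟩ := sq x x.2
    have h1 : s * y = y * s := mem_centralizer_singleton_iff.1 (RC hs)
    have h2 : s * t * s = t := by rw [mul_assoc, mul_inv_eq_iff_eq_mul.1 (iR s hs), mul_inv_cancel_left]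
    rw [← CF_conj (IsIrr.mem_CF hi) _ s, ← e]
    exact congrArg χ (by rw [show s * (y * t * (s * s)) * s⁻¹ = s * y * t * s by group, h1, mul_assoc y, mul_assoc y, h2])
  have hz : ∀ g ∈ centralizer {y}, (r • (dl t * e)).coeff g = z.coeff g := fun g hg => by
    have : t⁻¹ * g ∈ R ↔ g * g = 1 ∧ g ≠ 1 := ⟨fun h => ⟨by
      have := iR _ h
      rw [mul_inv_cancel_left, mul_inv_rev, inv_inv, ti] at this
      exact mul_eq_one_iff_eq_inv.2 (mul_right_cancel this), fun e => oR (by
        rw [e, mul_one, inv_mem_iff] at h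
        exact orderOf_eq_prime (by rwa [pow_two]) t1 ▸ R.orderOf_dvd_natCard h)⟩, fun h => by
      obtain ⟨x, hx, rfl⟩ := hI g hg h
      simpa using hx⟩
    simp [e, z, this, r0]
  have T2 : dl t * e * (dl t * e) = e := by rw [mul_assoc, ← mul_assoc e, ← te.eq, mul_assoc, me, ← mul_assoc, tt, one_mul]
  have Te : dl t * e * e = dl t * e := by rw [mul_assoc, me]
  have eT : e * (dl t * e) = dl t * e := by rw [← mul_assoc, ← te.eq, Te]
  have iT := mul_mem it ie
  have cT := yt.mul_right (ce y nR)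
  have cy := ce y nR
  generalize dl t * e = T at *
  set w : (G → ℂ) → ℂ := fun χ => ev χ z / χ 1 with hw
  have key : ∀ (l : ℂ) (f : GA G), V.valuation l ≤ 1 → f ∈ IntR G V.valuation → Commute (dl y) f → f * f = f →
      r • (T * f) = l • f → V.valuation (w χ - l) < 1 ∨ ev χ (dl y * f) = 0 := fun l f hl i cf m e => by
    have iw : zz (w - fun _ => l) ∈ IntR G V.valuation := by
      rw [map_sub, ← cz.eq_zz]; exact sub_mem iz (smul_one_mem hl)
    refine (val_le_of_zz hi iw).lt_or_eq.imp_right fun h => sec_zero hp hv hy iw (a := r • T - l • 1)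
      (sub_mem (smul_mem_IntR r1.le iT) (smul_mem_IntR hl (one_mem _))) i
      ((cT.smul_right _).sub_right ((Commute.one_right _).smul_right _)) cf m (by simp [sub_mul, e]) (fun g hg => ?_) hi h
    rw [map_sub, ← cz.eq_zz, show (fun _ => l : (G → ℂ) → ℂ) = l • 1 by ext; simp, map_smul, map_one]
    exact congrArg (· - _) (hz g hg)
  have i2 : V.valuation (2⁻¹ : ℂ) ≤ 1 := (val_inv v2).le
  have k0 := key 0 (1 - e) (by simp) (sub_mem (one_mem _) ie) ((Commute.one_right _).sub_right cy)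
    (by simp [mul_sub, sub_mul, me]) (by simp [mul_sub, Te])
  have k1 := key r ((2⁻¹ : ℂ) • (e + T)) r1.le (smul_mem_IntR i2 (add_mem ie iT)) ((cy.add_right cT).smul_right _)
    (by simp only [smul_mul_smul_comm, mul_add, add_mul, me, Te, eT, T2]; module)
    (by simp only [mul_smul_comm, mul_add, Te, T2]; module)
  have k2 := key (-r) ((2⁻¹ : ℂ) • (e - T)) (by simp [r1]) (smul_mem_IntR i2 (sub_mem ie iT)) ((cy.sub_right cT).smul_right _)
    (by simp only [smul_mul_smul_comm, mul_sub, sub_mul, me, Te, eT, T2]; module)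
    (by simp only [mul_smul_comm, mul_sub, Te, T2]; module)
  simp only [mul_sub, mul_add, mul_one, mul_smul_comm, map_sub, map_add, map_smul, ev_dl, hX, smul_eq_mul] at k0 k1 k2
  have ne : ∀ {a b : ℂ}, V.valuation (w χ - a) < 1 → V.valuation (w χ - b) < 1 → V.valuation (a - b) ≠ 1 :=
    fun ha hb e => e.not_lt (by simpa using val_sub_lt hb ha)
  rcases k0 with k0 | k0 <;> rcases k1 with k1 | k1 <;> rcases k2 with k2 | k2
  · exact (ne k1 k0 (by simp [r1])).elim
  · exact (ne k1 k0 (by simp [r1])).elim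
  · exact (ne k2 k0 (by simp [r1])).elim
  · exact (h0 (by linear_combination k1 - k2)).elim
  · exact (ne k1 k2 (by rw [sub_neg_eq_add, ← two_mul, map_mul, v2, r1, mul_one])).elim
  · exact Or.inl (by linear_combination k0 + 2 * k2)
  · exact Or.inr (by linear_combination k0 + 2 * k1)
  · exact (h0 (by linear_combination k1 - k2)).elim

end CA.Abg
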