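import Cfsg.Agent.Abg.B11
import Cfsg.Agent.Abg.B12
import Cfsg.Agent.McL.E1

/-!
# The final configuration for `q ≥ 5`; overgroups of `C(t)` fusing `t` and `u`
-/

set_option autoImplicit false
set_option linter.unusedSectionVars false
set_option linter.unusedVariables false

open Cfsg Subgroup CA.Chr CA.Dih CA.Blk CA.Br CA.FG Finset
open CA.GW (UU IsInv)
open scoped ComplexConjugate Classical

namespace CA.Abg

universe u v w

variable {G : Type u} {M : Type v} {N : Type w} [Group G] [Fintype G] [Group M] [Fintype M] [Group N] [Fintype N]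

theorem re_sum_le {χ : G → ℂ} (hχ : IsCharacter G χ) (O : Subgroup G) {s : ℤ} (h1 : χ 1 = s) :
    (∑ o : O, χ o).re ≤ Nat.card O * s := by
  have : (deg χ : ℝ) = s := by have := IsChar.coe_deg hχ; rw [h1] at this; exact_mod_cast this
  rw [Complex.re_sum, Nat.card_eq_fintype_card, ← card_univ, ← nsmul_eq_mul]
  exact sum_le_card_nsmul _ _ _ fun o _ => (Complex.re_le_norm _).trans (this ▸ IsChar.norm_le hχ _)

theorem re_sum_eq {χ : G → ℂ} (O : Subgroup G) {s e : ℤ} (h1 : χ 1 = s) (h : ∀ o ∈ O, o ≠ 1 → χ o = e) :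
    (∑ o : O, χ o).re = s + (Nat.card O - 1) * e := by
  rw [← add_sum_erase _ _ (mem_univ (1 : O)), sum_congr rfl fun (o : O) ho => h o o.2 (by simpa using ho), sum_const,
    card_erase_of_mem (mem_univ _), card_univ, Nat.card_eq_fintype_card, OneMemClass.coe_one, h1, nsmul_eq_mul,
    Nat.cast_pred Fintype.card_pos]
  simp

namespace NU

variable {d : ND N} {t : G} {ι : M →* 𝒞[t]} {κ : M →* N} {h : GD d t ι κ} {χ ψ : G → ℂ} {s n : ℤ} (o : NU h χ ψ s n)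
include o

theorem bd (K : Subgroup M) (O : Subgroup G)
    (hn : ∀ m ∈ K, ∀ o ∈ O, (ι m : G) * o * (ι m : G)⁻¹ ∈ O) (hs : ∀ n, ∃ m ∈ K, κ m = n)
    (hk : ∀ m ∈ K, κ m = 1 → (ι m : G) ∈ O) (uK : h.uM ∈ K)
    (hD : ∀ m ∈ K, κ m ∈ DD d.t → ∀ o ∈ O, ∃ m', κ m' = κ m ∧ IsConj (ι m' : G) (o * ι m))
    (hU : ∀ o ∈ O, ∃ m', κ m' = d.t ∧ IsConj (ι m' : G) (o * ι h.uM)) :
    (0 < s - d.e → Nat.card O * ((d.e : ℝ) ^ 2 - 1 + d.e) ≤ (∑ o : O, χ o).re) ∧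
    (0 < n + d.e + 1 → Nat.card O * ((d.e : ℝ) ^ 2 + d.e) ≤ (∑ o : O, ψ o).re) :=
  ⟨fun p => by simpa [o.χt] using h.bdx K O hn hs hk uK hD hU (IsIrr.isChar (o.c1 p)) o.v1 (by rw [o.χt]; ring),
    fun p => by
      have := h.bdx K O hn hs hk uK hD hU (IsIrr.isChar (o.c2 p)) o.v2 (by rw [o.ψt]; ring)
      rw [o.ψt] at this
      convert this using 2
      simp⟩

/-- the ratio `s (s - 1) / (s - e) ^ 2` -/
theorem ratio (ha : 0 < s - d.e → d.e ^ 2 - 1 ≤ s - d.e) (hb : 0 < n + d.e + 1 → (d.e + 1) ^ 2 ≤ n + d.e + 1) :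
    (0 < d.e → (s - d.e) ^ 2 ≤ s * (s - 1) ∧ s * (s - 1) < 3 * (s - d.e) ^ 2) ∧
    (d.e < 0 → (s - d.e) ^ 2 ≤ 2 * (s * (s - 1)) ∧ 2 * (s * (s - 1)) < 3 * (s - d.e) ^ 2) := by
  have eq := o.e3
  have s0 := o.s0
  have n0 := o.n0
  have q := d.e3
  have d3 := (deg3 h.four h.cj o.d1 o.χ1 o.χt).2.1
  have d4 := fun p => IsChar.coe_deg (IsIrr.isChar (o.c1 p))
  have d5 : 0 < s - d.e → 0 < s := fun p => by
    have := d4 p
    rw [o.χ1] at this
    have e : (deg χ : ℤ) = s := by exact_mod_cast this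
    have : s ≠ 0 := fun z => o.d1.deg_ne_zero (by rw [o.χ1, z]; simp)
    omega
  clear d4
  obtain ⟨x, rfl⟩ : ∃ x, s = x + d.e := ⟨s - d.e, by ring⟩
  generalize n + d.e + 1 = y at *
  generalize d.e = e at *
  simp only [add_sub_cancel_right] at *
  have p1 : 0 < e * (e + 1) := by rcases q with k | k <;> nlinarith
  have p2 : 0 < e * (e - 1) := by rcases q with k | k <;> nlinarith
  have neg : x < 0 → 0 < y ∧ y < e * (e + 1) := fun hx => by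
    have : 0 < y := by
      by_contra c
      nlinarith [mul_nonneg_of_nonpos_of_nonpos (not_lt.1 c) hx.le, mul_pos p1 (neg_pos.2 hx),
        mul_nonneg p2.le (neg_nonneg.2 (not_lt.1 c))]
    exact ⟨this, by by_contra c; nlinarith [mul_pos p2 this, mul_nonneg (sub_nonneg.2 (not_lt.1 c)) (neg_pos.2 hx).le]⟩
  refine ⟨fun e0 => ?_, fun e0 => ?_⟩
  · have e3 : 3 ≤ e := by omega
    have : 0 < x := s0.lt_or_gt.resolve_left fun hx => by have := hb (neg hx).1; have := (neg hx).2; nlinarith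
    have := ha this
    have : 2 * e ≤ x := by nlinarith
    constructor <;> nlinarith
  · have e3 : e ≤ -3 := by omega
    rcases s0.lt_or_gt with hx | hx
    · have h1 := hb (neg hx).1
      have h2 := (neg hx).2
      have h3 : x ≤ -(e + 1) * (e * (e - 1)) * -1 := by
        by_contra c
        have a : 0 < -(e + 1) := by omega
        have : (e * (e - 1) - x) * (e * (e + 1) - y) = e * (e + 1) * (e * (e - 1)) := by linear_combination eq
        have : (e * (e - 1) - x) * (e * (e + 1) - y) ≤ (e * (e - 1) - x) * -(e + 1) :=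
          mul_le_mul_of_nonneg_left (by nlinarith) (by omega)
        nlinarith [mul_pos a (sub_pos.2 (not_le.1 c))]
      have : x ≤ 8 * e := by nlinarith
      constructor <;> nlinarith
    · have := d3 (d5 hx)
      constructor <;> nlinarith

end NU

/-- `q ≥ 5` -/
theorem AG.b3p {t u w : G} {C0 : Subgroup G} {κ : C0 →* N} {d : ND N} (h : AG t u C0 κ d.t d.u)
    (hK : UU t ≤ C0) (hk : ∀ m : C0, κ m = 1 ↔ (m : G) ∈ UU t) (q : d.q ≠ 3) {K1 : Subgroup G} (uK : u ∈ K1)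
    (hs : ∀ n, ∃ m : C0, (m : G) ∈ K1 ∧ κ m = n) (hL : K1 ⊓ UU t ≤ LL t (u * w)) : B3P t u w := by
  intro p Y hp pY Y1 YK nY iY LY hR
  obtain ⟨g, gt, gu⟩ := h.g0.gd
  obtain ⟨χ, ψ, s, n, o⟩ := g.num
  have oY : ¬ 2 ∣ Nat.card Y := (piGrp_compl_singleton_iff Nat.prime_two).1 ((GW.UU_odd t).of_le YK)
  have oy : ∀ y ∈ Y, Odd (orderOf y) := fun y hy =>
    Nat.not_even_iff_odd.1 fun e => oY (e.two_dvd.trans (Y.orderOf_dvd_natCard hy))
  have Y3 : 3 ≤ Nat.card Y := by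
    have := (Y.one_lt_card_iff_ne_bot).2 Y1
    omega
  have p2 : p ≠ 2 := by
    rintro rfl
    exact Y1 (eq_bot_iff.2 fun y hy => by
      obtain ⟨k, hk⟩ := (pElt_iff hp).1 (pY.piElt hy)
      exact eq_one_of_odd_two (oy y hy) hk)
  have q3 := d.e3
  obtain ⟨b, f, db, df, v, od⟩ := o.od
  have val : ∀ y ∈ Y, y ≠ 1 → χ y = (d.e : ℤ) ∧ ψ y = (-(d.e + 1) : ℤ) := fun y hy y1 => by
    obtain ⟨k, e⟩ := (pElt_iff hp).1 (pY.piElt hy)
    obtain ⟨R, RC, nR, oR, pR, iR, hI⟩ := hR y hy y1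
    have a : ∀ {φ : G → ℂ} {l : ℤ}, Dirr φ → φ (y * t) = l → l ≠ 0 → ∃ ε : ℤ, (ε = l ∨ ε = -l) ∧ φ y = ε :=
      fun {φ l} hφ e1 l0 => by
        rcases b3a hp p2 e h.t2 g.t1 (mem_centralizer_singleton_iff.1 (GW.UU_le t (YK hy))) RC
          (nR (mem_cent_singleton_self y)) oR pR iR hI hφ (by rw [e1]; exact_mod_cast l0) with k | k
        exacts [⟨l, Or.inl rfl, k.trans e1⟩, ⟨-l, Or.inr rfl, by rw [k, e1]; simp⟩]
    let m : C0 := ⟨y, hK (YK hy)⟩ * ⟨t, h.tC⟩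
    have tD : κ g.tM ∈ DD d.t := by rw [g.κt]; exact d.tD
    have km : κ m = d.t := by rw [map_mul, (hk _).2 (YK hy), h.κt, one_mul]
    obtain ⟨a1, h1, e1⟩ := a o.d1 (l := d.e) ((o.v1 m (km ▸ d.tD)).trans (by
      rw [km, ← o.χt, ← congrArg χ g.ιt, o.v1 _ tD, g.κt])) (by omega)
    obtain ⟨a2, h2, e2⟩ := a o.d2 (l := d.e + 1) ((o.v2 m (km ▸ d.tD)).trans (by
      rw [km, Int.cast_add, Int.cast_one, ← o.ψt, ← congrArg ψ g.ιt, o.v2 _ tD, g.κt])) (by omega)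
    obtain ⟨a3, h3, e3⟩ := a db (l := 1 - d.e) ((v m km).1.trans (by simp)) (by omega)
    obtain ⟨a4, h4, e4⟩ := a df (l := d.e) (v m km).2 (by omega)
    obtain ⟨o1, o2⟩ := od y (oy y hy)
    rw [e1, e3] at o1
    rw [e2, e4] at o2
    have o1 : 1 - a1 + a3 = 0 := by exact_mod_cast o1
    have o2 : 1 + a2 + a4 = 0 := by exact_mod_cast o2
    rw [e1, e2]
    exact ⟨congrArg _ (by omega), congrArg _ (by omega)⟩
  obtain ⟨b1, b2⟩ := o.bd (K1.subgroupOf C0) Y (fun m _ y hy => (mem_normalizer_iff.1 (nY (h.le m.2)) y).1 hy) hs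
    (fun m hm e => LY ⟨hL ⟨hm, (hk m).1 e⟩, (hk m).1 e⟩) (gu ▸ uK)
    (fun m _ _ y hy => ⟨⟨y, hK (YK hy)⟩ * m, by rw [map_mul, (hk _).2 (YK hy), one_mul], IsConj.refl _⟩)
    fun y hy => ⟨_, h.κt, gu ▸ h.cj (y * u) (by
      rw [mul_assoc, ← mul_assoc u, mul_inv_eq_iff_eq_mul.1 (iY y hy), mul_assoc, h.u2, mul_one, mul_inv_cancel]) fun e =>
        g.uC1 (gu ▸ Subtype.ext (eq_one_of_odd_two (k := 1) (oy u (by
          rw [eq_inv_of_mul_eq_one_right e]; exact inv_mem hy)) (by rw [pow_one, sq]; exact h.u2)))⟩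
  rw [re_sum_eq Y o.χ1 fun y hy y1 => (val y hy y1).1] at b1
  rw [re_sum_eq Y o.ψ1 fun y hy y1 => (val y hy y1).2] at b2
  have e5 : 3 ≤ d.e ∨ d.e ≤ -5 := by
    obtain ⟨j, hj⟩ := d.eo
    rcases d.eq with e | e <;> omega
  have k1 : 0 < d.e ^ 2 - 1 := by rcases e5 with e | e <;> nlinarith
  have k2 : 0 < (d.e + 1) ^ 2 := by rcases e5 with e | e <;> nlinarith
  have Y3 : (3 : ℤ) ≤ Nat.card Y := by exact_mod_cast Y3
  have := o.contra (a := 3 * (d.e ^ 2 - 1)) (b := 3 * (d.e + 1) ^ 2) (by omega) (by omega) (fun p => by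
    have : (Nat.card Y : ℤ) * (d.e ^ 2 - 1 + d.e) ≤ s + (Nat.card Y - 1) * d.e := by exact_mod_cast b1 p
    nlinarith) fun p => by
    have : (Nat.card Y : ℤ) * (d.e ^ 2 + d.e) ≤ n + (Nat.card Y - 1) * -(d.e + 1) := by exact_mod_cast b2 p
    nlinarith
  have : 3 * ((d.e + 1) ^ 2 * ((d.e - 1) * (d.e + 3))) ≤ 0 := by linear_combination this
  rcases e5 with e | e
  · nlinarith [mul_pos k2 (mul_pos (show 0 < d.e - 1 by omega) (show 0 < d.e + 3 by omega))]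
  · nlinarith [mul_pos k2 (mul_pos_of_neg_of_neg (show d.e - 1 < 0 by omega) (show d.e + 3 < 0 by omega))]

theorem coset_D {t m o : G} {O : Subgroup G} (oO : IsPiGrp {2}ᶜ O) (t2 : t * t = 1)
    (hn : ∀ o ∈ O, m * o * m⁻¹ ∈ O) (hm : m ∈ DD t) (ho : o ∈ O) :
    ∃ x ∈ O, x * (o * m) * x⁻¹ ∈ 𝒞[t] := by
  have nm : m ∈ normalizer (O : Set G) := mem_normalizer_fintype hn
  have k : ∀ a : ℕ, (o * m) ^ a * (m ^ a)⁻¹ ∈ O := fun a => by
    induction a with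
    | zero => simp
    | succ a ih =>
      have := mul_mem ho (hn _ ih)
      rw [pow_succ', pow_succ']
      simpa [mul_assoc] using this
  obtain ⟨a, ha⟩ := (mem_powers_iff_mem_zpowers.2 hm : t ∈ Submonoid.powers m)
  have ha : m ^ a = t := ha
  have nt : ∀ o ∈ O, t * o * t⁻¹ ∈ O := fun o ho => (mem_normalizer_iff.1 (ha ▸ pow_mem nm a) o).1 ho
  have k1 := k a
  rw [ha] at k1
  have ti : t⁻¹ = t := inv_eq_of_mul_eq_one_right t2
  have k2 : ((o * m) ^ a) ^ 2 ∈ O := by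
    have := mul_mem k1 (nt _ k1)
    rw [sq]
    simpa [mul_assoc, ti, t2, ← mul_assoc t t] using this
  obtain ⟨l, hl⟩ : Odd (Nat.card O) :=
    Nat.not_even_iff_odd.1 fun e => (piGrp_compl_singleton_iff Nat.prime_two).1 oO e.two_dvd
  obtain ⟨x, hx, e⟩ := conj_of_odd oO t2 (b := ((o * m) ^ a) ^ (2 * l + 1)) (by
    rw [← sq, ← pow_mul, mul_comm _ 2, pow_mul, ← hl]
    exact congrArg Subtype.val (pow_card_eq_one' (x := (⟨_, k2⟩ : O)))) (by
    have := nt _ (mul_mem (pow_mem k2 l) k1)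
    rw [pow_succ, pow_mul]
    simpa [mul_assoc, ti, t2] using this)
  exact ⟨x, hx, e ▸ cj_cent.2 (mem_centralizer_singleton_iff.2 (((Commute.refl _).pow_right _).pow_right _).eq)⟩

theorem GD.ix {d : ND N} {t : G} {ι : M →* 𝒞[t]} {κ : M →* N} (h : GD d t ι κ) (K : Subgroup M) (O : Subgroup G)
    (oO : IsPiGrp {2}ᶜ O) (hn : ∀ m, ∀ o ∈ O, (ι m : G) * o * (ι m : G)⁻¹ ∈ O) (hs : ∀ n, ∃ m ∈ K, κ m = n)
    (hk : ∀ m ∈ K, κ m = 1 → (ι m : G) ∈ O) (uK : h.uM ∈ K) (hO : ∀ o ∈ O, o ∈ 𝒞[t] → ∃ m, ι m = o ∧ κ m = 1) {g : G}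
    (hg : ∀ o ∈ O, g⁻¹ * o * g ∈ O) (e : g * t * g⁻¹ = ι h.uM) : ∃ s : ℤ, s - d.e ≠ 0 ∧
      (𝒞[t]).index * (s - d.e) ^ 2 = h.A ^ 2 * (d.e * (d.e - 1) * (d.e + 1) ^ 2) * (s * (s - 1)) ∧
      (0 < d.e → (s - d.e) ^ 2 ≤ s * (s - 1) ∧ s * (s - 1) < 3 * (s - d.e) ^ 2) ∧
      (d.e < 0 → (s - d.e) ^ 2 ≤ 2 * (s * (s - 1)) ∧ 2 * (s * (s - 1)) < 3 * (s - d.e) ^ 2) := by
  obtain ⟨χ, ψ, s, n, o⟩ := h.num
  have hD : ∀ m, κ m ∈ DD d.t → ∀ o ∈ O, ∃ m', κ m' = κ m ∧ IsConj (ι m' : G) (o * ι m) := fun m hm o ho => by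
    obtain ⟨x, hx, c⟩ := coset_D oO h.t2 (hn m) ((h.DC _).1 ((h.eD m).2 hm)) ho
    obtain ⟨k, k1, k2⟩ := hO (x * (o * ι m) * x⁻¹ * (ι m : G)⁻¹)
      (by simpa [mul_assoc] using mul_mem hx (mul_mem ho (hn m _ (inv_mem hx)))) (mul_mem c (inv_mem (ι m).2))
    exact ⟨k * m, by simp [k2], isConj_iff.2 ⟨x⁻¹, by simp [k1, mul_assoc]⟩⟩
  obtain ⟨b1, b2⟩ := o.bd K O (fun m _ => hn m) hs hk uK (fun m _ => hD m) fun o ho => by
    obtain ⟨m, k1, k2⟩ := hD h.tM (h.κt ▸ d.tD) _ (hg o ho)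
    exact ⟨m, k1.trans h.κt, k2.trans (isConj_iff.2 ⟨g, by rw [← e, h.ιt]; group⟩)⟩
  have c0 : (0 : ℝ) < Nat.card O := by exact_mod_cast Nat.card_pos
  exact ⟨s, o.s0, o.e1, o.ratio (fun p => by
    have := le_of_mul_le_mul_left ((b1 p).trans (re_sum_le (IsIrr.isChar (o.c1 p)) O o.χ1)) c0
    have : d.e ^ 2 - 1 + d.e ≤ s := by exact_mod_cast this
    omega) fun p => by
    have := le_of_mul_le_mul_left ((b2 p).trans (re_sum_le (IsIrr.isChar (o.c2 p)) O o.ψ1)) c0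
    have : d.e ^ 2 + d.e ≤ n := by exact_mod_cast this
    nlinarith⟩

theorem Alp.equiv {C C' : Type u} [Group C] [Fintype C] [Group C'] [Fintype C'] {ι : M →* C} {κ : M →* N} (h : Alp ι κ)
    (e : C ≃* C') : Alp (e.toMonoidHom.comp ι) κ := by
  have r : ∀ c, e c ∈ (e.toMonoidHom.comp ι).range ↔ c ∈ ι.range := fun c => by simp
  refine ⟨e.injective.comp h.inj, fun a b => ?_, ?_, fun g => ?_, h.sur, h.ko⟩
  · simpa using (r _).2 (h.com (e.symm a) (e.symm b))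
  · rw [MonoidHom.range_comp, index_map_of_bijective e.bijective]; exact h.odd
  · obtain ⟨n, hn⟩ := h.syl (e.symm g)
    refine ⟨n, ?_⟩
    rwa [← index_comap_of_surjective _ (f := e.toMonoidHom) e.surjective,
      show comap e.toMonoidHom _ = centralizer {e.symm g * ι n} from Subgroup.ext fun x => by
        rw [mem_comap, mem_centralizer_singleton_iff, mem_centralizer_singleton_iff, ← e.injective.eq_iff]; simp]

theorem odd_index_cent {t : G} (t2 : t * t = 1) (t1 : t ≠ 1) (cj : ∀ i : G, i * i = 1 → i ≠ 1 → IsConj t i) :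
    ¬ 2 ∣ (𝒞[t]).index := by
  obtain ⟨S, hS⟩ := sylow_exists Nat.prime_two (⊤ : Subgroup G)
  have S0 := hS.ne_bot' Nat.prime_two (orderOf_two t2 t1 ▸ (⊤ : Subgroup G).orderOf_dvd_natCard (mem_top t))
  obtain ⟨z, hz, oz⟩ := IsPGrp.exists_orderOf_eq (IsPiGrp.inf_left hS.pGrp 𝒞(S)) (center_nil_ne_bot (IsPGrp.nil hS.pGrp) S0)
  obtain ⟨g, rfl⟩ := isConj_iff.1 (cj z (sq_eq_one_of_orderOf oz) (ne_one_of_orderOf Nat.prime_two oz)).symm
  rw [← conjg_cent1, index_conjg]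
  intro e
  refine hS.not_dvd_index Nat.prime_two ?_
  rw [relIndex_top_right]
  exact e.trans (index_dvd_of_le (mem_cent_iff_le_cent_singleton.1 hz.2))

/-- the centralizer of `t` in an overgroup of `C(t)` -/
def cenE {t : G} {H : Subgroup G} (hC : 𝒞[t] ≤ H) : 𝒞[t] ≃* 𝒞[(⟨t, hC (mem_cent_singleton_self t)⟩ : H)] where
  toFun c := ⟨⟨c, hC c.2⟩, mem_centralizer_singleton_iff.2 (Subtype.ext (mem_centralizer_singleton_iff.1 c.2))⟩
  invFun c := ⟨c, mem_centralizer_singleton_iff.2 (congrArg Subtype.val (mem_centralizer_singleton_iff.1 c.2))⟩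
  left_inv _ := rfl
  right_inv _ := rfl
  map_mul' _ _ := rfl

theorem GZ.sub {d : ND N} {t : G} {ι : M →* 𝒞[t]} {κ : M →* N} {tM uM : M} (h : GZ d t ι κ tM uM) {H : Subgroup G}
    (hC : 𝒞[t] ≤ H) {g : G} (hg : g ∈ H) (e : g * t * g⁻¹ = ι uM) :
    GZ d _ ((cenE hC).toMonoidHom.comp ι) κ tM uM := by
  refine ⟨h.alp.equiv _, Subtype.ext h.ιt, h.κt, h.κu, h.t2, h.u2, fun i i2 i1 => ?_⟩
  obtain ⟨k, -, -⟩ := h.gd
  obtain ⟨x, hx⟩ := McL.E.conj_into (T := (𝒞[t]).subgroupOf H) (Nat.not_even_iff_odd.1 fun a =>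
    odd_index_cent k.t2 k.t1 h.cj (a.two_dvd.trans (relIndex_dvd_index_of_le hC))) i2
  refine IsConj.trans (b := x⁻¹ * i * x) ?_ (isConj_iff.2 ⟨x, by group⟩)
  by_cases z : (⟨_, hx⟩ : 𝒞[t]) = ι tM
  · exact isConj_iff.2 ⟨1, Subtype.ext (by simpa using ((congrArg Subtype.val z).trans h.ιt).symm)⟩
  have j2 : x⁻¹ * i * x * (x⁻¹ * i * x) = 1 := by
    rw [show x⁻¹ * i * x * (x⁻¹ * i * x) = x⁻¹ * (i * i) * x by group, i2]; simp
  obtain ⟨c, hc⟩ := isConj_iff.1 (h.icj ⟨_, hx⟩ (Subtype.ext (congrArg H.subtype j2))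
    (fun a => i1 (by
      have : x⁻¹ * i * x = 1 := Subtype.ext (congrArg Subtype.val a :)
      rwa [mul_assoc, inv_mul_eq_one, right_eq_mul] at this)) z)
  refine isConj_iff.2 ⟨⟨c * g, mul_mem (hC c.2) hg⟩, Subtype.ext ?_⟩
  have := congrArg Subtype.val hc
  simp only [Subgroup.coe_mul, Subgroup.coe_inv, ← e, coe_subtype] at this ⊢
  rw [← this]; group

/-- the character theoretic part of `IXP` -/
theorem AG.ix [IsSimpleGroup G] {t u : G} {C0 : Subgroup G} {κ : C0 →* N} {d : ND N} (h : AG t u C0 κ d.t d.u)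
    (hK : UU t ≤ C0) (hk : ∀ m : C0, κ m = 1 ↔ (m : G) ∈ UU t) {H O K1 : Subgroup G} (hC : 𝒞[t] ≤ H) {g : G} (hg : g ∈ H)
    (e : g * t * g⁻¹ = u) (oO : IsPiGrp {2}ᶜ O) (OH : O ≤ H) (nO : H ≤ 𝒩(O)) (uK : u ∈ K1)
    (hs : ∀ n, ∃ m : C0, (m : G) ∈ K1 ∧ κ m = n) (hL : K1 ⊓ UU t ≤ O) : H = ⊤ := by
  obtain ⟨g1, -, u1⟩ := h.g0.gd
  obtain ⟨g2, -, u2⟩ := (h.g0.sub hC hg e).gd
  have OK : ∀ o ∈ O, o ∈ 𝒞[t] → o ∈ UU t := fun o ho c =>
    (show O ⊓ 𝒞[t] ≤ UU t from pcore_max ⟨inf_le_right, norm_inf (hC.trans nO) le_normalizer⟩ (oO.inf_left _)) ⟨ho, c⟩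
  have cj : ∀ x ∈ H, ∀ o ∈ O, x * o * x⁻¹ ∈ O := fun x hx o => (mem_normalizer_iff.1 (nO hx) o).1
  obtain ⟨s, s0, e1, a1, b1⟩ := g1.ix (K1.subgroupOf C0) O oO (fun m => cj _ (hC (h.le m.2))) hs
    (fun m hm e => hL ⟨hm, (hk m).1 e⟩) (u1 ▸ uK)
    (fun o ho c => ⟨⟨o, hK (OK o ho c)⟩, rfl, (hk _).2 (OK o ho c)⟩) (g := g)
    (fun o ho => by simpa using cj _ (inv_mem hg) o ho) (u1 ▸ e)
  obtain ⟨s', s0', e2, a2, b2⟩ := g2.ix (K1.subgroupOf C0) (O.subgroupOf H) (oO.subgroupOf _)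
    (fun m o => cj _ (hC (h.le m.2)) o) hs (fun m hm e => hL ⟨hm, (hk m).1 e⟩) (u2 ▸ uK) (fun o ho c => by
      have := OK o ho ((cenE hC).symm ⟨o, c⟩).2
      exact ⟨⟨o, hK this⟩, rfl, (hk _).2 this⟩) (g := ⟨g, hg⟩)
    (fun o ho => by simpa [mem_subgroupOf] using cj _ (inv_mem hg) o ho) (u2 ▸ Subtype.ext e)
  have i1 : (𝒞[(⟨t, hC (mem_cent_singleton_self t)⟩ : H)]).index = (𝒞[t]).relIndex H := congrArg index
    (Subgroup.ext fun x => by rw [mem_subgroupOf, mem_centralizer_singleton_iff, mem_centralizer_singleton_iff, Subtype.ext_iff]; rfl)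
  rw [← relIndex_mul_index hC, ← i1, Nat.cast_mul] at e1
  have A : g2.A = g1.A := rfl
  rw [A] at e2
  have i0 : (0 : ℤ) < (𝒞[(⟨t, hC (mem_cent_singleton_self t)⟩ : H)]).index := by
    exact_mod_cast Nat.pos_of_ne_zero index_ne_zero_of_finite
  generalize ((𝒞[(⟨t, hC (mem_cent_singleton_self t)⟩ : H)]).index : ℤ) = i at *
  generalize (g1.A : ℤ) ^ 2 * (d.e * (d.e - 1) * (d.e + 1) ^ 2) = c at *
  have x0 := sq_pos_of_ne_zero s0
  have y0 := sq_pos_of_ne_zero s0'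
  generalize (s - d.e) ^ 2 = x at *
  generalize (s' - d.e) ^ 2 = y at *
  generalize s * (s - 1) = a at *
  generalize s' * (s' - 1) = b at *
  have k : (H.index : ℤ) * (x * b) = y * a := mul_left_cancel₀ i0.ne' (by linear_combination b * e1 - a * e2)
  have k3 : (H.index : ℤ) < 3 := by
    by_contra! c
    have := d.e3
    rcases lt_or_gt_of_ne (show d.e ≠ 0 by omega) with z | z
    · obtain ⟨-, p⟩ := b1 z
      obtain ⟨p', -⟩ := b2 z
      nlinarith [mul_le_mul_of_nonneg_right c (mul_pos x0 (show 0 < b by omega)).le, mul_pos y0 (sub_pos.2 p),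
        mul_nonneg x0.le (sub_nonneg.2 p')]
    · obtain ⟨-, p⟩ := a1 z
      obtain ⟨p', -⟩ := a2 z
      nlinarith [mul_le_mul_of_nonneg_right c (mul_pos x0 (show 0 < b by omega)).le, mul_pos y0 (sub_pos.2 p),
        mul_nonneg x0.le (sub_nonneg.2 p')]
  have : H.index ≠ 0 := index_ne_zero_of_finite
  rcases (by omega : H.index = 1 ∨ H.index = 2) with z | z
  · exact index_eq_one.1 z
  · exact (normal_of_index_eq_two z).eq_bot_or_eq_top.resolve_left fun b =>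
      g1.t1 (by simpa [b] using hC (mem_cent_singleton_self t))

theorem realizeEqns_Abg_B13 : True := by
  have := @CA.Abg.cenE.eq_1.{0}
  have := @CA.Abg.cenE.eq_def.{0}
  have := @CA.Abg.cenE.congr_simp.{0}
  trivial

end CA.Abg
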