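/-
Groups with quasi-dihedral or wreathed Sylow 2-subgroups, `C(t)` maximal: `i` centralizes `F(O(C(t)))`.
-/
import Cfsg.Agent.Abg.L3

set_option autoImplicit false
set_option linter.unusedSectionVars false

namespace CA.Abg

open Subgroup Cfsg CA.FG CA.BG CA.Dih CA.GW CA.GW.BA CA.GW.L1
open scoped commutatorElement IsMulCommutative Classical

universe u

variable {G : Type u} [Group G] [Finite G] [IsSimpleGroup G] {t u w j v x : G}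

/-- the local facts with `C(t)` maximal -/
structure LM (t u w j : G) : Prop extends LH t u w j where
  mx : IsCoatom 𝒞[t]
  ih : IH G

theorem star {r : ℕ} {R : Subgroup G} {a b : G} (ia : IsInv a) (pR : IsPGrp r R) (r2 : r ≠ 2) (ab : a ∈ 𝒞[b])
    (aR : a ∈ 𝒩(R)) (n : FF b ⊓ 𝒞[a] ≤ 𝒩(R)) (r0 : pCoreOf r (UU b) = ⊥) :
    ⁅R ⊓ 𝒞[b], zpowers a⁆ ≤ 𝒞(FF b) := by
  have oR := odd_of_pGrp pR r2
  have tn : a ∈ 𝒩(R ⊓ 𝒞[b]) := zpowers_le.1 (norm_inf (zpowers_le.2 aR) (norm_of_le (zpowers_le.2 ab)))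
  have P1 : ⁅R ⊓ 𝒞[b], zpowers a⁆ ≤ R ⊓ 𝒞[b] := comm_le_left (zpowers_le.2 tn)
  have co := coprime_fitting_of_pcore pR r0
  refine cent_of_cent_fix (u := a) (fitting_nil _) (FF_odd b) ia.1 ((FF_normal b).2 ab)
    (zpowers_le.1 (norm_comm (zpowers_le.2 tn) (norm_of_le le_rfl)))
    ((P1.trans inf_le_right).trans (FF_normal b).2) (co.coprime_dvd_right (card_dvd_of_le (P1.trans inf_le_left)))
    (comm_comm_zpowers (oR.of_le inf_le_left) ia.1 tn).ge ?_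
  rw [← comm_eq_bot_iff, eq_bot_iff, ← inf_eq_bot_of_cop co]
  exact le_inf ((commutator_mono inf_le_left le_rfl).trans
    (comm_le_left ((P1.trans inf_le_right).trans (FF_normal b).2)))
    ((commutator_mono n (P1.trans inf_le_left)).trans (comm_le_right le_rfl))

theorem pc_conj {r : ℕ} (h : pCoreOf r (UU t) = ⊥) (g : G) : pCoreOf r (UU (g * t * g⁻¹)) = ⊥ := by
  rw [← pcore_conj, h, conjg_bot]

theorem fpf_conj {R : Subgroup G} {g a : G} (hg : g ∈ 𝒩(R)) (h : R ⊓ 𝒞[a] = ⊥) : R ⊓ 𝒞[g * a * g⁻¹] = ⊥ := by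
  rw [← conjg_cent1, ← conjg_of_mem_norm hg, ← conjg_inf, h, conjg_bot]

theorem le_cent_conj {R : Subgroup G} {g a : G} (hg : g ∈ 𝒩(R)) (h : R ≤ 𝒞[a]) : R ≤ 𝒞[g * a * g⁻¹] := by
  rw [← conjg_cent1, ← conjg_of_mem_norm hg]; exact conjg_mono g h

theorem LH.odd_cent (h : LH t u w j) (ne : u * w ∉ 𝒞(FF t)) (hx : x ∈ 𝒞[t]) (c : x ∈ 𝒞(FF t))
    (o : IsPiElt {2}ᶜ x) : x ∈ FF t :=
  cent_sub_Fitting (UU_sol t) ⟨h.f3 (𝒞[t] ⊓ 𝒞(FF t)) inf_le_left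
    (norm_inf (norm_of_le le_rfl) (norm_cent (FF_normal t).2)) (fun e => ne e.2) x ⟨hx, c⟩ o, c⟩

theorem LH.odd_cent' (h : LH t u w j) (ne : u * w ∉ 𝒞(FF t)) {a : G} (ia : IsInv a) (hx : x ∈ 𝒞[a])
    (c : x ∈ 𝒞(FF a)) (o : IsPiElt {2}ᶜ x) : x ∈ FF a := by
  obtain ⟨g, rfl⟩ := h.one a ia
  exact (h.conj g).odd_cent (by rwa [cj_mul, ← FF_conj, ← conjg_cent, conj_mem_conjg_iff]) hx c o

namespace LM

variable (h : LM t u w j)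
include h

theorem norm_eq {Z : Subgroup G} (hZ : Z ⊲ 𝒞[t]) (Z1 : Z ≠ ⊥) : 𝒩(Z) = 𝒞[t] :=
  le_antisymm (prim_of_coatom h.mx Z hZ Z1) hZ.2

theorem nt {D : Subgroup G} (D1 : D ≠ ⊥) (o : IsPiGrp {2}ᶜ D) : 𝒩(D) ≠ ⊤ := norm_ne_top D1 (odd_ne_top h.it o)

theorem pcore_cent {N : Subgroup G} {r : ℕ} (tN : t ∈ N) (hr : pCoreOf r (UU t) ≠ ⊥)
    (ZN : 𝒵(pCoreOf r (UU t)) ≤ N) : pCoreOf r N ≤ 𝒞[t] := by
  have r2 := ne_two hr
  have := coprime_A_times_B (p := r) (A := zpowers t) (B := 𝒵(pCoreOf r (UU t))) (P := pCoreOf r N) (pcore_pGrp _ _)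
    ((pcore_pGrp _ _).of_le inf_le_left) ((two_zpowers h.it.1).piGrp (by simpa using r2.symm))
    (zpowers_le.2 (pcore_norm _ N tN)) (ZN.trans (pcore_norm _ N))
    (le_cent_symm (by rw [cent_zpowers]; exact (zp_normal r t).1))
    (le_cent_symm (by
      rw [cent_zpowers, ← h.norm_eq (zp_normal r t) (center_pcore_ne_bot hr)]
      exact inf_le_right.trans (cent_le_norm _)))
  rw [← cent_zpowers]; exact le_cent_symm this

theorem T1 (ne : u * w ∉ 𝒞(FF t)) {N : Subgroup G} (VN : 𝒞[t] ⊓ 𝒞[u] ≤ N) (ZN : 𝒵(FF t) ≤ N) : OO N ≤ 𝒞[t] := by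
  have f := h.four
  have tN : t ∈ N := VN ⟨mem_cent_singleton_self t, f.cs⟩
  refine core_cent h.it tN fun r hr r2 => ?_
  by_cases r0 : pCoreOf r (UU t) = ⊥
  swap
  · exact h.pcore_cent tN r0 ((zp_le r _).trans ZN)
  have pR : IsPGrp r (pCoreOf r N) := pcore_pGrp _ _
  have nR : N ≤ 𝒩(pCoreOf r N) := pcore_norm _ _
  generalize pCoreOf r N = R at pR nR
  have oR := odd_of_pGrp pR r2
  have key : ∀ b, IsInv b → t ∈ 𝒞[b] → 𝒞[b] ⊓ 𝒞[t] ≤ N → R ⊓ 𝒞[b] ≤ 𝒞[t] := fun b ib tb n => by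
    have r0' : pCoreOf r (UU b) = ⊥ := by obtain ⟨g, rfl⟩ := h.one b ib; exact pc_conj r0 g
    have h1 := star h.it pR r2 tb (nR tN) ((inf_le_inf_right _ (FF_normal b).1).trans (n.trans nR)) r0'
    have P1 : ⁅R ⊓ 𝒞[b], zpowers t⁆ ≤ R ⊓ 𝒞[b] :=
      comm_le_left (norm_inf (zpowers_le.2 (nR tN)) (norm_of_le (zpowers_le.2 tb)))
    rw [← cent_zpowers t, ← comm_eq_bot_iff, eq_bot_iff, ← r0']
    exact le_pcore_of_le_fitting (fun y hy => h.odd_cent' ne ib (P1 hy).2 (h1 hy) (oR.piElt (P1 hy).1))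
      (pR.of_le (P1.trans inf_le_left))
  exact f.gen oR (nR tN) (nR (VN ⟨h.uC, mem_cent_singleton_self u⟩)) inf_le_right
    (key u h.iu f.cs (by rwa [inf_comm])) (key _ f.ts f.left.cs fun y hy =>
      VN ⟨hy.2, f.tts ▸ Four.c_mul hy.2 hy.1⟩)

theorem T1' (ne : u * w ∉ 𝒞(FF t)) {N : Subgroup G} (hY : SC (FF t ⊓ N) (UU t)) (tN : t ∈ N)
    (c1 : ∃ g ∈ N, g * t * g⁻¹ = u) (c2 : ∃ g ∈ N, g * t * g⁻¹ = t * u) : OO N ≤ 𝒞[t] := by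
  refine core_cent h.it tN fun r hr r2 => ?_
  by_cases r0 : pCoreOf r (UU t) = ⊥
  swap
  · exact h.pcore_cent tN r0 (((hY.p_center_le r).trans (pcore_le _ _)).trans inf_le_right)
  have pR : IsPGrp r (pCoreOf r N) := pcore_pGrp _ _
  have nR : N ≤ 𝒩(pCoreOf r N) := pcore_norm _ _
  generalize pCoreOf r N = R at pR nR
  have oR := odd_of_pGrp pR r2
  have co := coprime_fitting_of_pcore pR r0
  have nF : R ⊓ 𝒞[t] ≤ 𝒩(FF t) := inf_le_right.trans (FF_normal t).2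
  have h1 := hY.cent nF (co.coprime_dvd_right (card_dvd_of_le inf_le_left)) (by
    rw [← comm_eq_bot_iff, eq_bot_iff, ← inf_eq_bot_of_cop co]
    exact le_inf ((commutator_mono le_rfl inf_le_left).trans (comm_le_right nF))
      ((commutator_mono inf_le_left inf_le_right).trans (comm_le_left nR)))
  have h2 : R ⊓ 𝒞[t] = ⊥ := eq_bot_iff.2 (inf_eq_bot_of_cop co ▸
    le_inf (fun y hy => h.odd_cent ne hy.2 (h1 hy) (oR.piElt hy.1)) inf_le_left)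
  obtain ⟨g1, m1, e1⟩ := c1
  obtain ⟨g2, m2, e2⟩ := c2
  exact le_trans (h.four.gen oR (nR tN) (nR (e1 ▸ conj_mem_of_mem_norm (le_normalizer m1) tN)) h2.le
    (e1 ▸ fpf_conj (nR m1) h2).le (e2 ▸ fpf_conj (nR m2) h2).le) bot_le

end LM

theorem LH.nle (h : LH t u w j) {p : ℕ} {X : Subgroup G} (pX : IsPGrp p X) (XV : X ≤ 𝒞[t] ⊓ 𝒞[u])
    (hu : u ∉ 𝒞(pCoreOf p (UU t))) : ¬ 𝒩(X) ≤ 𝒞[t] := fun e => hu (by
  have p2 : p ≠ 2 := ne_two (t := t) fun e => hu (by rw [e, cent_bot]; trivial)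
  have := coprime_A_times_B (p := p) (A := zpowers t) (B := X) (P := pCoreOf p (UU u)) (pcore_pGrp _ _) pX
    ((two_zpowers h.it.1).piGrp (by simpa using p2.symm)) (zpowers_le.2 ((pcore_UU_normal p u).2 h.four.cs))
    ((XV.trans inf_le_right).trans (pcore_UU_normal p u).2)
    (le_cent_symm (by rw [cent_zpowers]; exact XV.trans inf_le_left))
    (le_cent_symm (by rw [cent_zpowers]; exact inf_le_right.trans ((cent_le_norm _).trans e)))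
  obtain ⟨g, e1, e2⟩ := h.pair h.four.symm
  have := conj_mem_conjg g (zpowers_le.1 this)
  rwa [conjg_cent, pcore_conj, e1, e2] at this)

/-- the four-group `⟨u, w⟩/⟨t⟩` acting on an odd subgroup of `C(t)` -/
theorem LH.gen4 (h : LH t u w j) {H X : Subgroup G} (oH : IsPiGrp {2}ᶜ H) (HC : H ≤ 𝒞[t]) (nu : u ∈ 𝒩(H))
    (nw : w ∈ 𝒩(H)) (h1 : H ⊓ 𝒞[u] ≤ X) (h2 : H ⊓ 𝒞[w] ≤ X) (h3 : H ⊓ 𝒞[u * w] ≤ X) : H ≤ X := by
  have nZ : 𝒞[t] ≤ 𝒩(zpowers t) := norm_zpowers_of_cent le_rfl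
  have d : zpowers t ⊓ H = ⊥ := IsPiGrp.inf_eq_bot (two_zpowers h.it.1) oH
  have q1 : ∀ {a : G} (ha : a ∈ 𝒞[t]), a ≠ 1 → a ≠ t → coset (zpowers t) ⟨a, nZ ha⟩ ≠ 1 := fun ha a1 a2 e =>
    ((mem_zpowers_inv h.it.1).1 (coset_eq_one_iff.1 e)).elim a1 a2
  have i1 : u * w ≠ 1 := fun e => h.it.2 (by rw [← h.i2, e, one_mul])
  have i2 : u * w ≠ t := fun e => h.it.2 (by rw [← h.i2, e, h.it.1])
  have f : Four (coset (zpowers t) ⟨u, nZ h.uC⟩) (coset (zpowers t) ⟨w, nZ h.wC⟩) :=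
    ⟨⟨coset_sq h.iu.1 _, q1 h.uC h.iu.2 h.ut⟩, ⟨coset_sq h.iw.1 _, q1 h.wC h.iw.2 h.wt⟩, fun e => q1 h.iC i1 i2 (by
      rw [show (⟨u * w, nZ h.iC⟩ : 𝒩(zpowers t)) = ⟨u, nZ h.uC⟩ * ⟨w, nZ h.wC⟩ from rfl, map_mul, ← e,
        coset_sq h.iu.1]), by
      rw [← map_mul, ← map_mul, eq_comm, coset_eq_iff]
      simp only [coe_mul]
      rw [mul_inv_rev, h.iu.inv_eq, h.iw.inv_eq, h.i2]; exact mem_zpowers t⟩
  have k : ∀ {a : G} (ha : a ∈ 𝒞[t]), a ∈ 𝒩(H) → H ⊓ 𝒞[a] ≤ X →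
      (H /ₛ zpowers t) ⊓ 𝒞[coset (zpowers t) ⟨a, nZ ha⟩] ≤ (H ⊓ X) /ₛ zpowers t := fun {a} ha na e y hy => by
    obtain ⟨y, my, ey⟩ := mem_quot.1 hy.1
    subst ey
    refine mem_quot.2 ⟨y, ⟨my, e ⟨my, ?_⟩⟩, rfl⟩
    have := mem_c1.1 hy.2
    rw [← map_mul, ← map_mul, eq_comm, coset_eq_iff] at this
    simp only [coe_mul] at this
    have := d.le (mem_inf.2 ⟨this, by
      rw [show ((a * y : G))⁻¹ * (y * a) = (y : G)⁻¹ * (a⁻¹ * y * a) by group]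
      exact mul_mem (inv_mem my) (conj_mem_of_mem_norm' na my)⟩)
    exact mem_c1.2 (inv_mul_eq_one.1 this).symm
  have := f.gen (oH.quot _) (coset_mem_norm _ nu) (coset_mem_norm _ nw) (k h.uC nu h1) (k h.wC nw h2)
    (by rw [← map_mul]; exact k h.iC (mul_mem nu nw) h3)
  rw [quot_le_quot_iff (HC.trans nZ) (inf_le_left.trans (HC.trans nZ))] at this
  intro y hy
  obtain ⟨z, hz, b, hb, rfl⟩ := (mem_sup_of_right_le_norm (inf_le_left.trans (HC.trans nZ))).1 (this hy)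
  rw [show z = 1 from d.le (mem_inf.2 ⟨hz, (mul_mem_cancel_right (mem_inf.1 hb).1).1 hy⟩), one_mul]
  exact hb.2

theorem mem_OC {N : Subgroup G} (hx : x ∈ UU t) (xN : x ∈ N) : x ∈ OO (N ⊓ 𝒞[t]) :=
  inf_pcore_le _ inf_le_right ⟨⟨xN, UU_le t hx⟩, hx⟩

theorem norm_fix {W : Subgroup G} {a b : G} (WC : W ≤ 𝒞[t]) (na : a ∈ 𝒩(W)) (e : a * (t * b) * a⁻¹ = b) :
    a ∈ 𝒩(W ⊓ 𝒞[b]) := mem_norm_of_forall fun _ hy =>
  ⟨conj_mem_of_mem_norm na hy.1, e ▸ cj_cent.2 (Four.c_mul (WC hy.1) hy.2)⟩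

theorem LH.utw (h : LH t u w j) : u * (t * w) * u⁻¹ = w := by
  rw [← cj_mul, conj_eq_of_cent h.uC, h.uw, ← mul_assoc, h.it.1, one_mul]

end CA.Abg
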