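/-
Groups with quasi-dihedral or wreathed Sylow 2-subgroups, `C(t)` maximal: the case that `i` acts on `F(O(C(t)))`.
-/
import Cfsg.Agent.Abg.L4

set_option autoImplicit false
set_option linter.unusedSectionVars false

namespace CA.Abg

open Subgroup Cfsg CA.FG CA.BG CA.Dih CA.GW CA.GW.BA CA.GW.L1
open scoped commutatorElement IsMulCommutative Classical

universe u

variable {G : Type u} [Group G] [Finite G] [IsSimpleGroup G] {t u w j v x : G}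

/-- a minimal `C(t)`-invariant `p`-subgroup `W` of `O(C(t))` not centralized by `i` -/
structure MW (t i : G) (p : ℕ) (W D : Subgroup G) : Prop where
  hp : p.Prime
  p2 : p ≠ 2
  le : W ≤ pCoreOf p (UU t)
  nW : 𝒞[t] ≤ 𝒩(W)
  nD : 𝒞[t] ≤ 𝒩(D)
  iW : i ∉ 𝒞(W)
  iD : i ∈ 𝒞(D)
  DW : D ≤ W
  mn : ∀ K ≤ W, 𝒞[t] ≤ 𝒩(K) → K ≠ W → K ≤ D
  der : ⁅W, W⁆ ≤ D
  cen : D ≤ 𝒞(W)

theorem LH.exists_MW (h : LH t u w j) (ne : u * w ∉ 𝒞(FF t)) : ∃ p W D, MW t (u * w) p W D := by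
  obtain ⟨p, hp, iP⟩ : ∃ p : ℕ, p.Prime ∧ u * w ∉ 𝒞(pCoreOf p (UU t)) := by
    by_contra! e
    exact ne (mem_cent_iff_le_cent_singleton.2 (fitting_le_of_forall_pcore fun p hp =>
      mem_cent_iff_le_cent_singleton.1 (e p hp)))
  have p2 : p ≠ 2 := ne_two (t := t) fun e => iP (by rw [e, cent_bot]; trivial)
  obtain ⟨W, WP, ⟨nW, iW⟩, mn⟩ := exists_min_subgroup (P := fun W => 𝒞[t] ≤ 𝒩(W) ∧ u * w ∉ 𝒞(W))
    ⟨(pcore_UU_normal p t).2, iP⟩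
  have pW : IsPGrp p W := (pcore_pGrp _ _).of_le WP
  have nL := LL_norm t (u * w)
  have LC : LL t (u * w) ≤ 𝒞[t] := LL_le (norm_of_le le_rfl) h.iC
  have m : ∀ K ≤ W, 𝒞[t] ≤ 𝒩(K) → K ≠ W → K ≤ W ⊓ 𝒞(LL t (u * w)) := fun K h1 h2 h3 =>
    le_inf h1 (le_cent_symm (LL_le (norm_cent h2) (by_contra fun e => h3 (mn K ⟨h2, e⟩ h1))))
  have W0 : W ≠ ⊥ := fun e => iW (by rw [e, cent_bot]; trivial)
  have der := m _ (comm_le_of_le le_rfl le_rfl) (norm_comm nW nW) (der_lt_of_sol pW.sol W0).ne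
  have WL : ⁅W, LL t (u * w)⁆ = W := by_contra fun e => iW (by
    have h1 := (m _ (comm_le_left (LC.trans nW)) (norm_comm nW nL) e).trans inf_le_right
    have h2 := coprime_commGid (A := zpowers (u * w)) (H := W) (zpowers_le.2 (nW h.iC))
      (IsPiGrp.coprime (piGrp_zpowers_iff.2 h.i_two) (odd_of_pGrp pW p2)).symm (.inl pW.sol)
    have zL := zpowers_le.2 (LL_mem t (u * w))
    rw [comm_eq_bot_iff.2 (((commutator_mono le_rfl zL).trans h1).trans (cent_anti zL)), eq_comm, comm_eq_bot_iff'] at h2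
    exact zpowers_le.1 h2)
  refine ⟨p, W, _, hp, p2, WP, nW, norm_inf nW (norm_cent nL), iW, le_cent_symm inf_le_right (LL_mem _ _), inf_le_left, m,
    der, ?_⟩
  rw [← comm_eq_bot_iff']
  nth_rw 1 [← WL]
  refine three_subgroup ?_ (comm_eq_bot_iff.2 (((commutator_mono inf_le_left le_rfl).trans der).trans inf_le_right))
  rw [comm_eq_bot_iff'.2 inf_le_right, commutator_bot_left]

theorem LM.ne (h : LM t u w j) : u * w ∈ 𝒞(FF t) := by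
  by_contra ne
  obtain ⟨p, W, D, m⟩ := h.exists_MW ne
  have f := h.four
  have pW : IsPGrp p W := (pcore_pGrp _ _).of_le m.le
  have oW := odd_of_pGrp pW m.p2
  have WK : W ≤ UU t := m.le.trans (pcore_le _ _)
  have WF : W ≤ FF t := m.le.trans (pcore_le_fitting _ _)
  have WC : W ≤ 𝒞[t] := WK.trans (UU_le t)
  have nu := m.nW h.uC
  have nw := m.nW h.wC
  obtain ⟨c, hc, ec⟩ := h.cju w h.wC h.iw h.wt
  have eX : (W ⊓ 𝒞[u]) :^ c = W ⊓ 𝒞[w] := by rw [conjg_inf, conjg_of_mem_norm (m.nW hc), conjg_cent1, ec]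
  have cX : Nat.card (W ⊓ 𝒞[w] : Subgroup G) = Nat.card (W ⊓ 𝒞[u] : Subgroup G) := by rw [← eX, card_conjg]
  have X0 : W ⊓ 𝒞[u] ≠ ⊥ := fun e => m.iW (mem_cent_iff_le_cent_singleton.2 fun y hy =>
    mem_cent_singleton_comm.1 (conj_eq_iff.1 (by
      calc _ = u * (w * y * w⁻¹) * u⁻¹ := by group
        _ = _ := by
          rw [inv_of_fpf h.iw.1 nw (by rw [← eX, e, conjg_bot]) hy, inv_of_fpf h.iu.1 nu e (inv_mem hy), inv_inv])))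
  have XX : W ⊓ 𝒞[u] ≠ W ⊓ 𝒞[w] := fun e => by
    have : W ⊓ 𝒞[u] ≤ 𝒞[u * w] := fun y hy => Four.c_mul hy.2 (e.le hy).2
    exact m.iW (mem_cent_iff_le_cent_singleton.2 (h.gen4 oW WC nu nw this (e.ge.trans this) inf_le_right))
  have n1 : ¬ W ⊓ 𝒞[u] ≤ W ⊓ 𝒞[w] := fun e => XX (eq_of_le_of_card_ge e cX.le)
  have n2 : ¬ W ⊓ 𝒞[w] ≤ W ⊓ 𝒞[u] := fun e => XX (eq_of_le_of_card_ge e cX.ge).symm
  have XW : W ⊓ 𝒞[u] < W := lt_of_le_of_ne inf_le_left fun e => n2 (inf_le_left.trans e.ge)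
  have wX := norm_fix WC nw h.wtu
  have uX := norm_fix WC nu h.utw
  have VN : 𝒞[t] ⊓ 𝒞[u] ≤ 𝒩(W ⊓ 𝒞[u]) := norm_inf (inf_le_left.trans m.nW) (norm_of_le inf_le_right)
  have tV : t ∈ 𝒞[t] ⊓ 𝒞[u] := ⟨mem_cent_singleton_self t, f.cs⟩
  have uV : u ∈ 𝒞[t] ⊓ 𝒞[u] := ⟨h.uC, mem_cent_singleton_self u⟩
  have hO := h.T1 ne VN (inf_le_right.trans ((cent_anti (inf_le_left.trans WF)).trans (cent_le_norm _)))
  have tX : t ∈ 𝒞(W ⊓ 𝒞[u]) := mem_cent_iff_le_cent_singleton.2 (inf_le_left.trans WC)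
  obtain ⟨c1, c2⟩ : (∃ g ∈ 𝒩(W ⊓ 𝒞[u]), g * t * g⁻¹ = u) ∧ ∃ g ∈ 𝒩(W ⊓ 𝒞[u]), g * t * g⁻¹ = t * u := by
    obtain ⟨g, hg, c, n⟩ := h.zs (VN tV) hO (h.nle (pW.of_le inf_le_left) (le_inf (inf_le_left.trans WC) inf_le_right)
      fun e => XW.not_ge (le_inf le_rfl (mem_cent_iff_le_cent_singleton.1 (cent_anti m.le e))))
    obtain ⟨n, hn, e⟩ := h.fus (Y := 𝒞[t] ⊓ 𝒞(W ⊓ 𝒞[u])) inf_le_left (norm_inf (norm_of_le inf_le_left) (norm_cent VN))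
      ⟨h.uC, mem_cent_iff_le_cent_singleton.2 inf_le_right⟩
      (fun e => n1 (le_inf inf_le_left (mem_cent_iff_le_cent_singleton.1 e.2)))
      ⟨c, conj_mem_of_mem_norm (norm_cent le_rfl hg) tX⟩ (h.it.conj g) n
    have ng := mul_mem (cent_le_norm _ hn.2) hg
    rcases e with e | e
    · exact ⟨⟨_, ng, by rw [← e]; group⟩, _, mul_mem wX ng, by rw [← h.wu, ← e]; group⟩
    · exact ⟨⟨_, mul_mem wX ng, by rw [← h.wtu, ← e]; group⟩, _, ng, by rw [← e]; group⟩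
  have hOu : OO 𝒩(W ⊓ 𝒞[u]) ≤ 𝒞[u] := by
    obtain ⟨g, hg, e⟩ := c1
    have := le_cent_conj (pcore_norm _ _ hg) hO
    rwa [e] at this
  obtain ⟨M, s⟩ : ∃ M, SB 𝒩(W ⊓ 𝒞[u]) M t := by
    obtain ⟨x, hx, x1, -, ex⟩ := exists_inverted pW m.p2 h.iu.1 nu (VN uV) XW le_rfl
    exact sub h.ra h.ih (h.nt X0 (oW.of_le inf_le_left)) f (VN tV) (VN uV) c1 c2 (mem_OC (WK hx.1) hx.2) ex
      fun e => x1 (one_of_inv_cent oW hx.1 ex (hOu e))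
  have uM : u ∈ M := by obtain ⟨g, hg, e⟩ := c1; exact e ▸ conj_mem_of_mem_norm (s.norm hg) s.tM
  by_cases Z : (W ⊓ 𝒞[u]) ⊓ (W ⊓ 𝒞[w]) = ⊥
  swap
  · obtain ⟨g, hg, eg⟩ := s.conj hO u uM h.iu
    have gX := cent_anti (pcore_max (π := {2}ᶜ) ⟨le_normalizer, le_rfl⟩ (oW.of_le inf_le_left)) hg.2
    have g1 := cent_le_norm _ (cent_anti (inf_le_left (b := W ⊓ 𝒞[w])) gX)
    have g2 : c * g * c⁻¹ ∈ 𝒩((W ⊓ 𝒞[u]) ⊓ (W ⊓ 𝒞[w])) := cent_le_norm _ (cent_anti inf_le_right (by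
      rw [← eX, ← conjg_cent]; exact conj_mem_conjg c gX))
    have e2 : c * g * c⁻¹ * t * (c * g * c⁻¹)⁻¹ = w := by
      rw [← ec, ← eg]; nth_rw 1 [← conj_eq_of_cent hc]; group
    have n : ∀ {a : G}, a ∈ 𝒩(W ⊓ 𝒞[u]) → a ∈ 𝒩(W ⊓ 𝒞[w]) → a ∈ 𝒩((W ⊓ 𝒞[u]) ⊓ (W ⊓ 𝒞[w])) := fun a b =>
      zpowers_le.1 (norm_inf (zpowers_le.2 a) (zpowers_le.2 b))
    have wX' : w ∈ 𝒩(W ⊓ 𝒞[w]) :=
      zpowers_le.1 (norm_inf (zpowers_le.2 nw) (norm_of_le (zpowers_le.2 (mem_cent_singleton_self w))))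
    have uN := n (VN uV) uX
    have wN := n wX wX'
    have tN : t ∈ 𝒩((W ⊓ 𝒞[u]) ⊓ (W ⊓ 𝒞[w])) := cent_le_norm _ (cent_anti inf_le_left tX)
    have hO0 := h.T1' ne (sc_of_norm' ((inf_le_left.trans inf_le_left).trans WF) le_rfl) tN ⟨g, g1, eg⟩
      ⟨_, mul_mem wN g1, by rw [← h.wu, ← eg]; group⟩
    obtain ⟨x, hx, x1, px, ex⟩ := exists_inverted (pW.of_le inf_le_left) m.p2 h.iw.1 wX wN
      (lt_of_le_of_ne inf_le_left fun e => n1 (e.ge.trans inf_le_right))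
      (le_inf inf_le_left (inf_le_inf_right _ inf_le_left))
    obtain ⟨y, hy, y1, py, ey⟩ := exists_inverted (pW.of_le inf_le_left) m.p2 h.iu.1 uX uN
      (lt_of_le_of_ne inf_le_right fun e => n2 (e.ge.trans inf_le_left))
      (le_inf (inf_le_inf_right _ inf_le_left) inf_le_left)
    have xO : x ∉ OO 𝒩((W ⊓ 𝒞[u]) ⊓ (W ⊓ 𝒞[w])) := fun e =>
      x1 (one_of_inv_cent oW hx.1.1 ex (e2 ▸ le_cent_conj (pcore_norm _ _ g2) hO0 e))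
    obtain ⟨M0, s0⟩ := sub h.ra h.ih (h.nt Z (oW.of_le (inf_le_left.trans inf_le_left)))
      (L1.four_of h.it h.wC h.iw h.wt) tN wN ⟨_, g2, e2⟩ ⟨_, mul_mem uN g2, by rw [← h.uw, ← e2]; group⟩
      (mem_OC (WK hx.1.1) hx.2) ex xO
    obtain ⟨k, hk⟩ := s0.cyc p m.hp m.p2 x
      ⟨mem_of_inv (s0.norm hx.2) (e2 ▸ conj_mem_of_mem_norm (s0.norm g2) s0.tM) (oW.piElt hx.1.1) ex, WC hx.1.1⟩ y
      ⟨mem_of_inv (s0.norm hy.2) (eg ▸ conj_mem_of_mem_norm (s0.norm g1) s0.tM) (oW.piElt hy.1.1) ey, WC hy.1.1⟩ px py xO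
    have := le_cent_conj (pcore_norm _ _ g1) hO0 hk
    rw [eg] at this
    exact y1 (one_of_inv_cent oW hy.1.1 ey ((mul_mem_cancel_left (inv_mem (zpow_mem (mem_inf.1 hx.1).2 k))).1 this))
  have Z' : ∀ y ∈ W, y ∈ 𝒞[u] → y ∈ 𝒞[w] → y = 1 := fun y a b c => Z.le ⟨⟨a, b⟩, a, c⟩
  have cw : ∀ {y : G}, y ∈ 𝒞[u] → y ∈ 𝒞[u * w] → y ∈ 𝒞[w] := fun a b => by
    have := Four.c_mul a b
    rwa [← mul_assoc, h.iu.1, one_mul] at this
  have iv : ∀ {A : Subgroup G} {a : G}, a * a = 1 → a ∈ 𝒩(A) → (∀ y ∈ A, y ∈ 𝒞[a] → y = 1) → ∀ y ∈ A,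
      a * y * a⁻¹ = y⁻¹ := fun a2 na e y hy => inv_of_fpf a2 na (eq_bot_iff.2 fun y hy => e y hy.1 hy.2) hy
  have uD := iv h.iu.1 (m.nD h.uC) fun y hy c => Z' y (m.DW hy) c (cw c (mem_cent_iff_le_cent_singleton.1 m.iD hy))
  have wiX := iv h.iw.1 wX fun y hy c => Z' y hy.1 hy.2 c
  have uiX := iv h.iu.1 uX fun y hy c => Z' y hy.1 c hy.2
  have uWi := iv (A := W ⊓ 𝒞[u * w]) h.iu.1 (mem_norm_of_forall fun y hy => ⟨conj_mem_of_mem_norm nu hy.1, by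
      have := cj_cent (g := u).2 (cent_singleton_inv (u * w) ▸ hy.2 : y ∈ 𝒞[(u * w)⁻¹])
      rwa [show u * (u * w)⁻¹ * u⁻¹ = u * w by rw [mul_inv_rev, h.iu.inv_eq, h.iw.inv_eq, ← mul_assoc, mul_assoc _ u u,
        h.iu.1, mul_one]] at this⟩) fun y hy c => Z' y hy.1 c (cw c hy.2)
  have cm : ∀ x ∈ W, ∀ y ∈ W, ⁅x, y⁆ ∈ D := fun x hx y hy => m.der (commutator_mem_commutator hx hy)
  have ci : ∀ x ∈ W, ∀ y ∈ W, ⁅x⁻¹, y⁆ = ⁅x, y⁆⁻¹ := fun x hx y hy => by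
    calc _ = x⁻¹ * ⁅x, y⁆⁻¹ * x := by simp only [commutatorElement_def]; group
      _ = _ := by rw [mul_assoc, comm_of_le_cent m.cen (inv_mem (cm x hx y hy)) hx, inv_mul_cancel_left]
  have ci' : ∀ x ∈ W, ∀ y ∈ W, ⁅x, y⁻¹⁆ = ⁅x, y⁆⁻¹ := fun x hx y hy => by
    rw [← commutatorElement_inv y⁻¹, ci y hy x hx, commutatorElement_inv, commutatorElement_inv]
  have WZ : W ⊓ 𝒞[u * w] ≤ 𝒞(W) := fun y hy => mem_cent_iff_le_cent_singleton.2 fun z hz => by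
    obtain ⟨a, ⟨ha, ea⟩, b, hb, rfl⟩ := exists_inv_mul oW h.iu.1 nu hz
    refine mul_mem (mem_c1.2 (commutatorElement_eq_one_iff_mul_comm.1 ?_))
      (mem_c1.2 (commutatorElement_eq_one_iff_mul_comm.1 ?_))
    · have e := uD _ (cm a ha y hy.1)
      rw [conjugate_commutatorElement, ea, uWi y hy, ci a ha _ (inv_mem hy.1), ci' a ha y hy.1, inv_inv] at e
      exact eq_one_of_odd oW (m.DW (cm a ha y hy.1)) (eq_inv_iff_mul_eq_one.1 e)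
    · have e := conj_eq_iff.2 (mem_cent_singleton_comm.1 (mem_cent_iff_le_cent_singleton.1 m.iD (cm b hb.1 y hy.1)))
      rw [conjugate_commutatorElement, conj_eq_iff.2 (mem_cent_singleton_comm.1 hy.2),
        show u * w * b * (u * w)⁻¹ = u * (w * b * w⁻¹) * u⁻¹ by group, wiX b hb,
        conj_eq_iff.2 (mem_cent_singleton_comm.1 (inv_mem hb.2)), ci b hb.1 y hy.1] at e
      exact eq_one_of_odd oW (m.DW (cm b hb.1 y hy.1)) (eq_inv_iff_mul_eq_one.1 e.symm)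
  have WD : W ⊓ 𝒞[u * w] ≤ D := by
    by_cases ab : 𝒵(W) = W
    swap
    · exact (le_inf inf_le_left WZ).trans (m.mn _ inf_le_left (norm_inf m.nW (norm_cent m.nW)) ab)
    have cW : W ≤ 𝒞(W) := ab.ge.trans inf_le_right
    have WN : W ≤ 𝒩(W ⊓ 𝒞[u]) := norm_of_cent (cW.trans (cent_anti inf_le_left))
    refine (eq_bot_iff.1 (by_contra fun e => ?_)).trans bot_le
    obtain ⟨y, hy, oy⟩ := IsPGrp.exists_orderOf_eq (pW.of_le inf_le_left) e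
    obtain ⟨x, hx, ox⟩ := IsPGrp.exists_orderOf_eq (H := W ⊓ 𝒞[w]) (pW.of_le inf_le_left) (by rwa [← eX, Ne, conjg_eq_bot])
    have o1 : ∀ {z : G}, orderOf z = p → z ≠ 1 := fun e e' => m.hp.one_lt.ne (by rw [← e, e', orderOf_one])
    obtain ⟨k, hk⟩ := s.cyc p m.hp m.p2 x ⟨mem_of_inv (s.norm (WN hx.1)) uM (oW.piElt hx.1) (uiX x hx), WC hx.1⟩ y
      ⟨mem_of_inv (s.norm (WN hy.1)) uM (oW.piElt hy.1) (uWi y hy), WC hy.1⟩ (ox ▸ pow_orderOf_eq_one x)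
      (oy ▸ pow_orderOf_eq_one y) fun e => o1 ox (Z' x hx.1 (hOu e) hx.2)
    have mk := inv_mem (zpow_mem hx k)
    have := one_of_inv_cent oW (mul_mem mk.1 hy.1) (by
      rw [← cj_mul, uiX _ mk, uWi y hy, ← mul_inv_rev, comm_of_le_cent cW hy.1 mk.1]) (hOu hk)
    have yw : y ∈ 𝒞[w] := inv_mul_eq_one.1 this ▸ (mem_inf.1 (zpow_mem hx k)).2
    refine o1 oy (Z' y hy.1 ?_ yw)
    have := Four.c_mul hy.2 yw
    rwa [mul_assoc, h.iw.1, mul_one] at this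
  have k0 : ∀ y ∈ W, u * w * y * (u * w)⁻¹ * y ∈ D := fun y hy => by
    obtain ⟨a, ha, ea, b, hb, rfl⟩ := exists_inv_mul' oW (by rw [h.i2]; exact mem_cent_iff_le_cent_singleton.2 WC)
      (m.nW h.iC) hy
    rw [← cj_mul, ea, conj_eq_iff.2 (mem_cent_singleton_comm.1 hb.2), mul_assoc, ← mul_assoc b,
      comm_of_le_cent m.cen (WD hb) ha, mul_assoc, inv_mul_cancel_left]
    exact mul_mem (WD hb) (WD hb)
  have k1 : ∀ d ∈ 𝒞[t], ∀ y ∈ W, d * (u * w) * d⁻¹ * y * (d * (u * w) * d⁻¹)⁻¹ * y ∈ D := fun d hd y hy => by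
    have := conj_mem_of_mem_norm (m.nD hd) (k0 _ (conj_mem_of_mem_norm' (m.nW hd) hy))
    convert this using 1; group
  obtain ⟨d1, h1, e1⟩ := h.cjj
  obtain ⟨d2, h2, e2⟩ := h.cjk
  refine m.iW (cent_anti (fun y hy => ?_) m.iD)
  obtain ⟨z, hz, rfl⟩ := exists_sqrt oW hy
  replace hz := zpowers_le.2 hy hz
  have a1 := k0 z hz
  have a2 := k1 d1 h1 z hz
  have a3 := k1 d2 h2 z hz
  rw [e1] at a2
  rw [e2] at a3
  have a4 := conj_mem_of_mem_norm (m.nD h.iC) a2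
  have := mul_mem (conj_mem_of_mem_norm (m.nD (WC hz)) (mul_mem (inv_mem a4) a3)) a1
  convert this using 1; group

end CA.Abg
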