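/-
Groups with quasi-dihedral or wreathed Sylow 2-subgroups, `C(t)` maximal: `u` centralizes `O(C(t))`.
-/
import Cfsg.Agent.Abg.L5

set_option autoImplicit false
set_option linter.unusedSectionVars false

namespace CA.Abg

open Subgroup Cfsg CA.FG CA.BG CA.Dih CA.GW CA.GW.BA CA.GW.L1
open scoped commutatorElement IsMulCommutative Classical

universe u

variable {G : Type u} [Group G] [Finite G] [IsSimpleGroup G] {t u w j v x : G}

/-- an element centralizing `O(C(u))` and moving `t` to `u t` -/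
theorem LH.swap (h : LH t u w j) (iK : u * w ∈ 𝒞(UU t)) :
    ∃ g i, g * t * g⁻¹ = u ∧ g * u * g⁻¹ = t ∧ i ∈ 𝒞(UU u) ∧ i * t * i⁻¹ = t * u := by
  obtain ⟨g, e1, e2⟩ := h.pair h.four.symm
  have h1 := (h.conj g).iu'
  have h2 := conj_mem_conjg g iK
  rw [conjg_cent, UU_conj, ← cj_mul, e1] at h2
  rw [e1, e2] at h1
  rw [e2] at h2
  exact ⟨g, _, e1, e2, h2, by rw [h1, h.four.comm]⟩

namespace LM

variable (h : LM t u w j) (h5 : LH5 t u w j)
include h h5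

theorem fpf {N : Subgroup G} {r : ℕ} (r2 : r ≠ 2) (LN : LL t (u * w) ≤ N) (hY : SC (FF t ⊓ N) (UU t))
    (r0 : pCoreOf r (UU t) = ⊥) : pCoreOf r N ⊓ 𝒞[t] = ⊥ :=
  eq_bot_iff.2 (pcore_inf_eq_bot hY (by rw [layerOf_eq_bot_of_sol (UU_sol t)]; exact bot_le) inf_le_right r0 ▸
    le_inf inf_le_left (h5.f5 _ inf_le_right ((odd_of_pGrp (pcore_pGrp _ _) r2).of_le inf_le_left)
      (norm_inf (LN.trans (pcore_norm _ _)) (norm_of_le (LL_le (norm_of_le le_rfl) h.iC)))))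

theorem e2 (iK : u * w ∈ 𝒞(UU t)) {p : ℕ} (hu : u ∉ 𝒞(pCoreOf p (UU t))) : pCoreOf p (UU t) ⊓ 𝒞[u] = ⊥ := by
  by_contra X0
  have f := h.four
  have p2 : p ≠ 2 := ne_two (t := t) fun e => hu (by rw [e, cent_bot]; trivial)
  have pP : IsPGrp p (pCoreOf p (UU t)) := pcore_pGrp _ _
  have nP := (pcore_UU_normal p t).2
  have PC := (pcore_UU_normal p t).1
  have PK : pCoreOf p (UU t) ≤ UU t := pcore_le _ _
  have PF := pcore_le_fitting p (UU t)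
  have nle := h.nle (pP.of_le inf_le_left) (le_inf (inf_le_left.trans PC) inf_le_right) hu
  generalize pCoreOf p (UU t) = P at *
  have oP := odd_of_pGrp pP p2
  have LN : LL t (u * w) ≤ 𝒩(P ⊓ 𝒞[u]) :=
    norm_of_cent ((LL_le (norm_cent (UU_norm t)) iK).trans (cent_anti (inf_le_left.trans PK)))
  have VN : 𝒞[t] ⊓ 𝒞[u] ≤ 𝒩(P ⊓ 𝒞[u]) := norm_inf (inf_le_left.trans nP) (norm_of_le inf_le_right)
  have tN := VN ⟨mem_cent_singleton_self t, f.cs⟩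
  have uN := VN ⟨h.uC, mem_cent_singleton_self u⟩
  have wN := norm_fix PC (nP h.wC) h.wtu
  have hY : SC (FF t ⊓ 𝒩(P ⊓ 𝒞[u])) (UU t) := sc_of_norm' (inf_le_left.trans PF) le_rfl
  have hO : OO 𝒩(P ⊓ 𝒞[u]) ≤ 𝒞[t] := core_cent h.it tN fun r hr r2 => by
    by_cases r0 : pCoreOf r (UU t) = ⊥
    swap
    · exact h.pcore_cent tN r0 (((hY.p_center_le r).trans (pcore_le _ _)).trans inf_le_right)
    have h2 := h.fpf h5 r2 LN hY r0
    have pR : IsPGrp r (pCoreOf r 𝒩(P ⊓ 𝒞[u])) := pcore_pGrp _ _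
    have nR := pcore_norm {r} 𝒩(P ⊓ 𝒞[u])
    have RN := pcore_le {r} 𝒩(P ⊓ 𝒞[u])
    change _ ≤ 𝒩(pCoreOf r _) at nR
    change pCoreOf r _ ≤ _ at RN
    generalize pCoreOf r 𝒩(P ⊓ 𝒞[u]) = R at *
    have oR := odd_of_pGrp pR r2
    have h3 : R ⊓ 𝒞[u] = ⊥ := by_contra fun R0 => by
      obtain ⟨g, i, e1, e2, ci, ei⟩ := h.swap iK
      have r0' := e1 ▸ pc_conj r0 g
      have nRu : 𝒞[u] ⊓ 𝒞[t] ≤ 𝒩(R ⊓ 𝒞[u]) := norm_inf ((inf_comm _ _).le.trans (VN.trans nR)) (norm_of_le inf_le_left)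
      have P1 : ⁅R ⊓ 𝒞[u], zpowers t⁆ ≤ R ⊓ 𝒞[u] :=
        comm_le_left (zpowers_le.2 (nRu ⟨f.cs, mem_cent_singleton_self t⟩))
      have h4 := (h.conj g).f4
      rw [e1, e2] at h4
      have XK : P ⊓ 𝒞[u] ≤ UU u := fun y hy => h4 (R ⊓ 𝒞[u]) inf_le_right (oR.of_le inf_le_left) (fun e => R0 (by
        have h1 := star h.it pR r2 f.cs (nR tN) ((inf_le_inf_right _ (FF_normal u).1).trans
          ((inf_comm _ _).le.trans (VN.trans nR))) r0'
        rw [eq_bot_iff, ← h2]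
        refine le_inf inf_le_left ?_
        rw [← cent_zpowers t, ← comm_eq_bot_iff, eq_bot_iff, ← r0']
        exact le_pcore_of_le_fitting ((le_inf (P1.trans e) h1).trans (cent_sub_Fitting (UU_sol u)))
          (pR.of_le (P1.trans inf_le_left)))) (fun r hr => inv_of_fpf h.it.1 (nR tN) h2 hr.1) nRu y ⟨hy.2, PC hy.1⟩
        (oP.piElt hy.1) (cent_anti inf_le_left (le_cent_of_norm_of_inf_eq_bot RN (le_normalizer.trans nR)
          (eq_bot_iff.2 (h2 ▸ le_inf inf_le_right ((inf_le_left.trans inf_le_left).trans PC))) hy))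
      have := fpf_conj (nR (mul_mem wN (cent_le_norm _ (cent_anti XK ci)))) h2
      rw [show w * i * t * (w * i)⁻¹ = w * (i * t * i⁻¹) * w⁻¹ by group, ei, h.wtu] at this
      exact R0 this
    exact le_trans (f.gen oR (nR tN) (nR uN) h2.le h3.le (h.wu ▸ fpf_conj (nR wN) h3).le) bot_le
  obtain ⟨g, hg, cg, ng⟩ := h.zs tN hO nle
  obtain ⟨c, hc, ec⟩ := h.cju _ cg (h.it.conj g) ng
  have XO := pcore_max (π := {2}ᶜ) (K := P ⊓ 𝒞[u]) ⟨le_normalizer, le_rfl⟩ (oP.of_le inf_le_left)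
  have cN : c ∈ 𝒩(P ⊓ 𝒞[u]) := mem_norm_of_conjg_le (eq_of_le_of_card_ge (by
    rw [conjg_inf, conjg_of_mem_norm (nP hc), conjg_cent1, ec]
    exact le_inf inf_le_left (XO.trans (le_cent_conj (pcore_norm _ _ hg) hO))) (card_conjg _ _).le).ge
  have g1 := mul_mem (inv_mem cN) hg
  have e1 : c⁻¹ * g * t * (c⁻¹ * g)⁻¹ = u := by
    calc _ = c⁻¹ * (g * t * g⁻¹) * c := by group
      _ = _ := by rw [← ec]; group
  have hOu := le_cent_conj (pcore_norm _ _ g1) hO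
  rw [e1] at hOu
  obtain ⟨x, hx, x1, -, ex⟩ := exists_inverted pP p2 h.iu.1 (nP h.uC) uN
    (lt_of_le_of_ne inf_le_left fun e => hu (mem_cent_iff_le_cent_singleton.2 (e.ge.trans inf_le_right))) le_rfl
  obtain ⟨M, s⟩ := sub h.ra h.ih (h.nt X0 (oP.of_le inf_le_left)) f tN uN ⟨_, g1, e1⟩
    ⟨_, mul_mem wN g1, by rw [← h.wu, ← e1]; group⟩ (mem_OC (PK hx.1) hx.2) ex
    fun e => x1 (one_of_inv_cent oP hx.1 ex (hOu e))
  have uM : u ∈ M := by have := conj_mem_of_mem_norm (s.norm g1) s.tM; rwa [e1] at this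
  obtain ⟨d1, m1, k1⟩ := h5.lw
  obtain ⟨d2, m2, k2⟩ := h5.lj
  have iM := mul_mem uM (k1 ▸ conj_mem_of_mem_norm (s.norm (LN m1)) uM : w ∈ M)
  exact s.noQ _ iM j (k2 ▸ conj_mem_of_mem_norm (s.norm (LN m2)) iM) h.i2 h.j2 h.ji

/-- the structure of `C(y)` for `y` in a `C(t)`-invariant subgroup of `O_p(K)` inverted by `u` -/
theorem e1 (iK : u * w ∈ 𝒞(UU t)) {p : ℕ} (hp : p.Prime) (hu : ∀ y ∈ pCoreOf p (UU t), u * y * u⁻¹ = y⁻¹) {y : G}
    (hy : y ∈ pCoreOf p (UU t)) (y1 : y ≠ 1) : ∃ R : Subgroup G, R ≤ 𝒞[y] ∧ 𝒞[y] ≤ 𝒩(R) ∧ ¬ 2 ∣ Nat.card R ∧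
      ¬ p ∣ Nat.card R ∧ (∀ r ∈ R, t * r * t⁻¹ = r⁻¹) ∧ ∀ a ∈ 𝒞[y], IsInv a → ∃ r ∈ R, a = t * r := by
  have yK : y ∈ UU t := pcore_le _ _ hy
  have tN : t ∈ 𝒞[y] := mem_cent_singleton_comm.1 (UU_le t yK)
  have LN : LL t (u * w) ≤ 𝒞[y] := (LL_le (norm_cent (UU_norm t)) iK).trans
    (by rw [← cent_zpowers]; exact cent_anti (zpowers_le.2 yK))
  have hY : SC (FF t ⊓ 𝒞[y]) (UU t) := sc_of_norm (X := zpowers y) (zpowers_le.2 (pcore_le_fitting p _ hy))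
    (zpowers_le.2 (mem_cent_singleton_self y)) (by rw [cent_zpowers]; exact inf_le_right)
  have iso : ∀ a ∈ 𝒞[y], IsInv a → a ∈ 𝒞[t] → a = t := fun a ha ia ca => by_contra fun n => by
    obtain ⟨c, hc, rfl⟩ := h.cju a ca ia n
    refine y1 (one_of_inv_cent (UU_odd t) yK ?_ (mem_cent_singleton_comm.1 ha))
    calc _ = c * (u * (c⁻¹ * y * c) * u⁻¹) * c⁻¹ := by group
      _ = _ := by rw [hu _ (conj_mem_of_mem_norm' ((pcore_UU_normal p t).2 hc) hy)]; group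
  have iso' : ∀ g ∈ 𝒞[y], Commute t (g * t * g⁻¹) → g * t * g⁻¹ = t := fun g hg c =>
    iso _ (mul_mem (mul_mem hg tN) (inv_mem hg)) (h.it.conj g) (mem_c1.2 c.symm)
  have oO : IsPiGrp {2}ᶜ (OO 𝒞[y]) := pcore_piGrp _ _
  have nO : 𝒞[y] ≤ 𝒩(OO 𝒞[y]) := pcore_norm _ _
  have RO : ⁅OO 𝒞[y], zpowers t⁆ ≤ OO 𝒞[y] := comm_le_left (zpowers_le.2 (nO tN))
  have RN := RO.trans (pcore_le _ _)
  have nR : 𝒞[y] ≤ 𝒩(⁅OO 𝒞[y], zpowers t⁆) := (CA.Blk.Zstar_sup_of h.it.ord tN iso').ge.trans (sup_le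
    (normalizer_commutator_ge_left _ _) (norm_comm (inf_le_left.trans nO) (norm_zpowers_of_cent inf_le_right)))
  have c1 : ∀ r, pCoreOf r (UU t) ≠ ⊥ → pCoreOf r 𝒞[y] ≤ 𝒞[t] := fun r r0 =>
    h.pcore_cent tN r0 (((hY.p_center_le r).trans (pcore_le _ _)).trans inf_le_right)
  have RF : ⁅OO 𝒞[y], zpowers t⁆ ≤ fittingOf (OO 𝒞[y]) := (le_inf RO (le_cent_symm (fitting_le_of_forall_pcore
    fun r hr => le_cent_symm (by
      by_cases r2 : r = 2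
      · rw [r2, show pCoreOf 2 (OO 𝒞[y]) = ⊥ from (pcore_piGrp _ _).eq_bot (oO.of_le (pcore_le _ _)), cent_bot]
        exact le_top
      have le : pCoreOf r (OO 𝒞[y]) ≤ pCoreOf r 𝒞[y] := pcore_max ((pcore_normal _ _).pcore _) (pcore_piGrp _ _)
      by_cases r0 : pCoreOf r (UU t) = ⊥
      · exact comm_le_cent_of_inv (fun z hz => inv_of_fpf h.it.1 (pcore_norm _ _ tN) (h.fpf h5 r2 LN hY r0) (le hz))
          (pcore_norm _ _)
      · exact (commutator_mono le_rfl (zpowers_le.2 (mem_cent_iff_le_cent_singleton.2 (le.trans (c1 r r0))))).trans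
          (comm_le_right (norm_cent (pcore_norm _ _))))))).trans (cent_sub_Fitting (odd_sol oO))
  have cc := comm_comm_zpowers oO h.it.1 (nO tN)
  have mem : ∀ k ∈ OO 𝒞[y], ⁅k, t⁆ ∈ ⁅OO 𝒞[y], zpowers t⁆ := fun k hk => commutator_mem_commutator hk (mem_zpowers t)
  generalize ⁅OO 𝒞[y], zpowers t⁆ = R at *
  have nil : Group.IsNilpotent R := nil_of_le (fitting_nil _) RF
  have key : ∀ r, pCoreOf r (UU t) ≠ ⊥ → IsPiGrp {r}ᶜ R := fun r r0 => by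
    have d := (nilpotent_pcoreC {r} nil).symm
    refine (pcore_piGrp {r}ᶜ R).of_le (cc.ge.trans ?_)
    nth_rw 1 [← d.sup_eq]
    rw [comm_sup_left_of_cent (norm_of_cent d.cent) (by
      rw [cent_zpowers]; exact (pcore_max (NormalIn.pcore ⟨RN, nR⟩ _) (pcore_piGrp _ _)).trans (c1 r r0))]
    exact comm_le_left (norm_pcore _ (zpowers_le.2 (nR tN)))
  have fp : R ⊓ 𝒞[t] = ⊥ := eq_bot_iff.2 fun a ha => by_contra fun a1 => by
    obtain ⟨z, hz, pz⟩ := exists_prime_orderOf_mem_zpowers a1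
    replace hz := zpowers_le.2 ha hz
    have z1 : z ≠ 1 := fun e => pz.one_lt.ne (by rw [e, orderOf_one])
    have ez : IsPiElt {orderOf z} z := (pElt_iff pz).2 ⟨1, by rw [pow_one, pow_orderOf_eq_one]⟩
    by_cases r0 : pCoreOf (orderOf z) (UU t) = ⊥
    · refine z1 ((h.fpf h5 (fun e => z1 ((e ▸ ez).eq_one (oO.piElt (RO hz.1)))) LN hY r0).le ⟨?_, hz.2⟩)
      exact le_pcore_of_le_fitting ((zpowers_le.2 hz.1).trans (fitting_max ⟨RN, nR⟩ nil)) (piGrp_zpowers_iff.2 ez)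
        (mem_zpowers z)
    · exact z1 (ez.eq_one ((key _ r0).piElt hz.1))
  have iv := fun r hr => inv_of_fpf h.it.1 (nR tN) fp (y := r) hr
  refine ⟨R, RN, nR, (piNat_compl_singleton_iff Nat.prime_two).1 (oO.of_le RO),
    (piNat_compl_singleton_iff hp).1 (key p (ne_bot_of_mem hy y1)), iv, fun a ha ia => ?_⟩
  obtain ⟨g, hg, e⟩ : ∃ g ∈ zpowers (a * t), g * t * g⁻¹ = a := by_contra fun e => by
    obtain ⟨z, hz, iz, ca, ct⟩ := exists_comm_inv ia.1 h.it.1 e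
    rw [iso z (zpowers_le.2 (mul_mem ha tN) hz) iz ct] at ca
    exact e ⟨1, one_mem _, by rw [iso a ha ia (mem_cent_singleton_comm.1 ca)]; group⟩
  obtain ⟨k, hk, e'⟩ := CA.Blk.Zstar_of h.it.ord tN iso' (zpowers_le.2 (mul_mem ha tN) hg)
  exact ⟨_, conj_mem_of_mem_norm' (nR tN) (mem k hk), by rw [← e, e', commutatorElement_def]; group⟩

theorem e3 (iK : u * w ∈ 𝒞(UU t)) (hb : B3P t u w) : u ∈ 𝒞(UU t) := by
  by_contra ne
  obtain ⟨p, hp, hu, hA⟩ : ∃ p : ℕ, p.Prime ∧ u ∉ 𝒞(pCoreOf p (UU t)) ∧ LL t (u * w) ⊓ UU t ≤ pCoreOf p (UU t) := by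
    by_cases A0 : LL t (u * w) ⊓ UU t = ⊥
    · by_contra! e
      exact ne (cent_UU_of_FF h.uC (piGrp_zpowers_iff.1 (two_zpowers h.iu.1)) (mem_cent_iff_le_cent_singleton.2
        (fitting_le_of_forall_pcore fun p hp => mem_cent_iff_le_cent_singleton.1
          (by_contra fun n => e p hp n (A0.le.trans bot_le)))))
    obtain ⟨pA, b⟩ := (h5.mult (LL_le (norm_cent (UU_norm t)) iK)).resolve_left A0
    have nA : LL t (u * w) ⊓ UU t ⊲ 𝒞[t] := ⟨inf_le_right.trans (UU_le t), norm_inf (LL_norm _ _) (UU_norm t)⟩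
    have A3 : LL t (u * w) ⊓ UU t ≤ pCoreOf 3 (UU t) := pcore_max ⟨inf_le_right, (UU_le t).trans nA.2⟩ pA
    refine ⟨3, Nat.prime_three, fun c => ?_, A3⟩
    obtain ⟨g, i, e1, e2, ci, ei⟩ := h.swap iK
    have AK : LL t (u * w) ⊓ UU t ≤ UU u := fun y hy => by
      rw [← e1, ← UU_conj, mem_conjg]
      refine b _ (mem_inf.2 ⟨?_, ?_⟩) (by
        have := orderOf_conj y g⁻¹
        rw [inv_inv] at this
        simpa only [IsPiElt, this] using pA.piElt hy)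
      · rw [← mem_conjg, conjg_cent1, e1]; exact mem_cent_iff_le_cent_singleton.1 c (A3 hy)
      · rw [← mem_conjg, conjg_cent1, e2]; exact nA.1 hy
    have := h.norm_eq nA A0 ▸ cent_le_norm _ (cent_anti AK ci)
    rw [conj_eq_of_cent this] at ei
    exact h.iu.2 (mul_left_cancel (a := t) (by rw [← ei, mul_one]))
  have iv := fun y hy => inv_of_fpf h.iu.1 ((pcore_UU_normal p t).2 h.uC) (h.e2 h5 iK hu) (y := y) hy
  exact hb p _ hp (pcore_pGrp _ _) (fun e => hu (by rw [e, cent_bot]; trivial)) (pcore_le _ _) (pcore_UU_normal p t).2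
    iv hA fun y hy y1 => h.e1 h5 iK hp iv hy y1

end LM

/-- if `C(t)` is maximal then `u` centralizes `O(C(t))` -/
theorem cmax (h : LH t u w j) (ih : IH G) (mx : IsCoatom 𝒞[t]) (hc : Q3P t u w ∨ (LH5 t u w j ∧ B3P t u w)) :
    u ∈ 𝒞(UU t) := by
  have m : LM t u w j := ⟨h, mx, ih⟩
  have iK := cent_UU_of_FF h.iC h.i_two m.ne
  exact hc.elim (fun q => q iK) fun ⟨a, b⟩ => m.e3 a iK b

end CA.Abg
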