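/-
Groups with quasi-dihedral or wreathed Sylow 2-subgroups: the interface for the case `C(t) < M`.
-/
import Cfsg.Agent.Abg.L6
import Cfsg.Agent.GW.B6

set_option autoImplicit false
set_option linter.unusedSectionVars false

namespace CA.Abg

open Subgroup Cfsg CA.FG CA.BG CA.GW CA.GW.BA

universe u

variable {G : Type u} [Group G]

/-- `R = O(C(V))` -/
abbrev RV (t u : G) : Subgroup G := OO (𝒞[t] ⊓ 𝒞[u])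

/-- `X` covers a `C(V)`-invariant root subgroup of `C(t)/K` -/
structure Rt (t u : G) (X : Subgroup G) : Prop where
  le : X ≤ 𝒞[t]
  odd : IsPiGrp {2}ᶜ X
  norm : 𝒞[t] ⊓ 𝒞[u] ≤ 𝒩(X)
  com : X ≤ ⁅X, zpowers u⁆
  nle : ¬ X ≤ UU t

/-- further facts about `C(t)/K` and the Sylow `2`-subgroups -/
structure LX (t u w : G) : Prop where
  ch : ∃ r : ℕ, r.Prime ∧ ∀ X, Rt t u X → ∀ x ∈ X, x ^ r ∈ UU t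
  inv : ∀ X, Rt t u X → ∀ x ∈ X, u * x * u⁻¹ * x ∈ UU t
  gen : ∀ X, Rt t u X → LL t (u * w) ≤ UU t ⊔ (X ⊔ X :^ w)
  opp : ∀ X, Rt t u X → (UU t ⊔ X) ⊓ (UU t ⊔ X :^ w) ≤ UU t
  min : ∀ X, Rt t u X → ∀ Y, Y ≤ X → 𝒞[t] ⊓ 𝒞[u] ≤ 𝒩(Y) → Y ≤ UU t ∨ X ≤ UU t ⊔ Y
  cov : ∀ X, Rt t u X → 𝒞[t] ≤ UU t ⊔ (X ⊔ X :^ w ⊔ 𝒞[t] ⊓ 𝒞[u])
  cv : ∀ x ∈ 𝒞[t] ⊓ 𝒞[u], IsPiElt {2}ᶜ x → x ∈ RV t u
  dih : DihS ((UU t ⊔ LL t (u * w) ⊔ RV t u) /ₛ zpowers t)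
  fx : ∀ N : Subgroup G, 𝒞[t] ⊓ 𝒞[u] ≤ N → w ∈ N →
    (∀ g ∈ N, g * t * g⁻¹ ∈ 𝒞[t] → g * t * g⁻¹ = t) ∨ (∃ g ∈ N, g * t * g⁻¹ = u) ∨ Dh N

/-- further facts for `q ≥ 5` -/
structure R5 (t u w : G) : Prop where
  rL : ∀ X, Rt t u X → X ≤ UU t ⊔ LL t (u * w)
  fr : 𝒞[t] ≤ UU t ⊔ LL t (u * w) ⊔ 𝒞[t] ⊓ 𝒞[u]
  mv : ∀ X, Rt t u X → ∃ x ∈ X, ∃ h ∈ LL t (u * w) ⊓ 𝒞[u], x * h * x⁻¹ * h⁻¹ ∉ UU t

/-- (characters, `ε = +`) a proper subgroup covering `C(t)/K` and fusing `t` with `u` has trivial core -/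
def QKP (t u : G) : Prop := ∀ N : Subgroup G, N ≠ ⊤ → 𝒞[t] ≤ UU t ⊔ N ⊓ 𝒞[t] → (∃ g ∈ N, g * t * g⁻¹ = u) → OO N = ⊥

/-- the final configuration of the parabolic case: `W = A B`, `B = A ^ w` -/
structure CFD (t u w g : G) (A X Y : Subgroup G) : Prop where
  rt : Rt t u X
  XL : X ≤ LL t (u * w)
  XK : X ⊓ UU t = ⊥
  uX : ∀ x ∈ X, u * x * u⁻¹ = x⁻¹
  XA : X :^ g = A
  AX : A :^ g = X
  cXA : X ≤ 𝒞(A)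
  Au : A ≤ 𝒞[u]
  tA : ∀ a ∈ A, t * a * t⁻¹ = a⁻¹
  VA : 𝒞[t] ⊓ 𝒞[u] ≤ 𝒩(A)
  KA : UU t ≤ 𝒩(A)
  nW : 𝒞[t] ≤ 𝒩(A ⊔ A :^ w)
  oW : IsPiGrp {2}ᶜ (A ⊔ A :^ w : Subgroup G)
  WK : (A ⊔ A :^ w) ⊓ 𝒞[t] ≤ UU t
  dW : ⁅A ⊔ A :^ w, A ⊔ A :^ w⁆ ≤ UU t ⊓ 𝒞(A ⊔ A :^ w)
  uW : ∀ y ∈ ⁅A ⊔ A :^ w, A ⊔ A :^ w⁆, u * y * u⁻¹ = y⁻¹
  LK : LL t (u * w) ≤ 𝒞(UU t)
  YK : Y ≤ UU t
  Y0 : Y ≠ ⊥
  uY : ∀ y ∈ Y, u * y * u⁻¹ = y⁻¹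
  nY : 𝒞[t] ≤ 𝒩(Y)
  YW : Y ≤ 𝒞(A ⊔ A :^ w)

/-- (characters, `ε = +`, `q ≥ 5`) the final configuration of the parabolic case is impossible -/
def CFP (t u w : G) : Prop := ∀ (g : G) (A X Y : Subgroup G), ¬ CFD t u w g A X Y

/-- relative stability: no quadratic action on a section `Y/Z` inverted by `t` -/
def RSP (t u w : G) : Prop := ∀ (p : ℕ) (Y Z : Subgroup G) (x : G), p.Prime → p ≠ 2 → IsPGrp p Y → Z ≤ Y →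
  𝒞[t] ≤ 𝒩(Y) → 𝒞[t] ⊔ Y ≤ 𝒩(Z) → Y ⊓ 𝒞[t] ≤ Z → ⁅Y, Y⁆ ≤ Z → (∀ y ∈ Y, y ^ p ∈ Z) →
  x ∈ UU t ⊔ RV t u → x ∉ UU t → IsPiElt {p} x → ⁅⁅Y, zpowers x⁆, zpowers x⁆ ≤ Z →
  ⁅Y, ⁅UU t, LL t (u * w)⁆⁆ ≤ Z → Y ≤ Z

/-- all facts about a four-group `⟨t, u⟩` -/
structure FA (t u w j : G) : Prop extends LH t u w j where
  lx : LX t u w
  ix : IXP t u
  rs : RSP t u w
  qk : (∃ X, Rt t u X) → QKP t u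
  c35 : (Q3P t u w ∧ RV t u ≤ UU t) ∨ (LH5 t u w j ∧ B3P t u w ∧ R5 t u w ∧ CFP t u w)

/-- the facts hold for all four-groups -/
def GX (G : Type u) [Group G] : Prop := ∀ a b : G, Four a b → ∃ w j, FA a b w j

/-- three conjugate maximal subgroups `A = O(A) C(t)`, `B = O(B) C(s)`, `C = O(C) C(z)` -/
structure MT (p : ℕ) (t s z : G) (A B C : Subgroup G) (ρ : G) : Prop extends Tri p t s z A B C ρ where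
  gx : GX G
  ih : IH G
  dec : A ≤ OO A ⊔ 𝒞[t]

variable [Finite G]

theorem gx_of {t u w j : G} (h : ∀ g : G, FA (g * t * g⁻¹) (g * u * g⁻¹) (g * w * g⁻¹) (g * j * g⁻¹)) : GX G :=
  fun a b f => by
    have h1 := (h 1).toLH
    simp only [one_mul, inv_one, mul_one] at h1
    obtain ⟨g, rfl, rfl⟩ := h1.pair f
    exact ⟨_, _, h g⟩

namespace MT

variable {p : ℕ} {t s z ρ : G} {A B C : Subgroup G} (h : MT p t s z A B C ρ)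
include h

theorem rot : MT p s z t B C A ρ :=
  ⟨h.toTri.rot, h.gx, h.ih, by
    have := conjg_mono ρ h.dec
    rwa [conjg_sup, conjg_cent1, h.rt, OO, pPrimeCoreOf, pcore_conjg, h.rA] at this⟩

theorem rev : MT p t z s A C B ρ⁻¹ := ⟨h.toTri.rev, h.gx, h.ih, h.dec⟩

theorem swp : MT p s t z B A C ρ⁻¹ := h.rot.rev

/-- change of the prime -/
theorem prime {r : ℕ} (hr : r.Prime) (nc : t ∉ 𝒞(pCoreOf r A)) : MT r t s z A B C ρ :=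
  ⟨{ h.toTri with pp := hr, nc := nc }, h.gx, h.ih, h.dec⟩

end MT

theorem realizeEqns_Abg_MDefs : True := by
  have := @CA.Abg.GX.eq_1.{0}
  have := @CA.Abg.GX.eq_def.{0}
  have := @CA.Abg.GX.congr_simp.{0}
  have := @CA.Abg.RSP.eq_1.{0}
  have := @CA.Abg.RSP.eq_def.{0}
  have := @CA.Abg.RSP.congr_simp.{0}
  have := @CA.Abg.RV.eq_1.{0}
  have := @CA.Abg.RV.eq_def.{0}
  have := @CA.Abg.RV.congr_simp.{0}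
  have := @CA.Abg.CFP.eq_1.{0}
  have := @CA.Abg.CFP.eq_def.{0}
  have := @CA.Abg.CFP.congr_simp.{0}
  have := @CA.Abg.QKP.eq_1.{0}
  have := @CA.Abg.QKP.eq_def.{0}
  have := @CA.Abg.QKP.congr_simp.{0}
  trivial

end CA.Abg
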