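/-
The case `C(t) < M`: general lemmas.
-/
import Cfsg.Agent.Abg.MDefs

set_option autoImplicit false
set_option linter.unusedSectionVars false

namespace CA.Abg

open Subgroup Cfsg CA.FG CA.BG CA.GW CA.GW.BA CA.Dih
open scoped commutatorElement

universe u v

variable {G : Type u} [Group G] [Finite G] {t u v w j x : G}

theorem dd_pull {Γ : Type v} [Group Γ] [Finite Γ] {T : Subgroup G} {T' : Subgroup Γ} (e : T ≃* T')
    (h : ∃ c ∈ T', (zpowers c).relIndex T' ≤ 2 ∧ ∀ s ∈ T', s ∉ zpowers c → s * s = 1) :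
    ∃ c ∈ T, (zpowers c).relIndex T ≤ 2 ∧ ∀ s ∈ T, s ∉ zpowers c → s * s = 1 := by
  obtain ⟨c, hc, i, sq⟩ := h
  obtain ⟨d, hd⟩ := e.surjective ⟨c, hc⟩
  have k : ∀ s : T, (s : G) ∈ zpowers (d : G) ↔ ((e s : T') : Γ) ∈ zpowers c := fun s => by
    have : c = (e d : T') := by rw [hd]
    rw [this]
    simp only [mem_zpowers_iff, ← coe_zpow, ← map_zpow, Subtype.coe_inj, e.injective.eq_iff]
  refine ⟨d, d.2, ?_, fun s hs hn => ?_⟩
  · have : (zpowers (d : G)).subgroupOf T = ((zpowers c).subgroupOf T').comap e.toMonoidHom := Subgroup.ext k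
    rwa [relIndex, this, index_comap_of_surjective _ e.surjective]
  · have := sq _ (e ⟨s, hs⟩).2 fun h => hn ((k ⟨s, hs⟩).2 h)
    rw [← coe_mul, ← map_mul, OneMemClass.coe_eq_one, e.map_eq_one_iff] at this
    exact congrArg Subtype.val this

theorem dh_of_dd {X : Subgroup G} (h : DD X) : Dh X := fun T hT pT => by
  obtain ⟨c, hc, i, sq⟩ := h T hT pT
  by_cases e : T ≤ zpowers c
  · exact .inl (cyclic_of_le (cyclic_zpowers c) e)
  · exact .inr ⟨c, hc, le_antisymm i (one_lt_relIndex e), sq⟩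

theorem dd_of_dh {X : Subgroup G} (h : Dh X) : DD X := fun T hT pT => by
  rcases h T hT pT with e | ⟨c, e⟩
  · obtain ⟨c, hc, rfl⟩ := exists_gen_of_cyclic e
    exact ⟨c, hc, by rw [relIndex_self]; omega, fun s hs hn => (hn hs).elim⟩
  · exact ⟨c, e.mem, e.index.le, e.sq⟩

/-- the Thompson-Bender property for groups with dihedral Sylow `2`-subgroups -/
theorem tb_dh {X : Subgroup G} (h : Dh X) : TB X := tb_of h fun ns =>
  (xc_gen ((dd_of_dh h).img _) (fun L _ _ _ nab _ hd =>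
    gw_simple ch (step_of fun G _ _ _ S M E K c t s q r l a b d => l.noB a b d) L nab hd)
    (fun e => ns (sol_of_quot (pcore_norm _ X) e (odd_sol (pcore_piGrp _ X)))) (.inl (pcore_quot_pcore _ X))).imp
    fun _ e => ⟨e.1, e.2.1, e.2.2 (pcore_quot_pcore _ X)⟩

/-- the simple normal section with dihedral Sylow `2`-subgroups -/
structure SD (X E : Subgroup G) (t v : G) : Prop where
  le : E ≤ X
  norm : X ≤ 𝒩(E)
  core : OO X ≤ E
  tE : t ∈ E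
  vE : v ∈ E
  dh : Dh E
  cj : ∃ g ∈ E, g * t * g⁻¹ = v

theorem sub2_core (ra : RA G) (ih : IH G) {X : Subgroup G} {Γ : Type u} [Group Γ] [Finite Γ] {φ : X →* Γ}
    (hf : Function.Surjective φ) (hk : pre φ ⊥ = OO X) (h2 : OO (⊤ : Subgroup Γ) = ⊥) (cΓ : Nat.card Γ < Nat.card G)
    {t v x : X} (f : Four (t : G) v) (c1 : ∃ g : X, g * t * g⁻¹ = v) (c2 : ∃ g : X, g * t * g⁻¹ = t * v)
    (hx : (x : G) ∈ OO (X ⊓ 𝒞[(t : G)])) (e : v * x * v⁻¹ = x⁻¹) (xO : (x : G) ∉ OO X) : ∃ E, SD X E t v := by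
  have oO : IsPiGrp {2}ᶜ (OO X) := pcore_piGrp _ _
  have rΓ := ra.quot hf (hk ▸ oO)
  have k1 : ∀ y : X, φ y = 1 ↔ (y : G) ∈ OO X := fun y => by rw [← hk, coe_mem_pre, mem_bot]
  have iv : ∀ {y : X}, IsInv (y : G) → IsInv (φ y) := fun {y} h =>
    ⟨by rw [← map_mul, show y * y = 1 from Subtype.ext h.1, map_one], fun e => h.2 (eq_one_of_odd oO ((k1 y).1 e) h.1)⟩
  have f' : Four (φ t) (φ v) := ⟨iv f.it, iv f.is, fun e => (iv (y := t * v) f.ts).2 (by rw [map_mul, ← e, (iv f.it).1]),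
    by rw [← map_mul, ← map_mul, show t * v = v * t from Subtype.ext f.comm]⟩
  have cj : ∀ {a b : X}, IsInv (a : G) → IsInv (b : G) → φ a = φ b → ∃ g ∈ OO X, g * b * g⁻¹ = a := fun {a b} ia ib e =>
    conj_of_odd oO ia.1 ib.1 ((k1 (a * b)).1 (by rw [map_mul, e, (iv ib).1]))
  obtain ⟨L, -, hL⟩ := minNormal_exists (K := (⊤ : Subgroup Γ)) (A := ⊤) (ne_bot_of_mem (mem_top _) f'.it.2)
    (norm_of_le le_rfl)
  have nm : ∀ (g : Γ) {a : Γ}, a ∈ L → g * a * g⁻¹ ∈ L := fun g _ h => conj_mem_of_mem_norm (hL.norm trivial) h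
  have tL : φ t ∈ L := by
    obtain ⟨T, hT, VT⟩ := sylow_superset Nat.prime_two f'.two le_top
    have h1 := hT.normal_inf (K := L) ⟨le_top, hL.norm⟩
    obtain ⟨z0, ⟨hz, -, cz⟩, z1⟩ := exists_mem_ne_one (meet_center_nil (K := L ⊓ T) (IsPGrp.nil hT.piGrp)
      ⟨inf_le_right, norm_inf (le_top.trans hL.norm) (norm_of_le le_rfl)⟩ fun e =>
        hL.ne_bot (eq_bot_of_pcore_eq_bot h2 ⟨le_top, hL.norm⟩ (h1.eq_bot_iff.1 e)))
    obtain ⟨z, hz', z2, z1⟩ := exists_inv_of_piElt (hT.piGrp.piElt hz.2) z1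
    have zL := zpowers_le.2 hz.1 hz'
    have cz' := zpowers_le.2 cz hz'
    obtain ⟨g1, e1⟩ := c1
    obtain ⟨g2, e2⟩ := c2
    have k : ∀ g : X, φ (g * t * g⁻¹) ∈ L → φ t ∈ L := fun g h => by
      have := nm (φ g)⁻¹ h
      simpa only [map_mul, map_inv, inv_inv, mul_assoc, inv_mul_cancel_left, inv_mul_cancel, mul_one] using this
    rcases rΓ.r2 _ _ z f'.it.1 f'.is.1 z2 f'.comm (cz' _ (VT (Four.t_mem _ _))) (cz' _ (VT (Four.s_mem _ _))) f'.it.2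
      f'.is.2 f'.ne with e | e | e | e
    exacts [(z1 e).elim, e ▸ zL, k g1 (e1 ▸ e ▸ zL), k g2 (by rw [e2, map_mul]; exact e ▸ zL)]
  have vL : φ v ∈ L := by obtain ⟨g, rfl⟩ := c1; rw [map_mul, map_mul, map_inv]; exact nm _ tL
  have ox : IsPiElt {2}ᶜ (φ x) := by
    have : IsPiElt {2}ᶜ x := by simpa only [IsPiElt, orderOf_coe] using (pcore_piGrp _ _).piElt hx
    exact this.map φ
  have ex : φ v * φ x * (φ v)⁻¹ = (φ x)⁻¹ := by rw [← map_inv, ← map_mul, ← map_mul, e, map_inv]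
  have xL : φ x ∈ L := mem_of_inv (hL.norm trivial) vL ox ex
  have x1 : φ x ≠ 1 := fun e => xO ((k1 x).1 e)
  have nL : ¬ Group.IsSolvable L := fun s => by
    obtain ⟨p, hp, pL⟩ := hL.exists_pGrp s
    obtain rfl : 2 = p := pL.piElt tL 2 Nat.prime_two f'.it.ord.symm.dvd
    exact x1 ((pL.piElt xL).eq_one ox)
  have := simple_of_r2 rΓ.r2 hL nL
  have nab : ¬ IsMulCommutative L := fun e => nL (sol_of_abelian e)
  have sb : ∀ {a : Γ} (h : a ∈ L), IsInv a → IsInv (⟨a, h⟩ : L) := fun h i =>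
    ⟨Subtype.ext i.1, fun e => i.2 (congrArg Subtype.val e)⟩
  have hd : HasDih L := ((rΓ.sub L).types nab).resolve_right fun q => x1 (congrArg Subtype.val (ih L
    ((Nat.le_of_dvd Nat.card_pos (card_subgroup_dvd_card L)).trans_lt cΓ) q ⟨_, tL⟩ ⟨_, vL⟩ (sb tL f'.it) (sb vL f'.is)
    (mem_c1.2 (Subtype.ext f'.comm.symm)) ⟨_, xL⟩ ?_ (Subtype.ext ex)))
  swap
  · have h1 : 𝒞[φ t] ≤ img φ (X ⊓ 𝒞[(t : G)]) := fun γ hγ => by
      obtain ⟨g, rfl⟩ := hf γ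
      obtain ⟨o, ho, e⟩ := cj (a := g * t * g⁻¹) (b := t) (f.it.conj g) f.it (by
        rw [map_mul, map_mul, map_inv]; exact conj_eq_iff.2 hγ)
      lift o to X using pcore_le _ _ ho
      refine mem_img.2 ⟨o⁻¹ * g, ⟨(o⁻¹ * g).2, conj_eq_iff.1 ?_⟩, by rw [map_mul, map_inv, (k1 o).2 ho, inv_one, one_mul]⟩
      simp only [coe_mul, coe_inv] at e ⊢
      calc _ = (o : G)⁻¹ * (g * t * (g : G)⁻¹) * o := by group
        _ = _ := by rw [← e]; group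
    have h3 := img_normalIn (f := φ) (pcore_normal {2}ᶜ (X ⊓ 𝒞[(t : G)]))
    refine pcore_max (K := (img φ (OO (X ⊓ 𝒞[(t : G)]))).subgroupOf L) ⟨?_, ?_⟩
      ((IsPiGrp.img φ (pcore_piGrp _ _)).subgroupOf L) (mem_img.2 ⟨x, hx, rfl⟩)
    · rw [cent1_subgroupOf]; exact subgroupOf_mono _ (img_cent1 ((pcore_le _ _).trans inf_le_right))
    · rw [cent1_subgroupOf]; exact subgroupOf_norm L (h1.trans h3.2)
  obtain ⟨S, c, t0, s0, d⟩ := hd.exists_DS nab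
  have OL : OO X ≤ pre φ L := hk ▸ pre_mono _ bot_le
  refine ⟨pre φ L, pre_le _ _, le_norm_pre le_rfl (le_top.trans hL.norm), OL, coe_mem_pre.2 tL, coe_mem_pre.2 vL,
    dh_of_dd fun T hT pT => ?_, ?_⟩
  · obtain ⟨e1⟩ := img_equiv (f := φ) (hT.trans (pre_le φ L)) (by rw [hk, inf_comm]; exact IsPiGrp.inf_eq_bot pT oO)
    have h1 : img φ T ≤ L := img_le_of_le_pre hT
    exact dd_pull (e1.trans (subgroupOfEquivOfLe h1).symm) (hd.dd _ le_top ((IsPiGrp.img φ pT).subgroupOf L))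
  · obtain ⟨γ, eγ⟩ := isConj_iff.1 ((d.one _ (sb tL f'.it)).symm.trans (d.one _ (sb vL f'.is)))
    obtain ⟨g, eg⟩ := hf γ
    obtain ⟨o, ho, e⟩ := cj (a := v) (b := g * t * g⁻¹) f.is (f.it.conj g) (by
      rw [map_mul, map_mul, map_inv, eg]; exact (congrArg Subtype.val eγ).symm)
    refine ⟨o * g, mul_mem (OL ho) (coe_mem_pre.2 (eg ▸ γ.2)), ?_⟩
    rw [← e]; simp only [coe_mul, coe_inv]; group

theorem sub2 (ra : RA G) (ih : IH G) {X : Subgroup G} (hX : X ≠ ⊤) (f : Four t v) (tX : t ∈ X) (vX : v ∈ X)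
    (c1 : ∃ g ∈ X, g * t * g⁻¹ = v) (c2 : ∃ g ∈ X, g * t * g⁻¹ = t * v) (hx : x ∈ OO (X ⊓ 𝒞[t]))
    (e : v * x * v⁻¹ = x⁻¹) (xO : x ∉ OO X) : ∃ E, SD X E t v := by
  have := normal_subgroupOf_of_normalIn (pcore_normal {2}ᶜ X)
  let φ := QuotientGroup.mk' ((OO X).subgroupOf X)
  have hf : Function.Surjective φ := QuotientGroup.mk'_surjective _
  have hk : pre φ ⊥ = OO X := by
    rw [pre_def, MonoidHom.comap_bot, QuotientGroup.ker_mk', subgroupOf_map_subtype, inf_eq_left.2 (pcore_le _ _)]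
  have h1 : φ.ker = piCoreOf {2}ᶜ ⊤ := by rw [← pre_bot_subgroupOf, hk, pcore_subgroupOf_self, pcore_top]
  have h2 := pcore_map_of_ker (π := {2}ᶜ) (H := ⊤) (f := φ) le_top (by rw [h1]; exact pcore_piGrp _ _)
  rw [map_top_of_surjective φ hf, (Subgroup.map_eq_bot_iff _).2 h1.ge] at h2
  obtain ⟨g1, m1, e1⟩ := c1
  obtain ⟨g2, m2, e2⟩ := c2
  exact sub2_core ra ih hf hk h2.symm ((Nat.card_le_card_of_surjective φ hf).trans_lt
    ((card_lt_of_lt (lt_top_iff_ne_top.2 hX)).trans_eq card_top)) (t := ⟨t, tX⟩) (v := ⟨v, vX⟩)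
    (x := ⟨x, (pcore_le _ _ hx).1⟩) f ⟨⟨g1, m1⟩, Subtype.ext e1⟩ ⟨⟨g2, m2⟩, Subtype.ext e2⟩ hx (Subtype.ext e) xO

theorem odd_not_mem {Y : Subgroup G} (oY : IsPiGrp {2}ᶜ Y) (x2 : IsPiElt {2} x) (x1 : x ≠ 1) : x ∉ Y :=
  fun e => x1 (x2.eq_one (oY.piElt e))

namespace LH

variable (h : LH t u w j)
include h

theorem i_ne : u * w ≠ 1 := fun e => h.it.2 (by rw [← h.i2, e, one_mul])

theorem nV : w ∈ 𝒩(V4 t u) := mem_norm_of_forall fun x hx => by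
  rcases h.four.mem.1 hx with rfl | rfl | rfl | rfl
  · simp [one_mem]
  · rw [conj_eq_of_cent h.wC]; exact hx
  · rw [h.wu]; exact mul_mem (Four.t_mem _ _) hx
  · rw [h.wtu]; exact Four.s_mem _ _

theorem nCV : w ∈ 𝒩(𝒞[t] ⊓ 𝒞[u]) := Four.cent t u ▸ norm_cent (zpowers_le.2 h.nV) (mem_zpowers w)

/-- `u` and `t u` are conjugate in `C_N(t)` if `C_N(t)` has non-abelian Sylow `2`-subgroups -/
theorem sw {N T₀ : Subgroup G} (tN : t ∈ N) (uN : u ∈ N) (hT : T₀ ≤ N ⊓ 𝒞[t]) (pT : IsPGrp 2 T₀)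
    (nT : ¬ T₀ ≤ 𝒞(T₀)) : ∃ g ∈ N ⊓ 𝒞[t], g * u * g⁻¹ = t * u := by
  obtain ⟨T, sT, VT⟩ := sylow_superset Nat.prime_two h.four.two
    (Four.le (X := N ⊓ 𝒞[t]) ⟨tN, mem_cent_singleton_self t⟩ ⟨uN, h.uC⟩)
  have lt : T ⊓ 𝒞[u] < T := lt_of_le_of_ne inf_le_left fun e => by
    have c := h.ab T sT.piGrp (le_inf (sT.le.trans inf_le_right) (e.ge.trans inf_le_right))
    obtain ⟨g, -, hg⟩ := sylow_subJ Nat.prime_two sT pT hT
    exact nT (hg.trans ((conjg_mono g c).trans (by rw [conjg_cent]; exact cent_anti hg)))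
  obtain ⟨g, ⟨gT, gN⟩, ng⟩ := SetLike.exists_of_lt (nilpotent_proper_norm sT.pGrp.nil lt)
  have m := conj_mem_of_mem_norm gN (⟨VT (Four.s_mem t u), mem_cent_singleton_self u⟩ : u ∈ T ⊓ 𝒞[u])
  refine ⟨g, sT.le gT, ?_⟩
  rcases h.invV _ ⟨(sT.le m.1).2, m.2⟩ (h.iu.conj g) with e | e | e
  · refine (h.ut ?_).elim
    rw [← conj_eq_of_cent (inv_mem (sT.le gT).2), ← e]; group
  · exact (ng ⟨gT, conj_eq_iff.1 e⟩).elim
  · exact e

theorem d8 : IsPGrp 2 (V4 t u ⊔ zpowers w : Subgroup G) ∧ ¬ V4 t u ⊔ zpowers w ≤ 𝒞(V4 t u ⊔ zpowers w) :=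
  ⟨h.four.two.sup (two_zpowers h.iw.1) (.inr (zpowers_le.2 h.nV)), fun e => h.four.it.2 (by
    have := e (mem_sup_left (Four.s_mem t u)) w (mem_sup_right (mem_zpowers w))
    have h1 := h.wu
    rw [this, mul_inv_cancel_right] at h1
    exact (mul_eq_right.1 h1.symm))⟩

/-- if `t` and `u` are fused in `N ∋ w`, then `t` and `u t` are conjugate in `C_N(u)` -/
theorem sw' {N : Subgroup G} (tN : t ∈ N) (uN : u ∈ N) (wN : w ∈ N) {g : G} (gN : g ∈ N) (e : g * t * g⁻¹ = u) :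
    ∃ g ∈ N ⊓ 𝒞[u], g * t * g⁻¹ = u * t := by
  obtain ⟨k, e1, e2⟩ := h.pair h.four.symm
  have h' := h.conj k
  rw [e1, e2] at h'
  refine h'.sw (T₀ := (V4 t u ⊔ zpowers w) :^ g) uN tN (le_inf ?_ ?_) (h.d8.1.conjg g) fun c => h.d8.2 ?_
  · exact (conjg_mono g (sup_le (Four.le tN uN) (zpowers_le.2 wN))).trans (conjg_of_mem gN).le
  · exact (conjg_mono g (sup_le (Four.le (mem_cent_singleton_self t) h.uC) (zpowers_le.2 h.wC))).trans
      (by rw [conjg_cent1, e])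
  · rwa [← conjg_cent, conjg_le_conjg] at c

/-- a normal subgroup of even order contains an involution of `V` -/
theorem meetV {N E : Subgroup G} (tN : t ∈ N) (uN : u ∈ N) (hE : E ⊲ N) (o : ¬ IsPiGrp {2}ᶜ E) :
    t ∈ E ∨ u ∈ E ∨ t * u ∈ E := by
  obtain ⟨T, hT, VT⟩ := sylow_superset Nat.prime_two h.four.two (Four.le tN uN)
  have h1 := hT.normal_inf hE
  obtain ⟨z0, ⟨hz, -, cz⟩, z1⟩ := exists_mem_ne_one (meet_center_nil (K := E ⊓ T) (IsPGrp.nil hT.piGrp)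
    ⟨inf_le_right, norm_inf (hT.le.trans hE.2) (norm_of_le le_rfl)⟩ fun e => o (h1.eq_bot_iff.1 e))
  obtain ⟨z, hz', z2, z1⟩ := exists_inv_of_piElt (hT.piGrp.piElt hz.2) z1
  have zE := zpowers_le.2 hz.1 hz'
  have cz' := zpowers_le.2 cz hz'
  rcases h.invV z ⟨mem_c1.2 (cz' _ (VT (Four.t_mem _ _))).symm, mem_c1.2 (cz' _ (VT (Four.s_mem _ _))).symm⟩ ⟨z2, z1⟩
    with rfl | rfl | rfl
  exacts [.inl zE, .inr (.inl zE), .inr (.inr zE)]

theorem rt_or {Y : Subgroup G} (YC : Y ≤ 𝒞[t]) (oY : IsPiGrp {2}ᶜ Y) (nY : 𝒞[t] ⊓ 𝒞[u] ≤ 𝒩(Y)) :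
    ⁅Y, zpowers u⁆ ≤ UU t ∨ Rt t u ⁅Y, zpowers u⁆ := by
  have uY := nY ⟨h.uC, mem_cent_singleton_self u⟩
  have le := comm_le_left (zpowers_le.2 uY)
  exact or_iff_not_imp_left.2 fun e => ⟨le.trans YC, oY.of_le le, norm_comm nY (norm_zpowers_of_cent inf_le_right),
    (comm_comm_zpowers oY h.iu.1 uY).ge, e⟩

/-- (U4) -/
theorem u4 (lx : LX t u w) {Y : Subgroup G} (YC : Y ≤ 𝒞[t]) (oY : IsPiGrp {2}ᶜ Y) (nY : 𝒞[t] ⊓ 𝒞[u] ≤ 𝒩(Y))
    (wY : w ∈ 𝒩(Y)) : Y ≤ UU t ⊔ RV t u := by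
  have uY := nY ⟨h.uC, mem_cent_singleton_self u⟩
  have le := comm_le_left (zpowers_le.2 uY)
  rw [← comm_sup_cent oY h.iu.1 uY]
  refine sup_le_sup ((h.rt_or YC oY nY).resolve_right fun r => ?_) fun x hx =>
    lx.cv x ⟨YC hx.1, hx.2⟩ (oY.piElt hx.1)
  exact odd_not_mem ((UU_odd t).sup oY (.inr (YC.trans (UU_norm t)))) h.i_two h.i_ne
    ((lx.gen _ r).trans (sup_le_sup_left (sup_le le ((conjg_mono w le).trans (conjg_of_mem_norm wY).le)) _)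
      (LL_mem t _))

end LH

namespace MT

variable {p : ℕ} {s z ρ : G} {A B C : Subgroup G} (h : MT p t s z A B C ρ)
include h

theorem oA : IsPiGrp {2}ᶜ (OO A) := pcore_piGrp _ _

theorem nA : A ≤ 𝒩(OO A) := pcore_norm _ A

theorem dec' : OO A ⊔ 𝒞[t] = A := le_antisymm (sup_le (pcore_le _ _) h.cA) h.dec

theorem KO : UU t ≤ OO A := by
  have n : OO A ⊔ 𝒞[t] ≤ 𝒩(OO A ⊔ UU t) := sup_le (norm_of_le le_sup_left)
    (norm_sup (h.cA.trans h.nA) (UU_norm t))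
  exact le_sup_right.trans (pcore_max ⟨sup_le (pcore_le _ _) ((UU_le t).trans h.cA), h.dec.trans n⟩
    (h.oA.sup (UU_odd t) (.inr (((UU_le t).trans h.cA).trans h.nA))))

theorem OK : OO A ⊓ 𝒞[t] ≤ UU t :=
  pcore_max ⟨inf_le_right, norm_inf (h.cA.trans h.nA) le_normalizer⟩ (h.oA.inf_left _)

theorem comO : ⁅A, zpowers t⁆ ≤ OO A := comm_zpowers_le h.nA (h.nA h.tA) fun a ha => by
  obtain ⟨c, hc, o, ho, rfl⟩ := (mem_sup_of_right_le_norm' (h.cA.trans h.nA)).1 (h.dec ha)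
  rw [show (c * o)⁻¹ * (t * (c * o) * t⁻¹) = o⁻¹ * ((c⁻¹ * t * c⁻¹⁻¹) * o * t⁻¹) by group,
    conj_eq_of_cent (inv_mem hc)]
  exact mul_mem (inv_mem ho) (conj_mem_of_mem_norm (h.nA h.tA) ho)

theorem comO' {X : Subgroup G} (hX : X ≤ A) : ⁅X, zpowers t⁆ ≤ OO A := (commutator_mono hX le_rfl).trans h.comO

theorem pO (r : ℕ) : pCoreOf r A ≤ OO A := pcore_max (pcore_normal _ A) (h.oO r)

theorem FO : fittingOf A ≤ OO A := pcore_max (fitting_normal A) h.odd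

theorem pOO (r : ℕ) : pCoreOf r (OO A) ≤ pCoreOf r A := (pcore_normal _ A).pcore_le _

/-- Goldschmidt's lemma -/
theorem gs (r : ℕ) : ⁅pCoreOf r A ⊓ OO B, zpowers t⁆ ≤ pCoreOf r B := by
  have tB := h.rot.nA h.rot.zA
  have n : OO B ⊓ 𝒞[t] ≤ 𝒩(pCoreOf r A ⊓ OO B) := h.nOX r
  have tn : t ∈ 𝒩(pCoreOf r A ⊓ OO B) := norm_inf (zpowers_le.2 (pcore_norm _ A h.tA)) (zpowers_le.2 tB) (mem_zpowers t)
  have le := comm_le_left (zpowers_le.2 tn)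
  exact (tb_sol (odd_sol h.rot.oA) h.rot.oA h.t2 tB (norm_comm (zpowers_le.2 tn) le_normalizer (mem_zpowers t))
    (le.trans inf_le_right) (((pcore_pGrp r A).inf_left _).of_le le)
    (comm_comm_zpowers ((h.oO r).inf_left _) h.t2 tn).ge (h.nR r)).trans (h.rot.pOO r)

theorem cjA {g : G} (hg : g ∈ 𝒞[t]) : A :^ g = A := conjg_of_mem (h.cA hg)

theorem cjB {g : G} (e : g * s * g⁻¹ = z) : B :^ g = C := h.rot.conj_eq e

theorem cjC {g : G} (e : g * z * g⁻¹ = s) : C :^ g = B := h.rot.swp.conj_eq e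

theorem nfus {g : G} (hg : g ∈ A) : g * t * g⁻¹ ≠ s := fun e => h.ne ((conjg_of_mem hg).symm.trans (h.conj_eq e))

theorem fa : ∃ w j, FA t s w j := h.gx t s h.f

/-- (U4) in `A` -/
theorem u4 (f : FA t s w j) {Y : Subgroup G} (YA : Y ≤ A) (oY : IsPiGrp {2}ᶜ Y) (nY : 𝒞[t] ⊓ 𝒞[s] ≤ 𝒩(Y))
    (wY : w ∈ 𝒩(Y)) : Y ≤ OO A ⊔ RV t s := by
  have tY := nY ⟨mem_cent_singleton_self t, h.f.cs⟩
  rw [← comm_sup_cent oY h.t2 tY]
  exact sup_le ((h.comO' YA).trans le_sup_left) ((f.toLH.u4 f.lx inf_le_right (oY.inf_left _)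
    (norm_inf nY (norm_of_le inf_le_left)) (norm_inf (zpowers_le.2 wY) (norm_of_le (zpowers_le.2 f.wC))
      (mem_zpowers w))).trans (sup_le_sup_right h.KO _))

end MT

end CA.Abg
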