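/-
Proper subgroups covering `C(t) / K` and fusing `t` with `u`: the group theoretic part.
-/
import Cfsg.Agent.Abg.MA1
import Cfsg.Agent.Abg.A5
import Cfsg.Agent.Abg.ADefs

set_option autoImplicit false
set_option linter.unusedSectionVars false

namespace CA.Abg

open Subgroup Cfsg CA.FG CA.BG CA.GW CA.Dih
open scoped MatrixGroups commutatorElement

universe u

variable {G : Type u} [Group G] [Finite G] {t u w j g : G} {H : Subgroup G}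

theorem cov_dec (h : 𝒞[t] ≤ UU t ⊔ H ⊓ 𝒞[t]) {c : G} (hc : c ∈ 𝒞[t]) : ∃ k ∈ UU t, ∃ x ∈ H ⊓ 𝒞[t], k * x = c :=
  (mem_sup_of_right_le_norm (inf_le_right.trans (UU_norm t))).1 (h hc)

theorem cov_cj (h : 𝒞[t] ≤ UU t ⊔ H ⊓ 𝒞[t]) {a b c : G} (ha : a ∈ H ⊓ 𝒞[t]) (hb : b ∈ H ⊓ 𝒞[t]) (a2 : IsPiElt {2} a)
    (hc : c ∈ 𝒞[t]) (e : c * a * c⁻¹ = b) : ∃ x ∈ H ⊓ 𝒞[t], x * a * x⁻¹ = b := by
  obtain ⟨k, hk, x, hx, rfl⟩ := cov_dec h hc
  have m := mul_mem (mul_mem hx ha) (inv_mem hx)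
  obtain ⟨y, hy, e'⟩ := conj_two (K := UU t ⊓ H) ((UU_odd t).inf_left _)
    (norm_inf (inf_le_right.trans (UU_norm t)) (inf_le_left.trans le_normalizer) hb) (a2.conj x) (e ▸ a2.conj _)
    ⟨by
      have := mul_mem (conj_mem_of_mem_norm (UU_norm t m.2) hk) (inv_mem hk)
      rw [← e]
      simpa [mul_assoc] using this, H.mul_mem m.1 (H.inv_mem hb.1)⟩
  exact ⟨y * x, mul_mem ⟨hy.2, UU_le t hy.1⟩ hx, by rw [← e']; group⟩

theorem cov_le (h : 𝒞[t] ≤ UU t ⊔ H ⊓ 𝒞[t]) {O : Subgroup G} (o : IsPiGrp {2}ᶜ O) (n : H ⊓ 𝒞[t] ≤ 𝒩(O)) :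
    O ⊓ 𝒞[t] ≤ UU t :=
  le_sup_right.trans (pcore_max ⟨sup_le (UU_le t) inf_le_right, h.trans (sup_le (le_sup_left.trans le_normalizer)
    (norm_sup (inf_le_right.trans (UU_norm t)) (norm_inf n (inf_le_right.trans le_normalizer))))⟩
    ((UU_odd t).sup (o.inf_left _) (.inr (inf_le_right.trans (UU_norm t)))))

theorem mem_of_piElt {O : Subgroup G} {π : Set ℕ} {z : G} {n : ℕ} (hz : IsPiElt πᶜ z) (hn : PiNat π n) (e : z ^ n ∈ O) :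
    z ∈ O := zpowers_le.2 e (mem_zpowers_pow_iff.2 (hn.coprime hz))

theorem pow_mul_mem {O : Subgroup G} {d a : G} (hd : d ∈ O) (na : a ∈ 𝒩(O)) (n : ℕ) : (d * a) ^ n * (a ^ n)⁻¹ ∈ O := by
  induction n with
  | zero => simp
  | succ n ih =>
    rw [pow_succ', pow_succ']
    simpa [mul_assoc] using mul_mem hd (conj_mem_of_mem_norm na ih)

theorem closure_two {s : Set G} (hs : ∀ x ∈ s, IsPiElt {2} x) {A : Type*} [CommGroup A] (φ : closure s →* A)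
    (x : closure s) : IsPiElt {2} (φ x) := by
  obtain ⟨x, hx⟩ := x
  induction hx using closure_induction with
  | mem x hx => exact IsPiElt.map (by simpa [IsPiElt, ← orderOf_coe] using hs x hx) φ
  | one => exact (map_one φ).symm ▸ (by simpa [IsPiElt] using PiNat.one _)
  | mul x y hx hy a b => exact (map_mul φ ⟨x, hx⟩ ⟨y, hy⟩).symm ▸ a.mul b (mul_comm _ _)
  | inv x hx a => exact (map_inv φ ⟨x, hx⟩).symm ▸ a.inv

/-- the normal closure of `i` in `C_H(t)` -/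
def LC (t : G) (H : Subgroup G) (i : G) : Subgroup G := closure {x | ∃ c ∈ H ⊓ 𝒞[t], c * i * c⁻¹ = x}

theorem LC_norm (i : G) : H ⊓ 𝒞[t] ≤ 𝒩(LC t H i) := norm_closure (by
  rintro a ha _ ⟨c, hc, rfl⟩; exact ⟨a * c, mul_mem ha hc, by group⟩)

theorem LC_mem (i : G) : i ∈ LC t H i := subset_closure ⟨1, one_mem _, by simp⟩

theorem LC_LL (i : G) : LC t H i ≤ LL t i := closure_mono fun _ ⟨c, hc, e⟩ => ⟨c, hc.2, e⟩

/-- `H` is a proper subgroup covering `C(t) / K` and fusing `t` with `u` -/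
structure CV (t u w j g : G) (H : Subgroup G) : Prop extends LH t u w j where
  ih : IH G
  ne : H ≠ ⊤
  cov : 𝒞[t] ≤ UU t ⊔ H ⊓ 𝒞[t]
  uH : u ∈ H
  wH : w ∈ H
  jH : j ∈ H
  gH : g ∈ H
  e : g * t * g⁻¹ = u

namespace CV

variable (h : CV t u w j g H)
include h

theorem tH : t ∈ H := h.j2 ▸ mul_mem h.jH h.jH

theorem iH : u * w ∈ H ⊓ 𝒞[t] := ⟨mul_mem h.uH h.wH, h.iC⟩

theorem LC_le : LC t H (u * w) ≤ H ⊓ 𝒞[t] := (closure_le _).2 (by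
  rintro _ ⟨c, hc, rfl⟩; exact mul_mem (mul_mem hc h.iH) (inv_mem hc))

theorem LL_le' : LL t (u * w) ≤ UU t ⊔ LC t H (u * w) :=
  LL_le (h.cov.trans (sup_le (le_sup_left.trans le_normalizer) (norm_sup (inf_le_right.trans (UU_norm t)) (LC_norm _))))
    (mem_sup_right (LC_mem _))

theorem cw : ∃ c ∈ H ⊓ 𝒞[t], c * u * c⁻¹ = w := by
  obtain ⟨c, hc, e⟩ := h.cju w h.wC h.iw h.wt
  exact cov_cj h.cov ⟨h.uH, h.uC⟩ ⟨h.wH, h.wC⟩ h.iu.two hc e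

theorem inv {x : G} (hx : x ∈ UU t ⊓ H) (ex : u * x * u⁻¹ = x⁻¹) : x ∈ OO H := by
  by_contra xO
  obtain ⟨E, s⟩ := sub h.ra h.ih h.ne h.four h.tH h.uH ⟨g, h.gH, h.e⟩
    ⟨w * g, mul_mem h.wH h.gH, by rw [← h.wu, ← h.e]; group⟩ (inf_pcore_le _ inf_le_right ⟨⟨hx.2, UU_le t hx.1⟩, hx.1⟩) ex xO
  have uE : u ∈ E := h.e ▸ conj_mem_of_mem_norm (s.norm h.gH) s.tM
  obtain ⟨c, hc, ec⟩ := h.cw
  have iE := mul_mem uE (ec ▸ conj_mem_of_mem_norm (s.norm hc.1) uE)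
  obtain ⟨d, hd, ed⟩ := h.cjj
  obtain ⟨d, hd, ed⟩ := cov_cj h.cov h.iH ⟨h.jH, h.jC⟩ h.i_two hd ed
  exact s.noQ _ iE j (ed ▸ conj_mem_of_mem_norm (s.norm hd.1) iE) h.i2 h.j2 h.ji

theorem nK : H ⊓ 𝒞[t] ≤ 𝒩(UU t ⊓ H) := norm_inf (inf_le_right.trans (UU_norm t)) (inf_le_left.trans le_normalizer)

theorem comL {l : G} (hl : l ∈ LC t H (u * w)) : ∀ k ∈ UU t ⊓ H, l * k * l⁻¹ * k⁻¹ ∈ OO H := by
  have nO : H ≤ 𝒩(OO H) := pcore_norm _ _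
  have pm : ∀ a ∈ H ⊓ 𝒞[t], ∀ b ∈ H ⊓ 𝒞[t], (∀ k ∈ UU t ⊓ H, a * k * a⁻¹ * k⁻¹ ∈ OO H) →
      (∀ k ∈ UU t ⊓ H, b * k * b⁻¹ * k⁻¹ ∈ OO H) → ∀ k ∈ UU t ⊓ H, a * b * k * (a * b)⁻¹ * k⁻¹ ∈ OO H :=
    fun a _ b hb pa pb k hk => by
      simpa [mul_assoc] using mul_mem (pa _ (conj_mem_of_mem_norm (h.nK hb) hk)) (pb k hk)
  have pc : ∀ a, ∀ c ∈ H ⊓ 𝒞[t], (∀ k ∈ UU t ⊓ H, a * k * a⁻¹ * k⁻¹ ∈ OO H) →
      ∀ k ∈ UU t ⊓ H, c * a * c⁻¹ * k * (c * a * c⁻¹)⁻¹ * k⁻¹ ∈ OO H := fun a c hc pa k hk => by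
    simpa [mul_assoc] using conj_mem_of_mem_norm (nO hc.1) (pa _ (conj_mem_of_mem_norm' (h.nK hc) hk))
  have pu : ∀ k ∈ UU t ⊓ H, u * k * u⁻¹ * k⁻¹ ∈ OO H := fun k hk =>
    h.inv (mul_mem (conj_mem_of_mem_norm (h.nK ⟨h.uH, h.uC⟩) hk) (inv_mem hk)) (by
      simp only [h.iu.inv_eq, mul_inv_rev, inv_inv, ← mul_assoc, h.iu.1, one_mul])
  obtain ⟨c, hc, ec⟩ := h.cw
  induction hl using closure_induction with
  | mem x hx =>
    obtain ⟨d, hd, rfl⟩ := hx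
    exact pc _ d hd (pm u ⟨h.uH, h.uC⟩ w ⟨h.wH, h.wC⟩ pu (ec ▸ pc u c hc pu))
  | one => simp
  | mul x y hx hy a b => exact pm x (h.LC_le hx) y (h.LC_le hy) a b
  | inv x hx a =>
    exact fun k hk => by simpa [mul_assoc] using inv_mem (a _ (conj_mem_of_mem_norm' (h.nK (h.LC_le hx)) hk))

theorem core {π : Set ℕ} (hπ : ∀ x ∈ 𝒞[t] ⊓ 𝒞[u], IsPiElt π x → x ∈ UU t) : ∃ (H1 O1 : Subgroup G) (g1 : G),
    H ⊓ 𝒞[t] ≤ H1 ∧ H1 ≤ H ∧ g1 ∈ H1 ∧ g1 * t * g1⁻¹ = u ∧ IsPiGrp {2}ᶜ O1 ∧ OO H ≤ O1 ∧ O1 ≤ H1 ∧ H1 ≤ 𝒩(O1) ∧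
      ∀ a ∈ UU t ⊓ H, ∀ n, PiNat π n → a ^ n ∈ OO H → a ∈ O1 := by
  have nO : H ≤ 𝒩(OO H) := pcore_norm _ _
  let B := closure {x | x ∈ H ⊓ (𝒞[t] ⊓ 𝒞[u]) ∧ IsPiElt π x}
  have BK : B ≤ UU t ⊓ H := (closure_le _).2 fun x hx => ⟨hπ x hx.1.2 hx.2, hx.1.1⟩
  have key : ∀ a ∈ UU t ⊓ H, ∀ n, PiNat π n → a ^ n ∈ OO H → a ∈ OO H ⊔ B := fun a ha n hn e => by
    obtain ⟨d, hd, id, b, hb, rfl⟩ := exists_inv_mul' ((UU_odd t).inf_left H) (a := u) (h.iu.1 ▸ one_mem _)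
      (h.nK ⟨h.uH, h.uC⟩) ha
    have dO := h.inv hd id
    have bO : b ^ n ∈ OO H := by simpa using mul_mem (inv_mem e) (pow_mul_mem dO (nO hb.1.2) n)
    obtain ⟨y, z, my, mz, py, pz, rfl, -⟩ := exists_piPart π b
    refine mul_mem (mem_sup_left dO) (mul_mem (mem_sup_right (subset_closure ⟨?_, py⟩)) (mem_sup_left ?_))
    · exact zpowers_le.2 (show _ ∈ H ⊓ (𝒞[t] ⊓ 𝒞[u]) from ⟨hb.1.2, UU_le t hb.1.1, hb.2⟩) my
    · obtain ⟨i, hi⟩ := mz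
      refine mem_of_piElt pz hn ?_
      rw [← hi]
      simp only
      rw [← zpow_natCast, ← zpow_mul, mul_comm, zpow_mul, zpow_natCast]
      exact zpow_mem bO i
  obtain ⟨x, hx, ex⟩ := h.sw' h.tH h.uH h.wH h.gH h.e
  have tu := h.four.comm
  have cC : H ⊓ 𝒞[t] ≤ 𝒩(OO H ⊔ B) := fun c hc => mem_norm_of_forall fun y hy => by
    refine (show OO H ⊔ B ≤ (OO H ⊔ B).comap (MulAut.conj c).toMonoidHom from sup_le (fun y hy => mem_sup_left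
      (conj_mem_of_mem_norm (nO hc.1) hy)) ((closure_le _).2 fun y hy => ?_)) hy
    exact key _ (conj_mem_of_mem_norm (h.nK hc) (BK (subset_closure hy))) _ (hy.2.conj c)
      (pow_orderOf_eq_one (c * y * c⁻¹) ▸ one_mem _)
  refine ⟨H ⊓ 𝒩(OO H ⊔ B), OO H ⊔ B, w * x, le_inf inf_le_left cC, inf_le_left, Subgroup.mul_mem _ ⟨h.wH, cC ⟨h.wH, h.wC⟩⟩
    ⟨hx.1, norm_sup (A := zpowers x) (zpowers_le.2 (nO hx.1))
      (norm_closure fun a ha y hy => And.intro ?_ (hy.2.conj a)) (mem_zpowers x)⟩, ?_, (pcore_piGrp _ _).sup (((UU_odd t).inf_left H).of_le BK) (.inr ((BK.trans inf_le_right).trans nO)),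
    le_sup_left, le_inf (sup_le (pcore_le _ _) (BK.trans inf_le_right)) le_normalizer, inf_le_right, key⟩
  · refine conj_mem_of_mem_norm (zpowers_le.2 (norm_inf (A := zpowers x) (zpowers_le.2 (le_normalizer hx.1))
      (zpowers_le.2 (mem_norm_of_forall fun y hy => ?_)) (mem_zpowers x)) ha) hy.1
    have c : x * y * x⁻¹ ∈ 𝒞[u] := mul_mem (mul_mem hx.2 hy.2) (Subgroup.inv_mem _ hx.2)
    have d : x * y * x⁻¹ ∈ 𝒞[u * t] := ex ▸ cj_cent.2 hy.1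
    refine ⟨mem_centralizer_singleton_iff.2 (mul_left_cancel (a := u) ?_), c⟩
    rw [← mul_assoc, ← mem_centralizer_singleton_iff.1 c, mul_assoc _ u, mem_centralizer_singleton_iff.1 d, mul_assoc u]
  · rw [show w * x * t * (w * x)⁻¹ = w * (x * t * x⁻¹) * w⁻¹ by group, ex, mem_centralizer_singleton_iff.1 h.uC, h.wtu]

end CV

variable {X Γ N : Type u} [Group X] [Group Γ] [Group N] [Finite X] [Finite Γ] [Finite N] {F : Type} [Field F] [Fintype F]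
  {S : Subgroup G} {f : (𝒞[t] : Subgroup G) →* X} {p : X →* Γ} {ι : SL(2, F) →* Γ} {ζ : X} {C0 : Subgroup G}
  {κ : C0 →* N} {e : N →* X} {tN uN : N}

namespace MD

variable (h : MD t u w j S f p ι ζ)
include h

theorem odd_ker {x : (𝒞[t] : Subgroup G)} (ox : IsPiElt {2}ᶜ x) (e : p (f x) = 1) : (x : G) ∈ UU t :=
  (h.kf x).1 ((h.z2.of_mem_zpowers (h.kp.le e)).eq_one (ox.map f))

theorem u1 : p (f ⟨u, h.lh.uC⟩) ≠ 1 := fun e => by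
  have u2 : f ⟨u, h.lh.uC⟩ * f ⟨u, h.lh.uC⟩ = 1 := by rw [← map_mul, ← map_one f]; exact congrArg f (Subtype.ext h.lh.iu.1)
  rcases h.zt _ (h.kp.le e) u2 with e | ⟨x, hx, e⟩
  · exact h.lh.iu.2 (h.lh.iu.two.eq_one ((UU_odd t).piElt ((h.kf _).1 e)))
  · have := (h.kf (x * ⟨u, h.lh.uC⟩)).1 (by rw [map_mul, ← e, u2])
    exact h.lh.four.ts.2 (h.lh.four.ts.two.eq_one ((UU_odd t).piElt (by simpa [hx] using this)))

theorem cv {x : G} (hx : x ∈ 𝒞[t] ⊓ 𝒞[u]) (o : IsPiElt {2}ᶜ x)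
    (q : Fintype.card F = 3 ∨ Fintype.card F = 9 ∧ IsPiElt {3} x) : x ∈ UU t := by
  have pc : ∀ {π : Set ℕ}, IsPiElt π x → IsPiElt π (⟨x, hx.1⟩ : (𝒞[t] : Subgroup G)) := fun e => by
    simpa [IsPiElt, ← orderOf_coe] using e
  refine h.odd_ker (x := ⟨x, hx.1⟩) (pc o) ?_
  obtain ⟨pp, _⟩ := CharP.exists F
  obtain ⟨n, ppp, hq⟩ := FiniteField.card F pp
  obtain rfl : pp = 3 := (Nat.prime_dvd_prime_iff_eq ppp Nat.prime_three).1 (ppp.dvd_of_dvd_pow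
    (show pp ∣ 3 ^ 2 from (hq ▸ dvd_pow_self _ n.ne_zero : pp ∣ Fintype.card F).trans (by
      rcases q with q | ⟨q, -⟩ <;> rw [q] <;> decide)))
  haveI := Fact.mk Nat.prime_three
  have yo := ((pc o).map f).map p
  have y3 := q.imp_right fun q => And.intro q.1 (((pc q.2).map f).map p)
  have cy : Commute (p (f ⟨u, h.lh.uC⟩)) (p (f ⟨x, hx.1⟩)) :=
    ((show Commute (⟨u, h.lh.uC⟩ : (𝒞[t] : Subgroup G)) ⟨x, hx.1⟩ from
      Subtype.ext (mem_centralizer_singleton_iff.1 hx.2).symm).map f).map p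
  generalize p (f ⟨x, hx.1⟩) = y at y3 cy yo
  have o2 : ¬ 2 ∣ orderOf y := fun e => yo 2 Nat.prime_two e rfl
  obtain ⟨g, τ, r⟩ := h.pm.exists_rr y
  obtain rfl : τ = 1 := by
    have a := card_fixed (σ := τ) rfl
    have b : ¬ 2 ∣ orderOf τ := fun e =>
      o2 (e.trans (orderOf_dvd_of_pow_eq_one (h.pm.sig_pow r (pow_orderOf_eq_one y))))
    rw [← orderOf_eq_one_iff]
    generalize orderOf τ = k at a b
    generalize Nat.card _ = c at a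
    by_contra k1
    obtain ⟨k, rfl⟩ : ∃ l, k = l + 3 := ⟨k - 3, by omega⟩
    have : c < 3 := by
      by_contra e
      have := (Nat.pow_le_pow_left (not_lt.1 e) 3).trans (Nat.pow_le_pow_right (by omega) (Nat.le_add_left 3 k))
      omega
    interval_cases c
    · simp at a
    · simp at a; omega
    · rw [pow_succ] at a; omega
  obtain ⟨B, -, hB⟩ := h.pm.mem_of_sq (r.pow_one 2) (s := g.det) (by rw [Matrix.det_pow, pow_two])
  obtain ⟨m, hm⟩ := exists_pow_eq_self_of_coprime (x := y) (n := 2) ((Nat.Prime.coprime_iff_not_dvd Nat.prime_two).2 o2)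
  have yr : y ∈ ι.range := hm ▸ pow_mem (show y ^ 2 ∈ ι.range from ⟨B, hB.symm⟩) m
  obtain ⟨k, hk⟩ := (pElt_iff Nat.prime_three).1 (show IsPiElt {3} y from y3.elim (fun q r pr d => by
    have a := h.pm.card_range
    rw [q] at a
    have := d.trans (ι.range.orderOf_dvd_natCard yr)
    rw [show Nat.card ι.range = 2 ^ 2 * 3 by omega] at this
    exact (Nat.prime_dvd_prime_iff_eq pr Nat.prime_three).1 ((pr.dvd_mul.1 this).resolve_left fun e =>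
      o2 ((Nat.prime_dvd_prime_iff_eq pr Nat.prime_two).1 (pr.dvd_of_dvd_pow e) ▸ d))) (·.2))
  exact h.pm.inv_unip h.r2 (p := 3) (by
    rw [← map_mul, ← map_mul, ← map_one p, ← map_one f]; exact congrArg (p ∘ f) (Subtype.ext h.lh.iu.1)) h.u1 yr hk cy

theorem mult (v : CV t u w j g H) (q : Fintype.card F ≠ 3) {a : G} (ha : a ∈ LC t H (u * w)) (aK : a ∈ UU t) :
    ∃ n, PiNat {r | r = 3 ∧ Fintype.card F = 9} n ∧ a ^ n ∈ OO H := by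
  have eL := (h.q5.resolve_left q).2.2
  have LC' : LC t H (u * w) ≤ 𝒞[t] := v.LC_le.trans inf_le_right
  have nO : H ≤ 𝒩(OO H) := pcore_norm _ _
  haveI := normal_subgroupOf_of_le_normalizer ((v.LC_le.trans inf_le_left).trans nO)
  let π := (p.comp f).comp (inclusion LC')
  have OK := cov_le v.cov (pcore_piGrp _ H) (inf_le_left.trans nO)
  let θ := QuotientGroup.mk' ((OO H).subgroupOf (LC t H (u * w)))
  have θ1 : ∀ x, θ x = 1 ↔ (x : G) ∈ OO H := fun x => QuotientGroup.eq_one_iff x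
  let π' := QuotientGroup.lift ((OO H).subgroupOf (LC t H (u * w))) π fun x hx => by
    show p (f _) = 1
    rw [(h.kf _).2 (OK ⟨mem_subgroupOf.1 hx, LC' x.2⟩), map_one]
  have hr : π'.range = ι.range := by
    rw [← eL]
    refine le_antisymm ?_ ?_
    · rintro _ ⟨x, rfl⟩
      obtain ⟨x, rfl⟩ := QuotientGroup.mk_surjective x
      exact ⟨_, LC_LL _ x.2, rfl⟩
    · rintro _ ⟨x, hx, rfl⟩
      obtain ⟨k, hk, y, hy, e⟩ := (mem_sup_of_right_le_norm (LC'.trans (UU_norm t))).1 (v.LL_le' hx)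
      refine ⟨θ ⟨y, hy⟩, ?_⟩
      rw [show x = ⟨k, UU_le t hk⟩ * ⟨y, LC' hy⟩ from Subtype.ext e.symm, map_mul, MonoidHom.comp_apply, (h.kf _).2 hk,
        map_one, one_mul]
      rfl
  have cm : ∀ l k : LC t H (u * w), (k : G) ∈ UU t → θ l * θ k = θ k * θ l := fun l k hk => by
    rw [← mul_inv_eq_iff_eq_mul, ← mul_inv_eq_one, ← map_mul, ← map_inv, ← map_mul, ← map_inv, ← map_mul, θ1]
    exact v.comL l.2 k ⟨hk, (v.LC_le k.2).1⟩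
  have ko : ∀ k : LC t H (u * w), (k : G) ∈ UU t → IsPiElt {2}ᶜ (θ k) := fun k hk =>
    IsPiElt.map (by simpa [IsPiElt, ← orderOf_coe] using (UU_odd t).piElt hk) θ
  have kc : π'.ker ≤ center _ := fun x hx => mem_center_iff.2 fun l => by
    obtain ⟨x, rfl⟩ := QuotientGroup.mk_surjective x
    obtain ⟨l, rfl⟩ := QuotientGroup.mk_surjective l
    obtain ⟨y, z, my, mz, p2, p3, e, -⟩ := exists_piPart {2} x
    have pz : π z = 1 := zpowers_le.2 (show x ∈ π.ker from hx) mz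
    have py : π y = 1 := zpowers_le.2 (show x ∈ π.ker from hx) my
    have kK : ((l * y * l⁻¹ * y⁻¹ : LC t H (u * w)) : G) ∈ UU t := (h.kf (inclusion LC' (l * y * l⁻¹ * y⁻¹))).1 (by
      simp only [map_mul, map_inv]
      rw [mem_center_iff.1 (zpowers_le.2 h.cz (h.kp.le py))]; group)
    have c1 := cm y _ kK
    have := (((p2.conj l).map θ).mul (p2.inv.map θ) (by
      rw [map_mul θ _ y⁻¹, map_inv θ y, inv_mul_cancel_right] at c1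
      rw [map_inv θ y, eq_inv_mul_iff_mul_eq, c1])).eq_one (map_mul θ _ _ ▸ ko _ kK)
    rw [map_inv θ y, mul_inv_eq_one, map_mul, map_mul, map_inv, mul_inv_eq_iff_eq_mul] at this
    change θ l * θ x = θ x * θ l
    rw [e, map_mul, ← mul_assoc, this, mul_assoc, mul_assoc, cm l z (h.odd_ker (p3.map (inclusion LC')) pz)]
  refine ⟨orderOf (θ ⟨a, ha⟩), fun r pr d => ?_, (θ1 (⟨a, ha⟩ ^ _)).1 (by rw [map_pow, pow_orderOf_eq_one])⟩
  have o := ko ⟨a, ha⟩ aK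
  refine mult_core h.pm hr kc (z := θ ⟨a, ha⟩ ^ (orderOf (θ ⟨a, ha⟩) / r)) (pow_mem ?_ _) (pow_mem ?_ _) pr
    (fun e => o r pr d e) (orderOf_pow_orderOf_div (orderOf_pos _).ne' d)
  · show p (f _) = 1
    rw [(h.kf _).2 aK, map_one]
  · rw [← Abelianization.ker_of]
    exact (closure_two (by rintro _ ⟨c, _, rfl⟩; exact v.i_two.conj c) (Abelianization.of.comp θ) ⟨a, ha⟩).eq_one
      (o.map Abelianization.of)

/-- the subgroups needed for the degree bounds -/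
theorem cov (k : MK t u w S f p ι C0 κ e tN uN) (v : CV t u w j g H) (SH : S ≤ H) : ∃ (H1 O1 K1 : Subgroup G) (g1 : G),
    H ⊓ 𝒞[t] ≤ H1 ∧ H1 ≤ H ∧ g1 ∈ H1 ∧ g1 * t * g1⁻¹ = u ∧ IsPiGrp {2}ᶜ O1 ∧ OO H ≤ O1 ∧ O1 ≤ H1 ∧ H1 ≤ 𝒩(O1) ∧
      K1 ≤ H ⊓ 𝒞[t] ∧ u ∈ K1 ∧ (∀ n, ∃ m : C0, (m : G) ∈ K1 ∧ κ m = n) ∧ K1 ⊓ UU t ≤ O1 := by
  have red : ∀ {K1 : Subgroup G} (m : C0), K1 ≤ 𝒞[t] → (m : G) ∈ UU t ⊔ K1 → ∃ m' : C0, (m' : G) ∈ K1 ∧ κ m' = κ m :=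
    fun m le hm => by
      obtain ⟨a, ha, b, hb, e⟩ := (mem_sup_of_right_le_norm (le.trans (UU_norm t))).1 hm
      exact ⟨(⟨a, k.KC0 ha⟩ : C0)⁻¹ * m, by simpa [← e] using hb, by simp [(k.ker ⟨a, k.KC0 ha⟩).2 ha]⟩
  by_cases q : Fintype.card F = 3
  · obtain ⟨H1, O1, g1, a1, a2, a3, a4, a5, a6, a7, a8, a9⟩ := v.core fun x hx o => h.cv hx o (.inl q)
    refine ⟨H1, O1, H ⊓ 𝒞[t], g1, a1, a2, a3, a4, a5, a6, a7, a8, le_rfl, ⟨v.uH, v.uC⟩, fun n => ?_, fun a ha =>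
      a9 a ⟨ha.2, ha.1.1⟩ _ ((UU_odd t).piElt ha.2) (pow_orderOf_eq_one a ▸ one_mem _)⟩
    obtain ⟨m, rfl⟩ := k.ag.sur n
    exact red m inf_le_right (v.cov (k.ag.le m.2))
  obtain ⟨H1, O1, g1, a1, a2, a3, a4, a5, a6, a7, a8, a9⟩ := v.core (π := {r | r = 3 ∧ Fintype.card F = 9})
    fun x hx o => by
      by_cases q9 : Fintype.card F = 9
      · exact h.cv hx (o.mono (by rintro _ ⟨rfl, -⟩; simp)) (.inr ⟨q9, o.mono fun _ e => e.1⟩)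
      · rw [o.eq_one (o.mono fun _ e => absurd e.2 q9)]; exact one_mem _
  have SC : S ≤ H ⊓ 𝒞[t] := le_inf SH h.SC
  refine ⟨H1, O1, LC t H (u * w) ⊔ S, g1, a1, a2, a3, a4, a5, a6, a7, a8, sup_le v.LC_le SC,
    mem_sup_right h.uS, fun n => ?_, fun a ha => ?_⟩
  · obtain ⟨m, hm, rfl⟩ := k.k1 q n
    exact red m ((sup_le v.LC_le SC).trans inf_le_right) (sup_le (v.LL_le'.trans (sup_le_sup_left le_sup_left _))
      (le_sup_of_le_right le_sup_right) hm)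
  · have aL := mem_of_coprime_relIndex ha.1 ((sup_le v.LC_le SC).trans (LC_norm _)) (by
      rw [relIndex_sup_of_right_le_norm (SC.trans (LC_norm _))]
      exact PiNat.coprime' ((UU_odd t).piElt ha.2) (PiNat.of_dvd h.syl.pGrp (relIndex_dvd_card _ _)))
    obtain ⟨n, hn, e⟩ := h.mult v q aL ha.2
    exact a9 a ⟨ha.2, (v.LC_le aL).1⟩ n hn e

end MD

theorem realizeEqns_Abg_B14 : True := by
  have := @CA.Abg.LC.eq_1.{0}
  have := @CA.Abg.LC.eq_def.{0}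
  have := @CA.Abg.LC.congr_simp.{0}
  trivial

end CA.Abg
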