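import Cfsg.Agent.Abg.B13
import Cfsg.Agent.Abg.B14

/-!
# Subgroups covering `C(t) / K` and fusing `t` with `u`, `ε = +`
-/

set_option autoImplicit false
set_option linter.unusedSectionVars false
set_option linter.unusedVariables false

open Cfsg Subgroup CA.Chr CA.Dih CA.Blk CA.Br CA.FG Finset
open CA.GW (UU IsInv)
open scoped ComplexConjugate Classical

namespace CA.Abg

universe u v w

variable {G : Type u} {M : Type v} {N : Type w} [Group G] [Fintype G] [Group M] [Fintype M] [Group N] [Fintype N]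

theorem alp_id {f : G →* N} (fs : Function.Surjective f) (ko : Odd (Nat.card f.ker)) : Alp (MonoidHom.id G) f :=
  ⟨Function.injective_id, fun _ _ => ⟨_, rfl⟩, by simp [(MonoidHom.id G).range_eq_top.2 Function.surjective_id],
    fun g => ⟨g⁻¹, by simp [show centralizer {(1 : G)} = ⊤ from eq_top_iff.2 fun _ _ => by simp [mem_centralizer_iff]]⟩,
    fs, ko⟩

theorem proj_res {C : Type u} [Group C] [Fintype C] {f : G →* N} (ko : Odd (Nat.card f.ker)) {j : C →* G}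
    (ji : Function.Injective j) (fs : Function.Surjective (f.comp j)) {Φ : G → ℂ} (h : proj (B0 2 G) Φ = Φ) :
    proj (B0 2 C) (Φ ∘ j) = Φ ∘ j := by
  have a := alp_id (f := f) (.of_comp fs) ko
  have b := alp_id fs (ko.of_dvd_nat (by rw [← MonoidHom.comap_ker]; exact card_comap_dvd_of_injective _ _ ji))
  have : Φ ∘ j = ext (MonoidHom.id C) (f.comp j) (rho (MonoidHom.id G) f Φ) := funext fun c =>
    ((b.ext_val (a.proj_rho Φ) c).trans ((a.rho_val Φ (j c)).symm.trans (by rw [h]; rfl))).symm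
  rw [this, proj_ext]

theorem deg_ge {W x y : G → ℂ} (hW : IsCharacter G W) (hx : IsIrrCharacter G (-x)) (hy : IsIrrCharacter G y)
    (x1 : ⟪1, x⟫ = 0) (xy : ⟪x, y⟫ = 0) (o : ∀ g, Odd (orderOf g) → 1 + x g + y g = 0)
    (e : ∀ g, ¬ Odd (orderOf g) → W g = -x g) : deg (-x) ≤ deg W := by
  refine IsChar.deg_le_of_constt hW hx fun z => ?_
  have k : ⟪W + x, 1 + x + y⟫ = 0 := by
    rw [dot_def, sum_eq_zero fun g _ => ?_, mul_zero]
    by_cases h : Odd (orderOf g)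
    · rw [show (1 + x + y) g = 0 from o g h]; simp
    · simp [e g h]
  obtain ⟨a, ha⟩ := IsChar.dot_nat hW (IsIrr.isChar one_irr)
  obtain ⟨b, hb⟩ := IsChar.dot_nat hW (IsIrr.isChar hy)
  have xx := IsIrr.dot_self hx
  rw [dot_neg_right, neg_eq_zero] at z
  rw [dot_neg_right, dot_neg_left, neg_neg] at xx
  simp only [dot_add_left, dot_add_right, ha, hb, z, xx, xy, dot_comm_zero x1] at k
  have : a + b + 1 = 0 := by exact_mod_cast (by linear_combination k : (a : ℂ) + b + 1 = 0)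
  omega

namespace GD

variable {d : ND N} {t : G} {ι : M →* 𝒞[t]} {κ : M →* N} (h : GD d t ι κ)

theorem val' {χ : G → ℂ} (cf : χ ∈ CF G) (p : proj (B0 2 G) χ = χ) {c : 𝒞[t]} (hc : c ∈ DD (ι h.tM)) :
    χ c = ext ι κ (cut (DD d.t) (h.R 1 χ)) c := by
  rw [GD.R, h.alp.ext_cut h.sepC h.eD (h.alp.proj_rho _), cut, if_pos hc, h.alp.ext_rho, ← congrFun p,
    (blk0 h.t2).sec' cf c ((h.DC c).1 hc)]
  simp

theorem val_k {K : Subgroup 𝒞[t]} [K.Normal] (oK : ¬ 2 ∣ Nat.card K) {χ : G → ℂ} (cf : χ ∈ CF G)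
    (p : proj (B0 2 G) χ = χ) {c k : 𝒞[t]} (hc : c ∈ DD (ι h.tM)) (hk : k ∈ K) : χ (k * c) = χ c := by
  have ko : ∀ g, QuotientGroup.mk' K g = 1 → Odd (orderOf g) := fun g e => Nat.not_even_iff_odd.1 fun a =>
    oK (a.two_dvd.trans (K.orderOf_dvd_natCard ((QuotientGroup.eq_one_iff g).1 e)))
  have cm : ∀ c, Commute (ι h.tM) c := fun c => (mul_inv_eq_iff_eq_mul.1 (h.tc c)).symm
  have : k * c ∈ DD (ι h.tM) := (mem_zpowers_ker ko h.tC2 (cm _)).1 (by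
    rw [map_mul, show QuotientGroup.mk' K k = 1 from (QuotientGroup.eq_one_iff k).2 hk, one_mul]
    exact (mem_zpowers_ker ko h.tC2 (cm _)).2 hc)
  rw [h.val' cf p hc, ← Subgroup.coe_mul, h.val' cf p this]
  exact cfker_mul (le_cfker_proj0 Nat.prime_two oK _ hk) c

theorem same {H : Type u} [Group H] [Fintype H] {M' : Type v} [Group M'] [Fintype M'] {t' : H} {ι' : M' →* 𝒞[t']}
    {i : M' →* M} (h' : GD d t' ι' (κ.comp i)) {j : 𝒞[t'] →* 𝒞[t]} (e : ∀ m, j (ι' m) = ι (i m))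
    (r : ∀ Φ, proj (B0 2 𝒞[t]) Φ = Φ → proj (B0 2 𝒞[t']) (Φ ∘ j) = Φ ∘ j) {χ : G → ℂ} (cf : χ ∈ CF G)
    (p : proj (B0 2 G) χ = χ) {χ' : H → ℂ} (cf' : χ' ∈ CF H) (p' : proj (B0 2 H) χ' = χ')
    (v : ∀ m, κ (i m) ∈ DD d.t → χ (ι (i m)) = χ' (ι' m)) {c : 𝒞[t']} (hc : c ∈ DD (ι' h'.tM))
    (hc' : j c ∈ DD (ι h.tM)) : χ (j c) = χ' c := by
  have e1 : cut (DD d.t) (h'.R 1 χ') = cut (DD d.t) (h.R 1 χ) := funext fun n => by
    obtain ⟨m, rfl⟩ := h'.alp.sur n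
    simp only [cut]
    split_ifs with k
    · rw [← h'.val (blk0 h'.t2) (fun _ => rfl) cf' p' k, ← v m k, h.val (blk0 h.t2) (fun _ => rfl) cf p k]; rfl
    · rfl
  have pΦ : proj (B0 2 N) (cut (DD d.t) (h.R 1 χ)) = cut (DD d.t) (h.R 1 χ) := by
    rw [proj_cut d.sepD, GD.R, h.alp.proj_rho]
  rw [h.val' cf p hc', h'.val' cf' p' hc, e1]
  generalize cut (DD d.t) (h.R 1 χ) = Φ at *
  have q := r _ (proj_ext (ι := ι) (κ := κ) Φ)
  have e2 : rho ι' (κ.comp i) (ext ι κ Φ ∘ j) = Φ := funext fun n => by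
    obtain ⟨m, rfl⟩ := h'.alp.sur n
    rw [← h'.alp.rho_val, q, Function.comp_apply, e, h.alp.ext_val pΦ]; rfl
  conv_rhs => rw [← e2, h'.alp.ext_rho, q]
  rfl

end GD

namespace NU

variable {d : ND N} {t : G} {ι : M →* 𝒞[t]} {κ : M →* N} {h : GD d t ι κ} {χ ψ : G → ℂ} {s n : ℤ} (o : NU h χ ψ s n)
include o

theorem pos (e0 : 0 < d.e) (K : Subgroup M) (O : Subgroup G) (oO : IsPiGrp {2}ᶜ O)
    (hn : ∀ m ∈ K, ∀ o ∈ O, (ι m : G) * o * (ι m : G)⁻¹ ∈ O) (ht : ∀ o ∈ O, t * o * t⁻¹ ∈ O) (hs : ∀ n, ∃ m ∈ K, κ m = n)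
    (hk : ∀ m ∈ K, κ m = 1 → (ι m : G) ∈ O) (uK : h.uM ∈ K) (hO : ∀ o ∈ O, o ∈ 𝒞[t] → ∃ m, ι m = o ∧ κ m = 1) {g : G}
    (hg : ∀ o ∈ O, g⁻¹ * o * g ∈ O) (e : g * t * g⁻¹ = ι h.uM) :
    d.e ^ 2 < s ∧ d.e ^ 2 < n + 1 ∧ (s - d.e ^ 2) * (n + 1 - d.e ^ 2) = d.e ^ 2 * (d.e ^ 2 - 1) := by
  have hD : ∀ m, (∀ o ∈ O, (ι m : G) * o * (ι m : G)⁻¹ ∈ O) → κ m ∈ DD d.t →
      ∀ o ∈ O, ∃ m', κ m' = κ m ∧ IsConj (ι m' : G) (o * ι m) := fun m hn hm o ho => by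
    obtain ⟨x, hx, c⟩ := coset_D oO h.t2 hn ((h.DC _).1 ((h.eD m).2 hm)) ho
    obtain ⟨k, k1, k2⟩ := hO (x * (o * ι m) * x⁻¹ * (ι m : G)⁻¹)
      (by simpa [mul_assoc] using mul_mem hx (mul_mem ho (hn _ (inv_mem hx)))) (mul_mem c (inv_mem (ι m).2))
    exact ⟨k * m, by simp [k2], isConj_iff.2 ⟨x⁻¹, by simp [k1, mul_assoc]⟩⟩
  obtain ⟨b1, b2⟩ := o.bd K O hn hs hk uK (fun m hm => hD m (hn m hm)) fun o ho => by
    obtain ⟨m, k1, k2⟩ := hD h.tM (h.ιt.symm ▸ ht) (h.κt ▸ d.tD) _ (hg o ho)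
    exact ⟨m, k1.trans h.κt, k2.trans (isConj_iff.2 ⟨g, by rw [← e, h.ιt]; group⟩)⟩
  have c0 : (0 : ℝ) < Nat.card O := by exact_mod_cast Nat.card_pos
  have a1 : 0 < s - d.e → d.e ^ 2 - 1 + d.e ≤ s := fun p => by
    exact_mod_cast le_of_mul_le_mul_left ((b1 p).trans (re_sum_le (IsIrr.isChar (o.c1 p)) O o.χ1)) c0
  have a2 : 0 < n + d.e + 1 → d.e ^ 2 + d.e ≤ n := fun p => by
    exact_mod_cast le_of_mul_le_mul_left ((b2 p).trans (re_sum_le (IsIrr.isChar (o.c2 p)) O o.ψ1)) c0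
  have eq : (s - d.e ^ 2) * (n + 1 - d.e ^ 2) = d.e ^ 2 * (d.e ^ 2 - 1) := by linear_combination o.e3
  have e3 := o.e3
  have s0 := o.s0
  have n0 := o.n0
  have q : 3 ≤ d.e := by have := d.e3; omega
  generalize d.e = e at *
  have p : 0 < e ^ 2 * (e ^ 2 - 1) := mul_pos (by positivity) (by nlinarith)
  have : 0 < s - e ∨ 0 < n + e + 1 := by
    by_contra! c
    nlinarith [mul_nonneg_of_nonpos_of_nonpos c.1 c.2, mul_pos (show 0 < e * (e + 1) by positivity)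
      (show 0 < e - s by omega), mul_nonneg (show 0 ≤ e * (e - 1) by nlinarith) (neg_nonneg.2 c.2)]
  rcases this with k | k
  · have := a1 k
    exact ⟨by omega, by nlinarith [pos_of_mul_pos_right (eq ▸ p) (show 0 ≤ s - e ^ 2 by omega)], eq⟩
  · have := a2 k
    exact ⟨by nlinarith [pos_of_mul_pos_left (eq ▸ p) (show 0 ≤ n + 1 - e ^ 2 by omega)], by omega, eq⟩

end NU

/-- `C_H(t) → C(t)` -/
def jC {t : G} {H : Subgroup G} (tH : t ∈ H) : 𝒞[(⟨t, tH⟩ : H)] →* 𝒞[t] :=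
  (H.subtype.comp (Subgroup.subtype _)).codRestrict _ fun c =>
    mem_centralizer_singleton_iff.2 (congrArg Subtype.val (mem_centralizer_singleton_iff.1 c.2))

theorem jC_inj {t : G} {H : Subgroup G} (tH : t ∈ H) : Function.Injective (jC tH) := fun a b e => by
  have : a.1.1 = b.1.1 := congrArg (fun c : 𝒞[t] => (c : G)) e
  exact Subtype.ext (Subtype.ext this)

/-- `H ∩ C₀ → C_H(t)` -/
def iC {t : G} {H C0 : Subgroup G} (le : C0 ≤ 𝒞[t]) (tH : t ∈ H) : H.subgroupOf C0 →* 𝒞[(⟨t, tH⟩ : H)] :=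
  ((C0.subtype.comp (Subgroup.subtype _)).codRestrict H fun m => m.2).codRestrict _ fun m =>
    mem_centralizer_singleton_iff.2 (Subtype.ext (mem_centralizer_singleton_iff.1 (le m.1.2)))

theorem AG.cov {t u w j g : G} {C0 H S : Subgroup G} {κ : C0 →* N} {d : ND N} (h : AG t u C0 κ d.t d.u)
    (l : LH t u w j) (hK : UU t ≤ C0) (hk : ∀ m : C0, κ m = 1 ↔ (m : G) ∈ UU t) (syl : IsSylowOf 2 S ⊤) (SC : S ≤ 𝒞[t])
    (SH : S ≤ H) (tH : t ∈ H) (uH : u ∈ H) (cov : 𝒞[t] ≤ UU t ⊔ H ⊓ 𝒞[t]) (hg : g ∈ H) (e : g * t * g⁻¹ = u) :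
    GZ d (⟨t, tH⟩ : H) (iC h.le tH) (κ.comp (H.subgroupOf C0).subtype) ⟨⟨t, h.tC⟩, tH⟩ ⟨⟨u, h.uC⟩, uH⟩ := by
  have r : ∀ c, c ∈ (iC h.le tH).range ↔ (c.1.1 : G) ∈ C0 := fun c =>
    ⟨fun ⟨m, e⟩ => e ▸ m.1.2, fun k => ⟨⟨⟨_, k⟩, c.1.2⟩, rfl⟩⟩
  have nrm : ∀ c ∈ 𝒞[t], ∀ n ∈ C0, c * n * c⁻¹ ∈ C0 := fun c hc n hn => by
    simpa using mul_mem (h.com c hc n (h.le hn)) hn
  refine ⟨⟨fun a b e => Subtype.ext (Subtype.ext (congrArg (·.1.1) e)), fun a b => (r _).2 (h.com _ (jC tH a).2 _ (jC tH b).2),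
    ?_, fun c => ?_, fun n => ?_, h.ko.of_dvd_nat ?_⟩, rfl, h.κt, h.κu, Subtype.ext (Subtype.ext h.t2),
    Subtype.ext (Subtype.ext h.u2), fun i i2 i1 => ?_⟩
  · haveI : (C0.subgroupOf 𝒞[t]).Normal := ⟨fun n hn c => nrm c c.2 n hn⟩
    rw [show (iC h.le tH).range = (C0.subgroupOf 𝒞[t]).comap (jC tH) from Subgroup.ext r, index_comap]
    exact fun a => (Nat.not_even_iff_odd.2 h.odd) (even_iff_two_dvd.2 (a.trans (relIndex_dvd_index_of_normal _ _)))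
  · have cC := (jC tH c).2
    obtain ⟨n, hn, o⟩ := h.syl _ cC
    change (c.1.1 : G) ∈ _ at cC
    change ¬ 2 ∣ (𝒞[(c.1.1 : G) * n]).relIndex _ at o
    obtain ⟨T, hT⟩ := sylow_exists Nat.prime_two (𝒞[(c.1.1 : G) * n] ⊓ 𝒞[t])
    obtain ⟨x, hx, le⟩ := sylow_Jsub Nat.prime_two (sylow_mk (hT.le.trans inf_le_right) hT.pGrp (by
      rw [← relIndex_mul_relIndex T _ _ hT.le inf_le_right, inf_relIndex_right]
      exact fun a => (Nat.prime_two.dvd_mul.1 a).elim (hT.not_dvd_index Nat.prime_two) o)) syl.pGrp SC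
    have yS : ∀ a ∈ S, a * (x⁻¹ * (c.1.1 * n) * x) = x⁻¹ * (c.1.1 * n) * x * a := fun a ha => by
      have := mem_centralizer_singleton_iff.1 (hT.le (le (conj_mem_conjg x ha))).1
      calc _ = x⁻¹ * (x * a * x⁻¹ * (c.1.1 * n)) * x := by group
        _ = _ := by rw [this]; group
    have y0 : (c.1.1 : G)⁻¹ * (x⁻¹ * (c.1.1 * n) * x) ∈ C0 := by
      simpa [mul_assoc] using mul_mem (h.com _ (inv_mem cC) _ (inv_mem hx)) (nrm _ (inv_mem hx) n hn)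
    have yC := mul_mem (mul_mem (inv_mem hx) (mul_mem cC (h.le hn))) hx
    generalize x⁻¹ * (c.1.1 * n) * x = y at yS y0 yC
    obtain ⟨k, k1, z, hz, rfl⟩ := cov_dec cov yC
    obtain ⟨q, hq, cS⟩ := coprime_cent_coset (A := S) (R := UU t ⊓ H) (x := z)
      (norm_inf (SC.trans (GW.UU_norm t)) (SH.trans le_normalizer)) (PiNat.coprime' ((GW.UU_odd t).inf_left _) syl.pGrp)
      (.inl (GW.odd_sol ((GW.UU_odd t).inf_left _))) fun a ha => ⟨by
        have := conj_mem_of_mem_norm' (GW.UU_norm t yC) (mul_mem k1 (conj_mem_of_mem_norm (GW.UU_norm t (SC ha)) (inv_mem k1)))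
        rw [mul_assoc _ _ (k * z), mul_assoc k, mul_assoc _ a⁻¹, inv_mul_eq_iff_eq_mul.2 (by
          rw [← mul_assoc, yS a ha, mul_inv_cancel_right] : k * z = a * (k * z * a⁻¹))] at this
        simpa [mul_assoc] using this, H.mul_mem (H.inv_mem hz.1) (H.mul_mem (H.mul_mem (SH ha) hz.1) (H.inv_mem (SH ha)))⟩
    refine ⟨⟨⟨(c.1.1 : G)⁻¹ * (z * q), ?_⟩, mul_mem (inv_mem c.1.2) (mul_mem hz.1 hq.2)⟩, fun a => ?_⟩
    · simpa [mul_assoc] using mul_mem (mul_mem (nrm _ (inv_mem cC) _ (inv_mem (hK k1))) y0) (hK hq.1)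
    · have := a.trans (index_dvd_of_le (H := S.comap (H.subtype.comp (Subgroup.subtype _))) fun a ha =>
        mem_centralizer_singleton_iff.2 (Subtype.ext (Subtype.ext (by
          show a.1.1 * (c.1.1 * (c.1.1⁻¹ * (z * q))) = c.1.1 * (c.1.1⁻¹ * (z * q)) * a.1.1
          simpa using cS _ ha))))
      rw [index_comap] at this
      refine syl.not_dvd_index Nat.prime_two (this.trans ?_)
      rw [relIndex_top_right]
      exact relIndex_dvd_index_of_le fun a ha =>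
        ⟨⟨⟨a, SH ha⟩, mem_centralizer_singleton_iff.2 (Subtype.ext (mem_centralizer_singleton_iff.1 (SC ha)))⟩, rfl⟩
  · obtain ⟨m, rfl⟩ := h.sur n
    obtain ⟨k, k1, z, hz, e⟩ := cov_dec cov (h.le m.2)
    exact ⟨⟨(⟨k, hK k1⟩ : C0)⁻¹ * m, by simpa [mem_subgroupOf, ← e] using hz.1⟩, by simp [(hk ⟨k, hK k1⟩).2 k1]⟩
  · rw [← MonoidHom.comap_ker]; exact card_comap_dvd_of_injective _ _ (subtype_injective _)
  · have ii : IsInv (i : G) := ⟨congrArg Subtype.val i2, fun e => i1 (Subtype.ext e)⟩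
    obtain ⟨x, hx, le⟩ := sylow_Jsub Nat.prime_two (syl.of_le SH le_top) (piGrp_zpowers_iff.2 ii.two) (zpowers_le.2 i.2)
    have m := le (conj_mem_conjg x (mem_zpowers _))
    by_cases z : x * i * x⁻¹ = t
    · exact isConj_iff.2 ⟨⟨x, hx⟩⁻¹, Subtype.ext (by simp [← z, mul_assoc])⟩
    obtain ⟨c, hc, e'⟩ := l.cju _ (SC m) (ii.conj x) z
    obtain ⟨c, hc, e'⟩ := cov_cj cov ⟨uH, l.uC⟩ ⟨SH m, SC m⟩ l.iu.two hc e'
    refine isConj_iff.2 ⟨⟨x⁻¹ * c * g, mul_mem (mul_mem (inv_mem hx) hc.1) hg⟩, Subtype.ext ?_⟩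
    show x⁻¹ * c * g * t * (x⁻¹ * c * g)⁻¹ = i
    rw [show x⁻¹ * c * g * t * (x⁻¹ * c * g)⁻¹ = x⁻¹ * (c * (g * t * g⁻¹) * c⁻¹) * x by group, e, e']; group

/-- the character theoretic part of `QKP` -/
theorem AG.qk [IsSimpleGroup G] {t u w j g : G} {C0 H S O K1 : Subgroup G} {κ : C0 →* N} {d : ND N}
    (h : AG t u C0 κ d.t d.u) (e0 : 0 < d.e) (l : LH t u w j) (hK : UU t ≤ C0) (hk : ∀ m : C0, κ m = 1 ↔ (m : G) ∈ UU t)
    (syl : IsSylowOf 2 S ⊤) (SC : S ≤ 𝒞[t]) (SH : S ≤ H) (tH : t ∈ H) (cov : 𝒞[t] ≤ UU t ⊔ H ⊓ 𝒞[t])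
    (hg : g ∈ H) (e : g * t * g⁻¹ = u) (oO : IsPiGrp {2}ᶜ O) (OH : O ≤ H) (nO : H ≤ 𝒩(O)) (KH : K1 ≤ H) (uK : u ∈ K1)
    (hs : ∀ n, ∃ m : C0, (m : G) ∈ K1 ∧ κ m = n) (hL : K1 ⊓ UU t ≤ O) : O = ⊥ := by
  have z := h.cov l hK hk syl SC SH tH (KH uK) cov hg e
  obtain ⟨r, rt, ru⟩ := z.exists_r
  obtain ⟨g2, t2, u2, o2, s2⟩ := z.gd' rt ru
  obtain ⟨g1, t1, u1, o1, s1⟩ := h.g0.gd' (r := r) (congrArg Subtype.val rt) (congrArg Subtype.val ru)
  have ss : g1.s = g2.s := MonoidHom.ext fun y => by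
    obtain ⟨a, b, -, -, pa, pb, rfl, -⟩ := exists_piPart {2} y
    have ob : Odd (orderOf b) := Nat.not_even_iff_odd.1 fun k => pb 2 Nat.prime_two k.two_dvd rfl
    obtain ⟨i, hi⟩ := (pElt_iff Nat.prime_two).1 pa
    rw [map_mul, map_mul, o1 b ob, o2 b ob]
    congr 1
    obtain ⟨m, k, m2, mV, em⟩ := z.liftT a.2 (congrArg Subtype.val hi)
    have rv : r * (⟨t, tH⟩ * (iC h.le tH ⟨⟨u, h.uC⟩, KH uK⟩).1) * r⁻¹ = ⟨t, tH⟩ := by
      rw [conj_mul', rt, ru]; exact Subtype.ext l.four.sts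
    have mc := (cj_cent (g := r)).2 (GW.BA.Four.c_mul (iC h.le tH m).2
      (mem_centralizer_singleton_iff.2 (congrArg Subtype.val (mem_centralizer_singleton_iff.1 mV))))
    rw [rv] at mc
    obtain ⟨m', hm'⟩ := z.two_range (c := ⟨_, mc⟩) (k := k)
      (Subtype.ext (by
        rw [Subgroup.coe_pow, conj_pow, ← Subgroup.coe_pow, ← map_pow, m2]; simp))
    have a2 := s2 m m' k mV m2 (congrArg Subtype.val hm')
    have a1 := s1 m.1 m'.1 k (mem_centralizer_singleton_iff.2 (Subtype.ext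
      (congrArg (·.1.1) (mem_centralizer_singleton_iff.1 mV)))) (congrArg Subtype.val m2) (congrArg (·.1.1) hm')
    obtain rfl : ⟨_, z.memT mV⟩ = a := Subtype.ext em
    exact Subtype.ext (a1.trans a2.symm)
  obtain ⟨a, b, c, f, y, s, n, p, q⟩ := g1.num'
  obtain ⟨a', b', c', f', y', s', n', p', q'⟩ := g2.num'
  have OK := cov_le cov oO (inf_le_left.trans nO)
  have cj : ∀ x ∈ H, ∀ o ∈ O, x * o * x⁻¹ ∈ O := fun x hx o => (mem_normalizer_iff.1 (nO hx) o).1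
  obtain ⟨x1, x2, x3⟩ := q.pos e0 (K1.subgroupOf C0) O oO (fun m hm => cj _ (KH hm)) (cj t tH) hs
    (fun m hm e => hL ⟨hm, (hk m).1 e⟩) (u1 ▸ uK)
    (fun o ho c => ⟨⟨o, hK (OK ⟨ho, c⟩)⟩, rfl, (hk _).2 (OK ⟨ho, c⟩)⟩) (g := g)
    (fun o ho => by simpa using cj _ (inv_mem hg) o ho) (u1 ▸ e)
  obtain ⟨y1, y2, y3⟩ := q'.pos e0 ((K1.subgroupOf C0).subgroupOf _) (O.subgroupOf H) (oO.subgroupOf _)
    (fun m _ o => cj _ m.2 o) (fun o => cj t tH o)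
    (fun n => let ⟨m, hm, e⟩ := hs n; ⟨⟨m, KH hm⟩, hm, e⟩) (fun m hm e => hL ⟨hm, (hk m).1 e⟩) (u2 ▸ uK)
    (fun o ho c => by
      have := OK ⟨ho, (jC tH ⟨o, c⟩).2⟩
      exact ⟨⟨⟨o, hK this⟩, o.2⟩, rfl, (hk _).2 this⟩) (g := ⟨g, hg⟩)
    (fun o ho => by simpa [mem_subgroupOf] using cj _ (inv_mem hg) o ho) (u2 ▸ Subtype.ext e)
  haveI := normal_subgroupOf_of_le_normalizer (GW.UU_norm t)
  have oK : ¬ 2 ∣ Nat.card ((UU t).subgroupOf 𝒞[t]) :=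
    (piGrp_compl_singleton_iff Nat.prime_two).1 ((GW.UU_odd t).subgroupOf _)
  have c0 : (Nat.card O : ℂ) ≠ 0 := card_ne_zero
  have key : ∀ {χ : G → ℂ} {χ' ψ' : H → ℂ}, IsIrrCharacter G (-χ) → proj (B0 2 G) χ = χ → IsIrrCharacter H (-χ') →
      proj (B0 2 H) χ' = χ' → IsIrrCharacter H ψ' → ⟪1, χ'⟫ = 0 → ⟪χ', ψ'⟫ = 0 →
      (∀ g, Odd (orderOf g) → 1 + χ' g + ψ' g = 0) →
      (∀ m : H.subgroupOf C0, κ m ∈ DD d.t → χ (inclusion h.le m.1) = χ' (iC h.le tH m)) →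
      (Nat.card O : ℝ) * deg (-χ') ≤ (∑ o : O, (-χ) o).re := fun {χ χ' ψ'} i1 p1 i2 p2 i3 d1 d2 od v => by
    obtain ⟨W, hW, k⟩ := avg H.subtype (MonoidHom.id H) ⊤ O (fun m _ => cj _ m.2) (fun n => ⟨n, trivial, rfl⟩)
      (fun m _ e => by rw [show m = 1 from e, map_one]; exact one_mem _) (IsIrr.isChar i1)
    have cf : χ ∈ CF G := by simpa using neg_mem (IsIrr.mem_CF i1)
    have cf' : χ' ∈ CF H := by simpa using neg_mem (IsIrr.mem_CF i2)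
    have := deg_ge hW i2 i3 d1 d2 od fun x o => by
      obtain ⟨c, y, hc, rfl⟩ := g2.cjD o
      have cD : (c.1.1 : G) ∈ DD t := mem_zpowers_inj H.subtype_injective |>.2 ((g2.DC c).1 hc)
      have cD' := (g1.DC (jC tH c)).2 cD
      rw [CF_conj (IsChar.mem_CF hW), CF_conj cf', ← g1.same g2 (j := jC tH) (fun _ => rfl) (fun Φ => proj_res
        (f := QuotientGroup.mk' ((UU t).subgroupOf 𝒞[t])) (by
          rw [QuotientGroup.ker_mk']; exact Nat.not_even_iff_odd.1 fun a => oK a.two_dvd)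
        (jC_inj tH) fun x => ?_) cf p1 cf' p2 v hc cD']
      · refine mul_left_cancel₀ c0 ((k c trivial).trans ((sum_congr rfl (g := fun _ => -χ (jC tH c)) fun o _ => ?_).trans (by simp)))
        obtain ⟨x, hx, m⟩ := coset_D oO h.t2 (cj _ c.1.2) cD o.2
        have m' := mul_mem m (inv_mem (jC tH c).2)
        rw [Pi.neg_apply, ← CF_conj cf _ x, ← g1.val_k oK cf p1 cD' (k := ⟨_, m'⟩) (OK ⟨by
          simpa [mul_assoc, jC] using mul_mem hx (mul_mem o.2 (cj _ c.1.2 _ (inv_mem hx))), m'⟩)]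
        simp [jC]
      · obtain ⟨x, rfl⟩ := QuotientGroup.mk_surjective x
        obtain ⟨k, k1, z, hz, e⟩ := cov_dec cov x.2
        refine ⟨⟨⟨z, hz.1⟩, mem_centralizer_singleton_iff.2 (Subtype.ext (mem_centralizer_singleton_iff.1 hz.2))⟩,
          QuotientGroup.eq.2 ?_⟩
        simpa [mem_subgroupOf, ← e, jC, mul_assoc] using conj_mem_of_mem_norm' (GW.UU_norm t hz.2) k1
    have e1 := k 1 trivial
    simp only [map_one, mul_one] at e1
    rw [← e1, ← IsChar.coe_deg hW, ← Nat.cast_mul (α := ℂ), Complex.natCast_re, Nat.cast_mul]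
    exact mul_le_mul_of_nonneg_left (Nat.cast_le.2 this) (Nat.cast_nonneg _)
  have k1 := blk0 g1.t2
  have k2 := blk0 g2.t2
  have q3 := d.e3
  have ia := q.c1 (by nlinarith)
  have ia' := q'.c1 (by nlinarith)
  have f1 : (-f) 1 = (n + 1 : ℤ) := by
    have := (p.odd (g := 1) (by simp)).2.1
    rw [q.ψ1, Pi.one_apply] at this
    rw [Pi.neg_apply]; push_cast; linear_combination -this
  have f1' : (-f') 1 = (n' + 1 : ℤ) := by
    have := (p'.odd (g := 1) (by simp)).2.1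
    rw [q'.ψ1, Pi.one_apply] at this
    rw [Pi.neg_apply]; push_cast; linear_combination -this
  have b1' : b' 1 = (s' - 1 : ℤ) := by
    have := (p'.odd (g := 1) (by simp)).1
    have e := q'.χ1
    rw [Pi.neg_apply] at e
    rw [Pi.one_apply] at this
    push_cast; linear_combination this + e
  have pos : ∀ {X : Type u} [Group X] {φ : X → ℂ} {k : ℤ}, Dirr φ → φ 1 = k → 0 < k → IsIrrCharacter X φ :=
    fun hφ e k => hφ.irr_of_deg_pos (by rw [e]; exact_mod_cast k)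
  have dg : ∀ {φ : H → ℂ} {k : ℤ}, IsIrrCharacter H φ → φ 1 = k → (deg φ : ℝ) = k := fun hφ e => by
    have := IsChar.coe_deg (IsIrr.isChar hφ); rw [e] at this; exact_mod_cast this
  have jf := pos p.df.neg f1 (by nlinarith)
  have jf' := pos p'.df.neg f1' (by nlinarith)
  have A := key ia p.pa ia' p'.pa (pos p'.db b1' (by nlinarith)) p'.xa p'.ab (fun g o => (p'.odd o).1) fun m hm =>
    (p.a_val k1 (fun _ => rfl) hm).trans (p'.a_val k2 (fun _ => rfl) hm).symm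
  have B := key jf p.pf jf' p'.pf (q'.c2 (by nlinarith)) p'.xf (dot_comm_zero p'.cf)
    (fun g o => by rw [add_right_comm]; exact (p'.odd o).2.1) fun m hm =>
    (p.f_val k1 (fun _ => rfl) hm).trans (ss ▸ (p'.f_val k2 (fun _ => rfl) hm).symm)
  rw [dg ia' q'.χ1] at A
  rw [dg jf' f1'] at B
  have c1 : (0 : ℝ) < Nat.card O := by exact_mod_cast Nat.card_pos
  have A' : s' ≤ s := by exact_mod_cast le_of_mul_le_mul_left (A.trans (re_sum_le (IsIrr.isChar ia) O q.χ1)) c1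
  have B' : n' + 1 ≤ n + 1 := by exact_mod_cast le_of_mul_le_mul_left (B.trans (re_sum_le (IsIrr.isChar jf) O f1)) c1
  obtain rfl : s' = s := by nlinarith
  have ker := (cfker_normal (IsIrr.mem_CF ia)).eq_bot_or_eq_top.resolve_right (IsIrr.cfker_ne_top ia fun z => by
    have := q.χt
    rw [z, Pi.one_apply] at this
    have : (1 : ℤ) = d.e := by exact_mod_cast this
    omega)
  refine eq_bot_iff.2 fun o ho => ker.le (IsChar.mem_cfker_of_re (IsIrr.isChar ia) ?_)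
  have le : ∀ o : O, ((-a) o).re ≤ s' := fun o => by
    have := IsChar.coe_deg (IsIrr.isChar ia)
    rw [q.χ1] at this
    exact (Complex.re_le_norm _).trans ((show (deg (-a) : ℝ) = s' by exact_mod_cast this) ▸ IsChar.norm_le (IsIrr.isChar ia) _)
  by_contra! c
  rw [q.χ1, Complex.intCast_re] at c
  have := sum_lt_sum (s := univ) (fun o _ => le o) ⟨⟨o, ho⟩, mem_univ _, c⟩
  rw [Complex.re_sum] at A
  simp only [sum_const, card_univ, ← Nat.card_eq_fintype_card, nsmul_eq_mul] at this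
  exact this.not_ge A

theorem realizeEqns_Abg_B15 : True := by
  have := @CA.Abg.jC.eq_1.{0}
  have := @CA.Abg.jC.eq_def.{0}
  have := @CA.Abg.jC.congr_simp.{0}
  have := @CA.Abg.iC.eq_1.{0}
  have := @CA.Abg.iC.eq_def.{0}
  have := @CA.Abg.iC.congr_simp.{0}
  trivial

end CA.Abg
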