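import Cfsg.Agent.Abg.B7

/-!
# The shape `ND` of the quotients of `GL₂(q)` and `GU₂(q)`
-/

set_option autoImplicit false
set_option linter.unusedSectionVars false

universe u v

namespace CA.Abg.Lin

open Cfsg Subgroup CA.Dih CA.FG CA.Br

variable {F : Type v} [Field F] [Fintype F] {G : Type u} [Group G] {φ : GL (Fin 2) F →* G} {g m : GL (Fin 2) F} {e : F}

local notation "dt" => Matrix.GeneralLinearGroup.det

/-- `φ` is onto -/
structure BL0 (φ : GL (Fin 2) F →* G) : Prop extends BK φ where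
  sur : Function.Surjective φ

namespace BL0

variable [Fintype G] (h : BL0 φ)
include h

theorem mem_C {x : G} : x ∈ φ.range ↔ x * tt φ = tt φ * x := by
  obtain ⟨g, rfl⟩ := h.sur x
  exact iff_of_true ⟨g, rfl⟩ (tt_comm ⟨g, rfl⟩).symm

theorem rr_aux {x i : G} (hx : tt φ ∈ zpowers x) (x2 : x * x ≠ 1) (hi : i ∈ invs G) (hi' : i * x ∈ invs G) :
    ∃ m m', φ m = i ∧ φ m' = i * x ∧ m 0 0 + m 1 1 = 0 ∧ dt m = -1 ∧ m' 0 0 + m' 1 1 = 0 ∧ dt m' = -1 := by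
  obtain ⟨i2, i1⟩ := mem_invs.1 hi
  obtain ⟨j2, j1⟩ := mem_invs.1 hi'
  have xC : x ∈ φ.range := h.mem_C.2 (by obtain ⟨k, hk⟩ := hx; rw [← hk]; exact (Commute.self_zpow x k).eq)
  have iC : i ∈ φ.range := h.mem_C.2 (mul_inv_eq_iff_eq_mul.1 ((CA.GW.inv_of_mem_zpowers (by
    rw [inv_eq_of_mul_eq_one_right i2, eq_inv_iff_mul_eq_one, mul_assoc, j2]) hx).trans
      (inv_eq_of_mul_eq_one_right tt_mul)))
  obtain ⟨m, k1, k2, k3⟩ := h.toBK.J_of iC i2 i1 fun k => x2 (by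
    rw [k, mul_assoc, ← mul_assoc x, ← tt_comm xC, ← mul_assoc, ← mul_assoc, tt_mul, one_mul] at j2; exact j2)
  obtain ⟨m', l1, l2, l3⟩ := h.toBK.J_of (mul_mem iC xC) j2 j1 fun k => x2 (by
    rw [eq_inv_mul_of_mul_eq k, inv_eq_of_mul_eq_one_right i2, mul_assoc, ← mul_assoc (tt φ), tt_comm iC,
      mul_assoc, tt_mul, mul_one, i2])
  exact ⟨m, m', k1, l1, k2, k3, l2, l3⟩

theorem rr_zero {x : G} (hx : tt φ ∈ zpowers x) (x2 : x * x ≠ 1) (k : ∀ g, dt g = 1 → φ g ≠ x) : rr x = 0 := by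
  classical
  rw [rr, Finset.card_eq_zero, Finset.filter_eq_empty_iff]
  intro i hi hi'
  obtain ⟨m, m', k1, l1, -, k3, -, l3⟩ := h.rr_aux hx x2 hi hi'
  exact k (m⁻¹ * m') (by rw [map_mul, map_inv, k3, l3, inv_mul_cancel]) (by rw [map_mul, map_inv, k1, l1]; group)

theorem rr_eq (hx : tt φ ∈ zpowers (φ g)) (x2 : φ g * φ g ≠ 1) (d : dt g = 1) {A : Type*} (f : A → F × F × F)
    (hf : Function.Injective f) (hA : ∀ a b c : F, (a, b, c) ∈ Set.range f ↔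
      a * a + b * c = 1 ∧ a * (g 0 0 - g 1 1) + b * g 1 0 + c * g 0 1 = 0) : rr (φ g) = Nat.card A := by
  classical
  have p : ∀ x, (f x).1 * (f x).1 + (f x).2.1 * (f x).2.2 = 1 ∧ _ := fun x => (hA _ _ _).1 ⟨x, rfl⟩
  let M : A → GL (Fin 2) F := fun x => mk2 (f x).1 (f x).2.1 (f x).2.2 (-(f x).1) fun k =>
    one_ne_zero (by linear_combination -k - (p x).1)
  have dM : ∀ x, dt (M x) = -1 := fun x => Units.ext (by simp [det_ent, M]; linear_combination -(p x).1)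
  have tM : ∀ x, (M x * g) 0 0 + (M x * g) 1 1 = 0 := fun x => by
    simp [mul_ent, M]; linear_combination (p x).2
  rw [rr, ← Nat.card_eq_finsetCard]
  refine (Nat.card_congr (Equiv.ofBijective (fun x => ⟨φ (M x), Finset.mem_filter.2 ⟨h.toBK.J_inv (by simp [M]) (dM x),
    map_mul φ _ _ ▸ h.toBK.J_inv (tM x) (by rw [map_mul, dM, d, mul_one])⟩⟩)
      ⟨fun x y k => hf ?_, fun ⟨i, hi⟩ => ?_⟩)).symm
  · have k := h.toBK.eq_of_det (congrArg Subtype.val k) ((dM x).trans (dM y).symm)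
    exact Prod.ext (congrArg (fun g : GL (Fin 2) F => g 0 0) k) (Prod.ext (congrArg (fun g : GL (Fin 2) F => g 0 1) k)
      (congrArg (fun g : GL (Fin 2) F => g 1 0) k))
  · obtain ⟨m, m', rfl, l1, k2, k3, l2, l3⟩ := h.rr_aux hx x2 (Finset.mem_filter.1 hi).1 (Finset.mem_filter.1 hi).2
    obtain rfl := h.toBK.eq_of_det (l1.trans (map_mul φ _ _).symm) (by rw [map_mul, k3, l3, d, mul_one])
    have k4 : m 1 1 = - m 0 0 := by linear_combination k2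
    have k5 : m 0 0 * m 1 1 - m 0 1 * m 1 0 = -1 := by rw [← det_ent, k3]; rfl
    rw [mul_ent, mul_ent, k4] at l2
    obtain ⟨x, hx⟩ := (hA (m 0 0) (m 0 1) (m 1 0)).2 ⟨by rw [k4] at k5; linear_combination -k5,
      by linear_combination l2⟩
    exact ⟨x, Subtype.ext (congrArg φ (gl_ext (by simp [M, hx]) (by simp [M, hx]) (by simp [M, hx])
      (by simp [M, hx, k4])))⟩

theorem rrt : rr (tt φ) = Fintype.card F * (Fintype.card F + 1) := by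
  rw [← h.toBK.relT, ← h.toBK.cent_u, inf_relIndex_left, ← CA.GW.ncard_conj, rr, ← Set.ncard_coe_finset]
  congr 1
  ext i
  simp only [Finset.coe_filter, mem_invs, Set.mem_setOf_eq]
  refine ⟨fun ⟨⟨i2, i1⟩, j2, j1⟩ => h.toBK.inv_cj (h.mem_C.2 ?_) i2 i1 fun k => j1 (by rw [k, tt_mul]), ?_⟩
  · rw [eq_inv_of_mul_eq_one_left j2, mul_inv_rev, inv_eq_of_mul_eq_one_right i2, inv_eq_of_mul_eq_one_right tt_mul]
  · rintro ⟨c, hc, rfl⟩
    have u1 : uu φ ≠ 1 := fun k => h.toBK.uZ (k ▸ one_mem _)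
    rw [← tt_conj hc, ← conj_mul', ← conj_mul', ← conj_mul', uu_mul, mul_assoc (uu φ), ← mul_assoc (tt φ),
      tt_comm (c := uu φ) ⟨_, rfl⟩, mul_assoc (uu φ), tt_mul, mul_one, mul_one, uu_mul]
    simp only [mul_one, mul_inv_cancel, ne_eq, conj_eq_one_iff, u1, not_false_eq_true, true_and]
    exact fun k => h.toBK.uZ (by rw [eq_inv_of_mul_eq_one_left k]; exact inv_mem tt_Zt)

theorem zx {z : G} (hz : z ∈ Zt φ) (ht : tt φ ∈ zpowers z) :
    tt φ ∈ zpowers (z * φ (xp 1)) ∧ z * φ (xp 1) * (z * φ (xp 1)) ≠ 1 := by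
  have c : Commute z (φ (xp 1)) := BK.cen hz ⟨_, rfl⟩
  refine ⟨?_, fun k => ?_⟩
  · obtain ⟨j, hj⟩ := h.odd
    have : (z * φ (xp 1)) ^ Fintype.card F = z ^ Fintype.card F := by
      rw [c.mul_pow, ← map_pow, xp_pow, FiniteField.cast_card_eq_zero, zero_mul, xp_zero, map_one, mul_one]
    obtain ⟨k, hk⟩ := ht
    have e : (z ^ Fintype.card F) ^ k = tt φ := by
      rw [← zpow_natCast, zpow_comm, show z ^ k = tt φ from hk, zpow_natCast, hj, pow_succ, pow_mul, sq, tt_mul,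
        one_pow, one_mul]
    exact e ▸ this ▸ zpow_mem (pow_mem (mem_zpowers _) _) _
  · rw [c.symm.mul_mul_mul_comm, ← map_mul, xp_add] at k
    have : φ (xp (1 + 1)) ∈ Zt φ ⊓ Xp φ := ⟨by
      rw [eq_inv_of_mul_eq_one_right k]; exact (Zt φ).inv_mem (mul_mem hz hz), mem_Xp.2 ⟨_, rfl⟩⟩
    rw [h.toBK.ZX] at this
    exact h.toBK.xp_ne (by rw [one_add_one_eq_two]; exact h.toBK.two) this

theorem rrtx : rr (tt φ * φ (xp 1)) = 2 * Fintype.card F := by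
  obtain ⟨k1, k2⟩ := h.zx tt_Zt (mem_zpowers _)
  rw [show tt φ * φ (xp 1) = φ (dg (-1) (-1) * xp 1) from (map_mul φ _ _).symm] at k1 k2 ⊢
  rw [h.rr_eq k1 k2 (by simp [det_dg, det_xp]) (fun x : Bool × F => (if x.1 then 1 else -1, x.2, 0)) ?_ ?_]
  · simp
  · have : (1 : F) ≠ -1 := fun k => h.toBK.neg_ne (Units.ext k.symm)
    rintro ⟨_ | _, a⟩ ⟨_ | _, b⟩ k <;> simp_all [eq_comm]
  · intro a b c
    simp only [mul_ent]
    simp only [Set.mem_range, Prod.mk.injEq, Prod.exists, Bool.exists_bool]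
    simp [mul_self_eq_one_iff]
    grind

theorem sq_ne {x : G} (hx : tt φ ∈ zpowers x) (k : x ≠ tt φ) : x * x ≠ 1 := fun e =>
  ((CA.GW.BA.mem_zpowers_inv e).1 hx).elim h.toBK.t1 k.symm

theorem rrZ {z : G} (hz : z ∈ Zt φ) (ht : tt φ ∈ zpowers z) (k : z ≠ tt φ) : rr z = 0 ∧ rr (z * φ (xp 1)) = 0 := by
  have a : ∀ g, dt g = 1 → φ g ≠ z := fun g d e => (h.toBK.SL_Z d (e ▸ hz)).elim
    (fun l => h.sq_ne ht k (by rw [← e, l, one_mul])) fun l => k (e ▸ l)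
  exact ⟨h.rr_zero ht (h.sq_ne ht k) a, h.rr_zero (h.zx hz ht).1 (h.zx hz ht).2 fun g d e =>
    a (g * (xp 1)⁻¹) (by rw [map_mul, map_inv, d, det_xp, mul_inv_cancel]) (by rw [map_mul, map_inv, e]; group)⟩

open Classical in
theorem rrT {x : G} (hx : x ∈ Tt φ) (ht : tt φ ∈ zpowers x) (k : x ∉ Zt φ) :
    rr x = if x ∈ Ht φ then Fintype.card F - 1 else 0 := by
  have x2 := h.sq_ne ht fun e => k (e ▸ tt_Zt)
  split_ifs with l
  · obtain ⟨s, rfl⟩ := mem_Ht'.1 l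
    have ne : (s : F) - (s : F)⁻¹ ≠ 0 := fun e => k (h.toBK.mem_Zt.2 (mem_cen.2 ⟨rfl, rfl, by simpa using sub_eq_zero.1 e⟩))
    rw [h.rr_eq ht x2 (by simp [det_dg]) (fun x : Fˣ => (0, x, (x : F)⁻¹))
      (fun a b e => Units.ext (congrArg (·.2.1) e)) fun a b c => ?_, Nat.card_units, Nat.card_eq_fintype_card]
    simp only [dg_val, Set.mem_range, Prod.mk.injEq]
    simp [ne]
    refine ⟨by rintro ⟨rfl, x, rfl, rfl⟩; simp, ?_⟩
    rintro ⟨e, rfl⟩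
    rw [mul_zero, zero_add] at e
    exact ⟨rfl, Units.mk0 b (left_ne_zero_of_mul_eq_one e), rfl, (eq_inv_of_mul_eq_one_right e).symm⟩
  · exact h.rr_zero ht x2 fun g d e => l (e ▸ (h.toBK.mem_Ht d).2 (h.toBK.mem_Tt.1 (e ▸ hx)))

open Classical in
theorem rrY (he : ¬ IsSquare e) {x : G} (hx : x ∈ Yt φ e) (ht : tt φ ∈ zpowers x) (k : x ∉ Zt φ) :
    rr x = if x ∈ Y1t φ e then Fintype.card F + 1 else 0 := by
  have x2 := h.sq_ne ht fun e => k (e ▸ tt_Zt)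
  split_ifs with l
  · obtain ⟨y, ⟨y1, y2⟩, rfl⟩ := l
    have ne := nsT_ne y1 (h.toBK.mem_Zt.not.1 k)
    rw [h.rr_eq ht x2 y2 (fun x : (nsT e ⊓ (dt).ker : Subgroup (GL (Fin 2) F)) => (x.1 0 0, x.1 0 1, - x.1 1 0))
      (fun a b e => ?_) fun a b c => ⟨?_, fun ⟨e1, e2⟩ => ?_⟩, card_Y1 h.odd he]
    · obtain ⟨e1, e2, e3⟩ : _ ∧ _ ∧ _ := by simpa using e
      exact Subtype.ext (gl_ext e1 e2 e3 (by rw [← a.2.1.1, ← b.2.1.1, e1]))
    · rintro ⟨x, e⟩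
      obtain ⟨rfl, rfl, rfl⟩ : _ ∧ _ ∧ _ := by simpa only [Prod.mk.injEq] using e
      have d := det_ent x.1
      rw [show dt x.1 = 1 from x.2.2, ← x.2.1.1, Units.val_one] at d
      exact ⟨by linear_combination -d, by rw [y1.1, y1.2, x.2.1.2]; ring⟩
    · rw [y1.1, y1.2] at e2
      have e3 : b = -c * e := mul_left_cancel₀ ne (by linear_combination e2)
      have d : a * a - b * -c = 1 := by linear_combination e1
      exact ⟨⟨mk2 a b (-c) a (d ▸ one_ne_zero), ⟨rfl, e3⟩, Units.ext (by rw [det_ent]; exact d)⟩, by simp⟩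
  · exact h.rr_zero ht x2 fun g d e => l ⟨g, ⟨h.toBK.mem_Yt.1 (e ▸ hx), d⟩, e⟩

end BL0

theorem extT_L (h : BK φ) (θ : Tt φ →* ℂˣ) (hθ : ∀ y y' : Tt φ, (y' : G) = wt φ * y * (wt φ)⁻¹ → θ y' = θ y) :
    ∃ μ : φ.range →* ℂˣ, ∀ (y : Tt φ) (g : φ.range), (g : G) = y → μ g = θ y := by
  let ψ : Fˣ × Fˣ →* ℂˣ := θ.comp (φ.comp dgH).rangeRestrict
  have s : ∀ a d, ψ (a, d) = ψ (a * d, 1) := fun a d => by
    have : ψ (d, 1) = ψ (1, d) := hθ _ _ (show φ (dg d 1) = wt φ * φ (dg 1 d) * (wt φ)⁻¹ by rw [wt, cj, ww_dg])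
    rw [show (a * d, (1 : Fˣ)) = (a, 1) * (d, 1) by simp, map_mul, this, ← map_mul]; simp
  obtain ⟨μ, hμ⟩ := BK.exists_lin (φ := φ) (ψ.comp (MonoidHom.inl _ _)) fun g k => by
    obtain ⟨a, rfl⟩ := mem_cen'.1 (h.kerc k)
    rw [det_dg]
    exact (s a a).symm.trans ((congrArg θ (Subtype.ext k)).trans (map_one θ))
  refine ⟨μ, ?_⟩
  rintro ⟨_, ⟨a, d⟩, rfl⟩ g k
  rw [show g = φ.rangeRestrict (dg a d) from Subtype.ext k, hμ, det_dg]
  exact (s a d).symm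

theorem BL0.cn [Fintype G] (h : BL0 φ) (he : ¬ IsSquare e) :
    ∃ lam θ1 θ2, CN (Fintype.card F) (Fintype.card F) φ.range (Zt φ) (Tt φ) (Yt φ e) (Ht φ) (Y1t φ e) (tt φ) (wt φ)
      (uu φ) (φ (xp 1)) lam θ1 θ2 := by
  have k := h.toBK
  have c := k.cs he
  have e0 : e ≠ 0 := fun k => he (by rw [k]; exact IsSquare.zero)
  obtain ⟨l, hl⟩ := exists_theta Fˣ
  have := k.cycY he
  obtain ⟨θ, hθ⟩ := exists_theta (Yt φ e)
  have l1 : l (-1) = -1 := neg_of_sq (by rw [← map_mul]; simp) fun a => k.neg_ne (by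
    have := odd_of_pow (a := (-1 : Fˣ)) odd_one (by simpa using (hl _).1 a)
    simpa using (this.neg_one_pow (α := Fˣ)).symm.trans (pow_orderOf_eq_one _))
  have ko : ∀ g, φ g = 1 → Odd (orderOf (dt g)) := fun g a => by
    obtain ⟨b, rfl⟩ := mem_cen'.1 (k.kerc a)
    rw [det_dg, ← sq]
    exact (k.ker_odd a).of_dvd_nat (orderOf_pow_dvd 2)
  obtain ⟨lam, hlam⟩ := BK.exists_lin (φ := φ) l fun g a => (hl _).2 (ko g a)
  let tY : Yt φ e := ⟨tt φ, c.ZY tt_Zt⟩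
  have θt : θ tY = -1 := neg_of_sq (by rw [← map_mul, ← map_one θ]; exact congrArg θ (Subtype.ext tt_mul)) fun a => by
    have := (hθ _).1 a
    rw [← orderOf_coe, orderOf_eq_prime (show tt φ ^ 2 = 1 by rw [sq, tt_mul]) k.t1] at this
    exact absurd this (by decide)
  have ne : (-1 : ℂˣ) ≠ 1 := by simp
  let Y : nsT e →* Yt φ e := φ.subgroupMap (nsT e)
  let U : nsT e → nsT e := fun y => ⟨_, u_nsT y.2⟩
  have YU : ∀ y, (Y (U y) : G) = uu φ * Y y * (uu φ)⁻¹ := fun y => (cj φ _ _).symm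
  have ut : (tY : G) = uu φ * tY * (uu φ)⁻¹ := (tt_conj ⟨_, rfl⟩).symm
  have hb : ∀ j : nsT e, dt j.1 = 1 → ∃ x, θ (Y (U x)) = θ (Y j) * θ (Y x) := fun j a => by
    obtain ⟨x, hx, b⟩ := hilb k.two e0 j.2 a
    exact ⟨⟨x, hx⟩, by rw [← map_mul, ← map_mul]; exact congrArg (θ ∘ Y) (Subtype.ext b)⟩
  obtain ⟨x1, h1⟩ := hb ⟨_, cen_le_nsT (dg_cen (-1))⟩ (by simp [det_dg])
  rw [show Y ⟨_, cen_le_nsT (dg_cen (-1))⟩ = tY from rfl, θt] at h1
  obtain ⟨y, hy, dy⟩ := norm_surj k.odd e0 (-1)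
  have h2 : Y ⟨y, hy⟩ * Y (U ⟨y, hy⟩) = tY := by
    rw [← map_mul]; exact Subtype.ext (congrArg φ ((mul_u hy).trans (by rw [dy])))
  have P : Pr θ := fun g a => (hθ g).2 a
  have q3 := k.q3
  refine ⟨lam, θ, θ⁻¹, ⟨_, _, .inl ⟨rfl, c⟩⟩, k.odd, tt_mul, k.t1, tt_Zt, uu_Tt, w_u, fun _ => k.invY he,
    fun _ => k.invT, fun i a b d => let ⟨x, _, l⟩ := k.inv_cj (h.sur i) a b d; ⟨x, l⟩,
    fun x a => k.cent_u ▸ ⟨h.sur x, mem_centralizer_singleton_iff.2 (mul_inv_eq_iff_eq_mul.1 a)⟩,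
    fun μ g a => by rw [show g = ⟨_, c.xC⟩ from Subtype.ext a, c.lin_x], fun μ a => ?_, fun μ a => ?_, ?_, ?_,
    extT_L k, k.extY he, fun _ ⟨a, b⟩ => mem_Tt'.2 ⟨_, _, b⟩, by rw [k.kH, abs_of_nonneg (by omega)]; omega,
    ⟨-1, by simp [tt, dg]⟩, ?_, ?_, map_mono inf_le_left, by rw [k.kY1 he, abs_of_nonneg (by omega)]; rfl,
    ⟨_, ⟨cen_le_nsT (dg_cen _), by simp [det_dg]⟩, rfl⟩, ?_, by rw [h.rrt]; rfl, by rw [h.rrtx]; omega, fun _ => h.rrZ,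
    fun _ a b l => by rw [h.rrT a b l, k.kH], fun _ a b l => by rw [h.rrY he a b l, k.kY1 he], ?_, ?_, P,
    fun g a => by simp [P g a],
    ⟨_, _, YU x1, by rw [h1]; simp⟩, ⟨_, _, YU x1, by simp [h1]⟩, fun a => ?_, ⟨_, _, YU ⟨y, hy⟩, fun a => ?_⟩,
    fun y a => by rw [show y = tY from Subtype.ext a, θt], ?_⟩
  · ext g
    obtain ⟨g, rfl⟩ := φ.rangeRestrict_surjective g
    rw [k.lin_eq (g' := dg 1 (dt g)) (by rw [det_dg, one_mul]), a _ (mem_Tt'.2 ⟨_, _, rfl⟩)]; rfl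
  · ext g
    obtain ⟨g, rfl⟩ := φ.rangeRestrict_surjective g
    obtain ⟨y, hy, dy⟩ := norm_surj k.odd e0 (dt g)
    rw [k.lin_eq dy.symm, a _ ⟨y, hy, rfl⟩]; rfl
  · rintro μ ⟨_, hg⟩ ⟨a, rfl⟩
    exact k.lin (g := dg a a⁻¹) (by simp [det_dg])
  · rintro μ ⟨_, hg⟩ ⟨a, ⟨-, b⟩, rfl⟩
    exact k.lin b
  · rintro _ ⟨a, rfl⟩
    exact k.SL_Z (g := dg a a⁻¹) (by simp [det_dg])
  · rintro _ ⟨a, rfl⟩ b
    have b : dg a a⁻¹ * dg a a⁻¹ = 1 := k.eq_of_det (by rw [map_mul, map_one]; exact b) (by simp [det_dg])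
    rw [dg_mul, ← dg_one] at b
    rcases unit_sq (dg_inj b).1 with rfl | rfl
    · exact .inl (map_one _)
    · exact .inr (by simp [tt, dg])
  · rintro _ ⟨a, ⟨-, b⟩, rfl⟩
    exact k.SL_Z b
  · intro g a
    obtain ⟨g, rfl⟩ := φ.rangeRestrict_surjective g
    rw [hlam, hl]
    exact odd_of_pow a (by
      rw [← map_pow]; exact ko _ (by rw [map_pow]; exact congrArg Subtype.val (pow_orderOf_eq_one (φ.rangeRestrict g))))
  · intro g a
    rw [show g = φ.rangeRestrict (dg 1 (-1)) from Subtype.ext a, hlam, det_dg, one_mul, l1]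
  · have b : θ (Y ⟨y, hy⟩ * Y ⟨y, hy⟩) = 1 := by
      rw [map_mul]; nth_rewrite 1 [a]; simp
    obtain ⟨n, o, hn⟩ : ∃ n, Odd n ∧ φ y ^ n * φ y ^ n = 1 := ⟨_, (hθ _).1 b, by
      rw [← (Commute.refl _).mul_pow]; exact congrArg Subtype.val (pow_orderOf_eq_one (Y ⟨y, hy⟩ * Y ⟨y, hy⟩))⟩
    have h3 : φ y ^ n * (uu φ * φ y ^ n * (uu φ)⁻¹) = tt φ := by
      have := congrArg Subtype.val (congrArg (· ^ n) h2)
      simp only [(show Commute (Y ⟨y, hy⟩) (Y (U ⟨y, hy⟩)) from c.cY.1.1 _ _).mul_pow, Subgroup.coe_mul,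
        Subgroup.coe_pow, YU, conj_pow] at this
      obtain ⟨j, rfl⟩ := o
      exact this.trans (by rw [pow_succ, pow_mul, sq]; simp [tY, tt_mul])
    rcases k.invY he (pow_mem (show φ y ∈ Yt φ e from ⟨y, hy, rfl⟩) n) hn with b | b <;> rw [b] at h3
    · exact k.t1 (by simpa using h3.symm)
    · exact k.t1 (by rw [tt_conj (c := uu φ) ⟨_, rfl⟩, tt_mul] at h3; exact h3.symm)
  · exact ne (by rw [← θt, ← h2, map_mul, a]; simp)
  · by_cases hn : IsSquare (-1 : F)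
    · obtain ⟨i, hi⟩ := hn
      have i0 : i ≠ 0 := by rintro rfl; simp at hi
      refine .inl fun a => ne ?_
      have := DFunLike.congr_fun a (φ.rangeRestrict (dg 1 (Units.mk0 i i0)))
      rwa [MonoidHom.mul_apply, hlam, det_dg, one_mul, ← map_mul,
        show Units.mk0 i i0 * Units.mk0 i i0 = -1 from Units.ext hi.symm, l1] at this
    refine .inr fun g hg => ?_
    · obtain ⟨a, d, rfl⟩ := mem_Tt'.1 hg
      obtain ⟨n, o, hn⟩ := odd_or hn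
      have : ∀ a d : Fˣ, a ^ n = 1 → d ^ n = 1 → Odd (orderOf (φ (dg a d))) := fun a d p q =>
        o.of_dvd_nat (orderOf_dvd_of_pow_eq_one (by rw [← map_pow, dg_pow, p, q, dg_one, map_one]))
      rw [tu_eq, tt, uu, ← map_mul, ← map_mul, ← map_mul, dg_mul, dg_mul, dg_mul, one_mul, one_mul]
      rcases hn a with p | p <;> rcases hn d with q | q
      exacts [.inl (this _ _ p q), .inr (.inr (.inl (this _ _ p q))), .inr (.inr (.inr (this _ _ p q))),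
        .inr (.inl (this _ _ p q))]

theorem nd [Fintype G] (h : BK φ) (hs : Function.Surjective φ) :
    ∃ d : ND G, d.e = Fintype.card F ∧ d.q = Fintype.card F ∧ d.t = tt φ ∧ d.u = uu φ := by
  obtain ⟨e, he⟩ := h.exists_ns
  obtain ⟨lam, θ1, θ2, k⟩ := BL0.cn ⟨h, hs⟩ he
  exact k.nd (MonoidHom.range_eq_top.2 hs)

end CA.Abg.Lin

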