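/-
The character theoretic facts `Q3P`, `B3P`, `IXP`, `QKP` from the model.
-/
import Cfsg.Agent.Abg.B15
import Cfsg.Agent.Abg.B7L
import Cfsg.Agent.Abg.B7U

set_option autoImplicit false
set_option linter.unusedSectionVars false

namespace CA.Abg

open Subgroup Cfsg CA.FG CA.BG CA.GW
open scoped MatrixGroups

universe u

variable {G X Γ N : Type u} [Group G] [Finite G] [Group X] [Group Γ] [Group N] [Finite X] [Finite Γ] [Finite N] {F : Type}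
  [Field F] [Fintype F] {t u w j : G} {S : Subgroup G} {f : (𝒞[t] : Subgroup G) →* X} {p : X →* Γ} {ι : SL(2, F) →* Γ}
  {ζ : X} {C0 : Subgroup G} {κ : C0 →* N} {e : N →* X} {tN uN : N}

theorem NM.nd [Fintype N] (h : NM p ι e tN uN) : ∃ d : ND N, d.q = Fintype.card F ∧ d.t = tN ∧ d.u = uN := by
  rcases h with ⟨φ, b, s, rfl, rfl, -⟩ | ⟨K, _, _, φ, b, s, rfl, rfl⟩
  · obtain ⟨d, -, h⟩ := Lin.nd b s; exact ⟨d, h⟩
  · obtain ⟨d, -, h⟩ := Uni.nd b s; exact ⟨d, h⟩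

namespace MD

variable (h : MD t u w j S f p ι ζ) (k : MK t u w S f p ι C0 κ e tN uN)
include h k

theorem q3p [IsSimpleGroup G] (n : NM p ι e tN uN) (q : Fintype.card F = 3) : Q3P t u w := by
  cases nonempty_fintype G; cases nonempty_fintype N
  obtain ⟨d, dq, rfl, rfl⟩ := n.nd
  exact k.ag.q3p (fun m => (k.ker m).2) h.lh (dq.trans q)

theorem b3p (n : NM p ι e tN uN) (q : Fintype.card F ≠ 3) : B3P t u w := by
  cases nonempty_fintype G; cases nonempty_fintype N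
  obtain ⟨d, dq, rfl, rfl⟩ := n.nd
  exact k.ag.b3p k.KC0 k.ker (dq ▸ q) (mem_sup_right h.uS) (k.k1 q) k.k1K

theorem ixp [IsSimpleGroup G] (n : NM p ι e tN uN) (ih : IH G) : IXP t u := fun H ne le g hg eg => by
  cases nonempty_fintype G; cases nonempty_fintype N
  obtain ⟨d, -, rfl, rfl⟩ := n.nd
  obtain ⟨H1, O1, K1, g1, a1, a2, a3, a4, a5, -, a7, a8, -, b1, b2, b3⟩ := h.cov k
    ⟨h.lh, ih, ne, le_sup_of_le_right (le_inf le le_rfl), le h.lh.uC, le h.lh.wC, le h.lh.jC, hg, eg⟩ (h.SC.trans le)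
  exact ne (eq_top_iff.2 ((k.ag.ix k.KC0 k.ker ((le_inf le le_rfl).trans a1) a3 a4 a5 a7 a8 b1 b2 b3).ge.trans a2))

theorem qkp [IsSimpleGroup G] (n : ∃ φ : GL (Fin 2) F →* N, Br.BK φ ∧ Function.Surjective φ ∧ tN = Br.tt φ ∧
    uN = Br.uu φ ∧ ∀ g, RR ι (p (e (φ g))) g 1) (ih : IH G) : QKP t u := fun H ne cov ⟨g, hg, eg⟩ => by
  cases nonempty_fintype G; cases nonempty_fintype N
  obtain ⟨φ, b, s, rfl, rfl, -⟩ := n
  obtain ⟨d, de, -, dt, du⟩ := Lin.nd b s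
  rw [← dt, ← du] at k
  obtain ⟨T, hT⟩ := sylow_exists Nat.prime_two (H ⊓ 𝒞[t])
  obtain ⟨x, hx, le⟩ := sylow_Jsub Nat.prime_two (sylow_mk (hT.le.trans inf_le_right) hT.pGrp (by
    rw [← relIndex_mul_relIndex T _ _ hT.le inf_le_right]
    refine fun a => (Nat.prime_two.dvd_mul.1 a).elim (hT.not_dvd_index Nat.prime_two) fun a => ?_
    rw [show 𝒞[t] = UU t ⊔ H ⊓ 𝒞[t] from le_antisymm cov (sup_le (UU_le t) inf_le_right), ← le_antisymm cov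
      (sup_le (UU_le t) inf_le_right)] at a
    nth_rewrite 2 [le_antisymm cov (sup_le (UU_le t) inf_le_right)] at a
    rw [relIndex_sup_right' (.inr (inf_le_right.trans (UU_norm t)))] at a
    exact UU_odd t 2 Nat.prime_two (a.trans (relIndex_dvd_card _ _)) rfl)) h.syl.pGrp h.SC
  have SH : S ≤ H :^ x⁻¹ := fun a ha => mem_conjg_inv.2 (hT.le (le (conj_mem_conjg x ha))).1
  have cov' : 𝒞[t] ≤ UU t ⊔ (H :^ x⁻¹) ⊓ 𝒞[t] := by
    have := conjg_mono x⁻¹ cov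
    rwa [conjg_sup, conjg_inf, conjg_of_mem (inv_mem hx), conjg_eq_self_iff.2 (UU_norm t (inv_mem hx))] at this
  have g' := conj_mem_conjg x⁻¹ hg
  have tH : t ∈ H :^ x⁻¹ := h.lh.j2 ▸ mul_mem (SH h.jS) (SH h.jS)
  have e' : x⁻¹ * g * x⁻¹⁻¹ * t * (x⁻¹ * g * x⁻¹⁻¹)⁻¹ = x⁻¹ * u * x⁻¹⁻¹ := by
    rw [← eg, show x⁻¹ * g * x⁻¹⁻¹ * t * (x⁻¹ * g * x⁻¹⁻¹)⁻¹ = x⁻¹ * g * (x * t * x⁻¹) * g⁻¹ * x by group,
      mem_centralizer_singleton_iff.1 hx]; group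
  have m1 : x⁻¹ * u * x⁻¹⁻¹ ∈ H :^ x⁻¹ := e' ▸ mul_mem (mul_mem g' tH) (inv_mem g')
  have m2 : x⁻¹ * u * x⁻¹⁻¹ ∈ 𝒞[t] := mul_mem (mul_mem (inv_mem hx) h.lh.uC) (inv_mem (inv_mem hx))
  obtain ⟨y, ⟨hy : y ∈ H :^ x⁻¹, -⟩, ey⟩ := cov_cj cov' ⟨SH h.uS, h.lh.uC⟩ ⟨m1, m2⟩ h.lh.iu.two (inv_mem hx) rfl
  generalize x⁻¹ * g * x⁻¹⁻¹ = g at g' e'
  obtain ⟨H1, O1, K1, g1, a1, a2, a3, a4, a5, a6, a7, a8, b0, b1, b2, b3⟩ := h.cov k (g := y⁻¹ * g)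
    ⟨h.lh, ih, fun a => ne (by simpa using congrArg (· :^ x) a), cov', SH h.uS, SH h.wS, SH h.jS,
      mul_mem (inv_mem hy) g', by
        rw [show y⁻¹ * g * t * (y⁻¹ * g)⁻¹ = y⁻¹ * (g * t * g⁻¹) * y by group, e', ← ey]; group⟩ SH
  have := k.ag.qk (by rw [de]; exact_mod_cast Fintype.card_pos) h.lh k.KC0 k.ker h.syl h.SC ((le_inf SH h.SC).trans a1)
    (a1 ⟨tH, mem_cent_singleton_self t⟩) (cov'.trans (sup_le_sup_left (le_inf a1 inf_le_right) _)) a3 a4 a5 a7 a8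
    (b0.trans a1) b1 b2 b3
  rw [this, le_bot_iff, OO, pPrimeCoreOf, ← pcore_conjg] at a6
  simpa using congrArg (· :^ x) a6

end MD

end CA.Abg
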