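import Cfsg.Agent.Abg.B1

/-!
# The character theory of `N = GL₂^ε(q)/Z₀`, uniformly in `e = ε q`
-/

set_option autoImplicit false
set_option linter.unusedSectionVars false
set_option linter.unusedVariables false

open Cfsg Subgroup CA.Chr CA.Dih CA.Blk CA.Br Finset
open scoped ComplexConjugate Classical

namespace CA.Abg

universe u w

/-- `N = GL₂^ε(q)/Z₀`, `e = ε q`, `T = C(u)` the torus containing a four-group, `Y` the cyclic torus,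
`H = T ∩ SL₂`, `Y1 = Y ∩ SL₂`, `P a b` the class function with torus parts `a` and `b`. -/
structure ND (N : Type w) [Group N] [Fintype N] where
  e : ℤ
  q : ℕ
  cT : ℂ
  cY : ℂ
  Z : Subgroup N
  T : Subgroup N
  Y : Subgroup N
  H : Subgroup N
  Y1 : Subgroup N
  t : N
  w : N
  u : N
  x : N
  P : (N → ℂ) → (N → ℂ) → N → ℂ
  lam : N →* ℂˣ
  θ1 : Y →* ℂˣ
  θ2 : Y →* ℂˣ
  eo : Odd e
  eq : e = q ∨ e = -q
  q3 : 3 ≤ q
  c1 : (e + 1) * cT = (e - 1) * cY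
  c2 : cT + cY = 2 * q
  ZT : Z ≤ T
  ZY : Z ≤ Y
  cen : ∀ z ∈ Z, ∀ c, z * c = c * z
  abT : IsMulCommutative T
  abY : IsMulCommutative Y
  kT : (Nat.card N : ℤ) = e * (e + 1) * Nat.card T
  kY : (Nat.card N : ℤ) = e * (e - 1) * Nat.card Y
  kH : (Nat.card H : ℤ) ^ 2 = (e - 1) ^ 2
  kY1 : (Nat.card Y1 : ℤ) ^ 2 = (e + 1) ^ 2
  w2 : w * w = 1
  u2 : u * u = 1
  t2 : t * t = 1
  t1 : t ≠ 1
  tZ : t ∈ Z
  uT : u ∈ T
  un : u ∉ Y
  wu : w * u * w⁻¹ = t * u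
  wT : ∀ g ∈ T, w * g * w⁻¹ ∈ T
  uY : ∀ g ∈ Y, u * g * u⁻¹ ∈ Y
  xo : Odd (orderOf x)
  invY : ∀ y ∈ Y, y * y = 1 → y = 1 ∨ y = t
  invT : ∀ g ∈ T, g * g = 1 → g = 1 ∨ g = t ∨ g = u ∨ g = t * u
  icj : ∀ i, i * i = 1 → i ≠ 1 → i ≠ t → ∃ c, c * u * c⁻¹ = i
  cu : ∀ c, c * u * c⁻¹ = u → c ∈ T
  cfP : ∀ a b, P a b ∈ CF N
  dP : ∀ χ ∈ CF N, ∀ a b, ⟪χ, P a b⟫ = (2 * Nat.card T : ℂ)⁻¹ * ∑ g : T, Fk cT q Z x χ g * conj (a g) +
    (2 * Nat.card Y : ℂ)⁻¹ * ∑ g : Y, Fk cY q Z x χ g * conj (b g)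
  vT : ∀ a b, (∀ g ∈ T, a (w * g * w⁻¹) = a g) → ∀ g ∈ T, Fk cT q Z x (P a b) g = a g
  vY : ∀ a b, (∀ g ∈ Y, b (u * g * u⁻¹) = b g) → ∀ g ∈ Y, Fk cY q Z x (P a b) g = b g
  comp : ∀ χ ∈ CF N, P (Fk cT q Z x χ) (Fk cY q Z x χ) = χ
  intT : ∀ χ ∈ ZIrr N, ∀ ν : T →* ℂˣ, ∃ n : ℤ, co (Fk cT q Z x χ) ν = n
  intY : ∀ χ ∈ ZIrr N, ∀ ν : Y →* ℂˣ, ∃ n : ℤ, co (Fk cY q Z x χ) ν = n
  prT : ∀ χ ∈ CF N, proj (B0 2 N) χ = χ → ∀ ν : T →* ℂˣ, ¬ Pr ν → co (Fk cT q Z x χ) ν = 0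
  prY : ∀ χ ∈ CF N, proj (B0 2 N) χ = χ → ∀ ν : Y →* ℂˣ, ¬ Pr ν → co (Fk cY q Z x χ) ν = 0
  linx : ∀ μ : N →* ℂˣ, μ x = 1
  linT : ∀ μ : N →* ℂˣ, (∀ g ∈ T, μ g = 1) → μ = 1
  linY : ∀ μ : N →* ℂˣ, (∀ g ∈ Y, μ g = 1) → μ = 1
  linH : ∀ (μ : N →* ℂˣ), ∀ g ∈ H, μ g = 1
  linY1 : ∀ (μ : N →* ℂˣ), ∀ g ∈ Y1, μ g = 1
  extT : ∀ ν : T →* ℂˣ, (∀ y y' : T, (y' : N) = w * y * w⁻¹ → ν y' = ν y) → ∃ μ : N →* ℂˣ, ∀ y : T, μ y = ν y
  extY : ∀ θ : Y →* ℂˣ, (∀ y y' : Y, (y' : N) = u * y * u⁻¹ → θ y' = θ y) → ∃ μ : N →* ℂˣ, ∀ y : Y, μ y = θ y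
  HT : H ≤ T
  tH : t ∈ H
  invH : ∀ g ∈ H, g * g = 1 → g = 1 ∨ g = t
  Y1Y : Y1 ≤ Y
  tY1 : t ∈ Y1
  rT : ∀ g ∈ T, g ∈ DD t → Fk cT q Z x (fun g => (rr g : ℂ)) g =
    (if g ∈ H then (Nat.card H : ℂ) else 0) + if g = t then 2 * (e : ℂ) else 0
  rY : ∀ g ∈ Y, g ∈ DD t → Fk cY q Z x (fun g => (rr g : ℂ)) g = if g ∈ Y1 then (Nat.card Y1 : ℂ) else 0
  lP : Pr lam
  lu : lam u = -1
  P1 : Pr θ1
  P2 : Pr θ2
  n1 : ∃ y y' : Y, (y' : N) = u * y * u⁻¹ ∧ θ1 y' ≠ θ1 y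
  n2 : ∃ y y' : Y, (y' : N) = u * y * u⁻¹ ∧ θ2 y' ≠ θ2 y
  n12 : θ1 ≠ θ2
  n12' : ∃ y y' : Y, (y' : N) = u * y * u⁻¹ ∧ θ1 y' ≠ θ2 y
  θt : ∀ y : Y, (y : N) = t → θ1 y = -1
  cas : lam * lam ≠ 1 ∨
    ∀ g ∈ T, Odd (orderOf g) ∨ Odd (orderOf (t * g)) ∨ Odd (orderOf (u * g)) ∨ Odd (orderOf (t * u * g))

section tri

variable {A : Type u} [Group A] [Fintype A] {t u : A} {s : A →* A}

/-- a group with exactly three involutions, permuted by an automorphism -/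
structure Tri (t u : A) (s : A →* A) : Prop where
  t2 : t * t = 1
  u2 : u * u = 1
  t1 : t ≠ 1
  u1 : u ≠ 1
  ut : u ≠ t
  tu : t * u = u * t
  inv : ∀ g, g * g = 1 → g = 1 ∨ g = t ∨ g = u ∨ g = t * u
  bij : Function.Bijective s
  st : s t = u
  su : s u = t * u

theorem mem_zpowers_inj {B : Type*} [Group B] {f : A →* B} (hf : Function.Injective f) {a g : A} :
    f a ∈ zpowers (f g) ↔ a ∈ zpowers g :=
  ⟨fun ⟨k, hk⟩ => ⟨k, hf ((map_zpow f g k).trans hk)⟩, fun ⟨k, hk⟩ => ⟨k, (map_zpow f g k).symm.trans (congrArg f hk)⟩⟩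

namespace Tri

variable (h : Tri t u s)
include h

theorem vt : t * u ≠ t := by simpa using h.u1
theorem vu : t * u ≠ u := by simpa using h.t1
theorem v2 : t * u * (t * u) = 1 := by
  rw [mul_assoc, ← mul_assoc u, ← h.tu, mul_assoc, h.u2, mul_one, h.t2]
theorem v1 : t * u ≠ 1 := fun e => h.ut (by
  rw [eq_inv_of_mul_eq_one_right e, inv_eq_of_mul_eq_one_right h.t2])
theorem uv : u * (t * u) = t := by rw [h.tu, ← mul_assoc, h.u2, one_mul]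
theorem sv : s (t * u) = t := by rw [map_mul, h.st, h.su, h.uv]

theorem next : Tri u (t * u) s :=
  ⟨h.u2, h.v2, h.u1, h.v1, h.vu, by rw [h.uv, mul_assoc, h.u2, mul_one], fun g e => by
    rw [h.uv]; have := h.inv g e; tauto, h.bij, h.su, by rw [h.sv, h.uv]⟩

theorem ord (g : A) : orderOf (s g) = orderOf g := orderOf_injective s h.bij.1 g

theorem D1 {g : A} : t ∈ zpowers (s g) ↔ t * u ∈ zpowers g := by
  rw [← mem_zpowers_inj (a := t * u) h.bij.1, h.sv]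
theorem D2 {g : A} : t ∈ zpowers (s (s g)) ↔ u ∈ zpowers g := by rw [h.D1, ← h.su, mem_zpowers_inj h.bij.1]

theorem cases {g : A} (o : ¬ Odd (orderOf g)) :
    (t ∈ zpowers g ∧ u ∉ zpowers g ∧ t * u ∉ zpowers g) ∨ (t ∉ zpowers g ∧ u ∈ zpowers g ∧ t * u ∉ zpowers g) ∨
      (t ∉ zpowers g ∧ u ∉ zpowers g ∧ t * u ∈ zpowers g) := by
  obtain ⟨i, hi, i2, i1⟩ := exists_inv_of_even o
  have a1 : t ∈ zpowers g → u ∈ zpowers g → False := fun a b => h.ut (inv_unique b a h.u2 h.u1 h.t2 h.t1)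
  have a2 : t ∈ zpowers g → t * u ∈ zpowers g → False := fun a b => h.vt (inv_unique b a h.v2 h.v1 h.t2 h.t1)
  have a3 : u ∈ zpowers g → t * u ∈ zpowers g → False := fun a b => h.vu (inv_unique b a h.v2 h.v1 h.u2 h.u1)
  rcases h.inv i i2 with e | e | e | e
  · exact absurd e i1
  all_goals subst e; tauto

theorem sum (k : A → ℂ) (hk : ∀ g, Odd (orderOf g) → k g = 0) :
    ∑ g, k g = ∑ g, if t ∈ zpowers g then k g + k (s g) + k (s (s g)) else 0 := by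
  have e : ∀ g, k g = (if t ∈ zpowers g then k g else 0) + (if u ∈ zpowers g then k g else 0) +
      (if t * u ∈ zpowers g then k g else 0) := fun g => by
    by_cases o : Odd (orderOf g)
    · simp [hk g o]
    · rcases h.cases o with e | e | e <;> simp [e]
  rw [sum_congr rfl fun g _ => e g, sum_add_distrib, sum_add_distrib,
    ← Fintype.sum_bijective s h.bij (fun g => if t ∈ zpowers g then k (s g) else 0)
      (fun g => if u ∈ zpowers g then k g else 0) fun g => by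
      simp only [← mem_zpowers_inj (a := t) h.bij.1, h.st],
    ← Fintype.sum_bijective (s ∘ s) (h.bij.comp h.bij) (fun g => if t ∈ zpowers g then k (s (s g)) else 0)
      (fun g => if t * u ∈ zpowers g then k g else 0) fun g => by
      have : t * u ∈ zpowers (s (s g)) ↔ t ∈ zpowers g := by
        rw [← h.su, mem_zpowers_inj h.bij.1, ← mem_zpowers_inj (a := t) h.bij.1, h.st]
      simp only [Function.comp, this],
    ← sum_add_distrib, ← sum_add_distrib]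
  exact sum_congr rfl fun g _ => by split_ifs <;> simp

end Tri

end tri

variable {N : Type w} [Group N] [Fintype N]

theorem odd_count (A : Type w) [Group A] [Fintype A] : ∃ n : ℕ, Odd n ∧ ∑ g, regI 2 A g = n := by
  obtain ⟨V, hV⟩ := exists_val Nat.prime_two
  have e : ∑ g, regI 2 A g = (univ.filter fun g : A => ¬ 2 ∣ orderOf g).card := by
    simp only [regI, ← ite_not (α := ℂ) (2 ∣ orderOf _)]; rw [← sum_filter]; simp
  refine ⟨_, ?_, e⟩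
  have := val_sum_regI Nat.prime_two hV _ A rfl
  by_contra o
  obtain ⟨k, hk⟩ := Nat.not_odd_iff_even.1 o
  rw [e, hk, ← two_mul, Nat.cast_mul] at this
  exact (val_mul_lt' hV (val_nat_le _ k)).ne this

theorem co_par {A : Subgroup N} (cA : IsMulCommutative A) {F F' : N → ℂ}
    (h : ∀ ν : A →* ℂˣ, co F ν = 0 ∨ co F' ν = 0) : ∑ g : A, F g * conj (F' g) = 0 := by
  haveI := Fintype.ofFinite (A →* ℂˣ)
  have := parseval (CF_of_comm (F ∘ A.subtype)) (F' ∘ A.subtype)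
  rw [sum_irr_lin, sum_eq_zero fun ν _ => by
    rw [← conj_dot (F' ∘ A.subtype), ← co_dot, ← co_dot]; rcases h ν with e | e <;> simp [e], dot_def] at this
  exact (mul_eq_zero.1 this).resolve_left (inv_ne_zero card_ne_zero)

theorem regI_odd {g : N} : regI 2 N g = if Odd (orderOf g) then 1 else 0 := by
  simp only [regI, ← Nat.not_even_iff_odd, even_iff_two_dvd, ite_not]

namespace ND

variable (d : ND N)

/-- the `T`-part -/
noncomputable abbrev FT : (N → ℂ) → N → ℂ := Fk d.cT d.q d.Z d.x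
/-- the `Y`-part -/
noncomputable abbrev FY : (N → ℂ) → N → ℂ := Fk d.cY d.q d.Z d.x
/-- `θ^u` -/
def cU (θ : d.Y →* ℂˣ) : d.Y →* ℂˣ := θ.comp (cjH d.uY)
/-- `ν^w` -/
def cW (ν : d.T →* ℂˣ) : d.T →* ℂˣ := ν.comp (cjH d.wT)
/-- restriction to `T` -/
def sT (μ : N →* ℂˣ) : d.T →* ℂˣ := μ.comp d.T.subtype
/-- restriction to `Y` -/
def sY (μ : N →* ℂˣ) : d.Y →* ℂˣ := μ.comp d.Y.subtype
/-- `t` in `T` -/
def tT : d.T := ⟨d.t, d.ZT d.tZ⟩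
/-- `u` in `T` -/
def uT' : d.T := ⟨d.u, d.uT⟩
/-- `t` in `Y` -/
def tY : d.Y := ⟨d.t, d.ZY d.tZ⟩

theorem conjZ {z : N} (hz : z ∈ d.Z) (c : N) : c * z * c⁻¹ = z := by rw [← d.cen z hz c]; group
theorem q0 : (d.q : ℂ) ≠ 0 := by have := d.q3; exact_mod_cast (by omega : d.q ≠ 0)
theorem u1 : d.u ≠ 1 := fun e => d.un (e ▸ d.Y.one_mem)
theorem ut : d.u ≠ d.t := fun e => d.un (e ▸ d.ZY d.tZ)
theorem tc (c : N) : c * d.t * c⁻¹ = d.t := d.conjZ d.tZ c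
theorem tD : d.t ∈ DD d.t := mem_zpowers _
theorem D_cj (g c : N) (h : g ∈ DD d.t) : c * g * c⁻¹ ∈ DD d.t := d.tc c ▸ mem_zpowers_conj' h
theorem D_odd {g : N} (o : Odd (orderOf g)) : g ∉ DD d.t := not_DD_of_odd d.t2 d.t1 o
theorem sepD : ∀ g ∈ DD d.t, ∀ h ∉ DD d.t, Sep 2 g h := sep_DD d.t2 d.tc

theorem Y_even {y : N} (hy : y ∈ d.Y) : y ∈ DD d.t ↔ ¬ Odd (orderOf y) :=
  ⟨fun e o => d.D_odd o e, fun o => by
    obtain ⟨i, hi, i2, i1⟩ := exists_inv_of_even o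
    exact (d.invY i (zpowers_le.2 hy hi) i2).resolve_left i1 ▸ hi⟩

theorem Fk_add (k : ℂ) (a b : N → ℂ) : Fk k d.q d.Z d.x (a + b) = Fk k d.q d.Z d.x a + Fk k d.q d.Z d.x b := by
  ext g; simp only [Fk, mm, Pi.add_apply]; split_ifs <;> ring

theorem Fk_sub' (k : ℂ) (a b : N → ℂ) : Fk k d.q d.Z d.x (a - b) = Fk k d.q d.Z d.x a - Fk k d.q d.Z d.x b := by
  ext g; simp only [Fk, mm, Pi.sub_apply]; split_ifs <;> ring

theorem Fk_nZ (k : ℂ) (a : N → ℂ) {g : N} (hg : g ∉ d.Z) : Fk k d.q d.Z d.x a g = a g := by simp [Fk, mm, hg]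

theorem Fk_cj (k : ℂ) {a : N → ℂ} (ha : a ∈ CF N) (c g : N) :
    Fk k d.q d.Z d.x a (c * g * c⁻¹) = Fk k d.q d.Z d.x a g := by
  by_cases hz : g ∈ d.Z
  · rw [d.conjZ hz]
  · rw [d.Fk_nZ _ _ hz, d.Fk_nZ _ _ fun e => hz (by
      have := d.conjZ e c⁻¹
      rw [show c⁻¹ * (c * g * c⁻¹) * c⁻¹⁻¹ = g by group] at this
      rwa [this]), CF_conj ha]

theorem Fk_cut (k : ℂ) {D : Set N} (hD : ∀ z ∈ d.Z, z * d.x ∈ D ↔ z ∈ D) (a : N → ℂ) :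
    Fk k d.q d.Z d.x (cut D a) = cut D (Fk k d.q d.Z d.x a) := by
  ext g
  by_cases hz : g ∈ d.Z
  · by_cases h : g ∈ D <;> simp [Fk, mm, cut, hz, h, hD g hz]
  · rw [d.Fk_nZ _ _ hz, cut, cut, d.Fk_nZ _ _ hz]

theorem Fk_cutD (k : ℂ) (a : N → ℂ) : Fk k d.q d.Z d.x (cut (DD d.t) a) = cut (DD d.t) (Fk k d.q d.Z d.x a) :=
  d.Fk_cut k (fun z hz => DD_mul d.t2 (d.cen z hz _) d.xo) a

theorem Fk_lin (k : ℂ) (μ : N →* ℂˣ) : Fk k d.q d.Z d.x (lin μ) = lin μ := by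
  ext g; simp [Fk, mm, d.linx]

theorem Fk_reg (k : ℂ) : Fk k d.q d.Z d.x (regI 2 N) = regI 2 N := by
  ext g
  by_cases hz : g ∈ d.Z
  · simp [Fk, mm, hz, regI_odd, odd_orderOf_mul (d.cen g hz _) d.xo]
  · exact d.Fk_nZ _ _ hz

theorem valZ (χ : N → ℂ) (z : N) : χ z = ((d.e + 1) * d.FT χ z - (d.e - 1) * d.FY χ z) / 2 := by
  simp only [Fk]; linear_combination mm d.q d.Z d.x χ z / 2 * d.c1

theorem valX (χ : N → ℂ) {z : N} (hz : z ∈ d.Z) : χ (z * d.x) = (d.FT χ z + d.FY χ z) / 2 := by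
  have := d.q0
  simp only [Fk, mm, hz, if_true]; field_simp; linear_combination (χ z - χ (z * d.x)) * d.c2

theorem P_odd {a b : N → ℂ} (ha : ∀ g ∈ d.T, a (d.w * g * d.w⁻¹) = a g) (hb : ∀ g ∈ d.Y, b (d.u * g * d.u⁻¹) = b g)
    (ha' : ∀ g ∈ d.T, Odd (orderOf g) → a g = 0) (hb' : ∀ g ∈ d.Y, Odd (orderOf g) → b g = 0) {g : N}
    (o : Odd (orderOf g)) : d.P a b g = 0 := by
  have hD : ∀ z ∈ d.Z, z * d.x ∈ {g : N | Odd (orderOf g)} ↔ z ∈ {g : N | Odd (orderOf g)} := fun z hz =>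
    odd_orderOf_mul (d.cen z hz _) d.xo
  have cf := cut_CF (D := {g : N | Odd (orderOf g)}) (fun g c e => by rwa [Set.mem_setOf_eq, orderOf_cj]) (d.cfP a b)
  have : ⟪cut {g : N | Odd (orderOf g)} (d.P a b), cut {g : N | Odd (orderOf g)} (d.P a b)⟫ = 0 := by
    nth_rewrite 2 [← d.comp _ cf]
    rw [d.dP _ cf, d.Fk_cut _ hD, d.Fk_cut _ hD, sum_eq_zero, sum_eq_zero]
    · simp
    · intro g _; simp only [cut]; split_ifs with o; exacts [by rw [d.vY a b hb g g.2, hb' g g.2 o, zero_mul], by simp]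
    · intro g _; simp only [cut]; split_ifs with o; exacts [by rw [d.vT a b ha g g.2, ha' g g.2 o, zero_mul], by simp]
  simpa [cut, o] using congrFun (dot_self_eq_zero.1 this) g

theorem cU_cU (θ : d.Y →* ℂˣ) : d.cU (d.cU θ) = θ := by
  ext g; simp only [cU, MonoidHom.comp_apply]; congr 2; exact Subtype.ext (sq_conj d.u2)
theorem cW_cW (θ : d.T →* ℂˣ) : d.cW (d.cW θ) = θ := by
  ext g; simp only [cW, MonoidHom.comp_apply]; congr 2; exact Subtype.ext (sq_conj d.w2)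
theorem cU_eq_one {θ : d.Y →* ℂˣ} : d.cU θ = 1 ↔ θ = 1 := ⟨fun e => by rw [← d.cU_cU θ, e]; rfl, fun e => by rw [e]; rfl⟩
theorem cU_sY (μ : N →* ℂˣ) : d.cU (d.sY μ) = d.sY μ := by ext g; simp [cU, sY, cjH_coe, mul_comm]
theorem cW_sT (μ : N →* ℂˣ) : d.cW (d.sT μ) = d.sT μ := by ext g; simp [cW, sT, cjH_coe, mul_comm]

omit d in
theorem co_cj {A : Subgroup N} {s : N} (hs : ∀ g ∈ A, s * g * s⁻¹ ∈ A) {F : N → ℂ}
    (hF : ∀ g ∈ A, F (s * g * s⁻¹) = F g) (ν : A →* ℂˣ) : co F (ν.comp (cjH hs)) = co F ν := by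
  have := sum_cjH hs fun g => F g * conj (ex ν g)
  simp only [ex_coe, ex_cj ν hs] at this
  rw [co, co, ← this]
  congr 1
  exact sum_congr rfl fun g _ => by rw [hF g g.2]

theorem co_w {χ : N → ℂ} (cf : χ ∈ CF N) (ν : d.T →* ℂˣ) : co (d.FT χ) (d.cW ν) = co (d.FT χ) ν :=
  co_cj d.wT (fun g _ => d.Fk_cj _ cf _ g) ν
theorem co_u {χ : N → ℂ} (cf : χ ∈ CF N) (ν : d.Y →* ℂˣ) : co (d.FY χ) (d.cU ν) = co (d.FY χ) ν :=
  co_cj d.uY (fun g _ => d.Fk_cj _ cf _ g) ν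

theorem dP' {χ : N → ℂ} (cf : χ ∈ CF N) {a b : N → ℂ} (s : List (d.T →* ℂˣ)) (s' : List (d.Y →* ℂˣ)) (m n : ℤ)
    (ha : ∀ g : d.T, a g = m - (s.map fun ν => (ν g : ℂ)).sum) (hb : ∀ g : d.Y, b g = n - (s'.map fun ν => (ν g : ℂ)).sum) :
    ⟪χ, d.P a b⟫ = (m * co (d.FT χ) (1 : d.T →* ℂˣ) - (s.map (co (d.FT χ))).sum +
      (n * co (d.FY χ) (1 : d.Y →* ℂˣ) - (s'.map (co (d.FY χ))).sum)) / 2 := by
  have key : ∀ (A : Subgroup N) (F : N → ℂ) (s : List (A →* ℂˣ)), (Nat.card A : ℂ)⁻¹ *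
      ∑ g : A, F g * conj (s.map fun ν => (ν g : ℂ)).sum = (s.map (co F)).sum := fun A F s => by
    induction s with
    | nil => simp
    | cons a s ih => simp only [List.map_cons, List.sum_cons, map_add, mul_add, sum_add_distrib, ih, co]
  rw [d.dP χ cf, ← key, ← key]
  simp only [ha, hb, map_sub, mul_sub, sum_sub_distrib, co, map_intCast, ← sum_mul, MonoidHom.one_apply, Units.val_one,
    map_one, mul_one]
  have : (Nat.card d.Y : ℂ) ≠ 0 := card_ne_zero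
  have : (Nat.card d.T : ℂ) ≠ 0 := card_ne_zero
  field_simp

theorem dot_lin {χ : N → ℂ} (cf : χ ∈ CF N) (μ : N →* ℂˣ) :
    ⟪χ, lin μ⟫ = (co (d.FT χ) (d.sT μ) + co (d.FY χ) (d.sY μ)) / 2 := by
  have := d.dP' cf (a := -lin μ) (b := -lin μ) [d.sT μ] [d.sY μ] 0 0 (by simp [sT]) (by simp [sY])
  have e := d.comp (-lin μ) (neg_mem (lin_mem_CF μ))
  have e' : ∀ k, Fk k d.q d.Z d.x (-lin μ) = -lin μ := fun k => by
    rw [← zero_sub, d.Fk_sub', d.Fk_lin]; congr 1; ext g; simp [Fk, mm]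
  rw [e', e'] at e
  rw [e, dot_neg_right] at this
  simp only [List.map_cons, List.map_nil, List.sum_cons, List.sum_nil] at this
  linear_combination -this

theorem sT_inj {μ μ' : N →* ℂˣ} (e : d.sT μ = d.sT μ') : μ = μ' := by
  rw [← mul_inv_eq_one]
  exact d.linT _ fun g hg => by
    have : μ g = μ' g := DFunLike.congr_fun e ⟨g, hg⟩
    simpa [mul_inv_eq_one] using this

theorem sY_inj {μ μ' : N →* ℂˣ} (e : d.sY μ = d.sY μ') : μ = μ' := by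
  rw [← mul_inv_eq_one]
  exact d.linY _ fun g hg => by
    have : μ g = μ' g := DFunLike.congr_fun e ⟨g, hg⟩
    simpa [mul_inv_eq_one] using this

theorem ext_sY {θ : d.Y →* ℂˣ} (P : Pr θ) (e : d.cU θ = θ) : ∃ μ, Pr μ ∧ d.sY μ = θ := by
  obtain ⟨μ, hμ⟩ := d.extY θ fun y y' a => by
    conv_rhs => rw [← e]
    rw [show y' = cjH d.uY y from Subtype.ext a]; rfl
  have e1 : d.sY μ = θ := MonoidHom.ext hμ
  obtain ⟨k, hk⟩ := P.pow'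
  have : μ ^ 2 ^ k = 1 := d.sY_inj (by
    rw [← e1] at hk; exact MonoidHom.ext fun y => DFunLike.congr_fun hk y)
  exact ⟨μ, fun g o => eq_one_of_pow (DFunLike.congr_fun this g) o (by
    rw [← map_pow, pow_orderOf_eq_one, map_one]), e1⟩

theorem ext_sT {θ : d.T →* ℂˣ} (P : Pr θ) (e : d.cW θ = θ) : ∃ μ, Pr μ ∧ d.sT μ = θ := by
  obtain ⟨μ, hμ⟩ := d.extT θ fun y y' a => by
    conv_rhs => rw [← e]
    rw [show y' = cjH d.wT y from Subtype.ext a]; rfl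
  have e1 : d.sT μ = θ := MonoidHom.ext hμ
  obtain ⟨k, hk⟩ := P.pow'
  have : μ ^ 2 ^ k = 1 := d.sT_inj (by
    rw [← e1] at hk; exact MonoidHom.ext fun y => DFunLike.congr_fun hk y)
  exact ⟨μ, fun g o => eq_one_of_pow (DFunLike.congr_fun this g) o (by
    rw [← map_pow, pow_orderOf_eq_one, map_one]), e1⟩

omit d in
theorem co_reg {A : Subgroup N} {ν : A →* ℂˣ} (P : Pr ν) : ∃ n : ℕ, Odd n ∧ co (regI 2 N) ν = n / Nat.card A ∧
    ∑ g : A, regI 2 A g = n := by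
  obtain ⟨n, o, hn⟩ := odd_count A
  refine ⟨n, o, ?_, hn⟩
  rw [co, ← hn, div_eq_inv_mul]
  congr 1
  exact sum_congr rfl fun g _ => by
    rw [regI_subtype, regI_odd]; split_ifs with o <;> simp [P g, *]

omit d in
theorem off_of {χ a : N → ℂ} (hχ : IsIrrCharacter N χ) (hB : χ ∉ B0 2 N) (ha : a ∈ ZIrr N) (h1 : ⟪a, a⟫ = 1)
    (hr : ⟪regI 2 N, a⟫ ≠ 0) : ⟪χ, a⟫ = 0 := by
  rw [← proj_of_reg (ZIrr.dirr_of_dot_self ha h1) fun e => hr (dot_comm_zero e), ← dot_proj' (B0_subset 2),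
    proj_irr (B0_subset 2) hχ, if_neg hB]; simp

theorem off_lin {χ : N → ℂ} (hχ : IsIrrCharacter N χ) (hB : χ ∉ B0 2 N) {μ : N →* ℂˣ} (P : Pr μ) :
    co (d.FT χ) (d.sT μ) = 0 ∧ co (d.FY χ) (d.sY μ) = 0 := by
  have cf := IsIrr.mem_CF hχ
  obtain ⟨m, om, hm, -⟩ := co_reg (P.comp d.T.subtype)
  obtain ⟨n, on, hn, -⟩ := co_reg (P.comp d.Y.subtype)
  have cT : (Nat.card d.T : ℂ) ≠ 0 := card_ne_zero
  have cY : (Nat.card d.Y : ℂ) ≠ 0 := card_ne_zero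
  have e1 := off_of hχ hB (lin_mem_ZIrr μ) (IsIrr.dot_self (lin_irr μ)) (by
    rw [d.dot_lin (regI_mem_CF 2), FT, FY, d.Fk_reg, d.Fk_reg, sT, sY, hm, hn]
    have : (0 : ℝ) < (m / Nat.card d.T + n / Nat.card d.Y) / 2 := by
      have := om.pos; have : 0 < Nat.card d.T := Nat.card_pos; positivity
    intro e
    have := congrArg Complex.re e
    simp only [← Complex.ofReal_natCast, ← Complex.ofReal_div, ← Complex.ofReal_add, ← Complex.ofReal_ofNat,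
      Complex.ofReal_re, Complex.zero_re] at this
    linarith)
  have dt : ∀ χ ∈ CF N, ⟪χ, d.P (lin μ) (-lin μ)⟫ = (co (d.FT χ) (d.sT μ) - co (d.FY χ) (d.sY μ)) / 2 := fun χ cf => by
    rw [d.dP _ cf]; simp only [co, Pi.neg_apply, map_neg, mul_neg, sum_neg_distrib, lin_apply, sT, sY]
    simp only [MonoidHom.comp_apply, coe_subtype]; field_simp; ring
  have e2 := off_of hχ hB (a := d.P (lin μ) (-lin μ)) (mem_ZIrr_of_dot_int (d.cfP _ _) fun ψ hψ => by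
    obtain ⟨a, ha⟩ := d.intT _ (IsIrr.mem_ZIrr hψ) (d.sT μ)
    obtain ⟨b, hb⟩ := ZIrr.dot_int (IsIrr.mem_ZIrr hψ) (lin_mem_ZIrr μ)
    refine ⟨a - b, dot_comm_of_int ?_⟩
    rw [dt _ (IsIrr.mem_CF hψ), Int.cast_sub, ← ha, ← hb, d.dot_lin (IsIrr.mem_CF hψ)]; ring) (by
    rw [dt _ (d.cfP _ _), co_congr fun g hg => d.vT _ _ (fun g _ => CF_conj (lin_mem_CF μ) g _) g hg,
      co_congr fun g hg => d.vY _ _ (fun g _ => congrArg Neg.neg (CF_conj (lin_mem_CF μ) g _)) g hg]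
    have a := sum_lin_conj (d.sT μ) (d.sT μ)
    have b := sum_lin_conj (d.sY μ) (d.sY μ)
    simp only [if_true] at a b
    simp only [co, Pi.neg_apply, neg_mul, sum_neg_distrib, lin_apply]
    rw [show ∑ g : d.T, (μ g : ℂ) * _ = _ from a, show ∑ g : d.Y, (μ g : ℂ) * _ = _ from b]
    field_simp; norm_num) (by
    rw [dt _ (regI_mem_CF 2), FT, FY, d.Fk_reg, d.Fk_reg, sT, sY, hm, hn]
    intro e
    have e : (m : ℤ) * Nat.card d.Y = n * Nat.card d.T := by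
      field_simp at e; exact_mod_cast (show (m : ℂ) * Nat.card d.Y = n * Nat.card d.T by linear_combination e)
    have e0 : d.e ≠ 0 := fun e => by have := d.eo; rw [e] at this; simp at this
    have k := mul_left_cancel₀ e0 (show d.e * ((d.e + 1) * Nat.card d.T) = d.e * ((d.e - 1) * Nat.card d.Y) by
      rw [← mul_assoc, ← mul_assoc, ← d.kT, d.kY])
    have y0 : (Nat.card d.Y : ℤ) ≠ 0 := by exact_mod_cast Nat.card_pos.ne'
    have k2 : (d.e + 1) * m = (d.e - 1) * n := mul_right_cancel₀ y0 (by linear_combination (d.e + 1) * e + n * k)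
    obtain ⟨j, hj⟩ := d.eo
    obtain ⟨a, rfl⟩ := om
    obtain ⟨b, rfl⟩ := on
    rw [hj] at k2; push_cast at k2
    have : 2 * (j * a + a - j * b) + 1 = 0 := by linarith
    omega)
  rw [d.dot_lin cf] at e1
  rw [dt _ cf] at e2
  exact ⟨by linear_combination e1 + e2, by linear_combination e1 - e2⟩

theorem offT {χ : N → ℂ} (hχ : IsIrrCharacter N χ) (hB : χ ∉ B0 2 N) {ν : d.T →* ℂˣ} (P : Pr ν) :
    co (d.FT χ) ν = 0 := by
  by_cases e : d.cW ν = ν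
  · obtain ⟨μ, Pμ, rfl⟩ := d.ext_sT P e
    exact (d.off_lin hχ hB Pμ).1
  have v : ∀ g : d.T, -ex ν g - ex ν (d.w * g * d.w⁻¹) = (0 : ℤ) - ([ν, d.cW ν].map fun ν => (ν g : ℂ)).sum := fun g => by
    rw [ex_coe, ex_cj ν d.wT]; simp [cW]; ring
  have dt : ∀ χ ∈ CF N, ⟪χ, d.P (fun g => -ex ν g - ex ν (d.w * g * d.w⁻¹)) 0⟫ = -co (d.FT χ) ν := fun χ cf => by
    rw [d.dP' cf [ν, d.cW ν] [] 0 0 v (by simp)]; simp [d.co_w cf]
  have := off_of hχ hB (a := d.P (fun g => -ex ν g - ex ν (d.w * g * d.w⁻¹)) 0)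
    (mem_ZIrr_of_dot_int (d.cfP _ _) fun ψ hψ => by
      obtain ⟨a, ha⟩ := d.intT _ (IsIrr.mem_ZIrr hψ) ν
      exact ⟨-a, dot_comm_of_int (by rw [dt _ (IsIrr.mem_CF hψ), ha]; simp)⟩) (by
    rw [dt _ (d.cfP _ _), co_lin 0 [ν, d.cW ν] fun g => by
      rw [FT, d.vT _ _ (fun g _ => by rw [sq_conj d.w2]; ring) g g.2, v]; simp]
    simp [e]) (by
    obtain ⟨m, om, hm, -⟩ := co_reg P
    rw [dt _ (regI_mem_CF 2), FT, d.Fk_reg, hm]
    simp [om.pos.ne', Nat.card_pos.ne'])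
  simpa [dt _ (IsIrr.mem_CF hχ)] using this

theorem offY {χ : N → ℂ} (hχ : IsIrrCharacter N χ) (hB : χ ∉ B0 2 N) {ν : d.Y →* ℂˣ} (P : Pr ν) :
    co (d.FY χ) ν = 0 := by
  by_cases e : d.cU ν = ν
  · obtain ⟨μ, Pμ, rfl⟩ := d.ext_sY P e
    exact (d.off_lin hχ hB Pμ).2
  have v : ∀ g : d.Y, -ex ν g - ex ν (d.u * g * d.u⁻¹) = (0 : ℤ) - ([ν, d.cU ν].map fun ν => (ν g : ℂ)).sum := fun g => by
    rw [ex_coe, ex_cj ν d.uY]; simp [cU]; ring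
  have dt : ∀ χ ∈ CF N, ⟪χ, d.P 0 (fun g => -ex ν g - ex ν (d.u * g * d.u⁻¹))⟫ = -co (d.FY χ) ν := fun χ cf => by
    rw [d.dP' cf [] [ν, d.cU ν] 0 0 (by simp) v]; simp [d.co_u cf]
  have := off_of hχ hB (a := d.P 0 (fun g => -ex ν g - ex ν (d.u * g * d.u⁻¹)))
    (mem_ZIrr_of_dot_int (d.cfP _ _) fun ψ hψ => by
      obtain ⟨a, ha⟩ := d.intY _ (IsIrr.mem_ZIrr hψ) ν
      exact ⟨-a, dot_comm_of_int (by rw [dt _ (IsIrr.mem_CF hψ), ha]; simp)⟩) (by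
    rw [dt _ (d.cfP _ _), co_lin 0 [ν, d.cU ν] fun g => by
      rw [FY, d.vY _ _ (fun g _ => by rw [sq_conj d.u2]; ring) g g.2, v]; simp]
    simp [e]) (by
    obtain ⟨m, om, hm, -⟩ := co_reg P
    rw [dt _ (regI_mem_CF 2), FY, d.Fk_reg, hm]
    simp [om.pos.ne', Nat.card_pos.ne'])
  simpa [dt _ (IsIrr.mem_CF hχ)] using this

theorem span {f : N → ℂ} (cf : f ∈ CF N) (hT : ∀ ν : d.T →* ℂˣ, ¬ Pr ν → co (d.FT f) ν = 0)
    (hY : ∀ ν : d.Y →* ℂˣ, ¬ Pr ν → co (d.FY f) ν = 0) : proj (B0 2 N) f = f :=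
  CF_ext (proj_mem_CF (B0_subset 2) f) cf fun χ hχ => by
    rw [dot_proj (B0_subset 2) f hχ]
    split_ifs with hB
    · rfl
    · rw [← d.comp χ (IsIrr.mem_CF hχ), d.dP f cf, co_par d.abT fun ν => (em (Pr ν)).elim
        (fun P => .inr (d.offT hχ hB P)) fun P => .inl (hT ν P), co_par d.abY fun ν => (em (Pr ν)).elim
        (fun P => .inr (d.offY hχ hB P)) fun P => .inl (hY ν P)]
      simp

omit d in
theorem co_nPr {A : Subgroup N} {F : N → ℂ} (c : ℂ) (s : List (A →* ℂˣ)) (hs : ∀ a ∈ s, Pr a)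
    (h : ∀ g : A, F g = c - (s.map fun a => (a g : ℂ)).sum) (ν : A →* ℂˣ) (hν : ¬ Pr ν) : co F ν = 0 := by
  rw [co_lin c s h, if_neg fun e : 1 = ν => hν (e ▸ Pr.one), List.sum_eq_zero]
  · simp
  · intro x hx
    obtain ⟨a, ha, rfl⟩ := List.mem_map.1 hx
    exact if_neg fun e : a = ν => hν (e ▸ hs a ha)

end ND

theorem realizeEqns_Abg_B2 : True := by
  have := @CA.Abg.ND.sY.eq_1.{0}
  have := @CA.Abg.ND.sY.eq_def.{0}
  have := @CA.Abg.ND.sY.congr_simp.{0}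
  have := @CA.Abg.ND.tT.eq_1.{0}
  have := @CA.Abg.ND.tT.eq_def.{0}
  have := @CA.Abg.ND.tT.congr_simp.{0}
  have := @CA.Abg.ND.cU.eq_1.{0}
  have := @CA.Abg.ND.cU.eq_def.{0}
  have := @CA.Abg.ND.cU.congr_simp.{0}
  have := @CA.Abg.ND.sT.eq_1.{0}
  have := @CA.Abg.ND.sT.eq_def.{0}
  have := @CA.Abg.ND.sT.congr_simp.{0}
  have := @CA.Abg.ND.cW.eq_1.{0}
  have := @CA.Abg.ND.cW.eq_def.{0}
  have := @CA.Abg.ND.cW.congr_simp.{0}
  have := @CA.Abg.ND.tY.eq_1.{0}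
  have := @CA.Abg.ND.tY.eq_def.{0}
  have := @CA.Abg.ND.tY.congr_simp.{0}
  have := @CA.Abg.ND.FT.eq_1.{0}
  have := @CA.Abg.ND.FT.eq_def.{0}
  have := @CA.Abg.ND.FT.congr_simp.{0}
  have := @CA.Abg.ND.uT'.eq_1.{0}
  have := @CA.Abg.ND.uT'.eq_def.{0}
  have := @CA.Abg.ND.uT'.congr_simp.{0}
  have := @CA.Abg.ND.FY.eq_1.{0}
  have := @CA.Abg.ND.FY.eq_def.{0}
  have := @CA.Abg.ND.FY.congr_simp.{0}
  trivial

end CA.Abg
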