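import Cfsg.Agent.Abg.B2

/-!
# The symmetry of order three on the torus `T`
-/

set_option autoImplicit false
set_option linter.unusedSectionVars false
set_option linter.unusedVariables false

open Cfsg Subgroup CA.Chr CA.Dih CA.Blk CA.Br Finset
open scoped ComplexConjugate Classical

namespace CA.Abg

universe u w

variable {N : Type w} [Group N] [Fintype N]

theorem nd_eq' {A : Subgroup N} {F : N → ℂ} {ν : A →* ℂˣ} (h : ∃ n : ℤ, co F (1 : A →* ℂˣ) - co F ν = n) :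
    (nd F ν : ℂ) = co F ν - co F (1 : A →* ℂˣ) := by
  obtain ⟨a, ha⟩ := h
  rw [nd, show co F ν - co F (1 : A →* ℂˣ) = ((-a : ℤ) : ℂ) by push_cast; rw [← ha]; ring, Complex.intCast_re,
    Int.floor_intCast]

theorem var_eq' {A : Subgroup N} (cA : IsMulCommutative A) {F : N → ℂ}
    (hz : ∀ ν : A →* ℂˣ, ¬ Pr ν → co (evn F) ν = 0)
    (h : ∀ ν : A →* ℂˣ, Pr ν → ∃ n : ℤ, co F (1 : A →* ℂˣ) - co F ν = n) :
    (∃ c : ℝ, ∑ ν ∈ II A, ((nd F ν : ℝ) + c) ^ 2 ≤ nrm (evn F ∘ A.subtype)) ∧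
      ∀ g : A, ¬ Odd (orderOf g) → F g = ∑ ν ∈ II A, nd F ν * (ν g : ℂ) := by
  haveI := Fintype.ofFinite (A →* ℂˣ)
  set c := co (evn F) (1 : A →* ℂˣ)
  have e : ∀ ν ∈ II A, co (evn F) ν = nd F ν + c := fun ν hν => by
    rw [nd_eq' (h ν (mem_II.1 hν)), ← sub_eq_iff_eq_add]
    simp only [co, c, ← mul_sub, ← sum_sub_distrib]
    congr 1
    refine sum_congr rfl fun g _ => ?_
    by_cases o : Odd (orderOf g)
    · simp [evn, o, mem_II.1 hν g o]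
    · simp [evn, o]
  have sub : ∀ k : (A →* ℂˣ) → ℂ, ∑ ν, co (evn F) ν * k ν = ∑ ν ∈ II A, (nd F ν + c) * k ν := fun k => by
    rw [← sum_subset (subset_univ (II A)) fun ν _ hν => by rw [hz ν (mt mem_II.2 hν), zero_mul]]
    exact sum_congr rfl fun ν hν => by rw [e ν hν]
  refine ⟨⟨c.re, ?_⟩, fun g hg => ?_⟩
  · rw [nrm_parseval (CF_of_comm _), sum_irr_lin]
    refine le_trans (sum_le_sum fun ν hν => ?_)
      (sum_le_sum_of_subset_of_nonneg (subset_univ (II A)) fun _ _ _ => sq_nonneg _)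
    rw [← co_dot, e ν hν]
    have := Complex.abs_re_le_norm (nd F ν + c)
    simpa using sq_le_sq' (by linarith [neg_abs_le (nd F ν + c : ℂ).re]) ((le_abs_self _).trans this)
  · have := congrFun (lin_expand (evn F ∘ A.subtype)) g
    simp only [Finset.sum_apply, Pi.smul_apply, smul_eq_mul, ← co_dot, sub] at this
    simp only [add_mul, sum_add_distrib, ← mul_sum, lin, sum_II cA hg] at this
    simpa [evn, hg] using this

/-- `1 - μ` -/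
noncomputable def kM (μ : N →* ℂˣ) (g : N) : ℂ := 1 - μ g

/-- the sum over the orbit of `s` -/
noncomputable def Sy {A : Subgroup N} (s : A →* A) (a : N → ℂ) (g : N) : ℂ :=
  if h : g ∈ A then a g + a (s ⟨g, h⟩) + a (s (s ⟨g, h⟩)) else 0

theorem Sy_coe {A : Subgroup N} (s : A →* A) (a : N → ℂ) (g : A) : Sy s a g = a g + a (s g) + a (s (s g)) := by
  simp [Sy]

theorem aY_odd {A : Subgroup N} {u : N} (hu : ∀ g ∈ A, u * g * u⁻¹ ∈ A) {θ : A →* ℂˣ} (P : Pr θ) {g : N} (hg : g ∈ A)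
    (o : Odd (orderOf g)) : aY u θ g = 0 := by
  rw [aY, ex_odd P hg o, ex_odd P (hu g hg) (by rwa [orderOf_cj])]; ring

theorem aY_cj {A : Subgroup N} {u : N} (u2 : u * u = 1) (θ : A →* ℂˣ) (g : N) : aY u θ (u * g * u⁻¹) = aY u θ g := by
  rw [aY, aY, sq_conj u2]; ring

theorem kM_odd {μ : N →* ℂˣ} (P : Pr μ) {g : N} (o : Odd (orderOf g)) : kM μ g = 0 := by simp [kM, P g o]
theorem kM_cj (μ : N →* ℂˣ) (c g : N) : kM μ (c * g * c⁻¹) = kM μ g := by simp [kM, mul_comm]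

/-- an automorphism of order three of `T` inverted by `w` -/
structure SG (d : ND N) (s : d.T →* d.T) : Prop where
  s3 : ∀ g, s (s (s g)) = g
  sw : ∀ g, cjH d.wT (s (cjH d.wT g)) = s (s g)
  st : s d.tT = d.uT'
  su : s d.uT' = d.tT * d.uT'

namespace ND

variable (d : ND N)

/-- `α_θ` on `N` -/
noncomputable def al0 (θ : d.Y →* ℂˣ) : N → ℂ := d.P 0 (aY d.u θ)
/-- `γ_ν` on `N` -/
noncomputable def ga0 (s : d.T →* d.T) (ν : d.T →* ℂˣ) : N → ℂ := d.P (Sy s (aY d.w ν)) 0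
/-- `β_μ` on `N` -/
noncomputable def be0 (s : d.T →* d.T) (μ : N →* ℂˣ) : N → ℂ := d.P (Sy s (kM μ)) (kM μ)
/-- the symmetrised `T`-part -/
noncomputable def Fs (s : d.T →* d.T) (ξ : N → ℂ) : N → ℂ := Sy s (cut (DD d.t) (d.FT ξ))
/-- the values on `D` -/
def Val (ξ a b : N → ℂ) : Prop := (∀ g ∈ d.T, g ∈ DD d.t → d.FT ξ g = a g) ∧ ∀ g ∈ d.Y, g ∈ DD d.t → d.FY ξ g = b g

theorem DT (g : d.T) : (g : N) ∈ DD d.t ↔ d.tT ∈ zpowers g := mem_zpowers_inj (f := d.T.subtype) d.T.subtype_injective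
  (a := d.tT)

theorem aY_coeY (θ : d.Y →* ℂˣ) (g : d.Y) : aY d.u θ g = (2 : ℤ) - ([θ, d.cU θ].map fun ν => (ν g : ℂ)).sum := by
  rw [aY, ex_coe, ex_cj θ d.uY]; simp [cU]; ring
theorem aY_coeT (θ : d.T →* ℂˣ) (g : d.T) : aY d.w θ g = (2 : ℤ) - ([θ, d.cW θ].map fun ν => (ν g : ℂ)).sum := by
  rw [aY, ex_coe, ex_cj θ d.wT]; simp [cW]; ring

theorem Val.t {d : ND N} {ξ a b : N → ℂ} (h : d.Val ξ a b) : ξ d.t = ((d.e + 1) * a d.t - (d.e - 1) * b d.t) / 2 := by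
  rw [d.valZ ξ, h.1 _ (d.ZT d.tZ) d.tD, h.2 _ (d.ZY d.tZ) d.tD]

theorem Val.sub {d : ND N} {ξ a b ξ' a' b' : N → ℂ} (h : d.Val ξ a b) (h' : d.Val ξ' a' b') :
    d.Val (ξ - ξ') (a - a') (b - b') :=
  ⟨fun g k l => by rw [FT, d.Fk_sub', Pi.sub_apply, Pi.sub_apply, ← h.1 g k l, ← h'.1 g k l],
   fun g k l => by rw [FY, d.Fk_sub', Pi.sub_apply, Pi.sub_apply, ← h.2 g k l, ← h'.2 g k l]⟩

theorem Val.congr {d : ND N} {ξ a b ξ' a' b' : N → ℂ} (h : d.Val ξ a b) (e : cut (DD d.t) ξ' = cut (DD d.t) ξ)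
    (ea : ∀ g ∈ d.T, g ∈ DD d.t → a g = a' g) (eb : ∀ g ∈ d.Y, g ∈ DD d.t → b g = b' g) : d.Val ξ' a' b' :=
  have k : ∀ c g, g ∈ DD d.t → Fk c d.q d.Z d.x ξ' g = Fk c d.q d.Z d.x ξ g := fun c g l => by
    have := congrFun ((d.Fk_cutD c ξ').symm.trans (e ▸ d.Fk_cutD c ξ)) g
    simpa [cut, l] using this
  ⟨fun g a l => by rw [FT, k _ g l, ← ea g a l, ← h.1 g a l], fun g a l => by rw [FY, k _ g l, ← eb g a l, ← h.2 g a l]⟩

theorem val_P {a b : N → ℂ} (ha : ∀ g ∈ d.T, a (d.w * g * d.w⁻¹) = a g) (hb : ∀ g ∈ d.Y, b (d.u * g * d.u⁻¹) = b g) :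
    d.Val (d.P a b) a b := ⟨fun g k _ => d.vT a b ha g k, fun g k _ => d.vY a b hb g k⟩

theorem al0_ZIrr (θ : d.Y →* ℂˣ) : d.al0 θ ∈ ZIrr N :=
  mem_ZIrr_of_dot_int (d.cfP _ _) fun ψ hψ => by
    obtain ⟨a, ha⟩ := d.intY _ (IsIrr.mem_ZIrr hψ) 1
    obtain ⟨b, hb⟩ := d.intY _ (IsIrr.mem_ZIrr hψ) θ
    refine ⟨a - b, dot_comm_of_int ?_⟩
    rw [al0, d.dP' (IsIrr.mem_CF hψ) [] [θ, d.cU θ] 0 2 (by simp) (d.aY_coeY θ)]
    simp [d.co_u (IsIrr.mem_CF hψ), ha, hb]; ring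

theorem al0_span {θ : d.Y →* ℂˣ} (P : Pr θ) : proj (B0 2 N) (d.al0 θ) = d.al0 θ :=
  d.span (d.cfP _ _) (co_nPr 0 [] (by simp) fun g => (d.vT 0 _ (by simp) g g.2).trans (by simp))
    (co_nPr 2 [θ, d.cU θ] (by simpa using ⟨P, P.comp _⟩) fun g => by
      rw [al0, FY, d.vY _ _ (fun g _ => aY_cj d.u2 θ g) g g.2, d.aY_coeY]; simp)

theorem al0_odd {θ : d.Y →* ℂˣ} (P : Pr θ) {g : N} (o : Odd (orderOf g)) : d.al0 θ g = 0 :=
  d.P_odd (by simp) (fun g _ => aY_cj d.u2 θ g) (by simp) (fun g hg o => aY_odd d.uY P hg o) o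

theorem sum_Y (F : N → ℂ) {b : N → ℂ} (hb : ∀ g ∈ d.Y, Odd (orderOf g) → b g = 0) :
    ∑ g : d.Y, cut (DD d.t) F g * conj (b g) = ∑ g : d.Y, F g * conj (b g) :=
  sum_congr rfl fun g _ => by
    by_cases o : Odd (orderOf (g : N))
    · simp [hb g g.2 o]
    · rw [cut, if_pos ((d.Y_even g.2).2 o)]

theorem lam1 : d.lam ≠ 1 := fun e => by
  have := d.lu
  rw [e] at this
  have := congrArg Units.val this
  simp at this; norm_num at this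

theorem sT1 {μ : N →* ℂˣ} (e : μ ≠ 1) : d.sT μ ≠ 1 := fun e' => e (d.sT_inj e')
theorem sY1 {μ : N →* ℂˣ} (e : μ ≠ 1) : d.sY μ ≠ 1 := fun e' => e (d.sY_inj e')

end ND

namespace SG

variable {d : ND N} {s : d.T →* d.T} (h : SG d s)
include h

theorem tri : Tri d.tT d.uT' s where
  t2 := Subtype.ext d.t2
  u2 := Subtype.ext d.u2
  t1 e := d.t1 (congrArg Subtype.val e)
  u1 e := d.u1 (congrArg Subtype.val e)
  ut e := d.ut (congrArg Subtype.val e)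
  tu := d.abT.is_comm.comm _ _
  inv g e := by simp only [Subtype.ext_iff]; exact d.invT g g.2 (congrArg Subtype.val e)
  bij := Finite.surjective_iff_bijective.1 fun g => ⟨_, h.s3 g⟩
  st := h.st
  su := h.su

theorem sw' (g : d.T) : cjH d.wT (s (s (cjH d.wT g))) = s g := by
  rw [← h.sw, show ∀ g, cjH d.wT (cjH d.wT g) = g from fun g => Subtype.ext (sq_conj d.w2),
    show ∀ g, cjH d.wT (cjH d.wT g) = g from fun g => Subtype.ext (sq_conj d.w2)]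

theorem Sy_s (a : N → ℂ) (g : d.T) : Sy s a (s g) = Sy s a g := by rw [Sy_coe, Sy_coe, h.s3]; ring

theorem Sy_w {a : N → ℂ} (ha : ∀ g ∈ d.T, a (d.w * g * d.w⁻¹) = a g) : ∀ g ∈ d.T, Sy s a (d.w * g * d.w⁻¹) = Sy s a g :=
  fun g hg => by
    have k : ∀ g : d.T, a (cjH d.wT g) = a g := fun g => ha g g.2
    rw [show d.w * g * d.w⁻¹ = cjH d.wT ⟨g, hg⟩ from rfl, Sy_coe, ← k (s _), ← k (s (s _)), h.sw, h.sw', k,
      show Sy s a g = _ from Sy_coe s a ⟨g, hg⟩]; ring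

theorem Sy_odd {k : N → ℂ} (hk : ∀ g ∈ d.T, Odd (orderOf g) → k g = 0) : ∀ g ∈ d.T, Odd (orderOf g) → Sy s k g = 0 :=
  fun g hg o => by
    have o' : Odd (orderOf (⟨g, hg⟩ : d.T)) := by rwa [← orderOf_coe]
    rw [show g = (⟨g, hg⟩ : d.T) from rfl, Sy_coe, hk g hg o, hk _ (s _).2 (by rwa [orderOf_coe, h.tri.ord]),
      hk _ (s _).2 (by rwa [orderOf_coe, h.tri.ord, h.tri.ord])]; ring

theorem Sy_D (a : N → ℂ) {g : d.T} (hD : (g : N) ∈ DD d.t) : Sy s (cut (DD d.t) a) g = a g := by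
  have o : ¬ Odd (orderOf g) := fun o => d.D_odd (by rwa [orderOf_coe]) hD
  have c := h.tri.cases o
  have := (d.DT g).1 hD
  rw [Sy_coe, cut, cut, cut, if_pos hD, if_neg fun e => by have := h.tri.D1.1 ((d.DT _).1 e); tauto,
    if_neg fun e => by have := h.tri.D2.1 ((d.DT _).1 e); tauto]; ring

theorem Sy_cut {a : N → ℂ} (ha : ∀ g : d.T, a (s g) = a g) (ho : ∀ g ∈ d.T, Odd (orderOf g) → a g = 0) (g : d.T) :
    Sy s (cut (DD d.t) a) g = a g := by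
  by_cases o : Odd (orderOf g)
  · rw [ho g g.2 (by rwa [orderOf_coe]), h.Sy_odd (fun g _ o => by simp [cut, d.D_odd o]) g g.2 (by rwa [orderOf_coe])]
  · rcases h.tri.cases o with e | e | e
    · exact h.Sy_D a ((d.DT g).2 e.1)
    · rw [← h.Sy_s, ← h.Sy_s, h.Sy_D a ((d.DT _).2 (h.tri.D2.2 e.2.1)), ha, ha]
    · rw [← h.Sy_s, h.Sy_D a ((d.DT _).2 (h.tri.D1.2 e.2.2)), ha]

theorem sum_T (F : N → ℂ) {k : N → ℂ} (hk : ∀ g ∈ d.T, Odd (orderOf g) → k g = 0) :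
    ∑ g : d.T, cut (DD d.t) F g * conj (Sy s k g) = ∑ g : d.T, Sy s (cut (DD d.t) F) g * conj (k g) := by
  rw [h.tri.sum (fun g => Sy s (cut (DD d.t) F) g * conj (k g)) fun g o => by simp [hk g g.2 (by rwa [orderOf_coe])]]
  refine sum_congr rfl fun g _ => ?_
  simp only [← d.DT, cut]
  split_ifs with hD
  · simp only [h.Sy_s, h.Sy_D F hD, Sy_coe s k, map_add]; ring
  · simp

theorem dot_cut {ξ : N → ℂ} (cf : ξ ∈ CF N) {k b : N → ℂ} (hk : ∀ g ∈ d.T, Odd (orderOf g) → k g = 0)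
    (hb : ∀ g ∈ d.Y, Odd (orderOf g) → b g = 0) (l : List (d.T →* ℂˣ)) (l' : List (d.Y →* ℂˣ)) (m n : ℤ)
    (ek : ∀ g : d.T, k g = m - (l.map fun ν => (ν g : ℂ)).sum) (eb : ∀ g : d.Y, b g = n - (l'.map fun ν => (ν g : ℂ)).sum) :
    ⟪cut (DD d.t) ξ, d.P (Sy s k) b⟫ = (m * co (d.Fs s ξ) (1 : d.T →* ℂˣ) - (l.map (co (d.Fs s ξ))).sum +
      (n * co (d.FY ξ) (1 : d.Y →* ℂˣ) - (l'.map (co (d.FY ξ))).sum)) / 2 := by
  have key : ∀ (A : Subgroup N) (F : N → ℂ) (s : List (A →* ℂˣ)), (Nat.card A : ℂ)⁻¹ *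
      ∑ g : A, F g * conj (s.map fun ν => (ν g : ℂ)).sum = (s.map (co F)).sum := fun A F s => by
    induction s with
    | nil => simp
    | cons a s ih => simp only [List.map_cons, List.sum_cons, map_add, mul_add, sum_add_distrib, ih, co]
  rw [d.dP _ (cut_CF d.D_cj cf), d.Fk_cutD, d.Fk_cutD, h.sum_T _ hk, d.sum_Y _ hb, ← key, ← key]
  simp only [ek, eb, map_sub, mul_sub, sum_sub_distrib, co, map_intCast, ← sum_mul, MonoidHom.one_apply, Units.val_one,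
    map_one, mul_one, ND.Fs]
  have : (Nat.card d.Y : ℂ) ≠ 0 := card_ne_zero
  have : (Nat.card d.T : ℂ) ≠ 0 := card_ne_zero
  field_simp

theorem co_s (F : N → ℂ) (ν : d.T →* ℂˣ) : co (Sy s F) (ν.comp s) = co (Sy s F) ν := by
  rw [co, co, ← Fintype.sum_bijective s h.tri.bij (fun g => Sy s F g * conj (ν.comp s g : ℂ))
    (fun g => Sy s F g * conj (ν g : ℂ)) fun g => by rw [h.Sy_s]; rfl]

theorem co_Fw {ξ : N → ℂ} (cf : ξ ∈ CF N) (ν : d.T →* ℂˣ) : co (d.Fs s ξ) (d.cW ν) = co (d.Fs s ξ) ν :=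
  ND.co_cj d.wT (h.Sy_w fun g _ => by rw [← d.Fk_cutD, d.Fk_cj _ (cut_CF d.D_cj cf)]) ν

theorem dot_al {ξ : N → ℂ} (cf : ξ ∈ CF N) {θ : d.Y →* ℂˣ} (P : Pr θ) :
    ⟪cut (DD d.t) ξ, d.al0 θ⟫ = co (d.FY ξ) (1 : d.Y →* ℂˣ) - co (d.FY ξ) θ := by
  have := h.dot_cut cf (k := 0) (by simp) (fun g hg o => aY_odd d.uY P hg o) [] [θ, d.cU θ] 0 2 (by simp) (d.aY_coeY θ)
  rw [show Sy s 0 = 0 by ext g; simp [Sy]] at this
  rw [ND.al0, this]; simp [d.co_u cf]; ring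

theorem dot_ga {ξ : N → ℂ} (cf : ξ ∈ CF N) {ν : d.T →* ℂˣ} (P : Pr ν) :
    ⟪cut (DD d.t) ξ, d.ga0 s ν⟫ = co (d.Fs s ξ) (1 : d.T →* ℂˣ) - co (d.Fs s ξ) ν := by
  rw [ND.ga0, h.dot_cut cf (b := 0) (fun g hg o => aY_odd d.wT P hg o) (by simp) [ν, d.cW ν] [] 2 0 (d.aY_coeT ν)
    (by simp)]
  simp [h.co_Fw cf]; ring

theorem dot_be {ξ : N → ℂ} (cf : ξ ∈ CF N) {μ : N →* ℂˣ} (P : Pr μ) :
    ⟪cut (DD d.t) ξ, d.be0 s μ⟫ = (co (d.Fs s ξ) (1 : d.T →* ℂˣ) - co (d.Fs s ξ) (d.sT μ) +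
      (co (d.FY ξ) (1 : d.Y →* ℂˣ) - co (d.FY ξ) (d.sY μ))) / 2 := by
  rw [ND.be0, h.dot_cut cf (fun g _ o => kM_odd P o) (fun g _ o => kM_odd P o) [d.sT μ] [d.sY μ] 1 1
    (by simp [kM, ND.sT]) (by simp [kM, ND.sY])]
  simp

theorem cW_s (ν : d.T →* ℂˣ) : (d.cW ν).comp s = d.cW ((ν.comp s).comp s) := by
  ext g; simp only [ND.cW, MonoidHom.comp_apply]; rw [← h.sw' g,
    show ∀ g, cjH d.wT (cjH d.wT g) = g from fun g => Subtype.ext (sq_conj d.w2)]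

theorem cW_ss (ν : d.T →* ℂˣ) : ((d.cW ν).comp s).comp s = d.cW (ν.comp s) := by
  ext g; simp only [ND.cW, MonoidHom.comp_apply]; rw [← h.sw g,
    show ∀ g, cjH d.wT (cjH d.wT g) = g from fun g => Subtype.ext (sq_conj d.w2)]

theorem sss (ν : d.T →* ℂˣ) : ((ν.comp s).comp s).comp s = ν := by ext g; simp [h.s3]

omit h in
theorem Sy_aY (ν : d.T →* ℂˣ) (g : d.T) : Sy s (aY d.w ν) g = (6 : ℤ) - ([ν, d.cW ν, ν.comp s, (d.cW ν).comp s,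
    (ν.comp s).comp s, ((d.cW ν).comp s).comp s].map fun ν => (ν g : ℂ)).sum := by
  simp only [Sy_coe, d.aY_coeT]; simp; ring

omit h in
theorem Sy_kM (μ : N →* ℂˣ) (g : d.T) : Sy s (kM μ) g = (3 : ℤ) - ([d.sT μ, (d.sT μ).comp s,
    ((d.sT μ).comp s).comp s].map fun ν => (ν g : ℂ)).sum := by
  simp only [Sy_coe, kM]; simp [ND.sT]; ring

theorem ga0_ZIrr (ν : d.T →* ℂˣ) : d.ga0 s ν ∈ ZIrr N :=
  mem_ZIrr_of_dot_int (d.cfP _ _) fun ψ hψ => by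
    have cf := IsIrr.mem_CF hψ
    choose f hf using d.intT _ (IsIrr.mem_ZIrr hψ)
    refine ⟨3 * f 1 - f ν - f (ν.comp s) - f ((ν.comp s).comp s), dot_comm_of_int ?_⟩
    rw [ND.ga0, d.dP' cf _ [] 6 0 (Sy_aY ν) (by simp), h.cW_ss, h.cW_s]
    simp only [List.map_cons, List.map_nil, List.sum_cons, List.sum_nil, d.co_w cf, ND.FT, hf]
    push_cast; ring

theorem be0_ZIrr (μ : N →* ℂˣ) : d.be0 s μ ∈ ZIrr N :=
  mem_ZIrr_of_dot_int (d.cfP _ _) fun ψ hψ => by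
    have cf := IsIrr.mem_CF hψ
    choose f hf using d.intT _ (IsIrr.mem_ZIrr hψ)
    obtain ⟨a, ha⟩ := ZIrr.dot_int (IsIrr.mem_ZIrr hψ) (lin_mem_ZIrr μ)
    obtain ⟨b, hb⟩ := ZIrr.dot_int (IsIrr.mem_ZIrr hψ) (lin_mem_ZIrr 1)
    rw [d.dot_lin cf] at ha hb
    refine ⟨b - a + f 1 - f ((d.sT μ).comp s), dot_comm_of_int ?_⟩
    have e := h.cW_ss (d.sT μ)
    rw [d.cW_sT] at e
    rw [ND.be0, d.dP' cf _ [d.sY μ] 3 1 (Sy_kM μ) (by simp [kM, ND.sY]), e]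
    change (co _ (1 : d.T →* ℂˣ) + co _ (1 : d.Y →* ℂˣ)) / 2 = _ at hb
    simp only [List.map_cons, List.map_nil, List.sum_cons, List.sum_nil, d.co_w cf]
    push_cast
    rw [← hf, ← hf, ← ha, ← hb]; ring

theorem ga0_span {ν : d.T →* ℂˣ} (P : Pr ν) : proj (B0 2 N) (d.ga0 s ν) = d.ga0 s ν :=
  d.span (d.cfP _ _) (ND.co_nPr 6 [ν, d.cW ν, ν.comp s, (d.cW ν).comp s, (ν.comp s).comp s, ((d.cW ν).comp s).comp s] (by
      simpa using ⟨P, P.comp _, P.comp _, (P.comp _).comp _, (P.comp _).comp _, ((P.comp _).comp _).comp _⟩) fun g => by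
    rw [ND.ga0, ND.FT, d.vT _ _ (h.Sy_w fun g _ => aY_cj d.w2 ν g) g g.2, Sy_aY]; simp only [Int.cast_ofNat])
    (ND.co_nPr 0 [] (by simp) fun g => (d.vY _ 0 (by simp) g g.2).trans (by simp))

theorem val_be0 (μ : N →* ℂˣ) : (∀ g ∈ d.T, d.FT (d.be0 s μ) g = Sy s (kM μ) g) ∧
    ∀ g ∈ d.Y, d.FY (d.be0 s μ) g = kM μ g :=
  ⟨d.vT _ _ (h.Sy_w fun g _ => kM_cj μ _ g), d.vY _ _ fun g _ => kM_cj μ _ g⟩

theorem be0_span {μ : N →* ℂˣ} (P : Pr μ) : proj (B0 2 N) (d.be0 s μ) = d.be0 s μ :=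
  d.span (d.cfP _ _) (ND.co_nPr 3 [d.sT μ, (d.sT μ).comp s, ((d.sT μ).comp s).comp s] (by
      simpa using ⟨P.comp _, (P.comp _).comp _, ((P.comp _).comp _).comp _⟩) fun g => by
    rw [(h.val_be0 μ).1 g g.2, Sy_kM]; simp only [Int.cast_ofNat])
    (ND.co_nPr 1 [d.sY μ] (by simp only [List.mem_singleton, forall_eq]; exact P.comp _) fun g => by
      rw [(h.val_be0 μ).2 g g.2]; simp [kM, ND.sY])

theorem co_al {θ : d.Y →* ℂˣ} (ν : d.Y →* ℂˣ) : co (d.FY (d.al0 θ)) ν =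
    (if 1 = ν then 2 else 0) - ((if θ = ν then 1 else 0) + if d.cU θ = ν then 1 else 0) := by
  rw [co_lin 2 [θ, d.cU θ] (fun g => by
    rw [ND.al0, ND.FY, d.vY _ _ (fun g _ => aY_cj d.u2 θ g) g g.2, d.aY_coeY]; simp)]
  simp

theorem co_beY (μ : N →* ℂˣ) (ν : d.Y →* ℂˣ) :
    co (d.FY (d.be0 s μ)) ν = (if 1 = ν then 1 else 0) - if d.sY μ = ν then 1 else 0 := by
  rw [co_lin 1 [d.sY μ] (fun g => by rw [(h.val_be0 μ).2 g g.2]; simp [kM, ND.sY])]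
  simp

theorem co_beT {μ : N →* ℂˣ} (P : Pr μ) (ν : d.T →* ℂˣ) : co (d.Fs s (d.be0 s μ)) ν = (if 1 = ν then 3 else 0) -
    ((if d.sT μ = ν then 1 else 0) + ((if (d.sT μ).comp s = ν then 1 else 0) +
      if ((d.sT μ).comp s).comp s = ν then 1 else 0)) := by
  rw [co_lin 3 [d.sT μ, (d.sT μ).comp s, ((d.sT μ).comp s).comp s] (fun g => by
    rw [ND.Fs, h.Sy_cut (fun g => by rw [(h.val_be0 μ).1 _ (s g).2, (h.val_be0 μ).1 _ g.2, h.Sy_s])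
      (fun g hg o => by rw [(h.val_be0 μ).1 g hg, h.Sy_odd (fun g _ o => kM_odd P o) g hg o]),
      (h.val_be0 μ).1 g g.2, Sy_kM]; simp only [Int.cast_ofNat])]
  simp

theorem fpf {ν : d.T →* ℂˣ} (hν : Pr ν) (e : ν.comp s = ν) : ν = 1 := by
  ext g
  obtain ⟨k, hk⟩ := hν.pow g
  have cT : ∀ a b : d.T, a * b = b * a := d.abT.is_comm.comm
  have fx : s (g * s g * s (s g)) = g * s g * s (s g) := by
    rw [map_mul, map_mul, h.s3, cT _ g, mul_assoc]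
  have o : Odd (orderOf (g * s g * s (s g))) := by
    by_contra o
    have a := h.tri.D1 (g := g * s g * s (s g))
    have b := h.tri.D2 (g := g * s g * s (s g))
    rw [fx] at a b
    rw [fx] at b
    have := h.tri.cases o
    tauto
  have e' : ∀ a, ν (s a) = ν a := fun a => DFunLike.congr_fun e a
  have := hν _ o
  rw [map_mul, map_mul, e', e', e'] at this
  simpa using congrArg Units.val (eq_one_of_pow hk (m := 3) (by decide) (by rw [← this]; simp [pow_succ]))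

theorem res_ne {μ : N →* ℂˣ} (μ' : N →* ℂˣ) (hμ : Pr μ) (h1 : μ ≠ 1) :
    (d.sT μ).comp s ≠ d.sT μ' ∧ ((d.sT μ).comp s).comp s ≠ d.sT μ' := by
  have a := h.cW_ss (d.sT μ)
  have b := h.cW_s (d.sT μ)
  rw [d.cW_sT] at a b
  have key : (d.sT μ).comp s ≠ ((d.sT μ).comp s).comp s := fun e =>
    d.sT1 h1 (h.fpf (hμ.comp _) (by rw [← h.sss (d.sT μ), ← e, ← e, ← e]))
  exact ⟨fun e => key (a.trans (by rw [e, d.cW_sT])).symm, fun e => key (b.trans (by rw [e, d.cW_sT]))⟩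

theorem be_be {μ : N →* ℂˣ} (P : Pr μ) (h1 : μ ≠ 1) : ⟪cut (DD d.t) (d.be0 s μ), d.be0 s μ⟫ = 3 ∧
    ⟪cut (DD d.t) (d.be0 s μ), d.ga0 s (d.sT μ)⟫ = 4 := by
  have a := h.res_ne 1 P h1
  have b := h.res_ne μ P h1
  have a1 : (d.sT μ).comp s ≠ 1 := a.1
  have a2 : ((d.sT μ).comp s).comp s ≠ 1 := a.2
  have cf : d.be0 s μ ∈ CF N := d.cfP _ _
  rw [h.dot_be cf P, h.dot_ga cf (ν := d.sT μ) (P.comp _)]
  simp only [h.co_beY, h.co_beT P]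
  simp [(d.sY1 h1).symm, (d.sT1 h1).symm, d.sY1 h1, d.sT1 h1, a1, a2, b.1, b.2]; norm_num

theorem be_al {μ : N →* ℂˣ} (h1 : μ ≠ 1) {θ : d.Y →* ℂˣ} (P : Pr θ) (e : θ ≠ 1) :
    ⟪cut (DD d.t) (d.be0 s μ), d.al0 θ⟫ = 1 + if d.sY μ = θ then 1 else 0 := by
  rw [h.dot_al (ξ := d.be0 s μ) (d.cfP _ _) P]
  simp only [h.co_beY]; simp [e.symm, d.sY1 h1]

theorem al_al {θ θ' : d.Y →* ℂˣ} (P' : Pr θ') (e : θ ≠ 1) (e' : θ' ≠ 1) : ⟪cut (DD d.t) (d.al0 θ), d.al0 θ'⟫ =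
    2 + (if θ = θ' then 1 else 0) + if d.cU θ = θ' then 1 else 0 := by
  rw [h.dot_al (ξ := d.al0 θ) (d.cfP _ _) P']
  simp only [h.co_al]; simp [e, e'.symm, d.cU_eq_one]; ring

end SG

/-- the restriction data of a `±` irreducible character of `G` -/
structure Dat (d : ND N) (s : d.T →* d.T) (ξ : N → ℂ) : Prop where
  z : ξ ∈ ZIrr N
  sp : proj (B0 2 N) ξ = ξ
  ga : ∀ ν, Pr ν → ∃ n : ℤ, ⟪cut (DD d.t) ξ, d.ga0 s ν⟫ = n
  be : ∀ μ, Pr μ → ∃ n : ℤ, ⟪cut (DD d.t) ξ, d.be0 s μ⟫ = n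
  bes : (⟪cut (DD d.t) ξ, ξ⟫).re < 1

namespace Dat

variable {d : ND N} {s : d.T →* d.T} {ξ : N → ℂ} (h : SG d s) (k : Dat d s ξ)
include h k

theorem cf : ξ ∈ CF N := ZIrr.mem_CF k.z

theorem ndT {ν : d.T →* ℂˣ} (P : Pr ν) : ⟪cut (DD d.t) ξ, d.ga0 s ν⟫ = -nd (d.Fs s ξ) ν := by
  have := k.ga ν P
  rw [h.dot_ga (k.cf h) P] at this ⊢
  rw [nd_eq' this]; ring

theorem ndY {θ : d.Y →* ℂˣ} (P : Pr θ) : ⟪cut (DD d.t) ξ, d.al0 θ⟫ = -nd (d.FY ξ) θ := by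
  rw [h.dot_al (k.cf h) P, nd_eq (d.intY _ k.z)]; ring

theorem ndB {μ : N →* ℂˣ} (P : Pr μ) :
    ⟪cut (DD d.t) ξ, d.be0 s μ⟫ = -(nd (d.Fs s ξ) (d.sT μ) + nd (d.FY ξ) (d.sY μ)) / 2 := by
  have a := k.ndT h (ν := d.sT μ) (P.comp _)
  have b := k.ndY h (θ := d.sY μ) (P.comp _)
  rw [h.dot_ga (k.cf h) (ν := d.sT μ) (P.comp _)] at a
  rw [h.dot_al (k.cf h) (θ := d.sY μ) (P.comp _)] at b
  rw [h.dot_be (k.cf h) P]
  linear_combination (a + b) / 2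

theorem par {μ : N →* ℂˣ} (P : Pr μ) : Even (nd (d.Fs s ξ) (d.sT μ) + nd (d.FY ξ) (d.sY μ)) := by
  obtain ⟨n, hn⟩ := k.be μ P
  rw [k.ndB h P] at hn
  exact ⟨-n, Int.cast_injective (α := ℂ) (by push_cast; linear_combination -2 * hn)⟩

theorem nd_s (ν : d.T →* ℂˣ) : nd (d.Fs s ξ) (ν.comp s) = nd (d.Fs s ξ) ν := by rw [nd, nd, ND.Fs, h.co_s]
theorem nd_w (ν : d.T →* ℂˣ) : nd (d.Fs s ξ) (d.cW ν) = nd (d.Fs s ξ) ν := by rw [nd, nd, h.co_Fw (k.cf h)]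
theorem nd_u (ν : d.Y →* ℂˣ) : nd (d.FY ξ) (d.cU ν) = nd (d.FY ξ) ν := by rw [nd, nd, d.co_u (k.cf h)]

theorem data : (∃ c c' : ℝ, ∑ ν ∈ II d.T, ((nd (d.Fs s ξ) ν : ℝ) + c) ^ 2 +
      3 * ∑ ν ∈ II d.Y, ((nd (d.FY ξ) ν : ℝ) + c') ^ 2 < 6) ∧
    d.Val ξ (fun g => ∑ ν ∈ II d.T, nd (d.Fs s ξ) ν * ex ν g) fun g => ∑ ν ∈ II d.Y, nd (d.FY ξ) ν * ex ν g := by
  have cf := k.cf h
  have cc := cut_CF d.D_cj cf
  have sp : proj (B0 2 N) (cut (DD d.t) ξ) = cut (DD d.t) ξ := by rw [proj_cut d.sepD, k.sp]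
  have o0 := h.Sy_odd (k := cut (DD d.t) (d.FT ξ)) fun g _ o => by simp [cut, d.D_odd o]
  have eT : ∀ g ∈ d.T, evn (d.Fs s ξ) g = d.Fs s ξ g := fun g hg => by
    rw [evn]; split_ifs with o; exacts [(o0 g hg o).symm, rfl]
  have eY : ∀ g ∈ d.Y, evn (d.FY ξ) g = d.FY (cut (DD d.t) ξ) g := fun g hg => by
    rw [show d.FY (cut _ ξ) = _ from d.Fk_cutD _ ξ]; simp only [evn, cut, d.Y_even hg, ite_not]
  have cs : ∀ (F : N → ℂ) (ν : d.T →* ℂˣ), (Nat.card d.T : ℂ)⁻¹ * ∑ g : d.T, F (s g) * conj (ν g : ℂ) =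
      co F ((ν.comp s).comp s) := fun F ν => by
    rw [co, ← Fintype.sum_bijective s h.tri.bij _ (fun g => F g * conj ((ν.comp s).comp s g : ℂ)) fun g => rfl]
    simp [h.s3]
  obtain ⟨⟨c, hc⟩, v⟩ := var_eq' d.abT (F := d.Fs s ξ) (fun ν hν => by
    have n1 : ¬ Pr ((ν.comp s).comp s) := fun p => hν (h.sss ν ▸ p.comp s)
    have n2 : ¬ Pr ((((ν.comp s).comp s).comp s).comp s) := fun p => hν (by
      have := (p.comp s).comp s; rwa [h.sss, h.sss] at this)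
    have a1 := d.prT _ cc sp _ hν
    have a2 := d.prT _ cc sp _ n1
    have a3 := d.prT _ cc sp _ n2
    rw [← cs] at a2 a3
    rw [← Fintype.sum_bijective s h.tri.bij _ (fun g => _ * conj ((ν.comp s).comp s g : ℂ)) fun g => rfl] at a3
    rw [co_congr eT, co]
    simp only [ND.Fs, Sy_coe, add_mul, sum_add_distrib, mul_add, ← d.Fk_cutD]
    simp only [MonoidHom.comp_apply, h.s3] at a3
    rw [a2, a3, ← co, a1]; simp) fun ν P => by rw [← h.dot_ga cf P]; exact k.ga ν P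
  obtain ⟨⟨c', hc'⟩, v'⟩ := var_eq d.abY (F := d.FY ξ) (fun ν hν => by rw [co_congr eY, d.prY _ cc sp _ hν])
    (d.intY _ k.z)
  refine ⟨⟨c, c', ?_⟩, fun g hg hD => ?_, fun g hg hD => ?_⟩
  · have b := k.bes
    nth_rewrite 2 [← d.comp ξ cf] at b
    rw [d.dP _ cc] at b
    have e1 : ((nrm (evn (d.Fs s ξ) ∘ d.T.subtype) : ℝ) : ℂ) =
        6 * ((2 * Nat.card d.T : ℂ)⁻¹ * ∑ g : d.T, d.FT (cut (DD d.t) ξ) g * conj (d.FT ξ g)) := by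
      have e := h.sum_T (d.FT ξ) o0
      have : ∀ g : d.T, cut (DD d.t) (d.FT ξ) g * conj (Sy s (Sy s (cut (DD d.t) (d.FT ξ))) g) =
          3 * (d.FT (cut (DD d.t) ξ) g * conj (d.FT ξ g)) := fun g => by
        rw [show d.FT (cut _ ξ) = _ from d.Fk_cutD _ ξ, cut]
        split_ifs with hD
        · simp only [Sy_coe s (Sy s _), h.Sy_s, h.Sy_D _ hD, map_add]; ring
        · simp
      simp only [this, ← mul_sum] at e
      rw [← dot_self, dot_def]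
      simp only [Function.comp, coe_subtype, eT _ (Subtype.prop _)]
      simp only [ND.Fs, ← e]
      have : (Nat.card d.T : ℂ) ≠ 0 := card_ne_zero
      field_simp; ring
    have e2 : ((nrm (evn (d.FY ξ) ∘ d.Y.subtype) : ℝ) : ℂ) =
        2 * ((2 * Nat.card d.Y : ℂ)⁻¹ * ∑ g : d.Y, d.FY (cut (DD d.t) ξ) g * conj (d.FY ξ g)) := by
      have : ∀ g : d.Y, d.FY (cut (DD d.t) ξ) g * conj (d.FY (cut (DD d.t) ξ) g) =
          d.FY (cut (DD d.t) ξ) g * conj (d.FY ξ g) := fun g => by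
        rw [ND.FY, d.Fk_cutD, cut]; split_ifs <;> simp
      rw [← dot_self, dot_def]
      simp only [Function.comp, coe_subtype, eY _ (Subtype.prop _), this]
      have : (Nat.card d.Y : ℂ) ≠ 0 := card_ne_zero
      field_simp
    have f1 := congrArg Complex.re e1
    have f2 := congrArg Complex.re e2
    simp only [Complex.ofReal_re, Complex.re_ofNat, Complex.mul_re (6 : ℂ), Complex.mul_re (2 : ℂ) (_ * _),
      Complex.im_ofNat, zero_mul, sub_zero] at f1 f2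
    rw [Complex.add_re] at b
    linarith
  · have := v ⟨g, hg⟩ fun o => d.D_odd (by rwa [← orderOf_coe] at o) hD
    rw [ND.Fs, h.Sy_D _ hD] at this
    simp only [ex_mem _ hg]; exact this
  · have := v' ⟨g, hg⟩ fun o => d.D_odd (by rwa [← orderOf_coe] at o) hD
    simp only [ex_mem _ hg]; exact this

end Dat

theorem realizeEqns_Abg_B3 : True := by
  have := @CA.Abg.Sy.eq_1.{0}
  have := @CA.Abg.Sy.eq_def.{0}
  have := @CA.Abg.Sy.congr_simp.{0}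
  have := @CA.Abg.kM.eq_1.{0}
  have := @CA.Abg.kM.eq_def.{0}
  have := @CA.Abg.kM.congr_simp.{0}
  have := @CA.Abg.ND.Fs.eq_1.{0}
  have := @CA.Abg.ND.Fs.eq_def.{0}
  have := @CA.Abg.ND.Fs.congr_simp.{0}
  have := @CA.Abg.ND.al0.eq_1.{0}
  have := @CA.Abg.ND.al0.eq_def.{0}
  have := @CA.Abg.ND.al0.congr_simp.{0}
  have := @CA.Abg.ND.be0.eq_1.{0}
  have := @CA.Abg.ND.be0.eq_def.{0}
  have := @CA.Abg.ND.be0.congr_simp.{0}
  have := @CA.Abg.ND.ga0.eq_1.{0}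
  have := @CA.Abg.ND.ga0.eq_def.{0}
  have := @CA.Abg.ND.ga0.congr_simp.{0}
  have := @CA.Abg.ND.Val.eq_1.{0}
  have := @CA.Abg.ND.Val.eq_def.{0}
  have := @CA.Abg.ND.Val.congr_simp.{0}
  trivial

end CA.Abg
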