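import Cfsg.Agent.Abg.B3

/-!
# The possible Fourier coefficients
-/

set_option autoImplicit false
set_option linter.unusedSectionVars false
set_option linter.unusedVariables false

open Cfsg Subgroup CA.Chr CA.Dih CA.Blk CA.Br Finset
open scoped ComplexConjugate Classical

namespace CA.Abg

universe u w

variable {N : Type w} [Group N] [Fintype N]

namespace ND

variable (d : ND N)

theorem cU_ne {θ θ' : d.Y →* ℂˣ} (e : ∃ y y' : d.Y, (y' : N) = d.u * y * d.u⁻¹ ∧ θ y' ≠ θ' y) : d.cU θ ≠ θ' := fun e' => by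
  obtain ⟨y, y', a, b⟩ := e
  exact b (by rw [← e', show y' = cjH d.uY y from Subtype.ext a]; rfl)

theorem ne_one {θ : d.Y →* ℂˣ} (e : d.cU θ ≠ θ) : θ ≠ 1 := fun e' => e (by rw [e']; rfl)

theorem ne_sY {θ : d.Y →* ℂˣ} (e : d.cU θ ≠ θ) (μ : N →* ℂˣ) : d.sY μ ≠ θ ∧ d.sY μ ≠ d.cU θ :=
  ⟨fun e' => e (by rw [← e', d.cU_sY]), fun e' => e (by rw [← d.cU_cU θ, ← e', d.cU_sY, d.cU_sY])⟩

theorem N8 : 8 ≤ (II d.Y).card := by
  have a1 := d.cU_ne d.n1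
  have a2 := d.cU_ne d.n2
  have a3 := d.cU_ne d.n12'
  have a4 : d.θ1 ≠ d.cU d.θ2 := fun e => a3 ((congrArg d.cU e).trans (d.cU_cU _))
  have a5 : d.cU d.θ1 ≠ d.cU d.θ2 := fun e => d.n12 (by rw [← d.cU_cU d.θ1, e, d.cU_cU])
  refine pow_ge (a := 2) (card_II d.Y) (lt_of_lt_of_le ?_ (card_le_card
    (s := {1, d.θ1, d.cU d.θ1, d.θ2, d.cU d.θ2}) fun a ha => mem_II.2 ?_))
  · rw [card_insert_of_notMem, card_insert_of_notMem, card_insert_of_notMem, card_pair a2.symm]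
    · norm_num
    · simp [a3, a5]
    · simp [a1.symm, d.n12, a4]
    · simp [(d.ne_one a1).symm, (d.ne_one a2).symm, eq_comm (a := (1 : d.Y →* ℂˣ)), d.cU_eq_one, d.ne_one a1,
        d.ne_one a2]
  · simp only [mem_insert, mem_singleton] at ha
    rcases ha with rfl | rfl | rfl | rfl | rfl
    exacts [Pr.one, d.P1, d.P1.comp _, d.P2, d.P2.comp _]

theorem cU_t (θ : d.Y →* ℂˣ) : d.cU θ d.tY = θ d.tY := by
  simp only [cU, MonoidHom.comp_apply]; congr 1; exact Subtype.ext (d.tc d.u)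

theorem lam_t : d.lam d.t = 1 := d.linH _ _ d.tH

end ND

namespace SG

variable {d : ND N} {s : d.T →* d.T} (h : SG d s)

/-- `ν^s` -/
def cr (h : SG d s) (ν : d.T →* ℂˣ) : d.T →* ℂˣ := ν.comp s
/-- `ν^(s²)` -/
def cr' (h : SG d s) (ν : d.T →* ℂˣ) : d.T →* ℂˣ := (ν.comp s).comp s
/-- the orbit of `s` -/
noncomputable def Ob (ν : d.T →* ℂˣ) : Finset (d.T →* ℂˣ) := {ν, h.cr ν, h.cr' ν}

include h

theorem cr_cr (ν : d.T →* ℂˣ) : h.cr (h.cr ν) = h.cr' ν := rfl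
theorem cr_cr' (ν : d.T →* ℂˣ) : h.cr (h.cr' ν) = ν := h.sss ν
theorem cr'_cr (ν : d.T →* ℂˣ) : h.cr' (h.cr ν) = ν := by rw [← h.cr_cr, h.cr_cr ν, h.cr_cr']
theorem cr'_cr' (ν : d.T →* ℂˣ) : h.cr' (h.cr' ν) = h.cr ν := by rw [← h.cr_cr, h.cr_cr']

theorem card_Ob {ν : d.T →* ℂˣ} (P : Pr ν) (e : ν ≠ 1) : (h.Ob ν).card = 3 := by
  have a : h.cr ν ≠ ν := fun e' => e (h.fpf P e')
  have b : h.cr' ν ≠ ν := fun e' => a (by conv_lhs => rw [← e', h.cr_cr'])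
  have c : h.cr ν ≠ h.cr' ν := fun e' => b (by rw [← h.cr_cr, e', h.cr_cr'])
  rw [Ob, card_insert_of_notMem (by simp [a.symm, b.symm]), card_pair c]

theorem Ob_mem {ν ν' : d.T →* ℂˣ} (e : ν' ∈ h.Ob ν) : h.Ob ν' = h.Ob ν := by
  simp only [Ob, mem_insert, mem_singleton] at e
  rcases e with rfl | rfl | rfl <;> ext <;> simp only [Ob, mem_insert, mem_singleton, cr_cr, cr_cr', cr'_cr, cr'_cr'] <;>
    tauto

theorem self_Ob (ν : d.T →* ℂˣ) : ν ∈ h.Ob ν := by simp [Ob]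

theorem Ob_disj {ν ν' : d.T →* ℂˣ} (e : ν' ∉ h.Ob ν) : Disjoint (h.Ob ν) (h.Ob ν') :=
  disjoint_left.2 fun a h1 h2 => e (by rw [← h.Ob_mem h1, h.Ob_mem h2]; exact h.self_Ob _)

theorem one_Ob {ν : d.T →* ℂˣ} (e : ν ≠ 1) : 1 ∉ h.Ob ν := fun e' => e (by
  have := h.self_Ob ν
  rw [← h.Ob_mem e'] at this
  simp only [Ob, mem_insert, mem_singleton] at this
  rcases this with a | a | a <;> exact a)

theorem Ob_val {m : (d.T →* ℂˣ) → ℤ} (k : ∀ ν, m (h.cr ν) = m ν) {ν ν' : d.T →* ℂˣ} (P : Pr ν) (e : ν' ∈ h.Ob ν) :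
    Pr ν' ∧ m ν' = m ν := by
  simp only [Ob, mem_insert, mem_singleton] at e
  rcases e with rfl | rfl | rfl
  · exact ⟨P, rfl⟩
  · exact ⟨P.comp _, k _⟩
  · exact ⟨(P.comp _).comp _, by rw [← h.cr_cr, k, k]⟩

theorem lbT {m : (d.T →* ℂˣ) → ℤ} (mr : ∀ ν, m (h.cr ν) = m ν) (m1 : m 1 = 0) (c : ℝ) {ν : d.T →* ℂˣ} (P : Pr ν)
    {e : ℤ} (e0 : 0 < e) (he : e ≤ m ν ^ 2) {a : ℕ} (a0 : 0 < a) (ha : a ≤ ((II d.T).filter fun i => m i = 0).card) :
    (a : ℝ) * 3 * e ≤ (∑ ν ∈ II d.T, ((m ν : ℝ) + c) ^ 2) * (a + 3) := by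
  have ν1 : ν ≠ 1 := fun e' => by rw [e', m1] at he; omega
  simpa using lb (II d.T) m c (K := h.Ob ν) (fun i hi => mem_II.2 (h.Ob_val mr P hi).1) e0
    (fun i hi => by rw [(h.Ob_val mr P hi).2]; exact he) a0 ha (h.card_Ob P ν1).ge

theorem combY {m : (d.T →* ℂˣ) → ℤ} {n : (d.Y →* ℂˣ) → ℤ} {c c' : ℝ}
    (bes : ∑ ν ∈ II d.T, ((m ν : ℝ) + c) ^ 2 + 3 * ∑ ν ∈ II d.Y, ((n ν : ℝ) + c') ^ 2 < 6) (m1 : m 1 = 0) (n1' : n 1 = 0)
    (mr : ∀ ν, m (h.cr ν) = m ν) (nu : ∀ θ, n (d.cU θ) = n θ) (par : ∀ μ, Pr μ → Even (m (d.sT μ) + n (d.sY μ)))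
    (n1 : n d.θ1 = -1) (n2 : n d.θ2 = 0) :
    (∀ ν, Pr ν → m ν = 0) ∧ ∀ θ, Pr θ → θ ≠ d.θ1 → θ ≠ d.cU d.θ1 → n θ = 0 := by
  have LT := @lbT _ _ _ _ _ h m mr m1 c
  have L := CS2.lbn (II d.Y) n c'
  have L' := @lb _ (II d.Y) n c'
  have VT0 : 0 ≤ ∑ ν ∈ II d.T, ((m ν : ℝ) + c) ^ 2 := sum_nonneg fun _ _ => sq_nonneg _
  generalize ∑ ν ∈ II d.T, ((m ν : ℝ) + c) ^ 2 = VT at *
  generalize ∑ ν ∈ II d.Y, ((n ν : ℝ) + c') ^ 2 = VY at *
  have a1 := d.cU_ne d.n1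
  have a2 := d.cU_ne d.n2
  have c3 : ({1, d.θ2, d.cU d.θ2} : Finset _).card = 3 := by
    rw [card_insert_of_notMem (by simp [eq_comm (a := (1 : d.Y →* ℂˣ)), d.cU_eq_one, d.ne_one a2]), card_pair a2.symm]
  have s3 : {1, d.θ2, d.cU d.θ2} ⊆ (II d.Y).filter fun i => n i = 0 := fun a ha => by
    simp only [mem_insert, mem_singleton] at ha
    rcases ha with e | e | e <;> rw [e, mem_filter, mem_II]
    exacts [⟨Pr.one, n1'⟩, ⟨d.P2, n2⟩, ⟨d.P2.comp _, (nu _).trans n2⟩]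
  have z3 := c3.ge.trans (card_le_card s3)
  have s2 : {d.θ1, d.cU d.θ1} ⊆ (II d.Y).filter fun i => ¬ n i = 0 := fun a ha => by
    simp only [mem_insert, mem_singleton] at ha
    rcases ha with e | e <;> rw [e, mem_filter, mem_II]
    exacts [⟨d.P1, by omega⟩, ⟨d.P1.comp _, by rw [nu]; omega⟩]
  have k2 := (card_pair a1.symm).ge.trans (card_le_card s2)
  have N := d.N8
  rw [← card_filter_add_card_filter_not fun i => n i = 0] at N
  have V1 : 3 / 2 ≤ VY := by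
    rcases k2.eq_or_lt with e | e
    · have := L 6 2 (by norm_num) (by omega) k2; push_cast at this; linarith
    · have := L 3 3 (by norm_num) z3 e; push_cast at this; linarith
  have V2 : 3 ≤ ((II d.Y).filter fun i => ¬ n i = 0).card → 15 / 8 ≤ VY := fun k3 => by
    rcases k3.eq_or_lt with e | e
    · have := L 5 3 (by norm_num) (by omega) k3; push_cast at this; linarith
    rcases (show 4 ≤ _ from e).eq_or_lt with e' | e'
    · have := L 4 4 (by norm_num) (by omega) e; push_cast at this; linarith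
    · have := L 3 5 (by norm_num) z3 e'; push_cast at this; linarith
  have z1 : 1 ≤ ((II d.T).filter fun i => m i = 0).card := card_pos.2 ⟨1, mem_filter.2 ⟨mem_II.2 Pr.one, m1⟩⟩
  have lT : Pr (d.sT d.lam) := d.lP.comp _
  have m0 : ∀ ν, Pr ν → m ν = 0 := fun ν P => by
    by_contra e
    have b1 := LT P one_pos (CS2.sq1 e) one_pos z1
    have k : ((II d.Y).filter fun i => ¬ n i = 0).card ≤ 2 := by
      by_contra k; have := V2 (by omega); push_cast at b1; linarith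
    have : n (d.sY d.lam) = 0 := by
      by_contra e
      have : d.sY d.lam ∈ (II d.Y).filter fun i => ¬ n i = 0 := mem_filter.2 ⟨mem_II.2 (d.lP.comp _), e⟩
      rw [← eq_of_subset_of_card_le s2 (by rwa [card_pair a1.symm])] at this
      simp [d.ne_sY a1 d.lam] at this
    have p := par d.lam d.lP
    rw [this, add_zero] at p
    by_cases e0 : m (d.sT d.lam) = 0
    · have := LT P one_pos (CS2.sq1 e) (a := 4) (by norm_num) (by
        have := card_insert_of_notMem (h.one_Ob (d.sT1 d.lam1))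
        rw [h.card_Ob lT (d.sT1 d.lam1)] at this
        refine this.ge.trans (card_le_card fun a ha => ?_)
        rcases mem_insert.1 ha with e | ha
        · exact mem_filter.2 ⟨mem_II.2 (e ▸ Pr.one), e ▸ m1⟩
        · exact mem_filter.2 ⟨mem_II.2 (h.Ob_val mr lT ha).1, (h.Ob_val mr lT ha).2.trans e0⟩)
      push_cast at this; linarith
    · have := LT lT (by norm_num) (CS2.ev4 p e0) one_pos z1
      push_cast at this; linarith
  have nμ : ∀ μ, Pr μ → n (d.sY μ) = 0 := fun μ P => by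
    by_contra e
    have p := par μ P
    rw [m0 (d.sT μ) (P.comp _), zero_add] at p
    have := L' (K := {d.sY μ}) (singleton_subset_iff.2 (mem_II.2 (P.comp _))) (e := 4) (by norm_num)
      (fun i hi => by rw [mem_singleton.1 hi]; exact CS2.ev4 p e) (a := 3) (b := 1) (by norm_num) z3 (by simp)
    push_cast at this; linarith
  refine ⟨m0, fun θ P b1 b2 => ?_⟩
  by_contra e
  by_cases b : d.cU θ = θ
  · obtain ⟨μ, Pμ, rfl⟩ := d.ext_sY P b
    exact e (nμ μ Pμ)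
  have := L 4 4 (by norm_num) (by
    have := card_insert_of_notMem (s := {1, d.θ2, d.cU d.θ2}) (a := d.sY d.lam) (by
      simp [d.ne_sY a2 d.lam, d.sY1 d.lam1])
    rw [c3] at this
    exact this.ge.trans (card_le_card (insert_subset (mem_filter.2 ⟨mem_II.2 (d.lP.comp _), nμ _ d.lP⟩) s3))) (by
    have b3 : d.cU θ ≠ d.θ1 := fun e => b2 ((d.cU_cU _).symm.trans (congrArg d.cU e))
    have b4 : d.cU θ ≠ d.cU d.θ1 := fun e => b1 ((d.cU_cU _).symm.trans ((congrArg d.cU e).trans (d.cU_cU _)))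
    have : ({θ, d.cU θ, d.θ1, d.cU d.θ1} : Finset _).card = 4 := by
      rw [card_insert_of_notMem (by simp [Ne.symm b, b1, b2]), card_insert_of_notMem (by simp [b3, b4]),
        card_pair a1.symm]
    exact this.ge.trans (card_le_card (insert_subset (mem_filter.2 ⟨mem_II.2 P, e⟩)
      (insert_subset (mem_filter.2 ⟨mem_II.2 (P.comp _), by rwa [nu]⟩) s2))))
  push_cast at this; linarith

theorem sT_t : d.sT d.lam d.tT = 1 ∧ d.sT d.lam d.uT' = -1 ∧ h.cr (d.sT d.lam) d.tT = -1 ∧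
    h.cr (d.sT d.lam) d.uT' = -1 ∧ h.cr' (d.sT d.lam) d.tT = -1 ∧ h.cr' (d.sT d.lam) d.uT' = 1 := by
  have a : d.sT d.lam d.tT = 1 := d.lam_t
  have b : d.sT d.lam d.uT' = -1 := d.lu
  simp only [cr, cr', MonoidHom.comp_apply, h.st, h.su, h.tri.sv, map_mul, a, b]; simp

theorem sd_cases (hs : ∀ g ∈ d.T, Odd (orderOf g) ∨ Odd (orderOf (d.t * g)) ∨ Odd (orderOf (d.u * g)) ∨
    Odd (orderOf (d.t * d.u * g))) {ν : d.T →* ℂˣ} (P : Pr ν) : ν = 1 ∨ ν ∈ h.Ob (d.sT d.lam) := by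
  have ext : ∀ a b : d.T →* ℂˣ, Pr a → Pr b → a d.tT = b d.tT → a d.uT' = b d.uT' → a = b := by
    intro a b Pa Pb e1 e2
    refine MonoidHom.ext fun g => ?_
    have key : ∀ i : d.T, a i = b i → Odd (orderOf ((i : N) * g)) → a g = b g := fun i e o => by
      have o' : Odd (orderOf (i * g)) := by rwa [← orderOf_coe]
      have := (Pa _ o').trans (Pb _ o').symm
      rwa [map_mul, map_mul, e, mul_left_cancel_iff] at this
    rcases hs g g.2 with o | o | o | o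
    · exact key 1 (by simp) (by simpa using o)
    · exact key _ e1 o
    · exact key _ e2 o
    · exact key (d.tT * d.uT') (by rw [map_mul, map_mul, e1, e2]) o
  have sg : ∀ i : d.T, (i : N) * i = 1 → ν i = 1 ∨ ν i = -1 := fun i e => by
    have : ν i * ν i = 1 := by rw [← map_mul, show i * i = 1 from Subtype.ext e, map_one]
    exact (mul_self_eq_one_iff.1 (congrArg Units.val this)).imp (fun e => Units.ext e) fun e => Units.ext e
  have lT : Pr (d.sT d.lam) := d.lP.comp _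
  obtain ⟨a1, a2, a3, a4, a5, a6⟩ := h.sT_t
  simp only [Ob, mem_insert, mem_singleton]
  rcases sg d.tT d.t2 with e1 | e1 <;> rcases sg d.uT' d.u2 with e2 | e2
  · exact Or.inl (ext _ _ P Pr.one e1 e2)
  · exact Or.inr (Or.inl (ext _ _ P lT (e1.trans a1.symm) (e2.trans a2.symm)))
  · exact Or.inr (Or.inr (Or.inr (ext _ _ P ((lT.comp _).comp _) (e1.trans a5.symm) (e2.trans a6.symm))))
  · exact Or.inr (Or.inr (Or.inl (ext _ _ P (lT.comp _) (e1.trans a3.symm) (e2.trans a4.symm))))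

theorem sT_Ob {μ μ' : N →* ℂˣ} (P : Pr μ) (e1 : μ ≠ 1) (e : μ' ≠ μ) : d.sT μ' ∉ h.Ob (d.sT μ) := by
  have a := h.res_ne μ' P e1
  simp only [Ob, mem_insert, mem_singleton, not_or]
  exact ⟨fun e' => e (d.sT_inj e'), a.1.symm, a.2.symm⟩

theorem combT {m : (d.T →* ℂˣ) → ℤ} {c : ℝ} (bes : ∑ ν ∈ II d.T, ((m ν : ℝ) + c) ^ 2 < 27 / 8) (m1 : m 1 = 0)
    (mr : ∀ ν, m (h.cr ν) = m ν) (par : ∀ μ, Pr μ → μ ≠ d.lam → Even (m (d.sT μ))) (ml : m (d.sT d.lam) = -1)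
    {ν : d.T →* ℂˣ} (P : Pr ν) (hν : ν ∉ h.Ob (d.sT d.lam)) : m ν = 0 := by
  rcases d.cas with l2 | hs
  swap
  · rw [(h.sd_cases hs P).resolve_right hν, m1]
  have L := CS2.lbn (II d.T) m c
  have L' := lev (II d.T) m c
  generalize ∑ ν ∈ II d.T, ((m ν : ℝ) + c) ^ 2 = VT at *
  have lT : Pr (d.sT d.lam) := d.lP.comp _
  have sub : ∀ ν, Pr ν → ∀ (p : ℤ → Prop) [DecidablePred p], p (m ν) → h.Ob ν ⊆ (II d.T).filter fun i => p (m i) :=
    fun ν P p _ e a ha =>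
    mem_filter.2 ⟨mem_II.2 (h.Ob_val mr P ha).1, (h.Ob_val mr P ha).2 ▸ e⟩
  have mμ : ∀ μ, Pr μ → μ ≠ 1 → μ ≠ d.lam → m (d.sT μ) = 0 := fun μ Pμ b1 b2 => by
    by_contra e
    obtain ⟨k, hk⟩ := par μ Pμ b2
    have := L' {0, -1, m (d.sT μ)}
    rw [sum_insert (by simp; omega), sum_pair (by omega)] at this
    have z1 : (1 : ℝ) ≤ ((II d.T).filter fun i => m i = 0).card := by
      exact_mod_cast card_pos.2 ⟨1, mem_filter.2 ⟨mem_II.2 Pr.one, m1⟩⟩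
    have z2 : (3 : ℝ) ≤ ((II d.T).filter fun i => m i = -1).card := by
      exact_mod_cast (h.card_Ob lT (d.sT1 d.lam1)).ge.trans (card_le_card (sub _ lT (· = -1) ml))
    have z3 : (3 : ℝ) ≤ ((II d.T).filter fun i => m i = m (d.sT μ)).card := by
      exact_mod_cast (h.card_Ob (ν := d.sT μ) (Pμ.comp _) (d.sT1 b1)).ge.trans
        (card_le_card (sub (d.sT μ) (Pμ.comp _) (· = _) rfl))
    have : (24 : ℤ) ≤ 3 + 3 * m (d.sT μ) ^ 2 + 9 * (m (d.sT μ) + 1) ^ 2 := by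
      rcases (show 2 ≤ m (d.sT μ) ∨ m (d.sT μ) ≤ -2 by omega) with a | a <;> nlinarith
    have : (24 : ℝ) ≤ 3 + 3 * (m (d.sT μ) : ℝ) ^ 2 + 9 * ((m (d.sT μ) : ℝ) + 1) ^ 2 := by exact_mod_cast this
    push_cast at *
    generalize (m (d.sT μ) : ℝ) = a at *
    nlinarith [sq_nonneg (7 * c + 3 * (a - 1)), mul_le_mul_of_nonneg_right z1 (sq_nonneg (0 + c)),
      mul_le_mul_of_nonneg_right z2 (sq_nonneg (-1 + c)), mul_le_mul_of_nonneg_right z3 (sq_nonneg (a + c))]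
  have l1 := d.lam1
  have b1 : d.lam⁻¹ ≠ 1 := by simpa using l1
  have b2 : d.lam⁻¹ ≠ d.lam := fun e => l2 (by nth_rw 1 [← e]; simp)
  have b3 : d.lam * d.lam ≠ d.lam := by simpa using l1
  have b4 : d.lam⁻¹ ≠ d.lam * d.lam := fun e => l1 (MonoidHom.ext fun g => by
    obtain ⟨k, hk⟩ := d.lP.pow g
    refine eq_one_of_pow hk (m := 3) (by decide) ?_
    have := DFunLike.congr_fun e g
    simp only [MonoidHom.inv_apply, MonoidHom.mul_apply] at this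
    rw [pow_succ, sq, ← this, inv_mul_cancel])
  have P2 := d.lP.mul d.lP
  have P3 := d.lP.inv
  have z7 : 7 ≤ ((II d.T).filter fun i => m i = 0).card := by
    have := card_insert_of_notMem (a := 1) (s := h.Ob (d.sT (d.lam * d.lam)) ∪ h.Ob (d.sT d.lam⁻¹)) (by
      simp [h.one_Ob (d.sT1 l2), h.one_Ob (d.sT1 b1)])
    rw [card_union_of_disjoint (h.Ob_disj (h.sT_Ob P2 l2 b4)), h.card_Ob (ν := d.sT _) (P2.comp _) (d.sT1 l2),
      h.card_Ob (ν := d.sT _) (P3.comp _) (d.sT1 b1)] at this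
    exact this.ge.trans (card_le_card (insert_subset (mem_filter.2 ⟨mem_II.2 Pr.one, m1⟩)
      (union_subset (sub _ (P2.comp _) (· = 0) (mμ _ P2 l2 b3)) (sub _ (P3.comp _) (· = 0) (mμ _ P3 b1 b2)))))
  by_contra e
  have k6 : 6 ≤ ((II d.T).filter fun i => ¬ m i = 0).card := by
    have := card_union_of_disjoint (h.Ob_disj hν)
    rw [h.card_Ob lT (d.sT1 l1), h.card_Ob P fun e' => e (e' ▸ m1)] at this
    exact this.ge.trans (card_le_card (union_subset (sub _ lT (¬ · = 0) (by omega)) (sub _ P (¬ · = 0) e)))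
  have N := pow_ge (a := 3) (card_II d.T) (by
    rw [← card_filter_add_card_filter_not fun i => m i = 0]; omega)
  rw [← card_filter_add_card_filter_not fun i => m i = 0] at N
  rcases k6.eq_or_lt with e | e
  · have := L 10 6 (by norm_num) (by omega) k6; push_cast at this; linarith
  · have := L 7 7 (by norm_num) z7 e; push_cast at this; linarith

theorem combX {m : (d.T →* ℂˣ) → ℤ} {c : ℝ} (bes : ∑ ν ∈ II d.T, ((m ν : ℝ) + c) ^ 2 < 27 / 8) (m1 : m 1 = 0)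
    (mr : ∀ ν, m (h.cr ν) = m ν) (mw : ∀ ν, m (d.cW ν) = m ν) (par : ∀ μ, Pr μ → μ ≠ 1 → Odd (m (d.sT μ))) :
    ∃ ε : ℤ, (ε = 1 ∨ ε = -1) ∧ ∀ ν, Pr ν → ν ≠ 1 → m ν = ε := by
  have lT : Pr (d.sT d.lam) := d.lP.comp _
  have l1 := d.lam1
  have hε : m (d.sT d.lam) = 1 ∨ m (d.sT d.lam) = -1 := by
    by_contra e
    obtain ⟨k, hk⟩ := par _ d.lP l1
    have := h.lbT mr m1 c lT (e := 9) (by norm_num) (by
      rcases (show 3 ≤ m (d.sT d.lam) ∨ m (d.sT d.lam) ≤ -3 by omega) with a | a <;> nlinarith) one_pos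
      (card_pos.2 ⟨1, mem_filter.2 ⟨mem_II.2 Pr.one, m1⟩⟩)
    push_cast at this; linarith
  refine ⟨_, hε, fun ν P ν1 => ?_⟩
  rcases d.cas with l2 | hs
  swap
  · exact (h.Ob_val mr lT ((h.sd_cases hs P).resolve_left ν1)).2
  generalize hm : m (d.sT d.lam) = ε at *
  have L := CS2.lbn (II d.T) (fun i => m i - ε) (c + ε)
  have L' := lev (II d.T) m c
  simp only [Int.cast_sub] at L
  rw [show ∑ ν ∈ II d.T, ((m ν : ℝ) - ε + (c + ε)) ^ 2 = ∑ ν ∈ II d.T, ((m ν : ℝ) + c) ^ 2 from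
    sum_congr rfl fun _ _ => by ring] at L
  generalize ∑ ν ∈ II d.T, ((m ν : ℝ) + c) ^ 2 = VT at *
  have sub : ∀ ν, Pr ν → ∀ (p : ℤ → Prop) [DecidablePred p], p (m ν) → h.Ob ν ⊆ (II d.T).filter fun i => p (m i) :=
    fun ν P p _ e a ha => mem_filter.2 ⟨mem_II.2 (h.Ob_val mr P ha).1, (h.Ob_val mr P ha).2 ▸ e⟩
  have mμ : ∀ μ, Pr μ → μ ≠ 1 → m (d.sT μ) = ε := fun μ Pμ b1 => by
    by_contra e
    obtain ⟨k, hk⟩ := par μ Pμ b1
    have := L' {0, ε, m (d.sT μ)}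
    rw [sum_insert (by simp; omega), sum_pair (by omega)] at this
    have z1 : (1 : ℝ) ≤ ((II d.T).filter fun i => m i = 0).card := by
      exact_mod_cast card_pos.2 ⟨1, mem_filter.2 ⟨mem_II.2 Pr.one, m1⟩⟩
    have z2 : (3 : ℝ) ≤ ((II d.T).filter fun i => m i = ε).card := by
      exact_mod_cast (h.card_Ob lT (d.sT1 l1)).ge.trans (card_le_card (sub _ lT (· = ε) hm))
    have z3 : (3 : ℝ) ≤ ((II d.T).filter fun i => m i = m (d.sT μ)).card := by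
      exact_mod_cast (h.card_Ob (ν := d.sT μ) (Pμ.comp _) (d.sT1 b1)).ge.trans
        (card_le_card (sub (d.sT μ) (Pμ.comp _) (· = _) rfl))
    have : (24 : ℤ) ≤ 3 * ε ^ 2 + 3 * m (d.sT μ) ^ 2 + 9 * (m (d.sT μ) - ε) ^ 2 := by
      rcases hε with rfl | rfl
      · rcases (show 3 ≤ m (d.sT μ) ∨ m (d.sT μ) ≤ -1 by omega) with a | a <;> nlinarith
      · rcases (show 1 ≤ m (d.sT μ) ∨ m (d.sT μ) ≤ -3 by omega) with a | a <;> nlinarith
    have : (24 : ℝ) ≤ 3 * (ε : ℝ) ^ 2 + 3 * (m (d.sT μ) : ℝ) ^ 2 + 9 * ((m (d.sT μ) : ℝ) - ε) ^ 2 := by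
      exact_mod_cast this
    push_cast at *
    generalize (m (d.sT μ) : ℝ) = a at *
    generalize (ε : ℝ) = b at *
    nlinarith [sq_nonneg (7 * c + 3 * (a + b)), mul_le_mul_of_nonneg_right z1 (sq_nonneg (0 + c)),
      mul_le_mul_of_nonneg_right z2 (sq_nonneg (b + c)), mul_le_mul_of_nonneg_right z3 (sq_nonneg (a + c))]
  have b1 : d.lam⁻¹ ≠ 1 := by simpa using l1
  have b2 : d.lam⁻¹ ≠ d.lam := fun e => l2 (by nth_rw 1 [← e]; simp)
  have b3 : d.lam * d.lam ≠ d.lam := by simpa using l1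
  have b4 : d.lam⁻¹ ≠ d.lam * d.lam := fun e => l1 (MonoidHom.ext fun g => by
    obtain ⟨k, hk⟩ := d.lP.pow g
    refine eq_one_of_pow hk (m := 3) (by decide) ?_
    have := DFunLike.congr_fun e g
    simp only [MonoidHom.inv_apply, MonoidHom.mul_apply] at this
    rw [pow_succ, sq, ← this, inv_mul_cancel])
  have P2 := d.lP.mul d.lP
  have P3 := d.lP.inv
  have z9 : 9 ≤ ((II d.T).filter fun i => m i - ε = 0).card := by
    have := card_union_of_disjoint (s := h.Ob (d.sT d.lam)) (t := h.Ob (d.sT (d.lam * d.lam)) ∪ h.Ob (d.sT d.lam⁻¹))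
      (disjoint_union_right.2 ⟨h.Ob_disj (h.sT_Ob d.lP l1 b3), h.Ob_disj (h.sT_Ob d.lP l1 b2)⟩)
    rw [card_union_of_disjoint (h.Ob_disj (h.sT_Ob P2 l2 b4)), h.card_Ob (ν := d.sT _) (P2.comp _) (d.sT1 l2),
      h.card_Ob (ν := d.sT _) (P3.comp _) (d.sT1 b1), h.card_Ob lT (d.sT1 l1)] at this
    exact this.ge.trans (card_le_card (union_subset (sub _ lT (· - ε = 0) (by omega))
      (union_subset (sub _ (P2.comp _) (· - ε = 0) (sub_eq_zero.2 (mμ _ P2 l2)))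
        (sub _ (P3.comp _) (· - ε = 0) (sub_eq_zero.2 (mμ _ P3 b1))))))
  by_contra e
  have nf : ∀ ν' ∈ h.Ob ν, d.cW ν' ≠ ν' := fun ν' k f => by
    obtain ⟨μ, Pμ, rfl⟩ := d.ext_sT (h.Ob_val mr P k).1 f
    exact e ((h.Ob_val mr P k).2.symm.trans (mμ μ Pμ fun e => h.one_Ob ν1 (by rw [e] at k; exact k)))
  have nw : d.cW ν ∉ h.Ob ν := fun k => by
    simp only [Ob, mem_insert, mem_singleton] at k
    rcases k with k | k | k
    · exact nf ν (h.self_Ob ν) k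
    · exact nf (h.cr' ν) (by simp [Ob]) ((h.cW_s ν).symm.trans (by rw [k]; rfl))
    · exact nf (h.cr ν) (by simp [Ob]) ((h.cW_ss ν).symm.trans (by rw [k]; exact h.cr'_cr' ν))
  have w1 : d.cW ν ≠ 1 := fun k => ν1 (by rw [← d.cW_cW ν, k]; rfl)
  have k7 : 7 ≤ ((II d.T).filter fun i => ¬ m i - ε = 0).card := by
    have := card_insert_of_notMem (a := 1) (s := h.Ob ν ∪ h.Ob (d.cW ν)) (by simp [h.one_Ob ν1, h.one_Ob w1])
    rw [card_union_of_disjoint (h.Ob_disj nw), h.card_Ob P ν1, h.card_Ob (ν := d.cW ν) (P.comp _) w1] at this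
    exact this.ge.trans (card_le_card (insert_subset (mem_filter.2 ⟨mem_II.2 Pr.one, by omega⟩)
      (union_subset (sub _ P (¬ · - ε = 0) (by omega)) (sub _ (P.comp _) (¬ · - ε = 0) (by rw [← ND.cW, mw]; omega)))))
  have := L 9 7 (by norm_num) z9 k7; push_cast at this; linarith

omit h in
theorem recon' {A : Subgroup N} (cA : IsMulCommutative A) {n : (A →* ℂˣ) → ℤ} {ε : ℤ} (n1 : n 1 = 0)
    (hn : ∀ ν, Pr ν → ν ≠ 1 → n ν = ε) {g : N} (hg : g ∈ A) (o : ¬ Odd (orderOf g)) :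
    ∑ ν ∈ II A, n ν * ex ν g = -ε := by
  have := sum_II cA (g := ⟨g, hg⟩) (by rwa [← orderOf_coe])
  rw [← add_sum_erase _ _ (mem_II.2 Pr.one)] at this ⊢
  rw [sum_congr rfl fun ν k => by rw [hn ν (mem_II.1 (mem_erase.1 k).2) (mem_erase.1 k).1, ex_mem ν hg], ← mul_sum, n1]
  simp only [MonoidHom.one_apply, Units.val_one] at this
  rw [eq_neg_of_add_eq_zero_right this]; simp

omit h in
theorem recon2 {A : Subgroup N} {n : (A →* ℂˣ) → ℤ} {S : Finset (A →* ℂˣ)} (hS : ∀ ν ∈ S, Pr ν ∧ n ν = -1)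
    (hn : ∀ ν, Pr ν → ν ∉ S → n ν = 0) {g : N} (hg : g ∈ A) : ∑ ν ∈ II A, n ν * ex ν g = -∑ ν ∈ S, ex ν g := by
  simp only [ex_mem _ hg]; exact recon hS hn _

end SG

namespace Dat

variable {d : ND N} {s : d.T →* d.T} {ξ : N → ℂ} (h : SG d s) (k : Dat d s ξ)
include h k

theorem detY (n1 : nd (d.FY ξ) d.θ1 = -1) (n2 : nd (d.FY ξ) d.θ2 = 0) : (∀ ν : d.T →* ℂˣ, Pr ν → nd (d.Fs s ξ) ν = 0) ∧
    (∀ θ, Pr θ → θ ≠ d.θ1 → θ ≠ d.cU d.θ1 → nd (d.FY ξ) θ = 0) ∧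
    d.Val ξ 0 (-(ex d.θ1 + ex (d.cU d.θ1))) := by
  obtain ⟨⟨c, c', bes⟩, val⟩ := k.data h
  obtain ⟨m0, n0⟩ := h.combY bes (nd_one _ _) (nd_one _ _) (k.nd_s h) (k.nd_u h) (fun μ P => k.par h P) n1 n2
  refine ⟨m0, n0, val.congr rfl (fun g hg _ => ?_) fun g hg _ => ?_⟩
  · simpa using SG.recon2 (S := ∅) (by simp) (fun ν P _ => m0 ν P) hg
  · rw [SG.recon2 (S := {d.θ1, d.cU d.θ1}) (fun ν hν => by
      simp only [mem_insert, mem_singleton] at hν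
      rcases hν with e | e <;> rw [e]
      exacts [⟨d.P1, n1⟩, ⟨d.P1.comp _, (k.nd_u h _).trans n1⟩]) (fun ν P hν => by
        simp only [mem_insert, mem_singleton, not_or] at hν
        exact n0 ν P hν.1 hν.2) hg, sum_pair (d.cU_ne d.n1).symm]; rfl

theorem varY {S : Finset (d.Y →* ℂˣ)} {a : ℤ} {θ : d.Y →* ℂˣ} (P : Pr θ) (e1 : nd (d.FY ξ) θ ≠ a)
    (e : ∀ θ', Pr θ' → θ' ≠ θ → nd (d.FY ξ) θ' = a) : ∃ c : ℝ, ∑ ν ∈ II d.T, ((nd (d.Fs s ξ) ν : ℝ) + c) ^ 2 < 27 / 8 := by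
  obtain ⟨⟨c, c', bes⟩, -⟩ := k.data h
  have V1 := lb (II d.Y) (fun i => nd (d.FY ξ) i - a) (c' + a) (K := {θ}) (singleton_subset_iff.2 (mem_II.2 P)) one_pos
    (fun i hi => by rw [mem_singleton.1 hi]; exact CS2.sq1 (sub_ne_zero.2 e1)) (a := 7) (b := 1) (by norm_num) (by
      have := card_le_card (s := (II d.Y).erase θ) (t := (II d.Y).filter fun i => nd (d.FY ξ) i - a = 0)
        fun i hi => mem_filter.2 ⟨(mem_erase.1 hi).2, sub_eq_zero.2 (e i (mem_II.1 (mem_erase.1 hi).2) (mem_erase.1 hi).1)⟩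
      rw [card_erase_of_mem (mem_II.2 P)] at this
      have := d.N8; omega) (by simp)
  rw [show ∑ ν ∈ II d.Y, (((nd (d.FY ξ) ν - a : ℤ) : ℝ) + (c' + a)) ^ 2 = ∑ ν ∈ II d.Y, ((nd (d.FY ξ) ν : ℝ) + c') ^ 2 from
    sum_congr rfl fun _ _ => by push_cast; ring] at V1
  exact ⟨c, by push_cast at V1; linarith⟩

theorem detX (n : ∀ θ : d.Y →* ℂˣ, Pr θ → θ ≠ 1 → nd (d.FY ξ) θ = -1) : ∃ ε : ℤ, (ε = 1 ∨ ε = -1) ∧
    (∀ ν : d.T →* ℂˣ, Pr ν → ν ≠ 1 → nd (d.Fs s ξ) ν = ε) ∧ d.Val ξ (fun _ => -ε) 1 := by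
  obtain ⟨c, bes⟩ := k.varY h (S := ∅) (a := -1) Pr.one (by rw [nd_one]; norm_num) n
  obtain ⟨ε, hε, m⟩ := h.combX bes (nd_one _ _) (k.nd_s h) (k.nd_w h) fun μ P e => by
    have := k.par h P
    rw [n (d.sY μ) (P.comp _) (d.sY1 e)] at this
    exact Int.not_even_iff_odd.1 fun o => by simpa using (Int.even_add.1 this).1 o
  refine ⟨ε, hε, m, (k.data h).2.congr rfl (fun g hg hD => SG.recon' d.abT (nd_one _ _) m hg fun o => d.D_odd o hD)
    fun g hg hD => by simpa using SG.recon' d.abY (nd_one _ _) n hg fun o => d.D_odd o hD⟩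

theorem detB {ξ' : N → ℂ} (k' : Dat d s ξ') (add : nd (d.Fs s ξ') (d.sT d.lam) + nd (d.Fs s ξ) (d.sT d.lam) = -3)
    (n1 : nd (d.FY ξ) (d.sY d.lam) = -1) (n0 : ∀ θ, Pr θ → θ ≠ d.sY d.lam → nd (d.FY ξ) θ = 0) :
    d.Val ξ (Sy s (kM d.lam) - 3) (kM d.lam - 1) := by
  obtain ⟨⟨b, b', bes'⟩, -⟩ := k'.data h
  have lT : Pr (d.sT d.lam) := d.lP.comp _
  have lY : Pr (d.sY d.lam) := d.lP.comp _
  obtain ⟨a, bes2⟩ := k.varY h (S := ∅) (a := 0) lY (by omega) n0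
  have z1 : ∀ F : N → ℂ, 1 ≤ ((II d.T).filter fun i => nd F i = 0).card := fun F =>
    card_pos.2 ⟨1, mem_filter.2 ⟨mem_II.2 Pr.one, nd_one _ _⟩⟩
  have p := k.par h d.lP
  rw [n1] at p
  obtain ⟨j, hj⟩ := p
  have V0 : 0 ≤ ∑ ν ∈ II d.Y, ((nd (d.FY ξ') ν : ℝ) + b') ^ 2 := sum_nonneg fun _ _ => sq_nonneg _
  have ml : nd (d.Fs s ξ) (d.sT d.lam) = -1 := by
    by_contra e
    by_cases e' : nd (d.Fs s ξ) (d.sT d.lam) = 1
    · have := h.lbT (k'.nd_s h) (nd_one _ _) b lT (e := 16) (by norm_num) (by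
        rw [show nd (d.Fs s ξ') (d.sT d.lam) = -4 by omega]; norm_num) one_pos (z1 _)
      push_cast at this; linarith
    · have := h.lbT (k.nd_s h) (nd_one _ _) a lT (e := 9) (by norm_num) (by
        rcases (show 3 ≤ nd (d.Fs s ξ) (d.sT d.lam) ∨ nd (d.Fs s ξ) (d.sT d.lam) ≤ -3 by omega) with a | a <;>
          nlinarith) one_pos (z1 _)
      push_cast at this; linarith
  have m0 := @SG.combT _ _ _ _ _ h _ _ bes2 (nd_one _ _) (k.nd_s h) (fun μ P e => by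
    have := k.par h P
    rwa [n0 (d.sY μ) (P.comp _) fun e' => e (d.sY_inj e'), add_zero] at this) ml
  have b := h.res_ne d.lam d.lP d.lam1
  have b1 : h.cr (d.sT d.lam) ≠ d.sT d.lam := b.1
  have b2 : h.cr' (d.sT d.lam) ≠ d.sT d.lam := b.2
  have b3 : h.cr (d.sT d.lam) ≠ h.cr' (d.sT d.lam) := fun e => b2 (by rw [← h.cr_cr, e, h.cr_cr'])
  refine (k.data h).2.congr rfl (fun g hg _ => ?_) fun g hg _ => ?_
  · rw [SG.recon2 (S := h.Ob (d.sT d.lam)) (fun ν hν => ⟨(h.Ob_val (k.nd_s h) lT hν).1,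
      (h.Ob_val (k.nd_s h) lT hν).2.trans ml⟩) (fun ν P hν => m0 P hν) hg, SG.Ob,
      sum_insert (by simp [b1.symm, b2.symm]), sum_pair b3, Pi.sub_apply, show Sy s _ g = _ from SG.Sy_kM _ ⟨g, hg⟩]
    simp [ex_mem _ hg, SG.cr, SG.cr']
  · rw [SG.recon2 (S := {d.sY d.lam}) (fun ν hν => by rw [mem_singleton.1 hν]; exact ⟨lY, n1⟩)
      (fun ν P hν => n0 ν P (by simpa using hν)) hg]
    simp [ex_mem _ hg, kM, ND.sY]

end Dat

theorem realizeEqns_Abg_B4 : True := by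
  have := @CA.Abg.SG.cr'.eq_1.{0}
  have := @CA.Abg.SG.cr'.eq_def.{0}
  have := @CA.Abg.SG.cr'.congr_simp.{0}
  have := @CA.Abg.SG.Ob.eq_1.{0}
  have := @CA.Abg.SG.Ob.eq_def.{0}
  have := @CA.Abg.SG.Ob.congr_simp.{0}
  have := @CA.Abg.SG.cr.eq_1.{0}
  have := @CA.Abg.SG.cr.eq_def.{0}
  have := @CA.Abg.SG.cr.congr_simp.{0}
  trivial

end CA.Abg
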