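import Cfsg.Agent.Abg.B4

/-!
# Transfer between `G` and `N`
-/

set_option autoImplicit false
set_option linter.unusedSectionVars false
set_option linter.unusedVariables false

open Cfsg Subgroup CA.Chr CA.Dih CA.Blk CA.Br CA.FG Finset
open scoped ComplexConjugate Classical

namespace CA.Abg

universe u v w

section general

variable {G : Type u} {A : Type v} [Group G] [Fintype G] [Group A] [Fintype A]

theorem DD_cj {i : A} (hc : ∀ c, c * i * c⁻¹ = i) (g c : A) (h : g ∈ DD i) : c * g * c⁻¹ ∈ DD i := by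
  have := mem_zpowers_conj' (c := c) h
  rwa [hc] at this

theorem ind_D {f : A →* G} (hf : Function.Injective f) {i : A} (i2 : i * i = 1) (i1 : i ≠ 1)
    (hc : ∀ c, c * i * c⁻¹ = i) (hr : ∀ x, x * f i * x⁻¹ = f i → x ∈ f.range) {θ : A → ℂ} (hθ : θ ∈ CF A) {a : A}
    (ha : a ∈ DD i) : ind f (cut (DD i) θ) (f a) = θ a := by
  rw [ind_apply_TI hf (cut_CF (DD_cj hc) hθ) a fun x b hb e => ?_, cut, if_pos ha]
  have hb' : i ∈ zpowers b := by by_contra k; exact hb (if_neg k)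
  have h1 := mem_zpowers_conj' (c := x) ((mem_zpowers_inj hf).2 hb')
  rw [e, show x * (x⁻¹ * f a * x) * x⁻¹ = f a by group] at h1
  have f2 : f i * f i = 1 := by rw [← map_mul, i2, map_one]
  have f1 : f i ≠ 1 := fun k => i1 (hf (k.trans (map_one f).symm))
  exact hr x (inv_unique h1 ((mem_zpowers_inj hf).2 ha) (by
    rw [show x * f i * x⁻¹ * (x * f i * x⁻¹) = x * (f i * f i) * x⁻¹ by group, f2]; group)
    (by rwa [Ne, conj_eq_one_iff]) f2 f1)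

theorem ind_nD {f : A →* G} (hf : Function.Injective f) {i : A} (θ : A → ℂ) {g : G}
    (hg : ∀ c, c * g * c⁻¹ ∉ DD (f i)) : ind f (cut (DD i) θ) g = 0 :=
  ind_eq_zero fun x hx => if_neg fun k => by
    obtain ⟨c, e⟩ := isConj_iff.1 hx.symm
    exact hg c (e ▸ (mem_zpowers_inj hf).2 k)

theorem mem_zpowers_ker {φ : A →* G} (hφ : ∀ g, φ g = 1 → Odd (orderOf g)) {i g : A} (i2 : i * i = 1)
    (c : Commute i g) : φ i ∈ zpowers (φ g) ↔ i ∈ zpowers g := by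
  refine ⟨fun ⟨k, hk⟩ => ?_, fun ⟨k, hk⟩ => ⟨k, (map_zpow φ g k).symm.trans (congrArg φ hk)⟩⟩
  have hk' : φ g ^ k = φ i := hk
  obtain ⟨n, hn⟩ := hφ (i * g ^ k) (by rw [map_mul, map_zpow, hk', ← map_mul, i2, map_one])
  have := pow_orderOf_eq_one (i * g ^ k)
  rw [hn, (c.zpow_right k).mul_pow, pow_succ, pow_mul, sq, i2, one_pow, one_mul] at this
  rw [eq_inv_of_mul_eq_one_left this]
  exact inv_mem (pow_mem (zpow_mem_zpowers g k) _)

theorem dot_cut (D : Set A) (f g : A → ℂ) : ⟪cut D f, g⟫ = ⟪f, cut D g⟫ := by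
  rw [dot_def, dot_def]; congr 1
  exact sum_congr rfl fun a _ => by simp only [cut]; split_ifs <;> simp

theorem cut_cut (D : Set A) (f : A → ℂ) : cut D (cut D f) = cut D f := by
  ext a; simp only [cut]; split_ifs <;> rfl

theorem odd_of_ker {φ : A →* G} (ko : Odd (Nat.card φ.ker)) (g : A) (h : φ g = 1) : Odd (orderOf g) :=
  ko.of_dvd_nat (orderOf_dvd_natCard φ.ker h)

theorem deg3 {t u : G} (f : GW.BA.Four t u) (cj : ∀ i, i * i = 1 → i ≠ 1 → IsConj t i) {χ : G → ℂ} (hχ : Dirr χ)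
    {d e : ℤ} (hd : χ 1 = d) (he : χ t = e) :
    4 ∣ d + 3 * e ∧ (0 < d → 0 ≤ d + 3 * e) ∧ (d < 0 → d + 3 * e ≤ 0) := by
  obtain ⟨⟨t2, t1⟩, ⟨u2, u1⟩, ut, tu⟩ := id f
  have v1 : t * u ≠ 1 := fun e => ut (by rw [eq_inv_of_mul_eq_one_left e, inv_eq_of_mul_eq_one_right u2])
  have v2 : t * u * (t * u) = 1 := by rw [mul_assoc, ← mul_assoc u, ← tu, mul_assoc, u2, mul_one, t2]
  have key : ∀ ψ, IsIrrCharacter G ψ → ∃ n : ℕ, ψ 1 + 3 * ψ t = 4 * n := fun ψ hψ => by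
    obtain ⟨n, hn⟩ := IsChar.dot_nat (IsChar.comp (IsIrr.isChar hψ) (GW.BA.V4 t u).subtype) IsChar.one
    have s : ∀ k : G → ℂ, ∑ g : GW.BA.V4 t u, k g = k 1 + (k t + (k u + k (t * u))) := fun k => by
      rw [← sum_subtype (s := {1, t, u, t * u}) (fun g => by simp [f.mem]), sum_insert, sum_insert,
        sum_pair (by simpa using t1)]
      · simp [ut, u1]
      · simp [t1.symm, u1.symm, v1.symm]
    have c : (Nat.card (GW.BA.V4 t u) : ℂ) = 4 := by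
      have := s 1
      simp only [Pi.one_apply, sum_const, card_univ, nsmul_eq_mul, mul_one] at this
      rw [Nat.card_eq_fintype_card, this]; norm_num
    have cf := IsIrr.mem_CF hψ
    rw [dot_def, c] at hn
    simp only [Function.comp, coe_subtype, Pi.one_apply, map_one, mul_one, s] at hn
    rw [← CF_isConj cf (cj u u2 u1), ← CF_isConj cf (cj _ v2 v1)] at hn
    exact ⟨n, by linear_combination 4 * hn⟩
  obtain ⟨ε, ψ, hε, hψ, rfl⟩ := hχ.exists_sign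
  obtain ⟨n, hn⟩ := key ψ hψ
  obtain ⟨m, m0, hm⟩ := IsIrr.exists_deg hψ
  simp only [Pi.smul_apply, smul_eq_mul] at hd he
  have e1 : d + 3 * e = ε * (4 * n) := Int.cast_injective (α := ℂ) (by
    push_cast; rw [← hd, ← he, ← hn]; ring)
  have e2 : d = ε * m := Int.cast_injective (α := ℂ) (by push_cast; rw [← hd, hm])
  rcases hε with rfl | rfl <;> omega

theorem card_invs' {t : G} (t2 : t * t = 1) (t1 : t ≠ 1) (cj : ∀ i, i * i = 1 → i ≠ 1 → IsConj t i) :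
    (invs G).card = (𝒞[t]).index := by
  rw [← card_class]
  congr 1
  ext i
  simp only [mem_invs, mem_filter, mem_univ, true_and]
  refine ⟨fun e => cj i e.1 e.2, fun e => ?_⟩
  obtain ⟨g, rfl⟩ := isConj_iff.1 e
  exact mem_invs.1 ((conj_mem_invs g).2 (mem_invs.2 ⟨t2, t1⟩))

theorem pair_D {t i j : G} (t2 : t * t = 1) (t1 : t ≠ 1) (hi : i ∈ invs G) (hj : j ∈ invs G) (e : i * j ∈ DD t) :
    (i * t * i⁻¹ = t ∧ i ≠ t) ∧ j * t * j⁻¹ = t ∧ j ≠ t := by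
  have key : ∀ i ∈ invs G, ∀ j ∈ invs G, i * j ∈ DD t → i * t * i⁻¹ = t ∧ i ≠ t := fun i hi j hj e => by
    obtain ⟨i2, i1⟩ := mem_invs.1 hi
    obtain ⟨j2, j1⟩ := mem_invs.1 hj
    have k := mem_zpowers_conj' (c := i) e
    rw [show i * (i * j) * i⁻¹ = (i * j)⁻¹ by
      rw [← mul_assoc, i2, one_mul, mul_inv_rev, inv_eq_of_mul_eq_one_right j2], zpowers_inv] at k
    refine ⟨inv_unique k e (by
      rw [show i * t * i⁻¹ * (i * t * i⁻¹) = i * (t * t) * i⁻¹ by group, t2]; group)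
      (by rwa [Ne, conj_eq_one_iff]) t2 t1, ?_⟩
    rintro rfl
    obtain ⟨n, hn⟩ := id e
    have c : Commute (i * j) i := by conv_rhs => rw [← hn]
                                     exact Commute.self_zpow _ n
    have v2 : i * j * (i * j) = 1 := by rw [← mul_assoc, c.eq, ← mul_assoc, i2, one_mul, j2]
    by_cases v1 : i * j = 1
    · rw [v1] at e; exact i1 (by simpa [DD] using e)
    · exact j1 (by simpa using inv_unique (mem_zpowers _) e v2 v1 i2 i1)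
  refine ⟨key i hi j hj e, key j hj i hi ?_⟩
  rwa [show j * i = (i * j)⁻¹ by rw [mul_inv_rev, inv_eq_of_mul_eq_one_right (mem_invs.1 hi).1,
    inv_eq_of_mul_eq_one_right (mem_invs.1 hj).1], DD, Set.mem_setOf_eq, zpowers_inv]

theorem Phi_cut {t : G} (t2 : t * t = 1) (t1 : t ≠ 1) {J : Finset G} (hJ : J ⊆ invs G)
    (hJ' : ∀ i ∈ invs G, i * t * i⁻¹ = t → i ≠ t → i ∈ J) (f : G → ℂ) :
    Phi (cut (DD t) f) = ∑ i ∈ J, ∑ j ∈ J, cut (DD t) f (i * j) := by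
  refine (sum_subset hJ fun i hi k => sum_eq_zero fun j hj => if_neg fun e =>
    k (hJ' i hi (pair_D t2 t1 hi hj e).1.1 (pair_D t2 t1 hi hj e).1.2)).symm.trans ?_
  exact sum_congr rfl fun i hi => (sum_subset hJ fun j hj k => if_neg fun e =>
    k (hJ' j hj (pair_D t2 t1 (hJ hi) hj e).2.1 (pair_D t2 t1 (hJ hi) hj e).2.2)).symm

theorem rr_CF : (fun g : G => (rr g : ℂ)) ∈ CF G := mem_CF.2 fun g c => by simp only [rr_conj]

theorem Phi_dot (f : G → ℂ) : Phi f = Nat.card G * conj ⟪fun g => (rr g : ℂ), f⟫ := by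
  rw [Phi, sum_pairs, dot_def, map_mul, map_sum, map_inv₀, map_natCast, mul_inv_cancel_left₀ card_ne_zero]
  simp

end general

variable {G : Type u} {M : Type v} {N : Type w} [Group G] [Fintype G] [Group M] [Fintype M] [Group N] [Fintype N]

theorem ND.Phi_P (d : ND N) (a b : N → ℂ) : Phi (cut (DD d.t) (d.P a b)) =
    d.e * (d.e + 1) / 2 * (Nat.card d.H * ∑ g : d.H, cut (DD d.t) a g + 2 * d.e * a d.t) +
      d.e * (d.e - 1) / 2 * (Nat.card d.Y1 * ∑ g : d.Y1, cut (DD d.t) b g) := by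
  have eT : conj (∑ g : d.T, cut (DD d.t) (d.FT fun g => (rr g : ℂ)) g * conj (a g)) =
      Nat.card d.H * ∑ g : d.H, cut (DD d.t) a g + 2 * d.e * a d.t := by
    rw [← sum_ite_sub d.T fun g => _ * conj (a g), ← sum_ite_sub d.H, map_sum, mul_sum,
      show 2 * d.e * a d.t = ∑ g, if g = d.t then 2 * d.e * a g else 0 by simp, ← sum_add_distrib]
    refine sum_congr rfl fun g _ => ?_
    by_cases hD : g ∈ DD d.t
    swap
    · simp [cut, hD, show g ≠ d.t from fun e => hD (e ▸ d.tD)]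
    by_cases hT : g ∈ d.T
    · simp only [cut, hD, hT, if_true, d.rT g hT hD]
      split_ifs <;> simp [add_mul, map_ofNat]
    · simp [hT, _root_.mt (@d.HT g) hT, show g ≠ d.t from fun e => hT (e ▸ d.ZT d.tZ)]
  have eY : conj (∑ g : d.Y, cut (DD d.t) (d.FY fun g => (rr g : ℂ)) g * conj (b g)) =
      Nat.card d.Y1 * ∑ g : d.Y1, cut (DD d.t) b g := by
    rw [← sum_ite_sub d.Y fun g => _ * conj (b g), ← sum_ite_sub d.Y1, map_sum, mul_sum]
    refine sum_congr rfl fun g _ => ?_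
    by_cases hD : g ∈ DD d.t
    swap
    · simp [cut, hD]
    by_cases hT : g ∈ d.Y
    · simp only [cut, hD, hT, if_true, d.rY g hT hD]
      split_ifs <;> simp
    · simp [hT, _root_.mt (@d.Y1Y g) hT]
  rw [Phi_dot, ← dot_cut, d.dP _ (cut_CF d.D_cj rr_CF), d.Fk_cutD, d.Fk_cutD, map_add, map_mul, map_mul, eT, eY]
  have kT : (Nat.card N : ℂ) = d.e * (d.e + 1) * Nat.card d.T := by exact_mod_cast d.kT
  have kY : (Nat.card N : ℂ) = d.e * (d.e - 1) * Nat.card d.Y := by exact_mod_cast d.kY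
  have : (Nat.card d.T : ℂ) ≠ 0 := card_ne_zero
  have : (Nat.card d.Y : ℂ) ≠ 0 := card_ne_zero
  simp only [map_inv₀, map_mul, map_natCast, map_ofNat]
  rw [mul_add]
  congr 1
  · rw [kT]; field_simp
  · rw [kY]; field_simp

/-- a set of irreducible characters behaving like the block which corresponds to `lam ⊗ B₀(C(t))` -/
structure Blk (t : G) (lam : 𝒞[t] →* ℂˣ) (Λ : G → ℂ) (B : Finset (G → ℂ)) : Prop where
  sub : B ⊆ irr G
  cf : Λ ∈ CF G
  res : ∀ c : 𝒞[t], Λ c = lam c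
  sec : ∀ f ∈ CF G, ∀ c : 𝒞[t], t ∈ zpowers (c : G) →
    proj B f c = Λ c * proj (B0 2 𝒞[t]) (fun c : 𝒞[t] => conj (Λ c) * f c) c
  one : ∀ f ∈ CF G, (∀ g, Odd (orderOf g) → f g = 0) → ∀ g, Odd (orderOf g) → proj B f g = 0

theorem blk0 {t : G} (t2 : t * t = 1) : Blk t 1 1 (B0 2 G) where
  sub := B0_subset 2
  cf := one_mem _
  res := fun _ => rfl
  sec := fun f hf c hc => by
    rw [second_main (k := 1) Nat.prime_two (by rw [pow_one, sq, t2]) rfl hf c hc]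
    simp only [Pi.one_apply, map_one, one_mul]; rfl
  one := fun f hf ho g o => proj0_zero Nat.prime_two fun h hh => (sep_of_orderOf (k := 1) Nat.prime_two (by
      rw [pow_one, ← even_iff_two_dvd, ← Nat.not_odd_iff_even]; exact fun o => hh (ho h o)) (by
      rwa [pow_one, ← even_iff_two_dvd, Nat.not_even_iff_odd])).symm

/-- the local data: `M ⊴ C(t)` of odd index, `κ : M → N`, the normal `2`-complement of `C(t, u)` -/
structure GD (d : ND N) (t : G) (ι : M →* 𝒞[t]) (κ : M →* N) where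
  tM : M
  uM : M
  s : d.T →* d.T
  σ : 𝒞[ι uM] →* 𝒞[ι uM]
  π : 𝒞[ι uM] →* d.T
  tV : 𝒞[ι uM]
  uV : 𝒞[ι uM]
  alp : Alp ι κ
  ιt : (ι tM : G) = t
  κt : κ tM = d.t
  κu : κ uM = d.u
  tVe : tV = ι tM
  uVe : uV = ι uM
  cj : ∀ i : G, i * i = 1 → i ≠ 1 → IsConj t i
  icj : ∀ i : 𝒞[t], i * i = 1 → i ≠ 1 → i ≠ ι tM → IsConj (ι uM) i
  sg : SG d s
  tri : Tri tV uV σ
  σc : ∀ g : 𝒞[ι uM], IsConj ((g : 𝒞[t]) : G) (σ g : 𝒞[t])
  πσ : ∀ g, π (σ g) = s (π g)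
  πk : ∀ g, π g = 1 ↔ Odd (orderOf g)
  π2 : ∀ g, ∃ (g' : 𝒞[ι uM]) (m : M), (g' : 𝒞[t]) = ι m ∧ π g' = π g ∧ κ m = π g
  πu : π uV = d.uT'

namespace GD

variable {d : ND N} {t : G} {ι : M →* 𝒞[t]} {κ : M →* N} (h : GD d t ι κ)

theorem tC2 : ι h.tM * ι h.tM = 1 := by rw [← h.tVe, ← Subgroup.coe_mul, h.tri.t2, Subgroup.coe_one]
theorem uC2 : ι h.uM * ι h.uM = 1 := by rw [← h.uVe, ← Subgroup.coe_mul, h.tri.u2, Subgroup.coe_one]
theorem tC1 : ι h.tM ≠ 1 := fun e => h.tri.t1 (Subtype.ext (h.tVe.trans e))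
theorem uC1 : ι h.uM ≠ 1 := fun e => h.tri.u1 (Subtype.ext (h.uVe.trans e))
theorem utC : ι h.uM ≠ ι h.tM := fun e => h.tri.ut (Subtype.ext (h.uVe.trans (e.trans h.tVe.symm)))
include h in
theorem t2 : t * t = 1 := by have := congrArg Subtype.val h.tC2; rwa [Subgroup.coe_mul, h.ιt] at this
include h in
theorem t1 : t ≠ 1 := fun e => h.tC1 (Subtype.ext (h.ιt.trans e))
theorem tM2 : h.tM * h.tM = 1 := h.alp.inj (by rw [map_mul, h.tC2, map_one])
theorem uM2 : h.uM * h.uM = 1 := h.alp.inj (by rw [map_mul, h.uC2, map_one])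
theorem tc (c : 𝒞[t]) : c * ι h.tM * c⁻¹ = ι h.tM :=
  Subtype.ext (by rw [Subgroup.coe_mul, Subgroup.coe_mul, h.ιt, mem_centralizer_singleton_iff.1 c.2]; simp)
theorem tMc (m : M) : Commute h.tM m := h.alp.inj (by rw [map_mul, map_mul, ← mul_inv_eq_iff_eq_mul.1 (h.tc _)])
theorem four : GW.BA.Four t (ι h.uM) :=
  ⟨⟨h.t2, h.t1⟩, ⟨congrArg Subtype.val h.uC2, fun e => h.uC1 (Subtype.ext e)⟩,
    fun e => h.utC (Subtype.ext (e.symm.trans h.ιt.symm)), (mem_centralizer_singleton_iff.1 (ι h.uM).2).symm⟩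

theorem DC (c : 𝒞[t]) : c ∈ DD (ι h.tM) ↔ (c : G) ∈ DD t := by
  have := mem_zpowers_inj (f := 𝒞[t].subtype) (subtype_injective _) (a := ι h.tM) (g := c)
  rw [coe_subtype, h.ιt] at this
  exact this.symm

theorem eD (m : M) : ι m ∈ DD (ι h.tM) ↔ κ m ∈ DD d.t := by
  rw [← h.κt]
  exact (mem_zpowers_inj h.alp.inj).trans (mem_zpowers_ker (odd_of_ker h.alp.ko) h.tM2 (h.tMc m)).symm

theorem sepC : ∀ g ∈ DD (ι h.tM), ∀ g' ∉ DD (ι h.tM), Sep 2 g g' := sep_DD h.tC2 h.tc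

theorem cjD {g : G} (o : ¬ Odd (orderOf g)) : ∃ (c : 𝒞[t]) (x : G), c ∈ DD (ι h.tM) ∧ x * c * x⁻¹ = g := by
  obtain ⟨i, hi, i2, i1⟩ := exists_inv_of_even o
  obtain ⟨x, rfl⟩ := isConj_iff.1 (h.cj i i2 i1)
  have k := mem_zpowers_conj' (c := x⁻¹) hi
  rw [show x⁻¹ * (x * t * x⁻¹) * x⁻¹⁻¹ = t by group] at k
  obtain ⟨n, hn⟩ := id k
  exact ⟨⟨_, mem_centralizer_singleton_iff.2 (by rw [← hn]; exact (Commute.self_zpow _ n).eq)⟩, x, (h.DC _).2 k,
    by simp [mul_assoc]⟩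

/-- the function on `N` attached to `χ` -/
noncomputable def R (h : GD d t ι κ) (lam : 𝒞[t] →* ℂˣ) (χ : G → ℂ) : N → ℂ :=
  rho ι κ (lin lam⁻¹ * χ ∘ 𝒞[t].subtype)

/-- the function on `G` attached to `f` -/
noncomputable def lift (lam : 𝒞[t] →* ℂˣ) (f : N → ℂ) : G → ℂ :=
  ind 𝒞[t].subtype (cut (DD (ι h.tM)) (lin lam * ext ι κ f))

variable {lam : 𝒞[t] →* ℂˣ} {Λ : G → ℂ} {B : Finset (G → ℂ)}

theorem lift_CF (f : N → ℂ) : h.lift lam f ∈ CF G := ind_mem_CF _ _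
theorem R_ZIrr {χ : G → ℂ} (hχ : χ ∈ ZIrr G) : h.R lam χ ∈ ZIrr N :=
  rho_ZIrr (mul_mem (lin_mem_ZIrr _) (ZIrr.comp hχ _))
theorem R_add (a b : G → ℂ) : h.R lam (a + b) = h.R lam a + h.R lam b := by
  rw [R, R, R, ← rho_add, ← mul_add]; rfl
theorem R_sub (a b : G → ℂ) : h.R lam (a - b) = h.R lam a - h.R lam b := by
  rw [R, R, R, ← rho_sub, ← mul_sub]; rfl

theorem lift_D (f : N → ℂ) {c : 𝒞[t]} (hc : c ∈ DD (ι h.tM)) : h.lift lam f c = lam c * ext ι κ f c :=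
  ind_D (subtype_injective _) h.tC2 h.tC1 h.tc (fun x e => ⟨⟨x, mem_centralizer_singleton_iff.2 (by
    rwa [coe_subtype, h.ιt, mul_inv_eq_iff_eq_mul] at e)⟩, rfl⟩) (mul_mem (lin_mem_CF _) (ext_CF f)) hc

theorem lift_odd (f : N → ℂ) {g : G} (o : Odd (orderOf g)) : h.lift lam f g = 0 :=
  ind_nD (subtype_injective _) _ fun c => by
    rw [coe_subtype, h.ιt]; exact not_DD_of_odd h.t2 h.t1 (by rwa [orderOf_cj])

theorem dot_lift' {χ : G → ℂ} (cf : χ ∈ CF G) (f : N → ℂ) :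
    ⟪χ, h.lift lam f⟫ = ⟪lin lam⁻¹ * χ ∘ 𝒞[t].subtype, cut (DD (ι h.tM)) (ext ι κ f)⟫ := by
  rw [lift, frob_rec' _ _ cf, dot_mul_left, ← lin_inv, inv_inv]
  congr 1; ext c; simp only [cut, Pi.mul_apply]; split_ifs <;> simp

theorem dot_lift {χ : G → ℂ} (cf : χ ∈ CF G) {f : N → ℂ} (hf : f ∈ CF N) :
    ⟪χ, h.lift lam f⟫ = ⟪cut (DD d.t) (h.R lam χ), f⟫ := by
  rw [h.dot_lift' cf, ← dot_cut, dot_ext _ hf, h.alp.rho_cut h.sepC h.eD, R]

theorem tw_lift (f : N → ℂ) : cut (DD (ι h.tM)) (lin lam⁻¹ * h.lift lam f ∘ 𝒞[t].subtype) =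
    cut (DD (ι h.tM)) (ext ι κ f) := by
  ext c; simp only [cut]; split_ifs with hc
  · simp [h.lift_D f hc]
  · rfl

theorem R_lift {f : N → ℂ} (hf : proj (B0 2 N) f = f) : cut (DD d.t) (h.R lam (h.lift lam f)) = cut (DD d.t) f := by
  rw [R, ← h.alp.rho_cut h.sepC h.eD, tw_lift, h.alp.rho_cut h.sepC h.eD, h.alp.rho_ext hf]

theorem lift_lift {f f' : N → ℂ} (hf : proj (B0 2 N) f = f) (hf' : f' ∈ CF N) :
    ⟪h.lift lam f, h.lift lam f'⟫ = ⟪cut (DD d.t) f, f'⟫ := by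
  rw [h.dot_lift (h.lift_CF f) hf', h.R_lift hf]

theorem lift_val (hl : ∀ m, lam (ι m) = 1) {f : N → ℂ} (hf : proj (B0 2 N) f = f) {m : M} (hm : κ m ∈ DD d.t) :
    h.lift lam f (ι m) = f (κ m) := by
  rw [h.lift_D f ((h.eD m).2 hm), hl, h.alp.ext_val hf]; simp

omit h in
theorem _root_.CA.Abg.Blk.sec' (b : Blk t lam Λ B) {f : G → ℂ} (cf : f ∈ CF G) (c : 𝒞[t]) (hc : t ∈ zpowers (c : G)) :
    proj B f c = lam c * proj (B0 2 𝒞[t]) (lin lam⁻¹ * f ∘ 𝒞[t].subtype) c := by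
  rw [b.sec f cf c hc, b.res, lin_inv, show (fun c : 𝒞[t] => conj (Λ c) * f c) =
    conjFun (lin lam) * f ∘ 𝒞[t].subtype from funext fun c => by simp [b.res, conjFun]]

theorem proj_lift (b : Blk t lam Λ B) (f : N → ℂ) : proj B (h.lift lam f) = h.lift lam f := by
  ext g
  by_cases o : Odd (orderOf g)
  · rw [b.one _ (h.lift_CF f) (fun _ => h.lift_odd f) g o, h.lift_odd f o]
  obtain ⟨c, x, hc, rfl⟩ := h.cjD o
  have := congrFun (proj_cut h.sepC (lin lam⁻¹ * h.lift lam f ∘ 𝒞[t].subtype)) c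
  rw [tw_lift, proj_cut h.sepC, proj_ext, cut, cut, if_pos hc, if_pos hc] at this
  rw [CF_conj (proj_mem_CF b.sub _), CF_conj (h.lift_CF f), b.sec' (h.lift_CF f) c ((h.DC c).1 hc), ← this,
    h.lift_D f hc]

theorem inB (b : Blk t lam Λ B) {f : N → ℂ} {χ : G → ℂ} (hχ : Dirr χ) (e : ⟪χ, h.lift lam f⟫ ≠ 0) : proj B χ = χ :=
  (proj_dirr b.sub hχ).resolve_right fun k => e (by rw [← h.proj_lift b, ← dot_proj' b.sub, k, dot_zero_left])

theorem val (b : Blk t lam Λ B) (hl : ∀ m, lam (ι m) = 1) {χ : G → ℂ} (cf : χ ∈ CF G) (hχ : proj B χ = χ) {m : M}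
    (hm : κ m ∈ DD d.t) : χ (ι m) = h.R lam χ (κ m) := by
  conv_lhs => rw [← hχ]
  rw [b.sec' cf _ ((h.DC _).1 ((h.eD m).2 hm)), hl, h.alp.rho_val]; simp [R]

include h in
theorem ext_odd {f : N → ℂ} (hf : proj (B0 2 N) f = f) (ho : ∀ g, Odd (orderOf g) → f g = 0) {c : 𝒞[t]}
    (o : Odd (orderOf c)) : ext ι κ f c = 0 := by
  have e : cut {g | ¬ Odd (orderOf g)} f = f := by
    ext g; simp only [cut, Set.mem_setOf_eq]; split_ifs with k
    exacts [(ho g k).symm, rfl]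
  rw [← e, h.alp.ext_cut (D := {g | ¬ Odd (orderOf g)}) (fun g hg g' hg' => sep_of_orderOf (k := 1) Nat.prime_two
    (by rwa [pow_one, ← even_iff_two_dvd, ← Nat.not_odd_iff_even])
    (by rw [pow_one, ← even_iff_two_dvd, Nat.not_even_iff_odd]; exact not_not.1 hg')) (fun m => ?_) hf, cut,
    if_neg (show c ∉ {g | ¬ Odd (orderOf g)} from not_not.2 o)]
  simp only [Set.mem_setOf_eq, orderOf_injective ι h.alp.inj]
  refine not_congr ⟨fun o => o.of_dvd_nat (orderOf_map_dvd κ m), fun o => ?_⟩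
  have := odd_of_ker h.alp.ko (m ^ orderOf (κ m)) (by rw [map_pow, pow_orderOf_eq_one])
  exact (o.mul this).of_dvd_nat (orderOf_dvd_of_pow_eq_one (by rw [pow_mul, pow_orderOf_eq_one]))

theorem DV (g : 𝒞[ι h.uM]) : g ∈ DD h.uV ↔ d.uT' ∈ zpowers (h.π g) := by
  rw [← h.πu]
  exact (mem_zpowers_ker (fun g e => (h.πk g).1 e) h.tri.u2 (Subtype.ext (by
    rw [Subgroup.coe_mul, Subgroup.coe_mul, h.uVe]; exact (mem_centralizer_singleton_iff.1 g.2).symm))).symm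

theorem DV' (g : 𝒞[ι h.uM]) : g ∈ DD h.uV ↔ ι h.uM ∈ zpowers (g : 𝒞[t]) := by
  have := mem_zpowers_inj (f := 𝒞[ι h.uM].subtype) (subtype_injective _) (a := h.uV) (g := g)
  rw [coe_subtype, h.uVe] at this
  exact this.symm

theorem ext_V {f : N → ℂ} (hf : proj (B0 2 N) f = f) {g : 𝒞[ι h.uM]} (hg : g ∈ DD h.uV) :
    ext ι κ f g = f (h.π g) := by
  have k2 : ∀ y, y ∈ h.π.ker ↔ ¬ 2 ∣ orderOf y := fun y => by
    rw [MonoidHom.mem_ker, h.πk, ← even_iff_two_dvd, Nat.not_even_iff_odd]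
  have key : ∀ g ∈ DD h.uV, ext ι κ f (g : 𝒞[ι h.uM]) =
      (Nat.card h.π.ker : ℂ)⁻¹ * ∑ k : h.π.ker, ext ι κ f (g * k : 𝒞[ι h.uM]) := fun g hg => by
    conv_lhs => rw [← proj_ext]
    rw [second_main (k := 1) Nat.prime_two (by rw [pow_one, sq, h.uC2]) rfl (ext_CF f) g ((h.DV' g).1 hg),
      proj0_of_npc Nat.prime_two (K := h.π.ker) (fun e => by
        haveI := Fact.mk Nat.prime_two
        obtain ⟨y, hy⟩ := exists_prime_orderOf_dvd_card' 2 e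
        exact (k2 y).1 y.2 (by rw [orderOf_coe, hy])) k2 (CF_comp (ext_CF f) _)]
    rfl
  obtain ⟨g', m, e1, e2, e3⟩ := h.π2 g
  rw [← e3, ← h.alp.ext_val hf, ← e1, key g hg, key g' ((h.DV g').2 (e2 ▸ (h.DV g).1 hg))]
  congr 1
  exact (Fintype.sum_equiv (Equiv.mulLeft (⟨g⁻¹ * g', by simp [MonoidHom.mem_ker, e2]⟩ : h.π.ker)) _ _
    fun k => by simp [mul_assoc]).symm

theorem split {Θ : 𝒞[t] → ℂ} (cf : Θ ∈ CF 𝒞[t]) (ho : ∀ c, Odd (orderOf c) → Θ c = 0) :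
    Θ = cut (DD (ι h.tM)) Θ + ind 𝒞[ι h.uM].subtype (cut (DD h.uV) (Θ ∘ 𝒞[ι h.uM].subtype)) := by
  ext c
  rw [Pi.add_apply, cut]
  by_cases o : Odd (orderOf c)
  · rw [ho c o, ind_nD (subtype_injective _) _ fun x => by
      rw [coe_subtype, h.uVe]; exact not_DD_of_odd h.uC2 h.uC1 (by rwa [orderOf_cj])]
    simp
  split_ifs with hD
  · rw [ind_nD (subtype_injective _) _ fun x e => by
      rw [coe_subtype, h.uVe] at e
      exact h.utC (inv_unique e (DD_cj h.tc _ x hD) h.uC2 h.uC1 h.tC2 h.tC1), add_zero]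
  obtain ⟨i, hi, i2, i1⟩ := exists_inv_of_even o
  obtain ⟨x, rfl⟩ := isConj_iff.1 (h.icj i i2 i1 fun e => hD (e ▸ hi))
  have k := mem_zpowers_conj' (c := x⁻¹) hi
  rw [show x⁻¹ * (x * ι h.uM * x⁻¹) * x⁻¹⁻¹ = ι h.uM by group] at k
  obtain ⟨n, hn⟩ := id k
  let g : 𝒞[ι h.uM] := ⟨x⁻¹ * c * x⁻¹⁻¹, mem_centralizer_singleton_iff.2 (by
    rw [← hn]; exact (Commute.self_zpow _ n).eq)⟩
  rw [zero_add, ← CF_conj cf c x⁻¹, ← CF_conj (ind_mem_CF _ _) c x⁻¹]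
  exact (ind_D (subtype_injective _) h.tri.u2 h.tri.u1 (fun y => Subtype.ext (by
    rw [Subgroup.coe_mul, Subgroup.coe_mul, h.uVe, mem_centralizer_singleton_iff.1 y.2]; simp))
    (fun y e => ⟨⟨y, mem_centralizer_singleton_iff.2 (by
      rwa [coe_subtype, h.uVe, mul_inv_eq_iff_eq_mul] at e)⟩, rfl⟩) (CF_comp cf 𝒞[ι h.uM].subtype) ((h.DV' g).2 k)).symm

theorem INT (b : Blk t lam Λ B) {χ : G → ℂ} (hχ : χ ∈ ZIrr G) {k b' : N → ℂ} (kz : k ∘ d.T.subtype ∈ ZIrr d.T)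
    (kw : ∀ g ∈ d.T, k (d.w * g * d.w⁻¹) = k g) (ko : ∀ g ∈ d.T, Odd (orderOf g) → k g = 0)
    (bu : ∀ g ∈ d.Y, b' (d.u * g * d.u⁻¹) = b' g) (bo : ∀ g ∈ d.Y, Odd (orderOf g) → b' g = 0)
    (fz : d.P (Sy h.s k) b' ∈ ZIrr N) (fs : proj (B0 2 N) (d.P (Sy h.s k) b') = d.P (Sy h.s k) b') :
    ∃ n : ℤ, ⟪χ, h.lift lam (d.P (Sy h.s k) b')⟫ = n := by
  have cf := ZIrr.mem_CF hχ
  have sw := h.sg.Sy_w kw
  set f := d.P (Sy h.s k) b'
  set F := lin lam⁻¹ * χ ∘ 𝒞[t].subtype with hF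
  have zF : F ∈ ZIrr 𝒞[t] := mul_mem (lin_mem_ZIrr _) (ZIrr.comp hχ _)
  have Fσ : ∀ g, F (h.σ g) = F g := fun g => by
    have e : ∀ c : 𝒞[t], F c = conj (Λ c) * χ c := fun c => by simp [hF, lin_inv, b.res, conjFun]
    rw [e, e, ← CF_isConj cf (h.σc g), ← CF_isConj b.cf (h.σc g)]
  obtain ⟨n1, h1⟩ := ZIrr.dot_int zF (ext_ZIrr (ι := ι) (κ := κ) fz)
  obtain ⟨n2, h2⟩ := ZIrr.dot_int (ZIrr.comp zF 𝒞[ι h.uM].subtype) (ZIrr.comp kz h.π)
  have e := congrArg (⟪F, ·⟫) (h.split (ext_CF f) fun c => h.ext_odd fs fun g =>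
    d.P_odd sw bu (h.sg.Sy_odd ko) bo)
  simp only [dot_add_right] at e
  rw [frob_rec' _ _ (ZIrr.mem_CF zF), ← h.dot_lift' cf, h1] at e
  refine ⟨n1 - n2, ?_⟩
  push_cast
  rw [e, ← h2, eq_sub_iff_add_eq, add_right_inj, dot_def, dot_def, h.tri.next.sum _ fun g o => by
    simp [(h.πk g).2 o, ko 1 (one_mem _) (by simp)]]
  congr 1
  refine sum_congr rfl fun g _ => ?_
  by_cases hg : g ∈ DD h.uV
  · have nZ : (h.π g : N) ∉ d.Z := fun e => d.un (d.ZY (zpowers_le.2 e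
      ((mem_zpowers_inj (f := d.T.subtype) (subtype_injective _)).2 ((h.DV g).1 hg))))
    rw [if_pos (show h.uV ∈ zpowers g from hg), cut, if_pos hg]
    simp only [Function.comp, coe_subtype, Fσ, h.πσ, h.ext_V fs hg]
    rw [← d.Fk_nZ d.cT f nZ, d.vT _ _ sw _ (h.π g).2, Sy_coe]
    simp only [map_add]; ring
  · rw [if_neg (show h.uV ∉ zpowers g from hg), cut, if_neg hg]; simp

theorem dat (b : Blk t lam Λ B) {χ : G → ℂ} (hχ : Dirr χ) : Dat d h.s (h.R lam χ) := by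
  have z := hχ.mem_ZIrr
  have cf := ZIrr.mem_CF z
  refine ⟨h.R_ZIrr z, h.alp.proj_rho _, fun ν P => ?_, fun μ P => ?_, ?_⟩
  · rw [← h.dot_lift cf (f := d.ga0 h.s ν) (d.cfP _ _)]
    refine h.INT b z ?_ (fun g _ => aY_cj d.w2 ν g) (fun g hg o => aY_odd d.wT P hg o) (fun _ _ => rfl)
      (fun _ _ _ => rfl) (h.sg.ga0_ZIrr ν) (h.sg.ga0_span P)
    rw [show aY d.w ν ∘ d.T.subtype = 1 + 1 - (lin ν + lin (d.cW ν)) from funext fun g => by
      simp [d.aY_coeT ν g]; norm_num]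
    exact sub_mem (add_mem (one_mem _) (one_mem _)) (add_mem (lin_mem_ZIrr _) (lin_mem_ZIrr _))
  · rw [← h.dot_lift cf (f := d.be0 h.s μ) (d.cfP _ _)]
    exact h.INT b z (sub_mem (one_mem _) (lin_mem_ZIrr (d.sT μ))) (fun g _ => kM_cj μ _ g)
      (fun g _ o => kM_odd P o) (fun g _ => kM_cj μ _ g) (fun g _ o => kM_odd P o) (h.sg.be0_ZIrr μ) (h.sg.be0_span P)
  · have e1 := h.dot_lift (lam := lam) cf (rho_CF (ι := ι) (κ := κ) (lin lam⁻¹ * χ ∘ 𝒞[t].subtype))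
    have e2 := h.lift_lift (lam := lam) (h.alp.proj_rho (lin lam⁻¹ * χ ∘ 𝒞[t].subtype))
      (rho_CF (ι := ι) (κ := κ) (lin lam⁻¹ * χ ∘ 𝒞[t].subtype))
    change ⟪χ, h.lift lam (h.R lam χ)⟫ = ⟪_, h.R lam χ⟫ at e1
    change ⟪h.lift lam (h.R lam χ), h.lift lam (h.R lam χ)⟫ = ⟪cut _ (h.R lam χ), h.R lam χ⟫ at e2
    rw [← e1] at e2 ⊢
    have : 0 < nrm (χ - h.lift lam (h.R lam χ)) := nrm_pos fun e => hχ.deg_ne_zero (by
      simpa [h.lift_odd _ (g := 1) (by simp)] using congrFun e 1)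
    rw [nrm_sub, hχ.nrm, nrm, e2] at this
    linarith

/-- the number of involutions in `u K` -/
noncomputable def A (h : GD d t ι κ) : ℕ := (univ.filter fun m : M => m * m = 1 ∧ κ m = d.u).card

include h in
theorem inv_ker {m : M} (m2 : m * m = 1) (e : κ m = 1) : m = 1 := by
  obtain ⟨n, hn⟩ := odd_of_ker h.alp.ko m e
  have := pow_orderOf_eq_one m
  rwa [hn, pow_succ, pow_mul, sq, m2, one_pow, one_mul] at this

theorem fib (F : N → ℂ) : ∑ m ∈ (invs M).erase h.tM, F (κ m) = h.A * ∑ n ∈ (invs N).erase d.t, F n := by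
  have mt : ∀ m, m * m = 1 → κ m = d.t → m = h.tM := fun m m2 e => by
    have := h.inv_ker (m := m * h.tM) (by
      rw [mul_assoc, ← mul_assoc h.tM, (h.tMc m).eq, mul_assoc, h.tM2, mul_one, m2]) (by rw [map_mul, e, h.κt, d.t2])
    rw [eq_inv_of_mul_eq_one_left this, inv_eq_of_mul_eq_one_right h.tM2]
  rw [← sum_fiberwise_of_maps_to (g := κ) (t := (invs N).erase d.t) fun m hm => by
    simp only [mem_erase, mem_invs] at hm ⊢
    exact ⟨fun e => hm.1 (mt m hm.2.1 e), by rw [← map_mul, hm.2.1, map_one], fun e => hm.2.2 (h.inv_ker hm.2.1 e)⟩,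
    mul_sum]
  refine sum_congr rfl fun n hn => ?_
  simp only [mem_erase, mem_invs] at hn
  rw [sum_congr rfl (g := fun _ => F n) fun m hm => by rw [(mem_filter.1 hm).2], sum_const, nsmul_eq_mul]
  congr 2
  obtain ⟨c, rfl⟩ := d.icj n hn.2.1 hn.2.2 hn.1
  obtain ⟨c, rfl⟩ := h.alp.sur c
  refine (card_bij (fun m _ => c * m * c⁻¹) (fun m hm => ?_) (fun a _ b _ e => by simpa using e) fun m hm => ?_).symm
  · simp only [mem_filter, mem_univ, true_and] at hm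
    have : κ (c * m * c⁻¹) = κ c * d.u * (κ c)⁻¹ := by simp [hm.2]
    simp only [mem_filter, mem_erase, conj_mem_invs]
    exact ⟨⟨fun e => hn.1 (by rw [← this, e, h.κt]), mem_invs.2 ⟨hm.1, fun e => d.u1 (by rw [← hm.2, e, map_one])⟩⟩,
      this⟩
  · simp only [mem_filter, mem_erase] at hm
    exact ⟨c⁻¹ * m * c⁻¹⁻¹, mem_filter.2 ⟨mem_univ _, (mem_invs.1 ((conj_mem_invs _).2 hm.1.2)).1, by
      simp [hm.2, mul_assoc]⟩, by group⟩

include h in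
theorem inv_range {c : 𝒞[t]} (c2 : c * c = 1) : ∃ m, ι m = c := by
  haveI := h.alp.normal
  have := pow_index_mem ι.range c
  obtain ⟨n, hn⟩ : Odd ι.range.index := by rw [← Nat.not_even_iff_odd, even_iff_two_dvd]; exact h.alp.odd
  rwa [hn, pow_succ, pow_mul, sq, c2, one_pow, one_mul] at this

theorem Phi_lift (hl : ∀ m, lam (ι m) = 1) {f : N → ℂ} (hf : proj (B0 2 N) f = f) :
    Phi (h.lift lam f) = (𝒞[t]).index * h.A ^ 2 * Phi (cut (DD d.t) f) := by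
  have inj : Function.Injective fun m => (ι m : G) := Subtype.val_injective.comp h.alp.inj
  have e1 : Phi (h.lift lam f) = (𝒞[t]).index * Phi (cut (DD t) (h.lift lam f)) := by
    rw [Phi_dot, lift, frob_rec' _ _ rr_CF, ← lift, Phi, sum_pairs, ← card_mul_index 𝒞[t], dot_def,
      sum_congr rfl (g := fun g => if g ∈ 𝒞[t] then (rr g : ℂ) * cut (DD t) (h.lift lam f) g else 0) fun g _ => by
        split_ifs with k
        · rfl
        · rw [cut, if_neg, mul_zero]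
          rintro ⟨n, hn⟩
          exact k (mem_centralizer_singleton_iff.2 (by rw [← hn]; exact (Commute.self_zpow _ n).eq)), sum_ite_sub]
    have : (Nat.card 𝒞[t] : ℂ) ≠ 0 := card_ne_zero
    simp only [map_mul, map_inv₀, map_natCast, map_sum, Complex.conj_conj, Function.comp, coe_subtype]
    rw [sum_congr rfl (g := fun c : 𝒞[t] => (rr (c : G) : ℂ) * cut (DD t) (h.lift lam f) c) fun c _ => by
      by_cases k : c ∈ DD (ι h.tM)
      · rw [cut, cut, if_pos k, if_pos ((h.DC c).1 k), h.lift_D f k]; rfl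
      · rw [cut, cut, if_neg k, if_neg (mt (h.DC c).2 k)]]
    push_cast; field_simp
  rw [e1, Phi_cut h.t2 h.t1 (J := ((invs M).erase h.tM).image fun m => (ι m : G)) (fun i hi => by
      obtain ⟨m, hm, rfl⟩ := mem_image.1 hi
      obtain ⟨m2, m1⟩ := mem_invs.1 (mem_erase.1 hm).2
      exact mem_invs.2 ⟨by rw [← Subgroup.coe_mul, ← map_mul, m2, map_one, Subgroup.coe_one],
        fun e => m1 (inj (by simp [e]))⟩) (fun i hi e it => by
      obtain ⟨i2, i1⟩ := mem_invs.1 hi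
      obtain ⟨m, hm⟩ := h.inv_range (c := ⟨i, mem_centralizer_singleton_iff.2 (mul_inv_eq_iff_eq_mul.1 e)⟩)
        (Subtype.ext i2)
      have hm' : (ι m : G) = i := congrArg Subtype.val hm
      exact mem_image.2 ⟨m, mem_erase.2 ⟨fun e => it (by rw [← hm', e, h.ιt]), mem_invs.2 ⟨inj (by
        simp [hm', i2]), fun e => i1 (by simp [← hm', e])⟩⟩, hm'⟩),
    Phi_cut d.t2 d.t1 (erase_subset d.t _) (fun i hi _ e => mem_erase.2 ⟨e, hi⟩), sum_image fun a _ b _ e => inj e,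
    mul_assoc, sq, mul_assoc, ← h.fib fun i => ∑ j ∈ (invs N).erase d.t, cut (DD d.t) f (i * j)]
  congr 1
  rw [mul_sum]
  refine sum_congr rfl fun i _ => ?_
  rw [sum_image fun a _ b _ e => inj e, ← h.fib fun j => cut (DD d.t) f (κ i * j)]
  refine sum_congr rfl fun j _ => ?_
  rw [← Subgroup.coe_mul, ← map_mul, ← map_mul]
  by_cases k : κ (i * j) ∈ DD d.t
  · rw [cut, cut, if_pos k, if_pos ((h.DC _).1 ((h.eD _).2 k)), h.lift_val hl hf k]
  · rw [cut, cut, if_neg k, if_neg fun e => k ((h.eD _).1 ((h.DC _).2 e))]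

end GD

theorem realizeEqns_Abg_B5 : True := by
  have := @CA.Abg.GD.lift.eq_1.{0,0,0}
  have := @CA.Abg.GD.lift.eq_def.{0,0,0}
  have := @CA.Abg.GD.lift.congr_simp.{0,0,0}
  have := @CA.Abg.GD.A.eq_1.{0,0,0}
  have := @CA.Abg.GD.A.eq_def.{0,0,0}
  have := @CA.Abg.GD.A.congr_simp.{0,0,0}
  have := @CA.Abg.GD.R.eq_1.{0,0,0}
  have := @CA.Abg.GD.R.eq_def.{0,0,0}
  have := @CA.Abg.GD.R.congr_simp.{0,0,0}
  trivial

end CA.Abg
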