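import Cfsg.Agent.Abg.B5

/-!
# The six characters
-/

set_option autoImplicit false
set_option linter.unusedSectionVars false
set_option linter.unusedVariables false

open Cfsg Subgroup CA.Chr CA.Dih CA.Blk CA.Br CA.FG Finset
open scoped ComplexConjugate Classical

namespace CA.Abg

universe u v w

variable {G : Type u} {M : Type v} {N : Type w} [Group G] [Fintype G] [Group M] [Fintype M] [Group N] [Fintype N]

theorem three' {W A : G → ℂ} (hW : W ∈ ZIrr G) (h3 : nrm W = 3) (hA : A ∈ ZIrr G) (hn : nrm A < 4) (e : ⟪A, W⟫ = 2) :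
    ∃ x y z, Dirr x ∧ Dirr y ∧ Dirr z ∧ ⟪x, y⟫ = 0 ∧ ⟪x, z⟫ = 0 ∧ ⟪y, z⟫ = 0 ∧ W = x + y + z ∧ ⟪A, z⟫ = 0 := by
  obtain ⟨x, hx, k⟩ := ZIrr.exists_point hW (by rintro rfl; simp at h3) (by rw [h3]; norm_num)
  obtain ⟨y, z, hy, hz, yz, e'⟩ := ZIrr.exists_of_nrm_two (sub_mem hW hx.mem_ZIrr)
    (by rw [nrm_sub_of_dot_one hx.dot_self k, h3]; norm_num)
  have k0 : ⟪y + z, x⟫ = 0 := by rw [← e', dot_sub_left, k, hx.dot_self, sub_self]
  have xy := orth_of hy hx (by rw [dot_add_left, hy.dot_self, dot_comm_zero yz, add_zero]) k0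
  have xz := orth_of hz hx (by rw [dot_add_left, hz.dot_self, yz, zero_add]) k0
  obtain rfl : W = x + y + z := by rw [add_assoc, ← e']; abel
  rw [dot_add_right, dot_add_right] at e
  by_cases a : ⟪A, x⟫ = 0
  · exact ⟨y, z, x, hy, hz, hx, yz, dot_comm_zero xy, dot_comm_zero xz, by abel, a⟩
  by_cases b : ⟪A, y⟫ = 0
  · exact ⟨x, z, y, hx, hz, hy, xz, xy, dot_comm_zero yz, by abel, b⟩
  refine ⟨x, y, z, hx, hy, hz, xy, xz, yz, rfl, ?_⟩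
  rcases ZIrr.dot_cases_of_nrm_lt_four hA hn hx with e1 | e1 | e1 <;>
    rcases ZIrr.dot_cases_of_nrm_lt_four hA hn hy with e2 | e2 | e2 <;>
      rcases ZIrr.dot_cases_of_nrm_lt_four hA hn hz with e3 | e3 | e3 <;> simp_all <;> norm_num at e

theorem two_two {A x y : G → ℂ} (hA : A ∈ ZIrr G) (hn : nrm A ≤ 4) (A1 : A 1 = 0) (hx : Dirr x) (hy : Dirr y)
    (e : ⟪A, x⟫ + ⟪A, y⟫ = 2) : ⟪A, x⟫ = 1 := by
  have key : ∀ x, Dirr x → ∃ n : ℤ, ⟪A, x⟫ = n ∧ n < 2 := fun x hx => by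
    obtain ⟨n, hn'⟩ := ZIrr.dot_int hA hx.mem_ZIrr
    refine ⟨n, hn', ?_⟩
    by_contra k
    have e := nrm_sub_proj (θ := A) hx.dot_self
    have n2 : (2 : ℝ) ≤ n := by exact_mod_cast not_lt.1 k
    rw [hn', Complex.norm_intCast, sq_abs] at e
    have := congrFun (nrm_eq_zero.1 (le_antisymm (by nlinarith) (nrm_nonneg (A - (n : ℂ) • x)))) 1
    simp only [Pi.sub_apply, A1, Pi.smul_apply, smul_eq_mul, zero_sub, Pi.zero_apply, neg_eq_zero, mul_eq_zero,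
      Int.cast_eq_zero] at this
    exact this.elim (by omega) hx.deg_ne_zero
  obtain ⟨m, hm, m2⟩ := key x hx
  obtain ⟨n, hn, n2⟩ := key y hy
  rw [hm, hn] at e
  have : m + n = 2 := by exact_mod_cast e
  rw [hm, show m = 1 by omega, Int.cast_one]

theorem ND.Val.eq {d : ND N} {ξ ξ' a b : N → ℂ} (h : d.Val ξ a b) (h' : d.Val ξ' a b) (cf : ξ ∈ CF N) (cf' : ξ' ∈ CF N)
    {g : N} (hg : g ∈ DD d.t) : ξ g = ξ' g := by
  have : cut (DD d.t) ξ = cut (DD d.t) ξ' := by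
    rw [← d.comp _ (cut_CF d.D_cj cf), ← d.comp _ (cut_CF d.D_cj cf'), d.Fk_cutD, d.Fk_cutD, d.Fk_cutD, d.Fk_cutD]
    refine CF_ext (d.cfP _ _) (d.cfP _ _) fun χ hχ => ?_
    rw [← conj_dot, ← conj_dot χ, d.dP _ (IsIrr.mem_CF hχ), d.dP _ (IsIrr.mem_CF hχ)]
    congr 3 <;> refine sum_congr rfl fun g _ => ?_ <;> simp only [cut] <;> split_ifs with k <;> try rfl
    · rw [show Fk _ _ _ _ ξ g = _ from h.1 g g.2 k, show Fk _ _ _ _ ξ' g = _ from h'.1 g g.2 k]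
    · rw [show Fk _ _ _ _ ξ g = _ from h.2 g g.2 k, show Fk _ _ _ _ ξ' g = _ from h'.2 g g.2 k]
  simpa [cut, hg] using congrFun this g

theorem sum_D' {A : Subgroup N} {t : N} (hA : ∀ g ∈ A, g * g = 1 → g = 1 ∨ g = t) {a : N → ℂ}
    (ha : ∀ g ∈ A, Odd (orderOf g) → a g = 0) : ∑ g : A, cut (DD t) a g = ∑ g : A, a g := CS2.sum_D hA ha

theorem ND.Phi_al (d : ND N) : Phi (cut (DD d.t) (d.al0 d.θ1)) = d.e * (d.e - 1) * (d.e + 1) ^ 2 := by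
  rw [ND.al0, d.Phi_P, sum_D' (fun g hg => d.invY g (d.Y1Y hg)) fun g hg o => aY_odd d.uY d.P1 (d.Y1Y hg) o]
  have : ∀ g : d.Y1, aY d.u d.θ1 g = 2 - d.θ1 ⟨g, d.Y1Y g.2⟩ - d.cU d.θ1 ⟨g, d.Y1Y g.2⟩ := fun g => by
    rw [d.aY_coeY d.θ1 ⟨g, d.Y1Y g.2⟩]; simp; ring
  have k : (Nat.card d.Y1 : ℂ) ^ 2 = (d.e + 1) ^ 2 := by exact_mod_cast d.kY1
  simp only [this, sum_sub_distrib, CS2.sum_ex d.Y1Y d.tY1 (d.θt _ rfl),
    CS2.sum_ex d.Y1Y d.tY1 ((d.cU_t d.θ1).trans (d.θt _ rfl)), sum_const, card_univ, ← Nat.card_eq_fintype_card]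
  simp [cut, ← k]; ring

theorem ND.Phi_al' (d : ND N) : Phi (cut (DD d.t) (d.al0 (d.sY d.lam))) = 0 := by
  rw [ND.al0, d.Phi_P, sum_eq_zero (s := univ) (f := fun g : d.Y1 => cut _ _ (g : N)) fun g _ => by
    rw [cut, d.aY_coeY _ ⟨g, d.Y1Y g.2⟩, d.cU_sY]; simp [ND.sY, d.linY1 _ _ g.2]; norm_num]
  simp [cut]

theorem SG.Sy_t {d : ND N} {s : d.T →* d.T} (h : SG d s) : Sy s (kM d.lam) d.t = 4 := by
  obtain ⟨a1, -, a3, -, a5, -⟩ := h.sT_t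
  rw [show Sy s (kM d.lam) d.t = _ from SG.Sy_kM _ d.tT]
  simp only [SG.cr, SG.cr'] at a3 a5
  simp [a1, a3, a5]; norm_num

theorem SG.Phi_be {d : ND N} {s : d.T →* d.T} (h : SG d s) :
    Phi (cut (DD d.t) (d.be0 s d.lam)) = d.e * (d.e + 1) ^ 3 := by
  obtain ⟨-, -, a3, -, a5, -⟩ := h.sT_t
  rw [ND.be0, d.Phi_P, sum_D' d.invH fun g hg o => h.Sy_odd (fun g _ o => kM_odd d.lP o) g (d.HT hg) o, h.Sy_t,
    sum_eq_zero (s := univ) (f := fun g : d.Y1 => cut _ _ (g : N)) fun g _ => by simp [cut, kM, d.linY1 _ _ g.2]]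
  have e2 : ∀ g : d.H, Sy s (kM d.lam) g = 2 - h.cr (d.sT d.lam) ⟨g, d.HT g.2⟩ - h.cr' (d.sT d.lam) ⟨g, d.HT g.2⟩ :=
    fun g => by
      rw [show Sy s (kM d.lam) g = _ from SG.Sy_kM (s := s) d.lam ⟨g, d.HT g.2⟩]
      simp [SG.cr, SG.cr', show d.sT d.lam ⟨g, d.HT g.2⟩ = 1 from d.linH _ _ g.2]; ring
  have k : (Nat.card d.H : ℂ) ^ 2 = (d.e - 1) ^ 2 := by exact_mod_cast d.kH
  simp only [e2, sum_sub_distrib, CS2.sum_ex d.HT d.tH a3, CS2.sum_ex d.HT d.tH a5, sum_const, card_univ,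
    ← Nat.card_eq_fintype_card, nsmul_eq_mul]
  linear_combination d.e * (d.e + 1) * k

namespace GD

variable {d : ND N} {t : G} {ι : M →* 𝒞[t]} {κ : M →* N} (h : GD d t ι κ) {lam : 𝒞[t] →* ℂˣ} {Λ : G → ℂ}
  {B : Finset (G → ℂ)}

/-- `α_θ` -/
noncomputable def al (lam : 𝒞[t] →* ℂˣ) (θ : d.Y →* ℂˣ) : G → ℂ := h.lift lam (d.al0 θ)
/-- `β` -/
noncomputable def be (lam : 𝒞[t] →* ℂˣ) : G → ℂ := h.lift lam (d.be0 h.s d.lam)

theorem al_odd (θ : d.Y →* ℂˣ) {g : G} (o : Odd (orderOf g)) : h.al lam θ g = 0 := h.lift_odd _ o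
theorem be_odd {g : G} (o : Odd (orderOf g)) : h.be lam g = 0 := h.lift_odd _ o

theorem al_al {θ θ' : d.Y →* ℂˣ} (P : Pr θ) (P' : Pr θ') (e : θ ≠ 1) (e' : θ' ≠ 1) : ⟪h.al lam θ, h.al lam θ'⟫ =
    2 + (if θ = θ' then 1 else 0) + if d.cU θ = θ' then 1 else 0 :=
  (h.lift_lift (d.al0_span P) (d.cfP _ _)).trans (h.sg.al_al P' e e')

theorem be_al {θ : d.Y →* ℂˣ} (P : Pr θ) (e : θ ≠ 1) : ⟪h.be lam, h.al lam θ⟫ = 1 + if d.sY d.lam = θ then 1 else 0 :=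
  (h.lift_lift (h.sg.be0_span d.lP) (d.cfP _ _)).trans (h.sg.be_al d.lam1 P e)

theorem nrm_al {θ : d.Y →* ℂˣ} (P : Pr θ) (e : θ ≠ 1) : nrm (h.al lam θ) = if d.cU θ = θ then 4 else 3 :=
  nrm_eq_of_dot (by rw [h.al_al P P e e]; split_ifs <;> simp_all <;> norm_num)

variable (b : Blk t lam Λ B)
include b

theorem ndY {χ : G → ℂ} (hχ : Dirr χ) {θ : d.Y →* ℂˣ} (P : Pr θ) : ⟪χ, h.al lam θ⟫ = -nd (d.FY (h.R lam χ)) θ :=
  (h.dot_lift (ZIrr.mem_CF hχ.mem_ZIrr) (d.cfP _ _)).trans ((h.dat b hχ).ndY h.sg P)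

theorem ndY' {χ : G → ℂ} (hχ : Dirr χ) {θ : d.Y →* ℂˣ} (P : Pr θ) {n : ℤ} (e : ⟪χ, h.al lam θ⟫ = n) :
    nd (d.FY (h.R lam χ)) θ = -n := Int.cast_injective (α := ℂ) (by rw [Int.cast_neg, ← e, h.ndY b hχ P, neg_neg])

theorem ndB {χ : G → ℂ} (hχ : Dirr χ) : ⟪χ, h.be lam⟫ =
    -(nd (d.Fs h.s (h.R lam χ)) (d.sT d.lam) + nd (d.FY (h.R lam χ)) (d.sY d.lam)) / 2 :=
  (h.dot_lift (ZIrr.mem_CF hχ.mem_ZIrr) (d.cfP _ _)).trans ((h.dat b hχ).ndB h.sg d.lP)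

theorem al_ZIrr {θ : d.Y →* ℂˣ} (P : Pr θ) : h.al lam θ ∈ ZIrr G :=
  mem_ZIrr_of_dot_int (h.lift_CF _) fun χ hχ => ⟨_, dot_comm_of_int ((h.ndY b (IsIrr.dirr hχ) P).trans
    (Int.cast_neg _).symm)⟩

theorem be_ZIrr : h.be lam ∈ ZIrr G :=
  mem_ZIrr_of_dot_int (h.lift_CF _) fun χ hχ => by
    obtain ⟨n, hn⟩ := (h.dat b (IsIrr.dirr hχ)).be _ d.lP
    exact ⟨n, dot_comm_of_int ((h.dot_lift (IsIrr.mem_CF hχ) (d.cfP _ _)).trans hn)⟩

theorem val_t (hl : ∀ m, lam (ι m) = 1) {χ : G → ℂ} (hχ : Dirr χ) (p : proj B χ = χ) {a a' : N → ℂ}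
    (v : d.Val (h.R lam χ) a a') : χ t = ((d.e + 1) * a d.t - (d.e - 1) * a' d.t) / 2 := by
  rw [← v.t, ← h.κt, ← h.val b hl (ZIrr.mem_CF hχ.mem_ZIrr) p (h.κt ▸ d.tD), h.ιt]

theorem alpha : ∃ x a c, Dirr x ∧ Dirr a ∧ Dirr c ∧ ⟪x, a⟫ = 0 ∧ ⟪x, c⟫ = 0 ∧ ⟪a, c⟫ = 0 ∧ h.al lam d.θ1 = x + a + c ∧
    (∀ θ, Pr θ → θ ≠ 1 → ⟪x, h.al lam θ⟫ = 1 ∧ ⟪a, h.al lam θ⟫ = 1) ∧ ⟪c, h.al lam (d.sY d.lam)⟫ = 0 ∧
    ⟪x, h.be lam⟫ = 1 ∧ ⟪a, h.be lam⟫ = 0 ∧ ⟪c, h.be lam⟫ = 0 ∧ nd (d.Fs h.s (h.R lam x)) (d.sT d.lam) = -1 ∧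
    d.Val (h.R lam x) 1 1 ∧ d.Val (h.R lam a) (-1) 1 ∧ d.Val (h.R lam c) 0 (-(ex d.θ1 + ex (d.cU d.θ1))) := by
  have a1 := d.cU_ne d.n1
  have a2 := d.cU_ne d.n2
  have a3 := d.cU_ne d.n12'
  have z1 := h.al_ZIrr b d.P1
  have z2 := h.al_ZIrr b d.P2
  have lT : Pr (d.sT d.lam) := d.lP.comp _
  have lY : Pr (d.sY d.lam) := d.lP.comp _
  obtain ⟨x, a, c, hx, ha, hc, xa, xc, ac, e, k⟩ := three' z1 (by rw [h.nrm_al d.P1 (d.ne_one a1), if_neg a1]) z2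
    (by rw [h.nrm_al d.P2 (d.ne_one a2), if_neg a2]; norm_num) (by
      rw [ZIrr.dot_comm z2 z1, h.al_al d.P1 d.P2 (d.ne_one a1) (d.ne_one a2), if_neg d.n12, if_neg a3]; norm_num)
  have k1 : ⟪c, h.al lam d.θ1⟫ = 1 := by
    rw [e, dot_add_right, dot_add_right, dot_comm_zero xc, dot_comm_zero ac, hc.dot_self]; simp
  have n1 := h.ndY' b hc d.P1 (n := 1) (by simpa using k1)
  obtain ⟨c0, c1, c2⟩ := (h.dat b hc).detY h.sg n1 (h.ndY' b hc d.P2 (n := 0) (by simpa using dot_comm_zero k))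
  have s2 : ∀ θ, Pr θ → θ ≠ 1 → ⟪h.al lam θ, x⟫ + ⟪h.al lam θ, a⟫ = 2 := fun θ P t1 => by
    have := h.al_al (lam := lam) d.P1 P (d.ne_one a1) t1
    have z := h.al_ZIrr b P
    rw [e, dot_add_left, dot_add_left, h.ndY b hc P, ← ZIrr.dot_comm z hx.mem_ZIrr, ← ZIrr.dot_comm z ha.mem_ZIrr]
      at this
    by_cases e1 : θ = d.θ1
    · rw [e1] at this ⊢; simp only [n1, a1, if_true, if_false] at this; push_cast at this; linear_combination this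
    by_cases e2 : θ = d.cU d.θ1
    · rw [if_neg (Ne.symm e1), if_pos e2.symm, show nd (d.FY (h.R lam c)) θ = -1 by
        rw [e2, (h.dat b hc).nd_u h.sg, n1]] at this
      push_cast at this; linear_combination this
    · rw [c1 θ P e1 e2, if_neg (Ne.symm e1), if_neg (Ne.symm e2)] at this; simpa using this
  have s1 : ∀ θ, Pr θ → θ ≠ 1 → ⟪x, h.al lam θ⟫ = 1 ∧ ⟪a, h.al lam θ⟫ = 1 := fun θ P t1 => by
    have z := h.al_ZIrr b P
    have n4 : nrm (h.al lam θ) ≤ 4 := by rw [h.nrm_al P t1]; split_ifs <;> norm_num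
    have o := h.al_odd (lam := lam) θ (g := 1) (by simp)
    rw [← ZIrr.dot_comm z hx.mem_ZIrr, ← ZIrr.dot_comm z ha.mem_ZIrr]
    exact ⟨two_two z n4 o hx ha (s2 θ P t1), two_two z n4 o ha hx (by rw [add_comm, s2 θ P t1])⟩
  have nx := fun θ P t1 => h.ndY' b hx P (n := 1) (by simpa using (s1 θ P t1).1)
  have na := fun θ P t1 => h.ndY' b ha P (n := 1) (by simpa using (s1 θ P t1).2)
  obtain ⟨ε, hε, x1, x2⟩ := (h.dat b hx).detX h.sg nx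
  obtain ⟨δ, hδ, y1, y2⟩ := (h.dat b ha).detX h.sg na
  have c3 := c1 _ lY (d.ne_sY a1 _).1 (d.ne_sY a1 _).2
  have bx := h.ndB b hx
  have ba := h.ndB b ha
  have bc := h.ndB b hc
  rw [x1 _ lT (d.sT1 d.lam1), nx _ lY (d.sY1 d.lam1)] at bx
  rw [y1 _ lT (d.sT1 d.lam1), na _ lY (d.sY1 d.lam1)] at ba
  rw [c0 _ lT, c3] at bc
  have bc' : ⟪c, h.be lam⟫ = 0 := by simpa using bc
  have cY : ⟪c, h.al lam (d.sY d.lam)⟫ = 0 := by rw [h.ndY b hc lY, c3]; simp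
  have s := h.be_al (lam := lam) d.P1 (d.ne_one a1)
  rw [if_neg (d.ne_sY a1 _).1, ZIrr.dot_comm (h.be_ZIrr b) z1, e, dot_add_left, dot_add_left, bx, ba, bc'] at s
  rcases hε with rfl | rfl <;> rcases hδ with rfl | rfl
  · norm_num at s
  · exact ⟨a, x, c, ha, hx, hc, dot_comm_zero xa, ac, xc, by rw [e]; abel, fun θ P t1 => (s1 θ P t1).symm, cY,
      by rw [ba]; norm_num, by rw [bx]; norm_num, bc', y1 _ lT (d.sT1 d.lam1), 
      y2.congr rfl (fun _ _ _ => by simp) fun _ _ _ => rfl, x2.congr rfl (fun _ _ _ => by simp) fun _ _ _ => rfl, c2⟩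
  · exact ⟨x, a, c, hx, ha, hc, xa, xc, ac, e, s1, cY,
      by rw [bx]; norm_num, by rw [ba]; norm_num, bc', x1 _ lT (d.sT1 d.lam1), 
      x2.congr rfl (fun _ _ _ => by simp) fun _ _ _ => rfl, y2.congr rfl (fun _ _ _ => by simp) fun _ _ _ => rfl, c2⟩
  · norm_num at s

end GD

/-- the six characters -/
structure BO {d : ND N} {t : G} {ι : M →* 𝒞[t]} {κ : M →* N} (h : GD d t ι κ) (lam : 𝒞[t] →* ℂˣ)
    (B : Finset (G → ℂ)) (x a b c f y : G → ℂ) : Prop where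
  dx : Dirr x
  da : Dirr a
  db : Dirr b
  dc : Dirr c
  df : Dirr f
  dy : Dirr y
  px : proj B x = x
  pa : proj B a = a
  pb : proj B b = b
  pc : proj B c = c
  pf : proj B f = f
  py : proj B y = y
  xa : ⟪x, a⟫ = 0
  xb : ⟪x, b⟫ = 0
  xc : ⟪x, c⟫ = 0
  xf : ⟪x, f⟫ = 0
  xy : ⟪x, y⟫ = 0
  ab : ⟪a, b⟫ = 0
  ac : ⟪a, c⟫ = 0
  af : ⟪a, f⟫ = 0
  ay : ⟪a, y⟫ = 0
  bc : ⟪b, c⟫ = 0
  bf : ⟪b, f⟫ = 0
  by' : ⟪b, y⟫ = 0
  cf : ⟪c, f⟫ = 0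
  cy : ⟪c, y⟫ = 0
  fy : ⟪f, y⟫ = 0
  e1 : h.al lam d.θ1 = x + a + b
  e2 : h.be lam = x + c + f
  e3 : h.al lam (d.sY d.lam) = x + a + f + y
  vx : d.Val (h.R lam x) 1 1
  va : d.Val (h.R lam a) (-1) 1
  vb : d.Val (h.R lam b) 0 (-(ex d.θ1 + ex (d.cU d.θ1)))
  vf : d.Val (h.R lam f) (Sy h.s (kM d.lam) - 3) (kM d.lam - 1)

namespace GD

variable {d : ND N} {t : G} {ι : M →* 𝒞[t]} {κ : M →* N} (h : GD d t ι κ) {lam : 𝒞[t] →* ℂˣ} {Λ : G → ℂ}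
  {B : Finset (G → ℂ)}

theorem main (k : Blk t lam Λ B) (hl : ∀ m, lam (ι m) = 1) : ∃ x a b c f y, BO h lam B x a b c f y := by
  obtain ⟨x, a, b, hx, ha, hb, xa, xb, ab, e, v, bY, βx, βa, βb, mx, vx, va, vb⟩ := h.alpha k
  have lT : Pr (d.sT d.lam) := d.lP.comp _
  have lY : Pr (d.sY d.lam) := d.lP.comp _
  have l1 := d.sY1 d.lam1
  have zb := h.be_ZIrr k
  have bb : ⟪h.be lam, h.be lam⟫ = 3 := (h.lift_lift (lam := lam) (h.sg.be0_span d.lP) (d.cfP _ _)).trans (h.sg.be_be d.lP d.lam1).1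
  have βx' := (ZIrr.dot_comm zb hx.mem_ZIrr).trans βx
  have sw : ∀ θ, Pr θ → θ ≠ 1 → ∀ y, Dirr y → ⟪x, y⟫ = 0 → ⟪h.al lam θ - x, y⟫ = ⟪y, h.al lam θ⟫ :=
    fun θ P t1 y hy y0 => by rw [dot_sub_left, y0, ZIrr.dot_comm (h.al_ZIrr k P) hy.mem_ZIrr, sub_zero]
  have nx : ∀ θ, Pr θ → θ ≠ 1 → nrm (h.al lam θ - x) = if d.cU θ = θ then 3 else 2 := fun θ P t1 => by
    rw [nrm_sub_of_dot_one hx.dot_self ((ZIrr.dot_comm (h.al_ZIrr k P) hx.mem_ZIrr).trans (v θ P t1).1), h.nrm_al P t1]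
    split_ifs <;> norm_num
  have z := sub_mem (h.al_ZIrr k lY) hx.mem_ZIrr
  have : ∃ c f, Dirr c ∧ Dirr f ∧ ⟪c, f⟫ = 0 ∧ h.be lam - x = c + f ∧ ⟪h.al lam (d.sY d.lam) - x, c⟫ = 0 ∧
      ⟪h.al lam (d.sY d.lam) - x, f⟫ = 1 := by
    obtain ⟨c, f, hc, hf, cf, e⟩ := ZIrr.exists_of_nrm_two (sub_mem zb hx.mem_ZIrr)
      (by rw [nrm_sub_of_dot_one hx.dot_self βx', nrm_eq_of_dot (r := 3) (bb.trans (by simp))]; norm_num)
    rcases two_split z (by rw [nx _ lY l1, if_pos (d.cU_sY _)]; norm_num) hc hf (by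
      rw [← e, dot_sub_left, dot_sub_right, dot_sub_right, ZIrr.dot_comm (h.al_ZIrr k lY) zb, h.be_al lY l1, βx,
        ZIrr.dot_comm (h.al_ZIrr k lY) hx.mem_ZIrr, (v _ lY l1).1, hx.dot_self]
      simp) with k | k
    · exact ⟨f, c, hf, hc, dot_comm_zero cf, by rw [e]; abel, k.2, k.1⟩
    · exact ⟨c, f, hc, hf, cf, e, k⟩
  obtain ⟨c, f, hc, hf, cf, eb, kc, kf⟩ := this
  have o1 : ⟪c + f, c⟫ = 1 := by rw [dot_add_left, hc.dot_self, dot_comm_zero cf, add_zero]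
  have o2 : ⟪c + f, f⟫ = 1 := by rw [dot_add_left, hf.dot_self, cf, zero_add]
  have ox : ⟪c + f, x⟫ = 0 := by rw [← eb, dot_sub_left, βx', hx.dot_self, sub_self]
  have oa : ⟪c + f, a⟫ = 0 := by rw [← eb, dot_sub_left, dot_comm_zero βa, xa, sub_self]
  have ob : ⟪c + f, b⟫ = 0 := by rw [← eb, dot_sub_left, dot_comm_zero βb, xb, sub_self]
  have xc := orth_of hc hx o1 ox
  have xf := orth_of hf hx o2 ox
  have ac := orth_of hc ha o1 oa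
  have af := orth_of hf ha o2 oa
  have eb' : h.be lam = x + c + f := by rw [add_assoc, ← eb]; abel
  have a1 := d.ne_one (d.cU_ne d.n1)
  have px := h.inB k hx (f := d.al0 d.θ1) ((v _ d.P1 a1).1 ▸ one_ne_zero)
  have pa := h.inB k ha (f := d.al0 d.θ1) ((v _ d.P1 a1).2 ▸ one_ne_zero)
  obtain ⟨s, hs⟩ := ZIrr.deg_int ha.mem_ZIrr
  obtain ⟨m, hm⟩ := ZIrr.deg_int hf.mem_ZIrr
  obtain ⟨n, hn⟩ := ZIrr.deg_int hc.mem_ZIrr
  have so : Odd s := by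
    obtain ⟨l, hl⟩ := (deg3 h.four h.cj ha hs (e := -d.e) (by rw [h.val_t k hl ha pa va]; simp; ring)).1
    obtain ⟨j, hj⟩ := d.eo
    exact ⟨2 * l + 3 * j + 1, by omega⟩
  have x1 : x 1 = -n - m := by
    have := h.be_odd (lam := lam) (g := 1) (by simp)
    rw [eb'] at this
    simp only [Pi.add_apply, hn, hm] at this
    linear_combination this
  have n0 : ∀ θ, Pr θ → θ ≠ d.sY d.lam → nd (d.FY (h.R lam f)) θ = 0 := fun θ P t2 => by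
    by_cases t1 : θ = 1
    · rw [t1, nd_one]
    have z := sub_mem (h.al_ZIrr k P) hx.mem_ZIrr
    have k1 : ⟪c, h.al lam θ⟫ + ⟪f, h.al lam θ⟫ = 0 := by
      have := h.be_al (lam := lam) P t1
      rw [eb', dot_add_left, dot_add_left, (v θ P t1).1, if_neg t2.symm] at this
      linear_combination this
    have n3 : nrm (h.al lam θ - x) ≤ 3 := by rw [nx θ P t1]; split_ifs <;> norm_num
    have ka := (sw θ P t1 a ha xa).trans (v θ P t1).2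
    have o1 : (h.al lam θ - x) 1 = n + m := by simp [h.al_odd θ (g := 1) (by simp), x1]; ring
    obtain ⟨j, hj⟩ := so
    rcases ZIrr.dot_cases_of_nrm_lt_four z (n3.trans_lt (by norm_num)) hf with k | k | k
    · have := congrFun (eq_three n3 ha hc hf.neg ac (by rw [dot_neg_right, af, neg_zero])
        (by rw [dot_neg_right, cf, neg_zero]) ka (by
          rw [sw θ P t1 f hf xf] at k; rw [sw θ P t1 c hc xc]; linear_combination k1 - k)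
        (by rw [dot_neg_right, k, neg_neg])) 1
      simp only [o1, Pi.add_apply, Pi.neg_apply, hs, hn, hm] at this
      have : n + m = s + n + -m := by exact_mod_cast this
      omega
    · exact h.ndY' ‹_› hf P (n := 0) (by rw [← sw θ P t1 f hf xf, k]; simp)
    · have := congrFun (eq_three n3 ha hc.neg hf (by rw [dot_neg_right, ac, neg_zero]) af
        (by rw [dot_neg_left, cf, neg_zero]) ka (by
          rw [sw θ P t1 f hf xf] at k; rw [dot_neg_right, sw θ P t1 c hc xc]; linear_combination k - k1) k) 1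
      simp only [o1, Pi.add_apply, Pi.neg_apply, hs, hn, hm] at this
      have : n + m = s + -n + m := by exact_mod_cast this
      omega
  have kf' := (sw _ lY l1 f hf xf).symm.trans kf
  have vf := (h.dat k hf).detB h.sg (h.dat k hc) (by
    have g4 := (h.lift_lift (lam := lam) (h.sg.be0_span d.lP) (d.cfP _ _)).trans (h.sg.be_be d.lP d.lam1).2
    have nT : ∀ χ, Dirr χ → ⟪χ, h.lift lam (d.ga0 h.s (d.sT d.lam))⟫ = -nd (d.Fs h.s (h.R lam χ)) (d.sT d.lam) :=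
      fun χ hχ => (h.dot_lift (ZIrr.mem_CF hχ.mem_ZIrr) (d.cfP _ _)).trans ((h.dat k hχ).ndT h.sg lT)
    change ⟪h.be lam, h.lift lam (d.ga0 h.s (d.sT d.lam))⟫ = 4 at g4
    rw [eb', dot_add_left, dot_add_left, nT x hx, nT c hc, nT f hf, mx] at g4
    refine Int.cast_injective (α := ℂ) ?_
    push_cast at g4 ⊢
    linear_combination -g4) (h.ndY' k hf lY (n := 1) (by simpa using kf')) n0
  have ka := (sw _ lY l1 a ha xa).trans (v _ lY l1).2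
  have kf2 : ⟪h.al lam (d.sY d.lam) - x - a, f⟫ = 1 := by rw [dot_sub_left, kf, af, sub_zero]
  have hy := dirr_sub (sub_mem z ha.mem_ZIrr) (by
    rw [nrm_sub_of_dot_one ha.dot_self ka, nx _ lY l1, if_pos (d.cU_sY _)]; norm_num) hf kf2
  have bc := orth_of hc hb o1 ob
  have bf := orth_of hf hb o2 ob
  have xy : ⟪x, h.al lam (d.sY d.lam) - x - a - f⟫ = 0 := by
    simp only [dot_sub_right, (v _ lY l1).1, hx.dot_self, xa, xf]; simp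
  have ay : ⟪a, h.al lam (d.sY d.lam) - x - a - f⟫ = 0 := by
    simp only [dot_sub_right, (v _ lY l1).2, ha.dot_self, dot_comm_zero xa, af]; simp
  have fy : ⟪f, h.al lam (d.sY d.lam) - x - a - f⟫ = 0 := by
    simp only [dot_sub_right, kf', hf.dot_self, dot_comm_zero xf, dot_comm_zero af]; simp
  refine ⟨x, a, b, c, f, _, hx, ha, hb, hc, hf, hy, px, pa, h.inB k hb (f := d.al0 d.θ1) ?_,
    h.inB k hc (f := d.be0 h.s d.lam) ?_, h.inB k hf (f := d.al0 _) (kf' ▸ one_ne_zero),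
    h.inB k hy (f := d.al0 (d.sY d.lam)) ?_, xa, xb, xc, xf, xy, ab, ac, af, ay, bc, bf, ?_, cf, ?_, fy, e, eb',
    by abel, vx, va, vb, vf⟩
  · change ⟪b, h.al lam d.θ1⟫ ≠ 0
    rw [e, dot_add_right, dot_add_right, dot_comm_zero xb, dot_comm_zero ab, hb.dot_self]; simp
  · change ⟪c, h.be lam⟫ ≠ 0
    rw [eb', dot_add_right, dot_add_right, dot_comm_zero xc, cf, hc.dot_self]; simp
  · change ⟪_, h.al lam (d.sY d.lam)⟫ ≠ 0
    generalize hw : h.al lam (d.sY d.lam) - x - a - f = w at *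
    rw [show h.al lam (d.sY d.lam) = x + a + f + w by rw [← hw]; abel]
    simp [dot_add_right, dot_comm_zero xy, dot_comm_zero ay, dot_comm_zero fy, hy.dot_self]
  · simp only [dot_sub_right, bY, dot_comm_zero xb, dot_comm_zero ab, bf]; simp
  · rw [dot_sub_right, dot_sub_right, dot_comm_zero kc, dot_comm_zero ac, cf]; simp

end GD

namespace BO

variable {d : ND N} {t : G} {ι : M →* 𝒞[t]} {κ : M →* N} {h : GD d t ι κ} {lam : 𝒞[t] →* ℂˣ} {Λ : G → ℂ}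
  {B : Finset (G → ℂ)} {x a b c f y : G → ℂ} (o : BO h lam B x a b c f y)
include o

theorem odd {g : G} (hg : Odd (orderOf g)) :
    x g + a g + b g = 0 ∧ x g + c g + f g = 0 ∧ x g + a g + f g + y g = 0 :=
  ⟨(congrFun o.e1 g).symm.trans (h.al_odd _ hg), (congrFun o.e2 g).symm.trans (h.be_odd hg),
    (congrFun o.e3 g).symm.trans (h.al_odd _ hg)⟩

variable (k : Blk t lam Λ B) (hl : ∀ m, lam (ι m) = 1)
include k hl

theorem at_t : x t = 1 ∧ a t = -d.e ∧ b t = 1 - d.e ∧ c t = d.e + 1 ∧ f t = d.e ∧ y t = -1 := by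
  have xt : x t = 1 := by rw [h.val_t k hl o.dx o.px o.vx]; simp
  have at' : a t = -d.e := by rw [h.val_t k hl o.da o.pa o.va]; simp; ring
  have ft : f t = d.e := by rw [h.val_t k hl o.df o.pf o.vf]; simp [h.sg.Sy_t, kM, d.lam_t]; ring
  have lt : ∀ F, proj (B0 2 N) F = F → h.lift lam F t = F d.t := fun F hF => by
    rw [← h.κt, ← h.lift_val hl hF (h.κt ▸ d.tD), h.ιt]
  refine ⟨xt, at', ?_, ?_, ft, ?_⟩
  · rw [h.val_t k hl o.db o.pb o.vb]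
    simp [show ex d.θ1 d.t = _ from ex_coe _ d.tY, show ex (d.cU d.θ1) d.t = _ from ex_coe _ d.tY, d.cU_t,
      d.θt d.tY rfl]
    ring
  · have := congrFun o.e2 t
    rw [GD.be, lt _ (h.sg.be0_span d.lP), ND.be0, (d.val_P (h.sg.Sy_w fun g _ => kM_cj _ _ g)
      fun g _ => kM_cj _ _ g).t, h.sg.Sy_t] at this
    simp only [kM, d.lam_t, Pi.add_apply, xt, ft, Units.val_one] at this
    linear_combination -this
  · have := congrFun o.e3 t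
    rw [GD.al, lt _ (d.al0_span (θ := d.sY d.lam) (d.lP.comp _)), ND.al0, (d.val_P (fun _ _ => rfl) fun g _ => aY_cj d.u2 _ g).t,
      show aY d.u _ d.t = _ from d.aY_coeY _ d.tY, d.cU_sY] at this
    simp [ND.sY, show d.lam (d.tY : N) = 1 from d.lam_t, xt, at', ft] at this
    linear_combination -this

theorem Phi {χ : G → ℂ} (hχ : Dirr χ) : Phi χ = (𝒞[t]).index ^ 2 * (χ t ^ 2 / χ 1) := by
  have e := Phi_dirr h.cj hχ
  rw [card_invs' h.t2 h.t1 h.cj] at e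
  have := hχ.deg_ne_zero
  field_simp; linear_combination e

theorem eqs : ((𝒞[t]).index : ℂ) * (1 / x 1 + d.e ^ 2 / a 1 + (d.e - 1) ^ 2 / b 1) =
      h.A ^ 2 * (d.e * (d.e - 1) * (d.e + 1) ^ 2) ∧
    ((𝒞[t]).index : ℂ) * (1 / x 1 + (d.e + 1) ^ 2 / c 1 + d.e ^ 2 / f 1) = h.A ^ 2 * (d.e * (d.e + 1) ^ 3) ∧
    1 / x 1 + d.e ^ 2 / a 1 + d.e ^ 2 / f 1 + 1 / y 1 = 0 := by
  obtain ⟨xt, at', bt, ct, ft, yt⟩ := o.at_t k hl
  have i0 : ((𝒞[t]).index : ℂ) ≠ 0 := Nat.cast_ne_zero.2 index_ne_zero_of_finite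
  have e1 := h.Phi_lift hl (d.al0_span d.P1)
  have e2 := h.Phi_lift hl (h.sg.be0_span d.lP)
  have e3 := h.Phi_lift hl (d.al0_span (d.lP.comp d.Y.subtype))
  rw [d.Phi_al, ← GD.al, o.e1] at e1
  rw [h.sg.Phi_be, ← GD.be, o.e2] at e2
  change Dih.Phi (h.al lam (d.sY d.lam)) = _ * Dih.Phi (cut _ (d.al0 (d.sY d.lam))) at e3
  rw [d.Phi_al', o.e3] at e3
  simp only [Phi_add, o.Phi k hl o.dx, o.Phi k hl o.da, o.Phi k hl o.db, o.Phi k hl o.dc, o.Phi k hl o.df,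
    o.Phi k hl o.dy, xt, at', bt, ct, ft, yt] at e1 e2 e3
  exact ⟨mul_left_cancel₀ i0 (by linear_combination e1), mul_left_cancel₀ i0 (by linear_combination e2),
    mul_left_cancel₀ (pow_ne_zero 2 i0) (by linear_combination e3)⟩

theorem x_val {m : M} (hm : κ m ∈ DD d.t) : x (ι m) = 1 := by
  rw [h.val k hl (ZIrr.mem_CF o.dx.mem_ZIrr) o.px hm]
  have := d.Fk_lin
  exact o.vx.eq (ξ' := 1) ⟨fun g _ _ => by simpa using congrFun (d.Fk_lin d.cT 1) g,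
    fun g _ _ => by simpa using congrFun (d.Fk_lin d.cY 1) g⟩ (rho_CF _) (one_mem _) hm

theorem a_val {m : M} (hm : κ m ∈ DD d.t) : a (ι m) = d.P (-1) 1 (κ m) := by
  rw [h.val k hl (ZIrr.mem_CF o.da.mem_ZIrr) o.pa hm]
  exact o.va.eq (d.val_P (fun _ _ => rfl) fun _ _ => rfl) (rho_CF _) (d.cfP _ _) hm

theorem f_val {m : M} (hm : κ m ∈ DD d.t) : f (ι m) = d.be0 h.s d.lam (κ m) - d.P 3 1 (κ m) := by
  rw [h.val k hl (ZIrr.mem_CF o.df.mem_ZIrr) o.pf hm]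
  exact o.vf.eq ((d.val_P (h.sg.Sy_w fun g _ => kM_cj _ _ g) fun g _ => kM_cj _ _ g).sub
    (d.val_P (fun _ _ => rfl) fun _ _ => rfl)) (rho_CF _) (sub_mem (d.cfP _ _) (d.cfP _ _)) hm

end BO

theorem realizeEqns_Abg_B6 : True := by
  have := @CA.Abg.GD.be.eq_1.{0,0,0}
  have := @CA.Abg.GD.be.eq_def.{0,0,0}
  have := @CA.Abg.GD.be.congr_simp.{0,0,0}
  have := @CA.Abg.GD.al.eq_1.{0,0,0}
  have := @CA.Abg.GD.al.eq_def.{0,0,0}
  have := @CA.Abg.GD.al.congr_simp.{0,0,0}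
  trivial

end CA.Abg
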