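import Cfsg.Agent.Abg.B2

/-!
# The abstract shape of `N`
-/

set_option autoImplicit false
set_option linter.unusedSectionVars false
set_option linter.unusedVariables false

open Cfsg Subgroup CA.Chr CA.Dih CA.Blk CA.Br Finset
open scoped ComplexConjugate Classical

namespace CA.Abg

universe u

variable {N : Type u} [Group N] [Fintype N]

/-- the properties of the class function with given torus parts -/
structure PK (q : ℕ) (Z : Subgroup N) (x : N) (T : Subgroup N) (cT : ℂ) (w : N) (Y : Subgroup N) (cY : ℂ) (u : N)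
    (P : (N → ℂ) → (N → ℂ) → N → ℂ) : Prop where
  cfP : ∀ a b, P a b ∈ CF N
  dP : ∀ χ ∈ CF N, ∀ a b, ⟪χ, P a b⟫ = (2 * Nat.card T : ℂ)⁻¹ * ∑ g : T, Fk cT q Z x χ g * conj (a g) +
    (2 * Nat.card Y : ℂ)⁻¹ * ∑ g : Y, Fk cY q Z x χ g * conj (b g)
  vT : ∀ a b, (∀ g ∈ T, a (w * g * w⁻¹) = a g) → ∀ g ∈ T, Fk cT q Z x (P a b) g = a g
  vY : ∀ a b, (∀ g ∈ Y, b (u * g * u⁻¹) = b g) → ∀ g ∈ Y, Fk cY q Z x (P a b) g = b g
  comp : ∀ χ ∈ CF N, P (Fk cT q Z x χ) (Fk cY q Z x χ) = χ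
  intT : ∀ χ ∈ ZIrr N, ∀ ν : T →* ℂˣ, ∃ n : ℤ, co (Fk cT q Z x χ) ν = n
  intY : ∀ χ ∈ ZIrr N, ∀ ν : Y →* ℂˣ, ∃ n : ℤ, co (Fk cY q Z x χ) ν = n
  prT : ∀ χ ∈ CF N, proj (B0 2 N) χ = χ → ∀ ν : T →* ℂˣ, ¬ Pr ν → co (Fk cT q Z x χ) ν = 0
  prY : ∀ χ ∈ CF N, proj (B0 2 N) χ = χ → ∀ ν : Y →* ℂˣ, ¬ Pr ν → co (Fk cY q Z x χ) ν = 0

theorem PK.swap {q : ℕ} {Z T Y : Subgroup N} {x w u : N} {cT cY : ℂ} {P : (N → ℂ) → (N → ℂ) → N → ℂ}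
    (h : PK q Z x T cT w Y cY u P) : PK q Z x Y cY u T cT w fun a b => P b a :=
  ⟨fun a b => h.cfP b a, fun χ cf a b => by rw [h.dP χ cf, add_comm], fun a b => h.vY b a, fun a b => h.vT b a,
    h.comp, h.intY, h.intT, h.prY, h.prT⟩

theorem pk {q : ℕ} {Z T Y U X : Subgroup N} {w u x : N} (h : CS q ⊤ Z T Y U X w u x) :
    PK q Z x T (q - 1) w Y (q + 1) u (Ph q ⊤ Z T Y U x Set.univ) := by
  have td : TD ⊤ Z x Set.univ := td_univ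
  refine ⟨fun a b => CS.Ph_CF a b, fun χ cf a b => by rw [h.dot_Ph cf, SD_univ, SD_univ]; rfl,
    fun a b ha g hg => h.Fa_Ph td ha b hg trivial, fun a b hb g hg => h.Fb_Ph td a hb hg trivial, fun χ cf => ?_,
    fun χ hχ => h.int_coef h.ZT h.kT' hχ, fun χ hχ => h.int_coef h.ZY h.kY' hχ,
    fun χ cf e ν hν => by rw [co, Tor.pr h (h.torT td) cf e hν, mul_zero],
    fun χ cf e ν hν => by rw [co, Tor.pr h (h.torY td) cf e hν, mul_zero]⟩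
  have c0 : ∀ A : Subgroup N, (2 * Nat.card A : ℂ)⁻¹ * SD A Set.univ 1 1 = 1 / 2 := fun A => by
    have : (Nat.card A : ℂ) ≠ 0 := card_ne_zero
    simp only [SD_univ, Pi.one_apply, map_one, mul_one, sum_const, card_univ, ← Nat.card_eq_fintype_card, nsmul_eq_mul]
    field_simp
  have e1 := h.dot_Ph (D := Set.univ) (one_mem (CF N)) 1 1
  have e2 := h.dot_Ph_Ph td (a := 1) (b := 1) (fun _ _ => rfl) (fun _ _ => rfl) 1 1
  rw [show Fa q Z x 1 = 1 from funext fun g => by simp [Fa, CS2.mm_one],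
    show Fb q Z x 1 = 1 from funext fun g => by simp [Fb, CS2.mm_one]] at e1
  rw [c0, c0, add_halves] at e1 e2
  have e : 1 - Ph q ⊤ Z T Y U x Set.univ 1 1 = 0 := nrm_eq_zero.1 (by
    rw [nrm_sub, nrm, nrm, e1, e2, dot_one_one]; norm_num)
  ext g
  obtain ⟨n, -, hn⟩ := exists_ne_zero_of_sum_ne_zero (s := univ)
    (f := fun n => sf q ⊤ Z T Y U x Set.univ 1 1 (n * g * n⁻¹)) (by
      have := congrFun e g
      simp only [Pi.sub_apply, Pi.one_apply, Pi.zero_apply, sub_eq_zero] at this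
      exact fun k => one_ne_zero (this.trans k))
  rw [← CF_conj (CS.Ph_CF _ _) g n, ← CF_conj cf g n]
  generalize n * g * n⁻¹ = g at hn
  by_cases hZ : g ∈ Z
  · rw [h.Ph_Z td _ _ hZ trivial, h.val_Z χ hZ]; rfl
  by_cases hT : g ∈ T
  · rw [h.Ph_T td (fun g _ => h.Fk_w _ cf trivial g) _ hT hZ trivial]; simp [Fk, mm, hZ]
  by_cases hY : g ∈ Y
  · rw [h.Ph_Y td _ (fun g _ => h.Fk_w _ cf trivial g) hY hZ trivial]; simp [Fk, mm, hZ]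
  have hX : g * x⁻¹ ∈ Z := by by_contra k; simp [sf, hZ, hT, hY, k] at hn
  have := h.q0
  rw [show g = g * x⁻¹ * x by simp, h.Ph_X td _ _ hX trivial]
  simp only [Fk, mm, hX, if_true]
  field_simp; ring

/-- `N = GL₂^ε(q)/Z₀` in terms of the shape `CS` -/
structure CN (e : ℤ) (q : ℕ) (C Z T Y H Y1 : Subgroup N) (t w u x : N) (lam : C →* ℂˣ) (θ1 θ2 : Y →* ℂˣ) : Prop where
  cs : ∃ U X, (e = q ∧ CS q C Z T Y U X w u x) ∨ (e = -q ∧ CS q C Z Y T U X u w x)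
  qo : Odd q
  t2 : t * t = 1
  t1 : t ≠ 1
  tZ : t ∈ Z
  uT : u ∈ T
  wu : w * u * w⁻¹ = t * u
  invY : ∀ y ∈ Y, y * y = 1 → y = 1 ∨ y = t
  invT : ∀ g ∈ T, g * g = 1 → g = 1 ∨ g = t ∨ g = u ∨ g = t * u
  icj : ∀ i, i * i = 1 → i ≠ 1 → i ≠ t → ∃ c, c * u * c⁻¹ = i
  cu : ∀ c, c * u * c⁻¹ = u → c ∈ T
  linx : ∀ (μ : C →* ℂˣ) (g : C), (g : N) = x → μ g = 1
  linT : ∀ μ : C →* ℂˣ, (∀ g : C, (g : N) ∈ T → μ g = 1) → μ = 1
  linY : ∀ μ : C →* ℂˣ, (∀ g : C, (g : N) ∈ Y → μ g = 1) → μ = 1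
  linH : ∀ (μ : C →* ℂˣ) (g : C), (g : N) ∈ H → μ g = 1
  linY1 : ∀ (μ : C →* ℂˣ) (g : C), (g : N) ∈ Y1 → μ g = 1
  extT : ∀ θ : T →* ℂˣ, (∀ y y' : T, (y' : N) = w * y * w⁻¹ → θ y' = θ y) →
    ∃ μ : C →* ℂˣ, ∀ (y : T) (g : C), (g : N) = y → μ g = θ y
  extY : ∀ θ : Y →* ℂˣ, (∀ y y' : Y, (y' : N) = u * y * u⁻¹ → θ y' = θ y) →
    ∃ μ : C →* ℂˣ, ∀ (y : Y) (g : C), (g : N) = y → μ g = θ y
  HT : H ≤ T
  kH : (Nat.card H : ℤ) = |e - 1|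
  tH : t ∈ H
  HZ : ∀ g ∈ H, g ∈ Z → g = 1 ∨ g = t
  invH : ∀ g ∈ H, g * g = 1 → g = 1 ∨ g = t
  Y1Y : Y1 ≤ Y
  kY1 : (Nat.card Y1 : ℤ) = |e + 1|
  tY1 : t ∈ Y1
  Y1Z : ∀ g ∈ Y1, g ∈ Z → g = 1 ∨ g = t
  rrt : (rr t : ℤ) = e * (e + 1)
  rrtx : (rr (t * x) : ℤ) = q + e
  rrZ : ∀ z ∈ Z, t ∈ zpowers z → z ≠ t → rr z = 0 ∧ rr (z * x) = 0
  rrT : ∀ g ∈ T, t ∈ zpowers g → g ∉ Z → rr g = if g ∈ H then Nat.card H else 0
  rrY : ∀ g ∈ Y, t ∈ zpowers g → g ∉ Z → rr g = if g ∈ Y1 then Nat.card Y1 else 0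
  lP : Pr lam
  lu : ∀ g : C, (g : N) = u → lam g = -1
  P1 : Pr θ1
  P2 : Pr θ2
  n1 : ∃ y y' : Y, (y' : N) = u * y * u⁻¹ ∧ θ1 y' ≠ θ1 y
  n2 : ∃ y y' : Y, (y' : N) = u * y * u⁻¹ ∧ θ2 y' ≠ θ2 y
  n12 : θ1 ≠ θ2
  n12' : ∃ y y' : Y, (y' : N) = u * y * u⁻¹ ∧ θ1 y' ≠ θ2 y
  θt : ∀ y : Y, (y : N) = t → θ1 y = -1
  cas : lam * lam ≠ 1 ∨
    ∀ g ∈ T, Odd (orderOf g) ∨ Odd (orderOf (t * g)) ∨ Odd (orderOf (u * g)) ∨ Odd (orderOf (t * u * g))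

theorem CN.nd {e : ℤ} {q : ℕ} {C Z T Y H Y1 : Subgroup N} {t w u x : N} {lam : C →* ℂˣ} {θ1 θ2 : Y →* ℂˣ}
    (h : CN e q C Z T Y H Y1 t w u x lam θ1 θ2) (hC : C = ⊤) : ∃ d : ND N, d.e = e ∧ d.q = q ∧ d.t = t ∧ d.u = u := by
  subst hC
  have : ∃ P, PK q Z x T (|e - 1| : ℤ) w Y (|e + 1| : ℤ) u P ∧ (e = q ∨ e = -q) ∧ 3 ≤ q ∧ Z ≤ T ∧ Z ≤ Y ∧
      (∀ z ∈ Z, ∀ c, z * c = c * z) ∧ IsMulCommutative T ∧ IsMulCommutative Y ∧
      (Nat.card N : ℤ) = e * (e + 1) * Nat.card T ∧ (Nat.card N : ℤ) = e * (e - 1) * Nat.card Y ∧ w * w = 1 ∧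
      u * u = 1 ∧ u ∉ Y ∧ (∀ g ∈ T, w * g * w⁻¹ ∈ T) ∧ (∀ g ∈ Y, u * g * u⁻¹ ∈ Y) ∧ Odd (orderOf x) := by
    obtain ⟨U, X, ⟨rfl, c⟩ | ⟨rfl, c⟩⟩ := h.cs <;> have q3 := c.q3 <;> have k := c.kC' <;> rw [card_top] at k
    · refine ⟨Ph q ⊤ Z T Y U x Set.univ, ?_, .inl rfl, q3, c.ZT, c.ZY, fun z hz g => c.cen z hz g trivial, c.cT, c.cY, ?_, ?_, c.w2, c.u2,
        c.un, c.wT, c.uY, c.xo⟩
      · rw [abs_of_nonneg (by omega), abs_of_nonneg (by omega)]; push_cast; exact pk c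
      · refine Int.cast_injective (α := ℂ) ?_; push_cast; rw [k, c.kT']; ring
      · refine Int.cast_injective (α := ℂ) ?_; push_cast; rw [k, c.kY']; ring
    · refine ⟨fun a b => Ph q ⊤ Z Y T U x Set.univ b a, ?_, .inr rfl, q3, c.ZY, c.ZT, fun z hz g => c.cen z hz g trivial, c.cY, c.cT, ?_, ?_, c.u2, c.w2,
        c.wn, c.uY, c.wT, c.xo⟩
      · rw [abs_of_nonpos (by omega), abs_of_nonpos (by omega), show -(-(q : ℤ) - 1) = q + 1 by ring,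
          show -(-(q : ℤ) + 1) = q - 1 by ring]
        push_cast; exact (pk c).swap
      · refine Int.cast_injective (α := ℂ) ?_; push_cast; rw [k, c.kY']; ring
      · refine Int.cast_injective (α := ℂ) ?_; push_cast; rw [k, c.kT']; ring
  obtain ⟨P, p, he, q3, ZT, ZY, cen, aT, aY, kT, kY, w2, u2, un, wT, uY, xo⟩ := this
  let ε : N ≃* (⊤ : Subgroup N) := topEquiv.symm
  have lf : ∀ μ : N →* ℂˣ, ∀ g, (μ.comp (⊤ : Subgroup N).subtype) (ε g) = μ g := fun _ _ => rfl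
  have q0 : (q : ℂ) ≠ 0 := by exact_mod_cast (by omega : q ≠ 0)
  have mt : mm q Z x (fun g => (rr g : ℂ)) t = q - 1 := by
    have e1 : (rr t : ℂ) = e * (e + 1) := by exact_mod_cast h.rrt
    have e2 : (rr (t * x) : ℂ) = q + e := by exact_mod_cast h.rrtx
    simp only [mm, h.tZ, if_true, e1, e2]
    rcases he with rfl | rfl <;> push_cast <;> field_simp <;> ring
  have key : ∀ (k : ℂ) (A : Subgroup N), (∀ g ∈ A, g ∈ Z → g = 1 ∨ g = t) → ∀ g ∈ DD t, g ≠ t →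
      (g ∉ Z → rr g = if g ∈ A then Nat.card A else 0) →
      Fk k q Z x (fun g => (rr g : ℂ)) g = if g ∈ A then (Nat.card A : ℂ) else 0 := fun k A hA g hD e r => by
    by_cases hz : g ∈ Z
    · rw [if_neg fun l => (hA g l hz).elim (fun l => h.t1 (by simpa [l, DD] using hD)) e]
      simp [Fk, mm, h.rrZ g hz hD e]
    · simp [Fk, mm, hz, r hz]
  have kH : (Nat.card H : ℂ) = (|e - 1| : ℤ) := by exact_mod_cast h.kH
  have kY1 : (Nat.card Y1 : ℂ) = (|e + 1| : ℤ) := by exact_mod_cast h.kY1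
  have e1 : (rr t : ℂ) = e * (e + 1) := by exact_mod_cast h.rrt
  have ab : ((|e - 1| : ℤ) : ℂ) * q = e * (e - 1) ∧ ((|e + 1| : ℤ) : ℂ) * q = e * (e + 1) ∧
      ((|e - 1| : ℤ) : ℂ) + (|e + 1| : ℤ) = 2 * q := by
    rcases he with rfl | rfl
    · rw [abs_of_nonneg (by omega), abs_of_nonneg (by omega)]; push_cast; refine ⟨?_, ?_, ?_⟩ <;> ring
    · rw [abs_of_nonpos (by omega), abs_of_nonpos (by omega)]; push_cast; refine ⟨?_, ?_, ?_⟩ <;> ring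
  refine ⟨⟨e, q, (|e - 1| : ℤ), (|e + 1| : ℤ), Z, T, Y, H, Y1, t, w, u, x, P, lam.comp ε.toMonoidHom, θ1, θ2, ?_, he, q3,
    mul_right_cancel₀ q0 (by linear_combination (e + 1) * ab.1 - (e - 1) * ab.2.1), ab.2.2, ZT, ZY, cen, aT, aY, kT, kY,
    by rw [h.kH, sq_abs], by rw [h.kY1, sq_abs], w2, u2, h.t2, h.t1, h.tZ, h.uT, un, h.wu, wT, uY, xo, h.invY, h.invT,
    h.icj, h.cu, p.cfP, p.dP, p.vT, p.vY, p.comp, p.intT, p.intY, p.prT, p.prY, fun μ => (lf μ x).symm.trans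
      (h.linx _ _ rfl), fun μ a => ?_, fun μ a => ?_, fun μ g a => (lf μ g).symm.trans (h.linH _ _ a),
    fun μ g a => (lf μ g).symm.trans (h.linY1 _ _ a), fun ν a => ?_, fun ν a => ?_, h.HT, h.tH, h.invH, h.Y1Y, h.tY1,
    fun g hg hD => ?_, fun g hg hD => ?_, h.lP.comp _, h.lu _ rfl, h.P1, h.P2, h.n1, h.n2, h.n12, h.n12', h.θt,
    h.cas.imp_left fun a b => a (MonoidHom.ext fun g => DFunLike.congr_fun b g.1)⟩, rfl, rfl, rfl, rfl⟩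
  · rcases he with rfl | rfl
    exacts [h.qo.natCast, h.qo.natCast.neg]
  · exact MonoidHom.ext fun g => (lf μ g).symm.trans (by rw [h.linT (μ.comp (⊤ : Subgroup N).subtype) fun g => a g]; rfl)
  · exact MonoidHom.ext fun g => (lf μ g).symm.trans (by rw [h.linY (μ.comp (⊤ : Subgroup N).subtype) fun g => a g]; rfl)
  · obtain ⟨μ, hμ⟩ := h.extT ν a
    exact ⟨μ.comp ε.toMonoidHom, fun y => hμ y _ rfl⟩
  · obtain ⟨μ, hμ⟩ := h.extY ν a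
    exact ⟨μ.comp ε.toMonoidHom, fun y => hμ y _ rfl⟩
  · by_cases l : g = t
    · rw [l, if_pos h.tH, if_pos rfl, Fk, mt, e1, kH]; linear_combination -ab.1
    · rw [key _ H h.HZ g hD l (h.rrT g hg hD), if_neg l, add_zero]
  · by_cases l : g = t
    · rw [l, if_pos h.tY1, Fk, mt, e1, kY1]; linear_combination -ab.2.1
    · exact key _ Y1 h.Y1Z g hD l (h.rrY g hg hD)

end CA.Abg
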