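import Cfsg.Agent.Abg.B6

/-!
# Lower bounds for degrees
-/

set_option autoImplicit false
set_option linter.unusedSectionVars false
set_option linter.unusedVariables false

open Cfsg Subgroup CA.Chr CA.Dih CA.Blk CA.Br CA.FG Finset
open scoped ComplexConjugate Classical

namespace CA.Abg

universe u v w

variable {G : Type u} {M : Type v} {N : Type w} [Group G] [Fintype G] [Group M] [Fintype M] [Group N] [Fintype N]

theorem sgn {W ψ : N → ℂ} (hW : IsCharacter N W) (z : ψ ∈ ZIrr N) (h1 : ⟪ψ, ψ⟫ = 1) {n m : ℤ} (e : ψ 1 = n)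
    (e' : 2 * ⟪W, ψ⟫ = m) : 0 ≤ n * m := by
  obtain ⟨ε, χ, hε, hχ, rfl⟩ := (ZIrr.dirr_of_dot_self z h1).exists_sign
  obtain ⟨k, hk⟩ := IsChar.dot_nat hW (IsIrr.isChar hχ)
  obtain ⟨j, -, hj⟩ := IsIrr.exists_deg hχ
  rw [dot_smul_right, hk, map_intCast] at e'
  rw [Pi.smul_apply, hj, smul_eq_mul] at e
  obtain rfl : ε * j = n := by exact_mod_cast e
  obtain rfl : 2 * (ε * k) = m := by exact_mod_cast e'
  nlinarith [mul_nonneg (mul_self_nonneg ε) (mul_nonneg (Int.natCast_nonneg j) (Int.natCast_nonneg k))]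

theorem co_expand {A : Subgroup N} (cA : IsMulCommutative A) [Fintype (A →* ℂˣ)] (F : N → ℂ) (g : A) :
    F g = ∑ ν : A →* ℂˣ, co F ν * ν g := by
  simpa [co_dot] using congrFun (lin_expand (F ∘ A.subtype)) g

theorem sum_double {A : Type*} [CommGroup A] {b : A → ℤ} {L : Finset A} {ψ : A} (h : ∀ θ, b (θ * ψ) = b θ)
    (hd : ∀ θ ∈ L, θ * ψ ∉ L) : ∑ θ ∈ L ∪ L.image (· * ψ), b θ = 2 * ∑ θ ∈ L, b θ := by
  rw [sum_union (disjoint_right.2 fun x hx => by obtain ⟨θ, k, rfl⟩ := mem_image.1 hx; exact hd θ k),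
    sum_image fun a _ b _ e => mul_right_cancel e]
  simp only [h]; ring

namespace ND

variable (d : ND N) {W : N → ℂ}

theorem sgT (hW : IsCharacter N W) {ν : d.T →* ℂˣ} (e : d.cW ν ≠ ν) {n : ℤ} (hn : co (d.FT W) ν = n) :
    (d.e + 1) * n ≥ 0 := by
  have v : ∀ g : d.T, -ex ν g - ex ν (d.w * g * d.w⁻¹) = (0 : ℤ) - ([ν, d.cW ν].map fun ν => (ν g : ℂ)).sum := fun g => by
    rw [ex_coe, ex_cj ν d.wT]; simp [cW]; ring
  have dt : ∀ χ ∈ CF N, ⟪χ, d.P (fun g => -ex ν g - ex ν (d.w * g * d.w⁻¹)) 0⟫ = -co (d.FT χ) ν := fun χ cf => by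
    rw [d.dP' cf [ν, d.cW ν] [] 0 0 v (by simp)]; simp [d.co_w cf]
  have vT := d.vT (fun g => -ex ν g - ex ν (d.w * g * d.w⁻¹)) 0 (fun g _ => by rw [sq_conj d.w2]; ring)
  have := sgn hW (ψ := d.P (fun g => -ex ν g - ex ν (d.w * g * d.w⁻¹)) 0) (n := -(d.e + 1)) (m := -2 * n)
    (mem_ZIrr_of_dot_int (d.cfP _ _) fun ψ hψ => by
      obtain ⟨a, ha⟩ := d.intT _ (IsIrr.mem_ZIrr hψ) ν
      exact ⟨-a, dot_comm_of_int (by rw [dt _ (IsIrr.mem_CF hψ), ha]; simp)⟩) (by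
    rw [dt _ (d.cfP _ _), co_lin 0 [ν, d.cW ν] fun g => by rw [FT, vT g g.2, v]; simp]
    simp [e]) (by
      rw [d.valZ (d.P _ _) 1, FT, FY, vT 1 (one_mem _), d.vY _ _ (fun _ _ => rfl) 1 (one_mem _)]
      simp [ex_mem ν (one_mem _), show (⟨1, one_mem _⟩ : d.T) = 1 from rfl]; ring)
    (by rw [dt _ (IsChar.mem_CF hW), hn]; push_cast; ring)
  nlinarith

theorem sgY (hW : IsCharacter N W) {ν : d.Y →* ℂˣ} (e : d.cU ν ≠ ν) {n : ℤ} (hn : co (d.FY W) ν = n) :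
    (d.e - 1) * n ≤ 0 := by
  have v : ∀ g : d.Y, -ex ν g - ex ν (d.u * g * d.u⁻¹) = (0 : ℤ) - ([ν, d.cU ν].map fun ν => (ν g : ℂ)).sum := fun g => by
    rw [ex_coe, ex_cj ν d.uY]; simp [cU]; ring
  have dt : ∀ χ ∈ CF N, ⟪χ, d.P 0 (fun g => -ex ν g - ex ν (d.u * g * d.u⁻¹))⟫ = -co (d.FY χ) ν := fun χ cf => by
    rw [d.dP' cf [] [ν, d.cU ν] 0 0 (by simp) v]; simp [d.co_u cf]
  have vY := d.vY 0 (fun g => -ex ν g - ex ν (d.u * g * d.u⁻¹)) (fun g _ => by rw [sq_conj d.u2]; ring)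
  have := sgn hW (ψ := d.P 0 (fun g => -ex ν g - ex ν (d.u * g * d.u⁻¹))) (n := d.e - 1) (m := -2 * n)
    (mem_ZIrr_of_dot_int (d.cfP _ _) fun ψ hψ => by
      obtain ⟨a, ha⟩ := d.intY _ (IsIrr.mem_ZIrr hψ) ν
      exact ⟨-a, dot_comm_of_int (by rw [dt _ (IsIrr.mem_CF hψ), ha]; simp)⟩) (by
    rw [dt _ (d.cfP _ _), co_lin 0 [ν, d.cU ν] fun g => by rw [FY, vY g g.2, v]; simp]
    simp [e]) (by
      rw [d.valZ (d.P _ _) 1, FT, FY, vY 1 (one_mem _), d.vT _ _ (fun _ _ => rfl) 1 (one_mem _)]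
      simp [ex_mem ν (one_mem _), show (⟨1, one_mem _⟩ : d.Y) = 1 from rfl]; ring)
    (by rw [dt _ (IsChar.mem_CF hW), hn]; push_cast; ring)
  nlinarith

theorem sgL (hW : IsCharacter N W) (μ : N →* ℂˣ) {m n : ℤ} (hm : co (d.FT W) (d.sT μ) = m)
    (hn : co (d.FY W) (d.sY μ) = n) : 0 ≤ m + n ∧ 0 ≤ d.e * (m - n) := by
  have cf := IsChar.mem_CF hW
  have dt : ∀ χ ∈ CF N, ⟪χ, d.P (lin μ) (-lin μ)⟫ = (co (d.FT χ) (d.sT μ) - co (d.FY χ) (d.sY μ)) / 2 := fun χ cf => by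
    rw [d.dP _ cf]; simp only [co, Pi.neg_apply, map_neg, mul_neg, sum_neg_distrib, lin_apply, sT, sY]
    simp only [MonoidHom.comp_apply, coe_subtype]; field_simp; ring
  have vT := d.vT (lin μ) (-lin μ) fun g _ => CF_conj (lin_mem_CF μ) g _
  have vY := d.vY (lin μ) (-lin μ) fun g _ => congrArg Neg.neg (CF_conj (lin_mem_CF μ) g _)
  have cT : (Nat.card d.T : ℂ) ≠ 0 := card_ne_zero
  have cY : (Nat.card d.Y : ℂ) ≠ 0 := card_ne_zero
  refine ⟨by simpa using sgn hW (lin_mem_ZIrr μ) (IsIrr.dot_self (lin_irr μ)) (n := 1) (m := m + n) (by simp) (by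
    rw [d.dot_lin cf, hm, hn]; push_cast; ring), sgn hW (ψ := d.P (lin μ) (-lin μ))
    (mem_ZIrr_of_dot_int (d.cfP _ _) fun ψ hψ => ?_) ?_ ?_ (by rw [dt _ cf, hm, hn]; push_cast; ring)⟩
  · obtain ⟨a, ha⟩ := d.intT _ (IsIrr.mem_ZIrr hψ) (d.sT μ)
    obtain ⟨b, hb⟩ := ZIrr.dot_int (IsIrr.mem_ZIrr hψ) (lin_mem_ZIrr μ)
    refine ⟨a - b, dot_comm_of_int ?_⟩
    rw [dt _ (IsIrr.mem_CF hψ), Int.cast_sub, ← ha, ← hb, d.dot_lin (IsIrr.mem_CF hψ)]; ring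
  · rw [dt _ (d.cfP _ _), co_congr vT, co_congr vY]
    have a := sum_lin_conj (d.sT μ) (d.sT μ)
    have b := sum_lin_conj (d.sY μ) (d.sY μ)
    simp only [if_true] at a b
    simp only [co, Pi.neg_apply, neg_mul, sum_neg_distrib, lin_apply]
    rw [show ∑ g : d.T, (μ g : ℂ) * _ = _ from a, show ∑ g : d.Y, (μ g : ℂ) * _ = _ from b]
    field_simp; norm_num
  · rw [d.valZ (d.P _ _) 1, FT, FY, vY 1 (one_mem _), vT 1 (one_mem _)]; simp; ring

theorem extT' {θ : d.T →* ℂˣ} (e : d.cW θ = θ) : ∃ μ, d.sT μ = θ :=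
  let ⟨μ, k⟩ := d.extT θ fun y y' l => by
    rw [show y' = cjH d.wT y from Subtype.ext l]; exact DFunLike.congr_fun e y
  ⟨μ, MonoidHom.ext k⟩

theorem BD (hW : IsCharacter N W) {α β : ℂ} (v : d.Val W (fun _ => α) fun _ => β) (hu : W d.u = α + d.e - 1) :
    (d.e : ℝ) ^ 2 - 1 ≤ (W 1 - W d.t).re := by
  have cf := IsChar.mem_CF hW
  haveI := d.abT
  haveI := d.abY
  haveI : Finite (d.T →* ℂˣ) := Nat.finite_of_card_ne_zero (by rw [card_lin]; exact Nat.card_pos.ne')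
  haveI : Finite (d.Y →* ℂˣ) := Nat.finite_of_card_ne_zero (by rw [card_lin]; exact Nat.card_pos.ne')
  haveI := Fintype.ofFinite (d.T →* ℂˣ)
  haveI := Fintype.ofFinite (d.Y →* ℂˣ)
  haveI : Finite (N →* ℂˣ) := Finite.of_injective _ fun a b => d.sY_inj
  haveI := Fintype.ofFinite (N →* ℂˣ)
  choose a ha using d.intT W (IsChar.mem_ZIrr hW)
  choose b hb using d.intY W (IsChar.mem_ZIrr hW)
  have a1 := d.cU_ne d.n1
  have cm : ∀ θ ψ, d.cU (θ * ψ) = d.cU θ * d.cU ψ := fun _ _ => rfl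
  have inv : ∀ θ ψ : d.Y →* ℂˣ, Pr ψ → co (fun g => d.FY W g - β) (θ * ψ) = co (fun g => d.FY W g - β) θ :=
    fun θ ψ P => by
      rw [co, co]; congr 1
      refine sum_congr rfl fun g _ => ?_
      by_cases o : Odd (orderOf g)
      · simp [P g o]
      · simp [v.2 g g.2 ((d.Y_even g.2).2 (by rwa [orderOf_coe]))]
  have ne : ∀ θ : d.Y →* ℂˣ, θ ≠ 1 → co (fun g => d.FY W g - β) θ = b θ := fun θ e => by
    have := sum_lin_conj 1 θ
    simp only [MonoidHom.one_apply, Units.val_one, one_mul, if_neg e.symm] at this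
    rw [← hb, co, co]; simp only [sub_mul, sum_sub_distrib, ← mul_sum, this, mul_zero, sub_zero]
  obtain ⟨b', hb', sb⟩ : ∃ b' : (d.Y →* ℂˣ) → ℤ, (∀ θ, co (fun g => d.FY W g - β) θ = b' θ) ∧
      ∀ θ, (d.e - 1) * b' θ ≤ 0 := by
    have : ∀ θ : d.Y →* ℂˣ, ∃ n : ℤ, co (fun g => d.FY W g - β) θ = n ∧ (d.e - 1) * n ≤ 0 := fun θ => by
      by_cases e : d.cU θ = θ
      · have e' : d.cU (θ * d.θ1) ≠ θ * d.θ1 := fun k => a1 (mul_left_cancel (a := θ) (by rwa [cm, e] at k))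
        exact ⟨_, by rw [← inv θ _ d.P1, ne _ (d.ne_one e')], d.sgY hW e' (hb _)⟩
      · exact ⟨_, ne _ (d.ne_one e), d.sgY hW e (hb _)⟩
    choose b' h1 h2 using this
    exact ⟨b', h1, h2⟩
  have e1 : d.FY W 1 - β = (∑ θ, b' θ : ℤ) := by
    have := co_expand d.abY (fun g => d.FY W g - β) 1
    simpa [hb'] using this
  set S := univ.filter fun ν : d.T →* ℂˣ => ν d.tT = 1 ∧ ν d.uT' = -1 with hS
  have uZ : d.u ∉ d.Z := fun e => d.un (d.ZY e)
  have e2 : d.FT W 1 - α = 2 * (d.e - 1) + 4 * (∑ ν ∈ S, a ν : ℤ) := by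
    have f1 := co_expand d.abT (d.FT W) 1
    have f2 := co_expand d.abT (d.FT W) d.tT
    have f3 := co_expand d.abT (d.FT W) d.uT'
    have f4 := co_expand d.abT (d.FT W) (d.tT * d.uT')
    have g3 : d.FT W d.u = W d.u := d.Fk_nZ _ _ uZ
    have g4 : d.FT W (d.t * d.u) = W d.u := by rw [← d.wu, FT, d.Fk_cj _ cf]; exact g3
    change d.FT W 1 = _ at f1
    change d.FT W d.t = _ at f2
    change d.FT W d.u = _ at f3
    change d.FT W (d.t * d.u) = _ at f4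
    rw [v.1 _ (d.ZT d.tZ) d.tD] at f2
    have : ∑ ν, co (d.FT W) ν * ((ν 1 : ℂ) + ν d.tT - ν d.uT' - ν (d.tT * d.uT')) = 4 * (∑ ν ∈ S, a ν : ℤ) := by
      rw [hS, sum_filter]; push_cast; rw [mul_sum]
      refine sum_congr rfl fun ν _ => ?_
      rcases unit_sq (a := ν d.tT) (by rw [← map_mul, ← map_one ν]; exact congrArg ν (Subtype.ext d.t2)) with k | k <;>
        rcases unit_sq (a := ν d.uT') (by rw [← map_mul, ← map_one ν]; exact congrArg ν (Subtype.ext d.u2)) with l | l <;>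
          simp [k, l, show co (d.FT W) ν = _ from ha ν, show (1 : ℂˣ) ≠ -1 by simp [eq_comm]]
      ring
    simp only [mul_add, mul_sub, sum_add_distrib, sum_sub_distrib, ← f1, ← f2, ← f3, ← f4, g3, g4, hu] at this
    linear_combination this
  have key : 0 ≤ 4 * (d.e + 1) * ∑ ν ∈ S, a ν - (d.e - 1) * ∑ θ, b' θ := by
    have q3 := d.q3
    rcases d.eq with e | e
    · have h1 : 0 ≤ ∑ ν ∈ S, a ν := sum_nonneg fun ν _ => by
        by_cases k : d.cW ν = ν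
        · obtain ⟨μ, rfl⟩ := d.extT' k
          have := d.sgL hW μ (ha _) (hb _)
          have := nonneg_of_mul_nonneg_right this.2 (by omega)
          omega
        · exact nonneg_of_mul_nonneg_right (d.sgT hW k (ha _)) (by omega)
      have h2 : ∑ θ, b' θ ≤ 0 := sum_nonpos fun θ _ => nonpos_of_mul_nonpos_right (sb θ) (by omega)
      nlinarith
    set S' := univ.filter fun μ : N →* ℂˣ => μ d.u = -1 with hS'
    have b0 : ∀ θ, 0 ≤ b' θ := fun θ => by have := sb θ; nlinarith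
    have bi : ∀ ψ, Pr ψ → ∀ θ, b' (θ * ψ) = b' θ := fun ψ P θ => Int.cast_injective (α := ℂ) (by
      rw [← hb', ← hb', inv θ ψ P])
    have h1 : ∑ ν ∈ S, a ν ≤ ∑ θ ∈ S'.image d.sY, b' θ := by
      rw [sum_image fun a _ b _ e => d.sY_inj e]
      calc ∑ ν ∈ S, a ν ≤ ∑ ν ∈ S'.image d.sT, a ν := sum_le_sum_of_subset_of_nonpos' (fun ν hν => by
            obtain ⟨μ, k, rfl⟩ := mem_image.1 hν
            exact mem_filter.2 ⟨mem_univ _, d.linH μ _ d.tH, (mem_filter.1 k).2⟩) fun ν k k' => by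
            have := d.sgT hW (fun l => by
              obtain ⟨μ, rfl⟩ := d.extT' l
              exact k' (mem_image_of_mem _ (mem_filter.2 ⟨mem_univ _, (mem_filter.1 k).2.2⟩))) (ha ν)
            nlinarith
        _ ≤ _ := by
          rw [sum_image fun a _ b _ e => d.sT_inj e]
          refine sum_le_sum fun μ k => ?_
          have μ1 : μ ≠ 1 := fun l => by simpa [l, eq_comm] using (mem_filter.1 k).2
          have := (d.sgL hW μ (ha _) (hb _)).2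
          rw [show b' (d.sY μ) = b (d.sY μ) from Int.cast_injective (α := ℂ) (by rw [← hb', ne _ (d.sY1 μ1)])]
          nlinarith
    have h2 := sum_double (L := S'.image d.sY) (bi (d.sY d.lam) (d.lP.comp _)) fun θ k l => by
      obtain ⟨μ, k0, rfl⟩ := mem_image.1 k
      obtain ⟨μ', k', l⟩ := mem_image.1 l
      have := (mem_filter.1 k').2
      have k2 : μ d.u = -1 := (mem_filter.1 k0).2
      rw [d.sY_inj (μ' := μ * d.lam) l, MonoidHom.mul_apply, k2, d.lu] at this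
      simp [eq_comm] at this
    have fx : ∀ θ ∈ S'.image d.sY ∪ (S'.image d.sY).image (· * d.sY d.lam), d.cU θ = θ := fun θ k => by
      simp only [mem_union, mem_image, exists_exists_and_eq_and] at k
      rcases k with ⟨μ, -, rfl⟩ | ⟨μ, -, rfl⟩ <;> simp only [cm, d.cU_sY]
    have h3 := sum_double (bi _ d.P1) fun θ k l => a1 (mul_left_cancel (a := θ) (by rw [← fx _ l, cm, fx _ k]))
    have := h3.symm.trans_le (sum_le_sum_of_subset_of_nonneg (subset_univ _) fun θ _ _ => b0 θ)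
    have := sum_nonneg fun θ (_ : θ ∈ S'.image d.sY) => b0 θ
    nlinarith
  have : W 1 - W d.t = d.e ^ 2 - 1 + (4 * (d.e + 1) * ∑ ν ∈ S, a ν - (d.e - 1) * ∑ θ, b' θ : ℤ) / 2 := by
    rw [v.t, d.valZ W 1]; push_cast at e1 e2 ⊢
    linear_combination (d.e + 1) / 2 * e2 - (d.e - 1) / 2 * e1
  rw [this]
  generalize 4 * (d.e + 1) * ∑ ν ∈ S, a ν - (d.e - 1) * ∑ θ, b' θ = k at key
  have : (0 : ℝ) ≤ k := by exact_mod_cast key
  simp only [← Complex.ofReal_intCast, ← Complex.ofReal_one, ← Complex.ofReal_pow, ← Complex.ofReal_ofNat,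
    ← Complex.ofReal_div, ← Complex.ofReal_sub, ← Complex.ofReal_add, Complex.ofReal_re]
  linarith

end ND

theorem avg (f : M →* G) (κ : M →* N) (K : Subgroup M) (O : Subgroup G) (hn : ∀ m ∈ K, ∀ o ∈ O, f m * o * (f m)⁻¹ ∈ O)
    (hs : ∀ n, ∃ m ∈ K, κ m = n) (hk : ∀ m ∈ K, κ m = 1 → f m ∈ O) {χ : G → ℂ} (hχ : IsCharacter G χ) :
    ∃ W, IsCharacter N W ∧ ∀ m ∈ K, Nat.card O * W (κ m) = ∑ o : O, χ (o * f m) := by
  let Γ : Subgroup (G × N) :=
    { carrier := {p | ∃ m ∈ K, κ m = p.2 ∧ p.1 * (f m)⁻¹ ∈ O}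
      one_mem' := ⟨1, one_mem _, by simp⟩
      mul_mem' := by
        rintro a b ⟨m, k1, k2, k3⟩ ⟨n, l1, l2, l3⟩
        refine ⟨m * n, mul_mem k1 l1, by simp [k2, l2], ?_⟩
        have := mul_mem k3 (hn m k1 _ l3)
        simpa [mul_assoc] using this
      inv_mem' := by
        rintro a ⟨m, k1, k2, k3⟩
        refine ⟨m⁻¹, inv_mem k1, by simp [k2], ?_⟩
        have := hn _ (inv_mem k1) _ (inv_mem k3)
        simpa [mul_assoc] using this }
  let f1 : Γ →* G := (MonoidHom.fst G N).comp Γ.subtype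
  let f2 : Γ →* N := (MonoidHom.snd G N).comp Γ.subtype
  have fib : ∀ m ∈ K, ∀ k : G → ℂ, ∑ γ : Γ, (if f2 γ = κ m then k (f1 γ) else 0) = ∑ o : O, k (o * f m) :=
    fun m hm k => by
      rw [← sum_filter]
      refine (sum_bij (fun o _ => ⟨(o * f m, κ m), m, hm, rfl, by simp⟩) (fun o _ => mem_filter.2 ⟨mem_univ _, rfl⟩)
        (fun a _ b _ e => Subtype.ext (mul_right_cancel (congrArg f1 e))) (fun γ hγ => ?_) fun _ _ => rfl).symm
      obtain ⟨n, l1, l2, l3⟩ := γ.2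
      have e : γ.1.2 = κ m := (mem_filter.1 hγ).2
      have := mul_mem l3 (hk (n * m⁻¹) (mul_mem l1 (inv_mem hm)) (by simp [l2, e]))
      exact ⟨⟨f1 γ * (f m)⁻¹, by simpa [f1, mul_assoc] using this⟩, mem_univ _, Subtype.ext (Prod.ext (by simp [f1]) e.symm)⟩
  have c : (Nat.card Γ : ℂ) = Nat.card N * Nat.card O := by
    have : ∀ n, ∑ γ : Γ, (if f2 γ = n then (1 : ℂ) else 0) = Nat.card O := fun n => by
      obtain ⟨m, hm, rfl⟩ := hs n
      simpa using fib m hm 1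
    have e := sum_congr rfl fun n (_ : n ∈ univ) => this n
    rw [sum_comm] at e
    simpa using e
  refine ⟨ind f2 (χ ∘ f1), IsChar.ind (IsChar.comp hχ f1) f2, fun m hm => ?_⟩
  rw [ind_apply, sum_congr rfl (g := fun _ => ∑ o : O, χ (o * f m)) fun x _ => ?_, sum_const, c, card_univ,
    ← Nat.card_eq_fintype_card, nsmul_eq_mul]
  · have : (Nat.card N : ℂ) ≠ 0 := card_ne_zero
    have : (Nat.card O : ℂ) ≠ 0 := card_ne_zero
    field_simp
  · obtain ⟨c, hc, rfl⟩ := hs x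
    rw [← map_inv, ← map_mul, ← map_mul]
    refine (fib _ (mul_mem (mul_mem (inv_mem hc) hm) hc) χ).trans ?_
    rw [← sum_cjH (hn c hc) fun o => χ (o * f m)]
    exact sum_congr rfl fun o _ => by
      rw [← CF_conj (IsChar.mem_CF hχ) _ (f c)]; simp [mul_assoc]

theorem GD.bdx {d : ND N} {t : G} {ι : M →* 𝒞[t]} {κ : M →* N} (h : GD d t ι κ) (K : Subgroup M) (O : Subgroup G)
    (hn : ∀ m ∈ K, ∀ o ∈ O, (ι m : G) * o * (ι m : G)⁻¹ ∈ O) (hs : ∀ n, ∃ m ∈ K, κ m = n)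
    (hk : ∀ m ∈ K, κ m = 1 → (ι m : G) ∈ O) (uK : h.uM ∈ K)
    (hD : ∀ m ∈ K, κ m ∈ DD d.t → ∀ o ∈ O, ∃ m', κ m' = κ m ∧ IsConj (ι m' : G) (o * ι m))
    (hU : ∀ o ∈ O, ∃ m', κ m' = d.t ∧ IsConj (ι m' : G) (o * ι h.uM)) {χ : G → ℂ} (hχ : IsCharacter G χ) {α β : ℂ}
    (v : ∀ m, κ m ∈ DD d.t → χ (ι m) = d.P (fun _ => α) (fun _ => β) (κ m)) (ht : χ t = α + d.e - 1) :
    Nat.card O * ((d.e : ℝ) ^ 2 - 1 + (χ t).re) ≤ (∑ o : O, χ o).re := by
  obtain ⟨W, hW, e⟩ := avg (𝒞[t].subtype.comp ι) κ K O hn hs hk hχ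
  have cf := IsChar.mem_CF hχ
  have c0 : (Nat.card O : ℂ) ≠ 0 := card_ne_zero
  have cst : ∀ m ∈ K, ∀ z, (∀ o ∈ O, χ (o * ι m) = z) → W (κ m) = z := fun m hm z k => mul_left_cancel₀ c0 (by
    rw [e m hm]; exact (sum_congr rfl fun (o : O) _ => k o o.2).trans (by simp))
  have Pt : d.P (fun _ => α) (fun _ => β) d.t = χ t := by rw [← h.κt, ← v _ (h.κt ▸ d.tD), h.ιt]
  have wD : ∀ g ∈ DD d.t, W g = d.P (fun _ => α) (fun _ => β) g := fun g hg => by
    obtain ⟨m, hm, rfl⟩ := hs g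
    refine cst m hm _ fun o ho => ?_
    obtain ⟨m', k1, k2⟩ := hD m hm hg o ho
    rw [← CF_isConj cf k2, v m' (k1 ▸ hg), k1]
  have := d.BD hW ((d.val_P (fun _ _ => rfl) fun _ _ => rfl).congr (funext fun g => by
    simp only [cut]; split_ifs with k; exacts [wD g k, rfl]) (fun _ _ _ => rfl) fun _ _ _ => rfl) (by
      rw [← h.κu, ← ht]
      refine cst _ uK _ fun o ho => ?_
      obtain ⟨m', k1, k2⟩ := hU o ho
      rw [← CF_isConj cf k2, v m' (k1 ▸ d.tD), k1, Pt])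
  have e1 := e 1 (one_mem _)
  simp only [map_one, mul_one] at e1
  rw [wD _ d.tD, Pt, Complex.sub_re] at this
  rw [← e1, ← Complex.ofReal_natCast, Complex.re_ofReal_mul]
  exact mul_le_mul_of_nonneg_left (by linarith) (Nat.cast_nonneg _)

end CA.Abg
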