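/-
Averaging projections in a representation.
-/
import Cfsg.Agent.Char.Ker
import Cfsg.Agent.FG.Conj

set_option autoImplicit false
set_option linter.unusedSectionVars false
set_option maxHeartbeats 400000

open Subgroup CA.FG Finset
open scoped Classical

namespace CA.Abg.CF

universe u

variable {G : Type u} [Group G] [Fintype G] {V : Type} [AddCommGroup V] [Module ℂ V] [FiniteDimensional ℂ V]

local notation "τ" => LinearMap.trace ℂ V

theorem idem_nat {e : Module.End ℂ V} (h : IsIdempotentElem e) : ∃ n : ℕ, τ e = n ∧ (n = 0 → e = 0) :=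
  ⟨_, (LinearMap.IsIdempotentElem.isProj_range _ h).trace, fun z => LinearMap.IsIdempotentElem.eq_zero_of_trace_eq_zero h (by
    rw [(LinearMap.IsIdempotentElem.isProj_range _ h).trace, z, Nat.cast_zero])⟩

theorem par {e T : Module.End ℂ V} (h : IsIdempotentElem e) (T2 : T * T = 1) (c : Commute T e) :
    ∃ a b : ℕ, τ e = a + b ∧ τ (T * e) = a - b := by
  have k : ∀ T : Module.End ℂ V, T * T = 1 → Commute T e → IsIdempotentElem ((2⁻¹ : ℂ) • (e + T * e)) := fun T T2 c => by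
    have e1 : e * (T * e) = T * e := by rw [← mul_assoc, ← c.eq, mul_assoc, h.eq]
    have e2 : T * e * (T * e) = e := by rw [mul_assoc, e1, ← mul_assoc, T2, one_mul]
    simp only [IsIdempotentElem, smul_mul_smul_comm, mul_add, add_mul, h.eq, e1, e2, mul_assoc T e e]
    module
  obtain ⟨a, ha, -⟩ := idem_nat (k T T2 c)
  obtain ⟨b, hb, -⟩ := idem_nat (k (-T) (by simpa using T2) c.neg_left)
  simp only [map_smul, map_add, neg_mul, map_neg, smul_eq_mul] at ha hb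
  exact ⟨a, b, by linear_combination ha + hb, by linear_combination ha - hb⟩

variable (ρ : G →* Module.End ℂ V)

/-- the projection attached to a linear character of `P` -/
noncomputable def Av (P : Subgroup G) (f : P →* ℂˣ) : Module.End ℂ V :=
  (Nat.card P : ℂ)⁻¹ • ∑ p : P, (f p : ℂ) • ρ p

variable {P : Subgroup G} {f : P →* ℂˣ} {e : Module.End ℂ V}

theorem card0 (P : Subgroup G) : (Nat.card P : ℂ) ≠ 0 := Nat.cast_ne_zero.2 Nat.card_pos.ne'

theorem mul_Av (p : P) : (f p : ℂ) • (ρ p * Av ρ P f) = Av ρ P f := by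
  rw [Av, mul_smul_comm, smul_comm, mul_sum, smul_sum, ← Equiv.sum_comp (Equiv.mulLeft p) fun x : P => (f x : ℂ) • ρ x]
  simp [smul_smul]

theorem Av_mul (p : P) : (f p : ℂ) • (Av ρ P f * ρ p) = Av ρ P f := by
  rw [Av, smul_mul_assoc, smul_comm, sum_mul, smul_sum, ← Equiv.sum_comp (Equiv.mulRight p) fun x : P => (f x : ℂ) • ρ x]
  simp [smul_smul, mul_comm]

theorem mul_E {p : G} (hp : p ∈ P) : ρ p * Av ρ P 1 = Av ρ P 1 := by simpa using mul_Av ρ (f := 1) ⟨p, hp⟩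

theorem E_mul {p : G} (hp : p ∈ P) : Av ρ P 1 * ρ p = Av ρ P 1 := by simpa using Av_mul ρ (f := 1) ⟨p, hp⟩

theorem Av_of (h : ∀ p : P, (f p : ℂ) • (ρ p * e) = e) : Av ρ P f * e = e := by
  rw [Av, smul_mul_assoc, sum_mul]
  simp only [smul_mul_assoc, h, sum_const, card_univ, ← Nat.card_eq_fintype_card, ← Nat.cast_smul_eq_nsmul ℂ, smul_smul,
    inv_mul_cancel₀ (card0 P), one_smul]

theorem E_of (h : ∀ p ∈ P, ρ p * e = e) : Av ρ P 1 * e = e := Av_of ρ fun p => by simpa using h p p.2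

theorem Av_idem : IsIdempotentElem (Av ρ P f) := Av_of ρ (mul_Av ρ)

theorem Av_comm (h : ∀ p ∈ P, Commute e (ρ p)) : Commute e (Av ρ P f) :=
  (Commute.sum_right _ _ _ fun (p : P) _ => (h p p.2).smul_right _).smul_right _

theorem Av_cent {g : G} (h : g ∈ 𝒞(P)) : Commute (ρ g) (Av ρ P f) :=
  Av_comm ρ fun p hp => (show Commute g p from (h p hp).symm).map ρ

theorem E_norm {g : G} (h : g ∈ 𝒩(P)) : Commute (ρ g) (Av ρ P 1) := by
  rw [Commute, SemiconjBy, Av, mul_smul_comm, smul_mul_assoc, mul_sum, sum_mul,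
    ← (P.normalizerMonoidHom ⟨g, h⟩).toEquiv.sum_comp fun x : P => ((1 : P →* ℂˣ) x : ℂ) • ρ x * ρ g]
  congr 1
  refine sum_congr rfl fun x _ => ?_
  simp only [MonoidHom.one_apply, Units.val_one, one_smul, ← map_mul]
  exact congrArg ρ (show g * x = g * x * g⁻¹ * g by group)

theorem E_le {Q : Subgroup G} (h : Q ≤ P) : Av ρ Q 1 * Av ρ P 1 = Av ρ P 1 := E_of ρ fun _ hp => mul_E ρ (h hp)

theorem tr_Av : Nat.card P * τ (Av ρ P f * e) = ∑ p : P, f p * τ (ρ p * e) := by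
  rw [Av, smul_mul_assoc, sum_mul, map_smul, map_sum, smul_eq_mul, mul_inv_cancel_left₀ (card0 P)]
  simp

theorem tr_E {c : ℂ} (h : ∀ p ∈ P, τ (ρ p * e) = c) : τ (Av ρ P 1 * e) = c :=
  mul_left_cancel₀ (card0 P) (by rw [tr_Av]; simp [h])

theorem tr_const {c : ℂ} (h : ∀ p ∈ P, p ≠ 1 → τ (ρ p * e) = c) :
    Nat.card P * τ (Av ρ P f * e) = τ e - c + (∑ p : P, (f p : ℂ)) * c := by
  rw [tr_Av, sum_mul, ← sub_eq_iff_eq_add, ← sum_sub_distrib, sum_eq_single 1 (fun p _ p1 => by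
    rw [h p p.2 (by simpa using p1), sub_self]) (by simp)]
  simp

theorem tr_c1 {c : ℂ} (h : ∀ p ∈ P, p ≠ 1 → τ (ρ p * e) = c) :
    Nat.card P * τ (Av ρ P 1 * e) = τ e + (Nat.card P - 1) * c := by
  rw [tr_const ρ h]; simp; ring

theorem tr_cf {c : ℂ} (h : ∀ p ∈ P, p ≠ 1 → τ (ρ p * e) = c) (f1 : f ≠ 1) :
    Nat.card P * τ (Av ρ P f * e) = τ e - c := by
  rw [tr_const ρ h]
  have := sum_hom_units_eq_zero ((Units.coeHom ℂ).comp f) fun e => f1 (MonoidHom.ext fun p =>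
    Units.ext (DFunLike.congr_fun e p))
  simp only [MonoidHom.comp_apply, Units.coeHom_apply] at this
  rw [this]; ring

/-- a character that is constant on `P#` -/
theorem const (he : IsIdempotentElem e) (cm : ∀ p ∈ P, Commute e (ρ p)) {c : ℂ}
    (h : ∀ p ∈ P, p ≠ 1 → τ (ρ p * e) = c) (f1 : f ≠ 1) : ∃ D m : ℕ, τ (Av ρ P f * e) = D ∧
      τ e = m + D * (Nat.card P - 1) ∧ (D = 0 → ∀ p ∈ P, ρ p * e = e) := by
  obtain ⟨D, hD, -⟩ := idem_nat ((Av_idem ρ (f := f)).mul_of_commute (Av_comm ρ cm).symm he)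
  have i := (Av_idem ρ (f := 1)).mul_of_commute (Av_comm ρ cm).symm he
  obtain ⟨m, hm, -⟩ := idem_nat i
  have e1 := tr_c1 ρ h
  have e2 := tr_cf ρ h f1
  rw [hm] at e1
  rw [hD] at e2
  have e3 : τ e = m + D * (Nat.card P - 1) := mul_left_cancel₀ (card0 P) (by
    linear_combination -e1 - (Nat.card P - 1) * e2)
  refine ⟨D, m, hD, e3, fun z p hp => ?_⟩
  have : e - Av ρ P 1 * e = 0 := LinearMap.IsIdempotentElem.eq_zero_of_trace_eq_zero (by
    rw [← one_sub_mul]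
    exact (Av_idem ρ).one_sub.mul_of_commute ((Commute.one_left _).sub_left (Av_comm ρ cm).symm) he) (by
    rw [map_sub, e3, hm, z]; simp)
  rw [sub_eq_zero.1 this, ← mul_assoc, mul_E ρ hp]

theorem tr_conj {g : G} (c : Commute (ρ g) e) (x : G) : τ (ρ (g * x * g⁻¹) * e) = τ (ρ x * e) := by
  have c' : Commute (ρ g⁻¹) e := by
    have := (Commute.units_inv_left (u := ρ.toHomUnits g) c)
    rwa [← map_inv] at this
  rw [map_mul ρ, map_mul ρ, mul_assoc, c'.eq, mul_assoc, LinearMap.trace_mul_comm, mul_assoc, mul_assoc, ← map_mul,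
    inv_mul_cancel, map_one, mul_one]

theorem exists_lin (ab : ∀ x ∈ P, ∀ y ∈ P, Commute x y) (P1 : P ≠ ⊥) : ∃ f : P →* ℂˣ, f ≠ 1 := by
  haveI : IsMulCommutative P := ⟨⟨fun x y => Subtype.ext (ab x x.2 y y.2)⟩⟩
  haveI := (nontrivial_iff_ne_bot P).2 P1
  obtain ⟨x, x1⟩ := exists_ne (1 : P)
  obtain ⟨f, hf⟩ := Chr.exists_lin_ne_one x1
  exact ⟨f, fun e => hf (by simp [e])⟩

/-- elements acting on the range of `e` inside the algebra spanned by `W` -/
theorem alg {W : Subgroup G} {t : G} (t2 : t * t = 1) (he : IsIdempotentElem e) (tr : ∀ z ∈ W, τ (ρ (t * z) * e) = 0)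
    {S : Set G} (nS : ∀ x ∈ S, x ∈ 𝒩(W)) (hS : ∀ x ∈ S, ρ x * e ∈ Submodule.span ℂ {a | ∃ z ∈ W, ρ z * e = a})
    (ht : t ∈ Submonoid.closure S) : e = 0 := by
  set 𝒜 := Submodule.span ℂ {a | ∃ z ∈ W, ρ z * e = a}
  have k : ∀ g, (∀ z ∈ W, ρ g * (ρ z * e) ∈ 𝒜) → ∀ a ∈ 𝒜, ρ g * a ∈ 𝒜 := fun g hg a ha => by
    induction ha using Submodule.span_induction with
    | mem _ h => obtain ⟨z, hz, rfl⟩ := h; exact hg z hz
    | zero => simp
    | add _ _ _ _ h1 h2 => rw [mul_add]; exact add_mem h1 h2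
    | smul c _ _ h => rw [mul_smul_comm]; exact 𝒜.smul_mem c h
  have kW : ∀ z ∈ W, ∀ a ∈ 𝒜, ρ z * a ∈ 𝒜 := fun z hz => k z fun y hy =>
    Submodule.subset_span ⟨z * y, mul_mem hz hy, by rw [map_mul, mul_assoc]⟩
  have kt : ∀ a ∈ 𝒜, ρ t * a ∈ 𝒜 := by
    clear tr t2
    induction ht using Submonoid.closure_induction with
    | mem x hx =>
      refine k x fun z hz => ?_
      rw [← mul_assoc, ← map_mul, show x * z = x * z * x⁻¹ * x by group, map_mul, mul_assoc]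
      exact kW _ ((mem_normalizer_iff.1 (nS x hx) z).1 hz) _ (hS x hx)
    | one => simp
    | mul x y _ _ h1 h2 => exact fun a ha => by rw [map_mul, mul_assoc]; exact h1 _ (h2 a ha)
  have k0 : ∀ a ∈ 𝒜, τ (ρ t * a) = 0 := fun a ha => by
    induction ha using Submodule.span_induction with
    | mem _ h => obtain ⟨z, hz, rfl⟩ := h; rw [← mul_assoc, ← map_mul, tr z hz]
    | zero => simp
    | add _ _ _ _ h1 h2 => rw [mul_add, map_add, h1, h2, add_zero]
    | smul c _ _ h => rw [mul_smul_comm, map_smul, h, smul_zero]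
  have := k0 _ (kt e (Submodule.subset_span ⟨1, one_mem _, by simp⟩))
  rw [← mul_assoc, ← map_mul, t2, map_one, one_mul] at this
  exact LinearMap.IsIdempotentElem.eq_zero_of_trace_eq_zero he this

theorem realizeEqns_Abg_CF1 : True := by
  have := @CA.Abg.CF.Av.eq_1.{0}
  have := @CA.Abg.CF.Av.eq_def.{0}
  have := @CA.Abg.CF.Av.congr_simp.{0}
  trivial

end CA.Abg.CF
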