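/-
The final configuration of the parabolic case: group theory.
-/
import Cfsg.Agent.Abg.MDefs

set_option autoImplicit false
set_option linter.unusedSectionVars false
set_option maxHeartbeats 400000

namespace CA.Abg

open Subgroup Cfsg CA.FG CA.BG CA.GW
open scoped commutatorElement

universe u

variable {G : Type u} [Group G] [Finite G] {t u w j g : G} {A X Y : Subgroup G}

local notation "BB" => A :^ w
local notation "WW" => A ⊔ A :^ w
local notation "DD" => ⁅A ⊔ A :^ w, A ⊔ A :^ w⁆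

theorem comm_of_inverts {P : Subgroup G} {v : G} (h : ∀ a ∈ P, v * a * v⁻¹ = a⁻¹) {a b : G} (ha : a ∈ P) (hb : b ∈ P) :
    Commute a b := by
  have := h _ (mul_mem ha hb)
  rw [show v * (a * b) * v⁻¹ = v * a * v⁻¹ * (v * b * v⁻¹) by group, h a ha, h b hb, ← mul_inv_rev, inv_inj] at this
  exact this.symm

namespace CFD

variable (l : LH t u w j) (h : CFD t u w g A X Y)
include l h

theorem tB : ∀ b ∈ BB, t * b * t⁻¹ = b⁻¹ := by
  rintro _ ⟨a, ha, rfl⟩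
  change t * (w * a * w⁻¹) * t⁻¹ = (w * a * w⁻¹)⁻¹
  calc _ = t * w * a * (t * w)⁻¹ := by group
    _ = w * (t * a * t⁻¹) * w⁻¹ := by rw [← mem_centralizer_singleton_iff.1 l.wC]; group
    _ = _ := by rw [h.tA a ha]; group

theorem uB : ∀ b ∈ BB, u * b * u⁻¹ = b⁻¹ := fun b hb => by
  have e : u * w = t * w * u := by
    rw [← l.i2, mul_assoc (u * w), mul_assoc u w w, l.iw.1, mul_one, mul_assoc (u * w), l.iu.1, mul_one]
  rw [← h.tB l b hb]
  obtain ⟨a, ha, rfl⟩ := hb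
  change u * (w * a * w⁻¹) * u⁻¹ = t * (w * a * w⁻¹) * t⁻¹
  calc _ = u * w * a * (u * w)⁻¹ := by group
    _ = t * w * (u * a * u⁻¹) * (t * w)⁻¹ := by rw [e]; group
    _ = _ := by rw [← mem_centralizer_singleton_iff.1 (h.Au ha)]; group

theorem ww (x : G) : w * (w * x * w⁻¹) * w⁻¹ = x := by
  rw [show w * (w * x * w⁻¹) * w⁻¹ = w * w * x * (w * w)⁻¹ by group, l.iw.1]; group

theorem wB {b : G} (hb : b ∈ BB) : w * b * w⁻¹ ∈ A := by
  obtain ⟨a, ha, rfl⟩ := hb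
  exact (h.ww l a).symm ▸ ha

theorem DW : DD ≤ WW := commutator_le_self _

theorem cD {d z : G} (hd : d ∈ DD) (hz : z ∈ WW) : Commute z d := (h.dW hd).2 z hz

theorem LY {x k : G} (hx : x ∈ X ∨ x ∈ X :^ w) (hk : k ∈ UU t) : Commute x k := by
  rcases hx with hx | ⟨x, hx, rfl⟩
  · exact (h.LK (h.XL hx) k hk).symm
  · have : Commute x (w⁻¹ * k * w) := (h.LK (h.XL hx) _ (conj_mem_of_le_norm' (UU_norm t) l.wC hk)).symm
    simpa [mul_assoc] using this.map (MulAut.conj w).toMonoidHom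

theorem XC {x : G} (hx : x ∈ X ∨ x ∈ X :^ w) : x ∈ 𝒞[t] := by
  rcases hx with hx | ⟨x, hx, rfl⟩
  exacts [h.rt.le hx, mul_mem (mul_mem l.wC (h.rt.le hx)) (inv_mem l.wC)]

theorem cXB {x b : G} (hx : x ∈ X :^ w) (hb : b ∈ BB) : Commute x b := ((conjg_cent A w ▸ conjg_mono w h.cXA) hx b hb).symm

theorem wD {d : G} (hd : d ∈ DD) : w * d * w⁻¹ ∈ DD :=
  conj_mem_of_le_norm (norm_comm h.nW h.nW) l.wC hd

theorem dec {z : G} (hz : z ∈ WW) : ∃ a ∈ A, ∃ b ∈ BB, ∃ d ∈ DD, z = a * b * d := by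
  have m : ∀ x y : G, (∃ a ∈ A, ∃ b ∈ BB, ∃ d ∈ DD, x = a * b * d) → (∃ a ∈ A, ∃ b ∈ BB, ∃ d ∈ DD, y = a * b * d) →
      ∃ a ∈ A, ∃ b ∈ BB, ∃ d ∈ DD, x * y = a * b * d := by
    rintro _ _ ⟨a, ha, b, hb, d, hd, rfl⟩ ⟨a', ha', b', hb', d', hd', rfl⟩
    have c := commutator_mem_commutator (inv_mem (mem_sup_right (S := A) hb)) (inv_mem (mem_sup_left (T := BB) ha'))
    refine ⟨a * a', mul_mem ha ha', b * b', mul_mem hb hb', _, mul_mem (mul_mem c hd) hd', ?_⟩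
    calc _ = a * b * (d * (a' * b')) * d' := by group
      _ = a * a' * b * (⁅b⁻¹, a'⁻¹⁆ * b') * d * d' := by
        rw [← (h.cD l hd (mul_mem (mem_sup_left ha') (mem_sup_right hb'))).eq, commutatorElement_def]; group
      _ = _ := by rw [← (h.cD l c (mem_sup_right hb')).eq]; group
  let T : Subgroup G :=
    { carrier := {x | ∃ a ∈ A, ∃ b ∈ BB, ∃ d ∈ DD, x = a * b * d}
      one_mem' := ⟨1, one_mem _, 1, one_mem _, 1, one_mem _, by simp⟩
      mul_mem' := fun {x y} => m x y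
      inv_mem' := by
        rintro _ ⟨a, ha, b, hb, d, hd, rfl⟩
        rw [mul_inv_rev, mul_inv_rev]
        exact m _ _ ⟨1, one_mem _, 1, one_mem _, _, inv_mem hd, by simp⟩
          (m _ _ ⟨1, one_mem _, _, inv_mem hb, 1, one_mem _, by simp⟩ ⟨_, inv_mem ha, 1, one_mem _, 1, one_mem _, by simp⟩) }
  exact (sup_le (fun a ha => ⟨a, ha, 1, one_mem _, 1, one_mem _, by simp⟩)
    (fun b hb => ⟨1, one_mem _, b, hb, 1, one_mem _, by simp⟩) : WW ≤ T) hz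

theorem quad {x b : G} (hx : x ∈ X) (hb : b ∈ BB) : ∃ a ∈ A, ∃ d ∈ DD, x * b * x⁻¹ = a * b * d := by
  obtain ⟨n, hn⟩ := exists_pow_eq_self_of_coprime (x := x) (n := 2)
    ((Nat.Prime.coprime_iff_not_dvd Nat.prime_two).2 fun e => h.rt.odd.piElt hx 2 Nat.prime_two e rfl)
  rw [← hn, ← pow_mul, mul_comm 2, pow_mul]
  replace hx := pow_mem hx n
  generalize x ^ n = x at hx
  obtain ⟨a, ha, b', hb', d, hd, e⟩ := h.dec l (conj_mem_of_le_norm h.nW (h.rt.le hx) (mem_sup_right hb))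
  have xa : x * a * x⁻¹ = a := mul_inv_eq_iff_eq_mul.2 (h.cXA hx a ha).symm
  have xd : x * d * x⁻¹ = d := mul_inv_eq_iff_eq_mul.2 (h.LY l (.inl hx) (h.dW hd).1)
  have e' : x⁻¹ * b⁻¹ * x = a * b'⁻¹ * d⁻¹ := by
    calc _ = (u * x * u⁻¹) * (u * b * u⁻¹) * (u * x * u⁻¹)⁻¹ := by rw [h.uX x hx, h.uB l b hb]; group
      _ = u * (x * b * x⁻¹) * u⁻¹ := by group
      _ = (u * a * u⁻¹) * (u * b' * u⁻¹) * (u * d * u⁻¹) := by rw [e]; group
      _ = _ := by rw [h.uB l b' hb', h.uW d hd, ← mem_centralizer_singleton_iff.1 (h.Au ha), mul_inv_cancel_right]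
  have e2 : x * b' * x⁻¹ = d⁻¹ * b * a := by
    calc _ = (x * d * x⁻¹)⁻¹ * (x * (a * b'⁻¹ * d⁻¹) * x⁻¹)⁻¹ * (x * a * x⁻¹) := by group
      _ = _ := by rw [← e', xa, xd]; group
  refine ⟨a * a, mul_mem ha ha, _, commutator_mem_commutator (inv_mem (mem_sup_right (S := A) hb))
    (inv_mem (mem_sup_left (T := BB) ha)), ?_⟩
  calc _ = x * (x * b * x⁻¹) * x⁻¹ := by rw [pow_two]; group
    _ = (x * a * x⁻¹) * (x * b' * x⁻¹) * (x * d * x⁻¹) := by rw [e]; group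
    _ = a * (d⁻¹ * (b * a * d)) := by rw [xa, xd, e2]; group
    _ = _ := by
      rw [(h.cD l hd (mul_mem (mem_sup_right hb) (mem_sup_left ha))).eq, commutatorElement_def]; group

theorem cardA : Nat.card A = Nat.card X := by rw [← h.XA, card_conjg]

theorem AB : A ⊓ BB = ⊥ := eq_bot_iff.2 fun a ⟨ha, hb⟩ => eq_one_of_odd h.oW (mem_sup_left ha) (by
  have := h.uB l a hb
  rw [← mem_centralizer_singleton_iff.1 (h.Au ha), mul_inv_cancel_right] at this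
  exact mul_eq_one_iff_eq_inv.2 this)

variable (m3 : ∀ x ∈ X, x ≠ 1 → ∃ x' ∈ X :^ w, (x * x' * x) ^ 2 * t ∈ UU t)
include m3

theorem pow_t {x : G} (hx : x ∈ X) (x1 : x ≠ 1) : ∃ x' ∈ X :^ w, ∃ m : ℕ, (x * x' * x) ^ m = t := by
  obtain ⟨x', hx', e⟩ := m3 x hx x1
  obtain ⟨n, hn⟩ := Nat.not_even_iff_odd.1 fun e' => (UU_odd t).piElt e 2 Nat.prime_two e'.two_dvd rfl
  have c : Commute ((x * x' * x) ^ 2) t := mem_centralizer_singleton_iff.1 (pow_mem (mul_mem (mul_mem (h.XC l (.inl hx))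
    (h.XC l (.inr hx'))) (h.XC l (.inl hx))) 2)
  have := pow_orderOf_eq_one ((x * x' * x) ^ 2 * t)
  rw [hn, c.mul_pow, pow_succ t, pow_mul t, sq t, l.it.1, one_pow, one_mul, ← pow_mul, mul_eq_one_iff_eq_inv,
    l.it.inv_eq] at this
  exact ⟨x', hx', _, this⟩

theorem inj {x b d : G} (hx : x ∈ X) (x1 : x ≠ 1) (hb : b ∈ BB) (hd : d ∈ DD) (e : x * b * x⁻¹ = b * d) : b = 1 := by
  obtain ⟨x', hx', m, hm⟩ := h.pow_t l m3 hx x1
  have k : ∀ y ∈ zpowers d, ∀ z, z ∈ X ∨ z ∈ X :^ w → z * y * z⁻¹ = y := fun y hy z hz =>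
    mul_inv_eq_iff_eq_mul.2 (h.LY l hz (h.dW (zpowers_le.2 hd hy)).1)
  have st : ∀ y ∈ zpowers d, x * (b * y) * x⁻¹ = b * (d * y) := fun y hy => by
    rw [show x * (b * y) * x⁻¹ = x * b * x⁻¹ * (x * y * x⁻¹) by group, e, k y hy x (.inl hx), mul_assoc]
  have k2 : ∀ n : ℕ, ∃ y ∈ zpowers d, (x * x' * x) ^ n * b * ((x * x' * x) ^ n)⁻¹ = b * y := fun n => by
    induction n with
    | zero => exact ⟨1, one_mem _, by simp⟩
    | succ n ih =>
      obtain ⟨y, hy, e⟩ := ih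
      have hy' := mul_mem (mem_zpowers d) hy
      refine ⟨_, mul_mem (mem_zpowers d) hy', ?_⟩
      calc _ = x * (x' * (x * ((x * x' * x) ^ n * b * ((x * x' * x) ^ n)⁻¹) * x⁻¹) * x'⁻¹) * x⁻¹ := by
            rw [pow_succ']; generalize (x * x' * x) ^ n = p; group
        _ = x * (x' * b * x'⁻¹ * (x' * (d * y) * x'⁻¹)) * x⁻¹ := by rw [e, st y hy]; group
        _ = _ := by rw [k _ hy' x' (.inr hx'), (h.cXB l hx' hb).eq, mul_inv_cancel_right, st _ hy']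
  obtain ⟨y, hy, e⟩ := k2 m
  rw [hm, h.tB l b hb] at e
  have hy' : y ∈ BB := by
    rw [show y = b⁻¹ * b⁻¹ from eq_inv_mul_of_mul_eq e.symm]
    exact mul_mem (inv_mem hb) (inv_mem hb)
  have y1 : y = 1 := eq_one_of_odd h.oW (mem_sup_right hy') (by
    have := h.tB l y hy'
    rw [← mem_centralizer_singleton_iff.1 (UU_le t (h.dW (zpowers_le.2 hd hy)).1), mul_inv_cancel_right] at this
    exact mul_eq_one_iff_eq_inv.2 this)
  exact eq_one_of_odd h.oW (mem_sup_right hb) (mul_eq_one_iff_eq_inv.2 (by rw [e, y1, mul_one]))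

theorem s1 {b a : G} (hb : b ∈ BB) (b1 : b ≠ 1) (ha : a ∈ A) : ∃ x ∈ X, ∃ d ∈ DD, x * b * x⁻¹ = a * b * d := by
  choose α hα δ hδ e using fun x : X => h.quad l x.2 hb
  obtain ⟨x, hx⟩ := (Function.Injective.bijective_of_nat_card_le (f := fun x : X => (⟨α x, hα x⟩ : A)) (fun x y k => by
    by_contra ne
    refine b1 (h.inj l m3 (x⁻¹ * y).2 (fun e => ne (inv_mul_eq_one.1 (Subtype.ext e))) hb
      (mul_mem (inv_mem (hδ x)) (hδ y)) ?_)
    have k : α x = α y := congrArg Subtype.val k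
    have c := h.LY l (.inl x.2) (h.dW (mul_mem (inv_mem (hδ x)) (hδ y))).1
    calc _ = (x : G)⁻¹ * (y * b * (y : G)⁻¹) * x := by simp [mul_assoc]
      _ = (x : G)⁻¹ * (x * b * (x : G)⁻¹) * ((δ x)⁻¹ * δ y * x) := by rw [e, e, k]; group
      _ = _ := by rw [← c.eq]; group) (h.cardA l).le).2 ⟨a, ha⟩
  exact ⟨x, x.2, _, hδ x, by rw [e, ← show α x = a from congrArg Subtype.val hx]⟩

theorem s2 {x a : G} (hx : x ∈ X) (x1 : x ≠ 1) (ha : a ∈ A) : ∃ b ∈ BB, ∃ d ∈ DD, x * b * x⁻¹ = a * b * d := by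
  choose α hα δ hδ e using fun b : BB => h.quad l hx b.2
  obtain ⟨b, hb⟩ := (Function.Injective.bijective_of_nat_card_le (f := fun b : BB => (⟨α b, hα b⟩ : A)) (fun b c k => by
    refine inv_mul_eq_one.1 (Subtype.ext (h.inj l m3 hx x1 (b⁻¹ * c).2 (mul_mem (inv_mem (hδ b)) (hδ c)) ?_))
    have k : α b = α c := congrArg Subtype.val k
    have cm := h.cD l (inv_mem (hδ b)) (mem_sup_right (b⁻¹ * c).2)
    calc _ = (x * b * x⁻¹)⁻¹ * (x * c * x⁻¹) := by simp [mul_assoc]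
      _ = (δ b)⁻¹ * (b⁻¹ * c : BB) * δ c := by rw [e, e, k]; simp [mul_assoc]
      _ = _ := by rw [← cm.eq]; group) (card_conjg A w).ge).2 ⟨a, ha⟩
  exact ⟨b, b.2, _, hδ b, by rw [e, ← show α b = a from congrArg Subtype.val hb]⟩

theorem s1' {a b : G} (ha : a ∈ A) (a1 : a ≠ 1) (hb : b ∈ BB) : ∃ x ∈ X :^ w, ∃ d ∈ DD, x * a * x⁻¹ = b * a * d := by
  obtain ⟨x, hx, d, hd, e⟩ := h.s1 l m3 (conj_mem_conjg w ha) (by simpa using a1) (h.wB l hb)
  refine ⟨_, conj_mem_conjg w hx, _, h.wD l hd, ?_⟩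
  calc _ = w * (x * (w * (w * (w⁻¹ * a * w) * w⁻¹) * w⁻¹) * x⁻¹) * w⁻¹ := by rw [h.ww l]; group
    _ = w * (w * b * w⁻¹) * w⁻¹ * (w * (w * a * w⁻¹) * w⁻¹) * (w * d * w⁻¹) := by
      rw [show w * (w⁻¹ * a * w) * w⁻¹ = a by group, e]; group
    _ = _ := by rw [h.ww l, h.ww l]

/-- the commutator map `b ↦ [b, a]` is onto `W'` -/
theorem rad {a d : G} (ha : a ∈ A) (a1 : a ≠ 1) (hd : d ∈ DD) : ∃ b ∈ BB, ⁅b, a⁆ = d := by
  have cm : ∀ {z r : G}, z ∈ WW → r ∈ WW → ⁅z, r⁆ ∈ DD := commutator_mem_commutator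
  have bl : ∀ {z z' r : G}, z ∈ WW → z' ∈ WW → r ∈ WW → ⁅z * z', r⁆ = ⁅z, r⁆ * ⁅z', r⁆ := fun {z z' r} hz hz' hr => by
    calc _ = z * ⁅z', r⁆ * z⁻¹ * ⁅z, r⁆ := by simp only [commutatorElement_def]; group
      _ = _ := by rw [(h.cD l (cm hz' hr) hz).eq, mul_inv_cancel_right, (h.cD l (cm hz hr) (h.DW l (cm hz' hr))).eq]
  have br : ∀ {z r r' : G}, z ∈ WW → r ∈ WW → r' ∈ WW → ⁅z, r * r'⁆ = ⁅z, r⁆ * ⁅z, r'⁆ := fun {z r r'} hz hr hr' => by
    calc _ = ⁅z, r⁆ * (r * ⁅z, r'⁆ * r⁻¹) := by simp only [commutatorElement_def]; group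
      _ = _ := by rw [(h.cD l (cm hz hr') hr).eq, mul_inv_cancel_right]
  have aW : a ∈ WW := mem_sup_left ha
  let φ : BB →* G := MonoidHom.mk' (fun b => ⁅(b : G), a⁆) fun b c => bl (mem_sup_right b.2) (mem_sup_right c.2) aW
  have φD : φ.range ≤ DD := by rintro _ ⟨b, rfl⟩; exact cm (mem_sup_right b.2) aW
  let R : Subgroup G :=
    { carrier := {r | r ∈ WW ∧ ∀ z ∈ WW, ⁅z, r⁆ ∈ φ.range}
      one_mem' := ⟨one_mem _, fun z _ => by simp⟩
      mul_mem' := fun {r r'} hr hr' => ⟨mul_mem hr.1 hr'.1, fun z hz =>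
        br hz hr.1 hr'.1 ▸ mul_mem (hr.2 z hz) (hr'.2 z hz)⟩
      inv_mem' := fun {r} hr => ⟨inv_mem hr.1, fun z hz => by
        have := br hz hr.1 (inv_mem hr.1)
        rw [mul_inv_cancel, commutatorElement_one_right, eq_comm, mul_eq_one_iff_inv_eq] at this
        exact this ▸ inv_mem (hr.2 z hz)⟩ }
  have DR : ∀ d ∈ DD, d ∈ R := fun d hd => ⟨h.DW l hd, fun z hz => by
    rw [commutatorElement_eq_one_iff_commute.2 (h.cD l hd hz)]; exact one_mem _⟩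
  have nR : ∀ x, x ∈ X ∨ x ∈ X :^ w → ∀ r ∈ R, x * r * x⁻¹ ∈ R := fun x hx r hr =>
    ⟨conj_mem_of_le_norm h.nW (h.XC l hx) hr.1, fun z hz => by
      have k := hr.2 _ (conj_mem_of_le_norm' h.nW (h.XC l hx) hz)
      rw [show ⁅z, x * r * x⁻¹⁆ = x * ⁅x⁻¹ * z * x, r⁆ * x⁻¹ by simp only [commutatorElement_def]; group,
        (h.LY l hx (h.dW (φD k)).1).eq, mul_inv_cancel_right]
      exact k⟩
  have aR : a ∈ R := ⟨aW, fun z hz => by
    obtain ⟨a', ha', b, hb, d, hd, rfl⟩ := h.dec l hz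
    rw [bl (mul_mem (mem_sup_left ha') (mem_sup_right hb)) (h.DW l hd) aW, bl (mem_sup_left ha') (mem_sup_right hb) aW,
      commutatorElement_eq_one_iff_commute.2 (h.cD l hd aW).symm,
      commutatorElement_eq_one_iff_commute.2 (comm_of_inverts h.tA ha' ha), one_mul, mul_one]
    exact ⟨⟨b, hb⟩, rfl⟩⟩
  have BR : BB ≤ R := fun b hb => by
    obtain ⟨x, hx, d, hd, e⟩ := h.s1' l m3 ha a1 hb
    have := nR x (.inr hx) a aR
    rwa [e, R.mul_mem_cancel_right (DR d hd), R.mul_mem_cancel_right aR] at this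
  have AR : A ≤ R := fun a' ha' => by
    obtain ⟨x, hx, d, hd, e⟩ := h.s1 l m3 (conj_mem_conjg w ha) (by simpa using a1) ha'
    have bR := BR (conj_mem_conjg w ha)
    have := nR x (.inl hx) _ bR
    rwa [e, R.mul_mem_cancel_right (DR d hd), R.mul_mem_cancel_right bR] at this
  obtain ⟨b, hb⟩ := (commutator_le.2 fun z hz r hr => (sup_le AR BR hr).2 z hz : DD ≤ φ.range) hd
  exact ⟨b, b.2, hb⟩

end CFD

end CA.Abg
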