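/-
The final configuration of the parabolic case: degree bounds.
-/
import Cfsg.Agent.Abg.CF1
import Cfsg.Agent.Abg.CF2
import Cfsg.Agent.Abg.B13

set_option autoImplicit false
set_option linter.unusedSectionVars false
set_option maxHeartbeats 400000

namespace CA.Abg

open Subgroup Cfsg CA.FG CA.BG CA.GW Finset CF
open scoped Classical

universe u

variable {G : Type u} [Group G] [Fintype G] {t u w j g : G} {A X Y : Subgroup G}
  {V : Type} [AddCommGroup V] [Module ℂ V] [FiniteDimensional ℂ V]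

local notation "τ" => LinearMap.trace ℂ V

theorem cf_core0 (l : LH t u w j) (h : CFD t u w g A X Y)
    (m2 : ∀ x ∈ X, ∀ y ∈ X, x ≠ 1 → y ≠ 1 → ∃ c ∈ 𝒞[t] ⊓ 𝒞[u], c * x * c⁻¹ = y)
    (m3 : ∀ x ∈ X, x ≠ 1 → ∃ x' ∈ X :^ w, (x * x' * x) ^ 2 * t ∈ UU t)
    (cs : ⁅A ⊔ A :^ w, A ⊔ A :^ w⁆ = ⊥ ∨ Y = ⁅A ⊔ A :^ w, A ⊔ A :^ w⁆) (ρ : G →* Module.End ℂ V)
    (fa : ∀ y, τ (ρ y) = τ (ρ 1) → y = 1) (hχ : ∀ x ∈ X, ∀ k ∈ UU t, τ (ρ (t * x * k)) = τ (ρ (t * x))) {s e : ℤ}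
    (hs : τ (ρ 1) = s) (he : τ (ρ t) = e) : 2 * (Nat.card X : ℤ) ^ 2 - 2 + e ≤ s ∨
      ∃ n : ℕ, τ (1 - Av ρ Y 1) = n ∧ (Nat.card X : ℤ) * (Nat.card X - 1) ≤ n := by
  set W := A ⊔ A :^ w with hW
  set ε := 1 - Av ρ Y 1 with hε
  have iε : IsIdempotentElem ε := (Av_idem ρ).one_sub
  have WY : ∀ z ∈ W, z ∈ 𝒞(Y) := fun z hz y hy => (h.YW hy z hz).symm
  have cC : ∀ c ∈ 𝒞[t], Commute (ρ c) ε := fun c hc => (Commute.one_right _).sub_right (E_norm ρ (h.nY hc))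
  have cW : ∀ z ∈ W, Commute (ρ z) ε := fun z hz => (Commute.one_right _).sub_right (Av_cent ρ (WY z hz))
  have tC := mem_cent_singleton_self t
  have cj : ∀ c x, τ (ρ (c * x * c⁻¹)) = τ (ρ x) := fun c x => by simpa using tr_conj ρ (Commute.one_right (ρ c)) x
  have val : ∀ x ∈ X, ∀ z ∈ W, ∀ y ∈ Y, τ (ρ y * ρ (z * (t * x))) = τ (ρ (t * x)) := fun x hx z hz y hy => by
    have mC := mul_mem tC (h.rt.le hx)
    obtain ⟨n, hn⟩ := Nat.not_even_iff_odd.1 fun e' => h.rt.odd.piElt hx 2 Nat.prime_two e'.two_dvd rfl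
    obtain ⟨v, hv, k⟩ := coset_D h.oW l.it.1 (fun o => conj_mem_of_le_norm h.nW mC) ⟨(orderOf x : ℕ), by
      have c : Commute t x := (mem_centralizer_singleton_iff.1 (h.rt.le hx)).symm
      simp only [zpow_natCast]
      rw [c.mul_pow, pow_orderOf_eq_one, hn, pow_succ, pow_mul, sq, l.it.1, one_pow, one_mul, mul_one]⟩ hz
    have kK : v * (z * (t * x)) * v⁻¹ * (t * x)⁻¹ ∈ UU t := h.WK ⟨by
      rw [show v * (z * (t * x)) * v⁻¹ * (t * x)⁻¹ = v * z * (t * x * v⁻¹ * (t * x)⁻¹) by group]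
      exact mul_mem (mul_mem hv hz) (conj_mem_of_le_norm h.nW mC (inv_mem hv)), Subgroup.mul_mem _ k (inv_mem mC)⟩
    rw [← map_mul, ← cj v, ← hχ x hx _ (conj_mem_of_le_norm' (UU_norm t) mC (mul_mem (h.YK hy) kK))]
    congr 2
    rw [← mul_assoc v, ← WY v hv y hy]; group
  have T0 : ∀ x ∈ X, ∀ z ∈ W, τ (ρ (z * (t * x)) * ε) = 0 := fun x hx z hz => by
    rw [LinearMap.trace_mul_comm, hε, sub_mul, map_sub, tr_E ρ (val x hx z hz), ← val x hx z hz 1 (one_mem _), map_one,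
      sub_self]
  obtain ⟨x0, hx0, x1⟩ := (bot_or_exists_ne_one X).resolve_left fun e => h.rt.nle (e ▸ bot_le)
  have al : ¬ ∀ x ∈ X, ρ x * ε ∈ Submodule.span ℂ {a | ∃ z ∈ W, ρ z * ε = a} := fun k => by
    obtain ⟨x', hx', m, hm⟩ := h.pow_t l m3 hx0 x1
    have : ε = 0 := alg ρ (S := {x | x ∈ X ∨ x ∈ X :^ w}) l.it.1 iε (fun z hz => by
      simpa using T0 1 (one_mem _) _ (conj_mem_of_le_norm h.nW tC hz)) (fun x hx => h.nW (h.XC l hx)) (by
        rintro _ (hx | ⟨x, hx, rfl⟩)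
        · exact k _ hx
        have : ∀ a ∈ Submodule.span ℂ {a | ∃ z ∈ W, ρ z * ε = a},
            ρ w * a * ρ w⁻¹ ∈ Submodule.span ℂ {a | ∃ z ∈ W, ρ z * ε = a} := fun a ha => by
          induction ha using Submodule.span_induction with
          | mem _ h' =>
            obtain ⟨z, hz, rfl⟩ := h'
            refine Submodule.subset_span ⟨_, conj_mem_of_le_norm h.nW l.wC hz, ?_⟩
            simp only [map_mul, mul_assoc, (cC _ (inv_mem l.wC)).eq]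
          | zero => simp
          | add _ _ _ _ h1 h2 => rw [mul_add, add_mul]; exact add_mem h1 h2
          | smul c _ _ h => rw [mul_smul_comm, smul_mul_assoc]; exact Submodule.smul_mem _ c h
        convert this _ (k x hx) using 1
        simp only [MulEquiv.coe_toMonoidHom, MulAut.conj_apply, map_mul, mul_assoc, (cC _ (inv_mem l.wC)).eq])
      (hm ▸ pow_mem (mul_mem (mul_mem (Submonoid.subset_closure (.inl hx0)) (Submonoid.subset_closure (.inr hx')))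
        (Submonoid.subset_closure (.inl hx0))) m)
    obtain ⟨y, hy, y1⟩ := (bot_or_exists_ne_one Y).resolve_left h.Y0
    have e := mul_E ρ hy
    rw [← sub_eq_zero.1 this, mul_one] at e
    exact y1 (fa y (by rw [e, map_one ρ]))
  have cA : Commute (Av ρ A 1) ε := (Av_comm ρ fun a ha => (cW a (mem_sup_left ha)).symm).symm
  have iF := (Av_idem ρ).mul_of_commute cA iε
  have cF : ∀ c ∈ 𝒞[t], c ∈ 𝒩(A) → Commute (ρ c) (Av ρ A 1 * ε) := fun c h1 h2 => (E_norm ρ h2).mul_right (cC c h1)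
  have XA : ∀ x ∈ X, x ∈ 𝒩(A) := fun x hx => centralizer_le_normalizer _ (h.cXA hx)
  obtain ⟨f, f1⟩ := exists_lin (fun x hx y hy => comm_of_inverts h.uX hx hy) fun e => h.rt.nle (e ▸ bot_le)
  obtain ⟨D, m, hD, hF, D0⟩ := const ρ iF (fun x hx => (cF x (h.rt.le hx) (XA x hx)).symm) (fun x hx x1' => by
    obtain ⟨c, hc, rfl⟩ := m2 x0 hx0 x hx x1 x1'
    exact tr_conj ρ (cF c hc.1 (h.VA hc)) x0) f1
  have cB : Nat.card (A :^ w) = Nat.card X := by rw [card_conjg, h.cardA l]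
  have q1 : (1 : ℤ) ≤ Nat.card X := by exact_mod_cast Nat.card_pos
  rcases cs with cs | cs
  swap
  · have I : ∑ b : A :^ w, ρ b * (Av ρ A 1 * ε) * ρ (b : G)⁻¹ = ε := by
      have k : ∀ a : A, a ≠ 1 → (∑ b : A :^ w, ρ (b * a * (b : G)⁻¹)) * ε = 0 := fun a a1 => by
        rw [(Commute.sum_left _ _ _ fun b _ => cW _ (mul_mem (mul_mem (mem_sup_right b.2) (mem_sup_left a.2))
          (inv_mem (mem_sup_right b.2)))).eq, hε, sub_mul, E_of ρ, one_mul, sub_self]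
        intro y hy
        obtain ⟨b0, hb0, rfl⟩ := h.rad l m3 a.2 (by simpa using a1) (cs ▸ hy)
        rw [mul_sum, ← Equiv.sum_comp (Equiv.mulRight (⟨b0, hb0⟩ : A :^ w)) fun b => ρ (b * a * (b : G)⁻¹)]
        refine sum_congr rfl fun b _ => ?_
        rw [← map_mul, ← mul_assoc, ← mul_assoc, WY b (mem_sup_right b.2) _ hy]
        simp [commutatorElement_def, mul_assoc]
      have : ∀ b : A :^ w, ρ b * (Av ρ A 1 * ε) * ρ (b : G)⁻¹ =
          (Nat.card A : ℂ)⁻¹ • ∑ a : A, ρ (b * a * (b : G)⁻¹) * ε := fun b => by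
        rw [mul_assoc, mul_assoc, ← (cW _ (inv_mem (mem_sup_right b.2))).eq]
        simp [Av, mul_sum, sum_mul, mul_assoc]
      simp only [this]
      rw [← smul_sum, sum_comm, sum_eq_single 1 (fun a _ a1 => by rw [← sum_mul, k a a1]) (by simp)]
      simp [← Nat.card_eq_fintype_card, ← Nat.cast_smul_eq_nsmul ℂ, smul_smul, card0]
    refine .inr ⟨Nat.card X * (m + D * (Nat.card X - 1)), ?_, ?_⟩
    · rw [← I, map_sum, sum_congr rfl fun b _ => by
        rw [LinearMap.trace_mul_comm, ← mul_assoc, ← map_mul, inv_mul_cancel, map_one, one_mul, hF]]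
      simp [← Nat.card_eq_fintype_card, h.cardA l, Nat.cast_pred (Nat.card_pos (α := X)), mul_add]
    · have : D ≠ 0 := fun z => al fun x hx => by
        rw [show ρ x * ε = _ from congrArg (ρ x * ·) I.symm, mul_sum]
        refine sum_mem fun b _ => ?_
        rw [show ρ x * (ρ b * (Av ρ A 1 * ε) * ρ (b : G)⁻¹) = ρ (x * b * x⁻¹) * (ρ x * (Av ρ A 1 * ε)) * ρ (b : G)⁻¹ by
          simp only [← mul_assoc, ← map_mul, inv_mul_cancel_right], D0 z x hx, mul_assoc (ρ _), mul_assoc (Av ρ A 1),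
          ← (cW _ (inv_mem (mem_sup_right b.2))).eq, Av, smul_mul_assoc, mul_smul_comm, sum_mul, mul_sum]
        refine Submodule.smul_mem _ _ (sum_mem fun a _ => Submodule.subset_span ⟨_, mul_mem (mul_mem
          (conj_mem_of_le_norm h.nW (h.rt.le hx) (mem_sup_right b.2)) (mem_sup_left a.2)) (inv_mem (mem_sup_right b.2)), ?_⟩)
        simp [mul_assoc]
      push_cast [Nat.cast_pred (Nat.card_pos (α := X))]
      have : (1 : ℤ) ≤ D := by omega
      exact mul_le_mul_of_nonneg_left (by nlinarith) (by omega)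
  have ab : ∀ z ∈ W, ∀ z' ∈ W, Commute z z' := fun z hz z' hz' =>
    commutatorElement_eq_one_iff_commute.1 (mem_bot.1 (cs ▸ commutator_mem_commutator hz hz'))
  have d1 : ∀ d ∈ ⁅W, W⁆, d = 1 := fun d hd => mem_bot.1 (cs ▸ hd)
  by_cases z : D = 0
  · have a0 : g * x0 * g⁻¹ ∈ A := h.XA ▸ conj_mem_conjg g hx0
    have a1 : g * x0 * g⁻¹ ≠ 1 := by simpa using x1
    generalize g * x0 * g⁻¹ = a at a0 a1
    have k1 : ∀ a ∈ A, ∀ b ∈ A :^ w, b ≠ 1 → τ (ρ (a * b) * ε) = τ (ρ b * ε) := fun a ha b hb b1 => by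
      obtain ⟨x, hx, d, hd, e⟩ := h.s1 l m3 hb b1 ha
      rw [← tr_conj ρ (cC x (h.rt.le hx)) b, e, d1 d hd, mul_one]
    have k2 : ∀ a ∈ A, ∀ b ∈ A :^ w, a ≠ 1 → τ (ρ (a * b) * ε) = τ (ρ a * ε) := fun a ha b hb a1 => by
      obtain ⟨x, hx, d, hd, e⟩ := h.s1' l m3 ha a1 hb
      rw [← tr_conj ρ (cC x (h.XC l (.inr hx))) a, e, d1 d hd, mul_one,
        (ab a (mem_sup_left ha) b (mem_sup_right hb)).eq]
    obtain ⟨f', f1'⟩ := exists_lin ab fun e => a1 (mem_bot.1 (e ▸ mem_sup_left a0))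
    obtain ⟨D', m', -, hF', D0'⟩ := const ρ iε (c := τ (ρ a * ε)) (fun z hz => (cW z hz).symm) (fun z hz z1 => by
      obtain ⟨a', ha', b, hb, d, hd, rfl⟩ := h.dec l hz
      obtain rfl := d1 d hd
      rw [mul_one] at z1 ⊢
      by_cases b1 : b = 1
      · have hb0 := conj_mem_conjg w a0
        rw [k2 a' ha' b hb (by simpa [b1] using z1), ← k2 a' ha' _ hb0 (by simpa [b1] using z1),
          k1 a' ha' _ hb0 (by simpa using a1), ← k1 a a0 _ hb0 (by simpa using a1), k2 a a0 _ hb0 a1]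
      · rw [k1 a' ha' b hb b1, ← k1 a a0 b hb b1, k2 a a0 b hb a1]) f1'
    have cW' : Nat.card W = Nat.card X * Nat.card X := by
      rw [hW, card_sup_of_inf_eq_bot (.inl fun a ha => centralizer_le_normalizer _ fun b hb =>
        ab b (mem_sup_right hb) a (mem_sup_left ha)) (h.AB l), cB, h.cardA l]
    refine .inr ⟨m' + D' * (Nat.card W - 1), by
      rw [hF', Nat.cast_add, Nat.cast_mul, Nat.cast_pred (Nat.card_pos (α := W))], ?_⟩
    have : D' ≠ 0 := fun z' => al fun x hx => Submodule.subset_span ⟨1, one_mem _, by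
      have := D0 z x hx
      rw [E_of ρ fun a ha => D0' z' a (mem_sup_left ha)] at this
      rw [this, map_one, one_mul]⟩
    rw [Nat.cast_add, Nat.cast_mul, Nat.cast_pred (Nat.card_pos (α := W)), cW', Nat.cast_mul]
    have : (1 : ℤ) ≤ D' := by omega
    nlinarith [mul_nonneg (sub_nonneg.2 this) (sub_nonneg.2 (one_le_mul_of_one_le_of_one_le q1 q1))]
  have tA : t ∈ 𝒩(A) := h.VA ⟨tC, mem_centralizer_singleton_iff.2 (mem_centralizer_singleton_iff.1 l.uC).symm⟩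
  have z0 : ∀ x ∈ X, τ (ρ (t * x) * (Av ρ A 1 * ε)) = 0 := fun x hx => by
    rw [← mul_assoc, (E_norm ρ (mul_mem tA (XA x hx))).eq, mul_assoc]
    exact tr_E ρ fun a ha => by rw [← mul_assoc, ← map_mul, T0 x hx a (mem_sup_left ha)]
  have T2 : ρ t * ρ t = 1 := by rw [← map_mul, l.it.1, map_one]
  have tX : Commute (ρ t) (Av ρ X f) := Av_cent ρ fun x hx => mem_centralizer_singleton_iff.1 (h.rt.le hx)
  have cXF : ∀ {a}, (∀ x ∈ X, Commute (ρ x) a) → Commute (Av ρ X f) a := fun k => (Av_comm ρ fun x hx => (k x hx).symm).symm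
  obtain ⟨a2, b2, e1, e2⟩ := par ((Av_idem ρ).mul_of_commute (cXF fun x hx => cF x (h.rt.le hx) (XA x hx)) iF) T2
    (tX.mul_right (cF t tC tA))
  have e3 : τ (ρ t * (Av ρ X f * (Av ρ A 1 * ε))) = 0 := mul_left_cancel₀ (card0 X) (by
    rw [← mul_assoc, tX.eq, mul_assoc, tr_Av, mul_zero]
    exact sum_eq_zero fun x _ => by
      rw [← mul_assoc (ρ x), ← map_mul, mem_centralizer_singleton_iff.1 (h.rt.le x.2), z0 x x.2, mul_zero])
  have cA' : Commute (Av ρ A 1) (Av ρ Y 1) := (Av_comm ρ fun a ha => (Av_cent ρ (WY a (mem_sup_left ha))).symm).symm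
  have iG := (Av_idem ρ).mul_of_commute cA' (Av_idem ρ)
  obtain ⟨r, hr, -⟩ := idem_nat ((Av_idem ρ (f := f)).mul_of_commute (cXF fun x hx =>
    (E_norm ρ (XA x hx)).mul_right (E_norm ρ (h.nY (h.rt.le hx)))) iG)
  obtain ⟨a1, b1, e4, e5⟩ := par iG T2 ((E_norm ρ tA).mul_right (E_norm ρ (h.nY tC)))
  have cx : ∀ x ∈ X, x ≠ 1 → τ (ρ x) = τ (ρ x0) := fun x hx x1' => by
    obtain ⟨c, -, rfl⟩ := m2 x0 hx0 x hx x1 x1'
    exact cj c x0
  have e6 := tr_cf ρ (e := Av ρ A 1) (c := τ (ρ x0)) (fun x hx x1' => by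
    rw [LinearMap.trace_mul_comm]
    refine tr_E ρ fun a ha => ?_
    obtain ⟨b, hb, d, hd, e⟩ := h.s2 l m3 hx x1' ha
    rw [d1 d hd, mul_one, (ab a (mem_sup_left ha) b (mem_sup_right hb)).eq] at e
    rw [← map_mul, ← cj b, ← cx x hx x1', ← mul_assoc, ← e]
    simp) f1
  have e7 := tr_c1 ρ (P := A) (e := 1) (c := τ (ρ x0)) fun a ha a1 => by
    obtain ⟨x, hx, rfl⟩ := h.XA.ge ha
    rw [mul_one]
    exact (cj g x).trans (cx x hx (by simpa using a1))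
  have e8 : τ (ρ t * Av ρ A 1) = e := by
    rw [LinearMap.trace_mul_comm]
    exact tr_E ρ fun a ha => by simpa [he] using val 1 (one_mem _) a (mem_sup_left ha) 1 (one_mem _)
  have e9 := z0 1 (one_mem _)
  rw [map_one] at hs
  simp only [hε, mul_sub, mul_one, map_sub, h.cardA l] at e1 e2 e3 e7 e9 hD hF
  have k1 : (s : ℂ) = Nat.card X * (Nat.card X - 1) * (D + r) + m + D * (Nat.card X - 1) + a1 + b1 := by
    linear_combination -hs - e7 - (Nat.card X - 1) * e6 + hF + e4 + Nat.card X * (Nat.card X - 1) * (hD + hr)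
  have k2 : (D : ℂ) = 2 * a2 := by linear_combination e1 + e2 - e3 - hD
  have k3 : (e : ℂ) = a1 - b1 := by linear_combination e9 + e5 - e8
  have k1 : s = Nat.card X * (Nat.card X - 1) * (D + r) + m + D * (Nat.card X - 1) + a1 + b1 := by exact_mod_cast k1
  have k2 : D = 2 * a2 := by exact_mod_cast k2
  have k3 : e = a1 - b1 := by exact_mod_cast k3
  have : (2 : ℤ) ≤ D := by omega
  refine .inl ?_
  nlinarith [mul_nonneg (mul_nonneg (show (0 : ℤ) ≤ Nat.card X by omega) (sub_nonneg.2 q1)) (show (0 : ℤ) ≤ D + r - 2 by omega),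
    mul_nonneg (sub_nonneg.2 q1) (sub_nonneg.2 this)]

theorem cf_core (l : LH t u w j) (h : CFD t u w g A X Y)
    (m2 : ∀ x ∈ X, ∀ y ∈ X, x ≠ 1 → y ≠ 1 → ∃ c ∈ 𝒞[t] ⊓ 𝒞[u], c * x * c⁻¹ = y)
    (m3 : ∀ x ∈ X, x ≠ 1 → ∃ x' ∈ X :^ w, (x * x' * x) ^ 2 * t ∈ UU t) :
    ∃ Y' : Subgroup G, Y' ≤ UU t ∧ 𝒞[t] ≤ 𝒩(Y') ∧ (∀ y ∈ Y', u * y * u⁻¹ = y⁻¹) ∧ ∀ χ : G → ℂ, IsCharacter G χ →
      (∀ y, χ y = χ 1 → y = 1) → (∀ x ∈ X, ∀ k ∈ UU t, χ (t * x * k) = χ (t * x)) → ∀ s e : ℤ, χ 1 = s → χ t = e →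
      ∀ O : Subgroup G, Y' ≤ O → 2 * (Nat.card X : ℤ) ^ 2 - 2 + e ≤ s ∨
        (∑ o : O, χ o).re + Nat.card O * ((Nat.card X : ℝ) * (Nat.card X - 1)) ≤ Nat.card O * s := by
  obtain ⟨Y, h, cs⟩ : ∃ Y, CFD t u w g A X Y ∧ (⁅A ⊔ A :^ w, A ⊔ A :^ w⁆ = ⊥ ∨ Y = ⁅A ⊔ A :^ w, A ⊔ A :^ w⁆) := by
    by_cases e : ⁅A ⊔ A :^ w, A ⊔ A :^ w⁆ = ⊥
    · exact ⟨Y, h, .inl e⟩
    · exact ⟨_, { h with
        YK := h.dW.trans inf_le_left, Y0 := e, uY := h.uW, nY := norm_comm h.nW h.nW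
        YW := h.dW.trans inf_le_right }, .inr rfl⟩
  refine ⟨Y, h.YK, h.nY, h.uY, ?_⟩
  rintro _ ⟨n, ρ, rfl⟩ fa hχ s e hs he O YO
  refine (cf_core0 l h m2 m3 cs ρ fa hχ hs he).imp_right fun ⟨k, hk, le⟩ => ?_
  have e1 := E_le ρ YO
  have e2 : Av ρ O 1 * Av ρ Y 1 = Av ρ O 1 := by
    rw [← e1, (Av_comm ρ fun y hy => show Commute (Av ρ O 1) (ρ y) from (E_mul ρ (YO hy)).trans
      (mul_E ρ (YO hy)).symm).eq.symm, mul_assoc, (Av_idem ρ).eq]
  obtain ⟨a, ha, -⟩ := idem_nat (e := Av ρ Y 1 - Av ρ O 1) (by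
    simp only [IsIdempotentElem, mul_sub, sub_mul, e1, e2, (Av_idem ρ).eq]; abel)
  have e3 := tr_Av ρ (P := O) (f := 1) (e := 1)
  simp only [mul_one, MonoidHom.one_apply, Units.val_one, one_mul] at e3
  have hs : LinearMap.trace ℂ _ (ρ 1) = s := hs
  rw [map_one] at hs
  rw [map_sub] at ha hk
  have e4 : ∑ o : O, ρ.character o = ((Nat.card O * (s - k - a) : ℝ) : ℂ) := by
    push_cast
    exact e3.symm.trans (by linear_combination Nat.card O * (hs - hk - ha))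
  rw [e4, Complex.ofReal_re]
  have : (Nat.card X : ℝ) * (Nat.card X - 1) ≤ k := by exact_mod_cast le
  nlinarith [mul_nonneg (Nat.cast_nonneg (α := ℝ) (Nat.card O)) (sub_nonneg.2 this),
    mul_nonneg (Nat.cast_nonneg (α := ℝ) (Nat.card O)) (Nat.cast_nonneg (α := ℝ) a)]

end CA.Abg
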