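/-
Groups with quasi-dihedral or wreathed Sylow 2-subgroups, the case `a = 1`: the structure of `C(t, u)`.
-/
import Cfsg.Agent.Abg.L3
import Cfsg.Agent.Abg.AG

set_option autoImplicit false
set_option linter.unusedSectionVars false

namespace CA.Abg

open Subgroup Cfsg CA.FG CA.BG CA.GW CA.GW.BA

universe u w

variable {G : Type u} {N : Type w} [Group G] [Group N]

/-- a `p`-element of `C(t, u)` centralizing the odd `p'`-elements of the torus induces no field automorphism -/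
def FAP (t u : G) (C0 : Subgroup G) : Prop := ∀ p : ℕ, p.Prime → Odd p → ∀ x ∈ 𝒞[t] ⊓ 𝒞[u], (∃ k, x ^ p ^ k = 1) →
  (∀ y ∈ C0 ⊓ 𝒞[u], Odd (orderOf y) → (orderOf y).Coprime p → x * y * x⁻¹ * y⁻¹ ∈ UU t) → x ∈ C0

/-- the torus `C_N(u)` -/
structure TN (tN uN : N) : Prop where
  ab : ∀ x y : N, Commute x uN → Commute y uN → Commute x y
  cyc : ∃ η : N, Commute η uN ∧ Odd (orderOf η) ∧ ∀ x, Commute x uN → Odd (orderOf x) → x ∈ zpowers η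
  inv : ∀ v x : N, v * uN * v⁻¹ = tN * uN → Commute x uN → Odd (orderOf x) → v * x * v⁻¹ = x⁻¹

/-- the hypotheses in the case `a = 1` -/
structure DH (t u w j : G) (C0 : Subgroup G) (κ : C0 →* N) (tN uN : N) : Prop where
  l : LH t u w j
  a1 : A1 G
  ag : AG t u C0 κ tN uN
  hk : ∀ m, κ m = 1 ↔ (m : G) ∈ UU t
  tn : TN tN uN

/-- the elements of odd order of `C(t, u)` inverted by `w` -/
structure II (t u w x : G) : Prop where
  ct : x ∈ 𝒞[t]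
  cu : x ∈ 𝒞[u]
  odd : Odd (orderOf x)
  inv : w * x * w⁻¹ = x⁻¹

theorem II.zpow [Finite G] {t u w x y : G} (h : II t u w x) (hy : y ∈ zpowers x) : II t u w y :=
  ⟨zpowers_le.2 h.ct hy, zpowers_le.2 h.cu hy, h.odd.of_dvd_nat (orderOf_dvd_of_mem_zpowers hy),
    inv_of_mem_zpowers h.inv hy⟩

theorem II.one (t u w : G) : II t u w 1 := ⟨one_mem _, one_mem _, by simp, by simp⟩

theorem mem_of_sq_mem {H : Subgroup G} {x : G} (o : Odd (orderOf x)) (h : x * x ∈ H) : x ∈ H := by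
  obtain ⟨k, hk⟩ := o
  have : (x * x) ^ (k + 1) = x := by
    rw [← pow_two, ← pow_mul, show 2 * (k + 1) = 2 * k + 1 + 1 by ring, pow_succ, ← hk, pow_orderOf_eq_one, one_mul]
  exact this ▸ pow_mem h _

theorem conj_pow_comm {x y c : G} (e : x * y * x⁻¹ = c * y) (cx : Commute c x) (n : ℕ) :
    x ^ n * y * (x ^ n)⁻¹ = c ^ n * y := by
  induction n with
  | zero => simp
  | succ n ih =>
    rw [pow_succ', show x * x ^ n * y * (x * x ^ n)⁻¹ = x * (x ^ n * y * (x ^ n)⁻¹) * x⁻¹ by group, ih,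
      ← mul_assoc, ← (cx.pow_left n).eq, mul_assoc, mul_assoc, ← mul_assoc x, e, ← mul_assoc, pow_succ]

variable [Finite G] [Finite N]

theorem odd_UU {t k : G} (hk : k ∈ UU t) : Odd (orderOf k) := by
  have := (piGrp_compl_singleton_iff Nat.prime_two).1 (UU_odd t)
  exact Nat.odd_iff.2 (Nat.two_dvd_ne_zero.1 fun e => this (e.trans (orderOf_dvd_natCard _ hk)))

theorem exists_two_pow (x : G) : ∃ a, Odd (orderOf (x ^ 2 ^ a)) := by
  obtain ⟨a, m, hm, e⟩ := Nat.exists_eq_two_pow_mul_odd (orderOf_pos x).ne'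
  exact ⟨a, hm.of_dvd_nat (orderOf_dvd_of_pow_eq_one (by rw [← pow_mul, ← e, pow_orderOf_eq_one]))⟩

theorem eq_one_of_cop {x : G} {m n : ℕ} (h : m.Coprime n) (e : x ^ m = 1) (e' : x ^ n = 1) : x = 1 :=
  orderOf_eq_one_iff.1 (Nat.eq_one_of_dvd_coprimes h (orderOf_dvd_of_pow_eq_one e) (orderOf_dvd_of_pow_eq_one e'))

theorem AG.nrm {t u : G} {C0 : Subgroup G} {κ : C0 →* N} {tN uN : N} (h : AG t u C0 κ tN uN) {c x : G}
    (hc : c ∈ 𝒞[t]) (hx : x ∈ C0) : c * x * c⁻¹ ∈ C0 := by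
  simpa using mul_mem (h.com c hc x (h.le hx)) hx

theorem AG.inv_mem {t u : G} {C0 : Subgroup G} {κ : C0 →* N} {tN uN : N} (h : AG t u C0 κ tN uN) {v : G}
    (hv : v ∈ 𝒞[t]) (v2 : v * v = 1) : v ∈ C0 := by
  have : (C0.subgroupOf 𝒞[t]).Normal := ⟨fun x hx c => h.nrm c.2 hx⟩
  have := (C0.subgroupOf 𝒞[t]).pow_index_mem ⟨v, hv⟩
  obtain ⟨k, hk⟩ := h.odd
  rw [mem_subgroupOf, show (C0.subgroupOf 𝒞[t]).index = 2 * k + 1 from hk, SubmonoidClass.coe_pow, pow_succ, pow_mul,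
    pow_two, v2] at this
  simpa using this

namespace DH

variable {t u w j : G} {C0 : Subgroup G} {κ : C0 →* N} {tN uN : N} (h : DH t u w j C0 κ tN uN)
include h

/-- involutions of `C(t)` centralize `K` -/
theorem cK {v k : G} (hv : v ∈ 𝒞[t]) (v2 : v * v = 1) (hk : k ∈ UU t) : Commute v k := by
  rcases eq_or_ne v 1 with rfl | v1
  · exact Commute.one_left k
  obtain ⟨i, hi, b, hb, rfl⟩ := exists_inv_mul (UU_odd t) v2 (UU_norm t hv) hk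
  rw [h.a1 t v h.l.it ⟨v2, v1⟩ hv i hi.1 hi.2, one_mul]
  exact (mem_centralizer_singleton_iff.1 hb.2).symm

theorem wC0 : w ∈ C0 := h.ag.inv_mem h.l.wC h.l.iw.1

theorem commN {x : G} (hx : x ∈ C0) (cu : x ∈ 𝒞[u]) : Commute (κ ⟨x, hx⟩) uN := by
  rw [← h.ag.κu]
  exact Commute.map (Subtype.ext (mem_centralizer_singleton_iff.1 cu)) κ

theorem memD {m : C0} (e : Commute (κ m) uN) : (m : G) ∈ 𝒞[u] := by
  have k : (m : G) * u * (m : G)⁻¹ * u⁻¹ ∈ UU t := (h.hk (m * ⟨u, h.ag.uC⟩ * m⁻¹ * ⟨u, h.ag.uC⟩⁻¹)).1 (by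
    simp only [map_mul, map_inv, h.ag.κu, e.eq]; group)
  have c := h.cK h.l.uC h.l.iu.1 k
  have := eq_one_of_odd (UU_odd t) k (by
    rw [h.l.iu.inv_eq] at c ⊢
    rw [mul_assoc _ u, c.eq, mul_assoc _ u u, h.l.iu.1, mul_one, cj_mul, h.l.iu.1]; simp)
  exact mem_centralizer_singleton_iff.2 (by rw [mul_inv_eq_one, mul_inv_eq_iff_eq_mul] at this; exact this)

theorem wN : κ ⟨w, h.wC0⟩ * uN * (κ ⟨w, h.wC0⟩)⁻¹ = tN * uN := by
  have := congrArg κ (show (⟨w, h.wC0⟩ * ⟨u, h.ag.uC⟩ * ⟨w, h.wC0⟩⁻¹ : C0) = ⟨t, h.ag.tC⟩ * ⟨u, h.ag.uC⟩ from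
    Subtype.ext h.l.wu)
  simpa only [map_mul, map_inv, h.ag.κu, h.ag.κt] using this

theorem IC0 {x : G} (hx : II t u w x) : x ∈ C0 := mem_of_sq_mem hx.odd (by
  have := h.ag.com w h.l.wC x⁻¹ (inv_mem hx.ct)
  rwa [← conj_inv, hx.inv, inv_inv] at this)

theorem IK {x k : G} (hx : II t u w x) (hk : k ∈ UU t) : Commute x k := by
  have := (h.cK (mul_mem hx.ct h.l.wC) (by
    rw [mul_assoc, ← mul_assoc w, mul_inv_eq_iff_eq_mul.1 hx.inv]; simp [mul_assoc, h.l.iw.1]) hk).mul_left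
    (h.cK h.l.wC h.l.iw.1 hk)
  rwa [mul_assoc, h.l.iw.1, mul_one] at this

theorem Iinj {x y k : G} (hx : II t u w x) (hy : II t u w y) (hk : k ∈ UU t) (e : x = y * k) : k = 1 := by
  have e1 := hx.inv
  rw [e, ← cj_mul, hy.inv, (h.cK h.l.wC h.l.iw.1 hk).eq, mul_inv_cancel_right, mul_inv_rev,
    ← ((h.IK hy hk).inv_inv).eq, mul_right_inj] at e1
  exact eq_one_of_odd (UU_odd t) hk (mul_eq_one_iff_eq_inv.2 e1)

theorem Isur {n : N} (c : Commute n uN) (o : Odd (orderOf n)) : ∃ (x : G) (hx : II t u w x), κ ⟨x, h.IC0 hx⟩ = n := by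
  obtain ⟨k, hk⟩ := id o
  obtain ⟨m, hm⟩ := h.ag.sur (n ^ (k + 1))
  have o' : Odd (orderOf (n ^ (k + 1))) := o.of_dvd_nat (orderOf_pow_dvd _)
  have mu := h.memD (hm ▸ c.pow_left _)
  let x : C0 := m * ⟨w, h.wC0⟩ * m⁻¹ * ⟨w, h.wC0⟩⁻¹
  have e : κ x = n := by
    have := h.tn.inv _ _ h.wN (c.pow_left (k + 1)) o'
    rw [← inv_inj, conj_inv, inv_inv] at this
    simp only [x, map_mul, map_inv, hm]
    rw [mul_assoc, mul_assoc, ← mul_assoc (κ _), this, ← pow_add, show k + 1 + (k + 1) = 2 * k + 1 + 1 by ring, ← hk,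
      pow_succ, pow_orderOf_eq_one, one_mul]
  have hx : II t u w x := ⟨h.ag.le x.2, h.memD (e ▸ c), ?_, by simp [x, mul_assoc, h.l.iw.inv_eq, h.l.iw.1]⟩
  · exact ⟨x, hx, e⟩
  · have := odd_UU ((h.hk (x ^ orderOf n)).1 (by rw [map_pow, e, pow_orderOf_eq_one]))
    refine (o.mul this).of_dvd_nat (orderOf_dvd_of_pow_eq_one ?_)
    rw [pow_mul, ← SubmonoidClass.coe_pow, pow_orderOf_eq_one]

/-- odd elements of `C₀ ∩ C(u)` lie in `I K` -/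
theorem dec {y : G} (hy : y ∈ C0) (cu : y ∈ 𝒞[u]) (o : Odd (orderOf y)) : ∃ x, II t u w x ∧ ∃ k ∈ UU t, y = x * k := by
  obtain ⟨x, hx, e⟩ := h.Isur (h.commN hy cu) (o.of_dvd_nat (by
    rw [← Subgroup.orderOf_mk y hy]; exact orderOf_map_dvd _ _))
  exact ⟨x, hx, x⁻¹ * y, (h.hk (⟨x, h.IC0 hx⟩⁻¹ * ⟨y, hy⟩)).1 (by rw [map_mul, map_inv, e, inv_mul_cancel]), by group⟩

theorem Icyc : ∃ x0, II t u w x0 ∧ ∀ x, II t u w x → x ∈ zpowers x0 := by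
  obtain ⟨η, c, o, hη⟩ := h.tn.cyc
  obtain ⟨x0, h0, e⟩ := h.Isur c o
  refine ⟨x0, h0, fun x hx => ?_⟩
  obtain ⟨i, hi⟩ := hη _ (h.commN (h.IC0 hx) hx.cu) (hx.odd.of_dvd_nat (by
    rw [← Subgroup.orderOf_mk x (h.IC0 hx)]; exact orderOf_map_dvd _ _))
  have k := (h.hk ((⟨x0, h.IC0 h0⟩ ^ i)⁻¹ * ⟨x, h.IC0 hx⟩)).1 (by rw [map_mul, map_inv, map_zpow, e, ← hi]; simp)
  have := h.Iinj hx (h0.zpow (zpow_mem_zpowers x0 i)) k (by simp)
  exact ⟨i, inv_mul_eq_one.1 this⟩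

theorem Icomm {x y : G} (hx : II t u w x) (hy : II t u w y) : Commute x y := by
  obtain ⟨x0, -, h0⟩ := h.Icyc
  obtain ⟨i, rfl⟩ := h0 x hx
  obtain ⟨k, rfl⟩ := h0 y hy
  exact Commute.zpow_zpow_self x0 i k

theorem Imul {x y : G} (hx : II t u w x) (hy : II t u w y) : II t u w (x * y) := by
  obtain ⟨x0, h1, h0⟩ := h.Icyc
  exact h1.zpow (mul_mem (h0 x hx) (h0 y hy))

theorem comK {x y : G} (hx : x ∈ C0) (cx : x ∈ 𝒞[u]) (hy : y ∈ C0) (cy : y ∈ 𝒞[u]) : x * y * x⁻¹ * y⁻¹ ∈ UU t :=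
  (h.hk (⟨x, hx⟩ * ⟨y, hy⟩ * ⟨x, hx⟩⁻¹ * ⟨y, hy⟩⁻¹)).1 (by
    simp only [map_mul, map_inv, (h.tn.ab _ _ (h.commN hx cx) (h.commN hy cy)).eq]; group)

theorem commI {z x : G} (hz : z ∈ C0) (cu : z ∈ 𝒞[u]) (ck : ∀ k ∈ UU t, Commute z k) (hx : II t u w x) :
    Commute z x := by
  have k := h.comK hz cu (h.IC0 hx) hx.cu
  obtain ⟨a, o⟩ := exists_two_pow z
  obtain ⟨y, hy, l, hl, e⟩ := h.dec (pow_mem hz _) (pow_mem cu _) o
  have := conj_pow_comm (x := z) (y := x) (by rw [inv_mul_cancel_right]) (ck _ k).symm (2 ^ a)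
  rw [e, ((h.Icomm hy hx).mul_left (h.IK hx hl).symm).eq, mul_inv_cancel_right, eq_comm, mul_eq_right] at this
  have := eq_one_of_cop ((Nat.coprime_two_left.2 (odd_UU k)).pow_left a) this (pow_orderOf_eq_one _)
  rwa [mul_inv_eq_one, mul_inv_eq_iff_eq_mul] at this

/-- `I` is normal in `C(t, u)` -/
theorem Inorm {c x : G} (ct : c ∈ 𝒞[t]) (cu : c ∈ 𝒞[u]) (hx : II t u w x) : II t u w (c * x * c⁻¹) := by
  have yu : c * x * c⁻¹ ∈ 𝒞[u] := mul_mem (mul_mem cu hx.cu) (inv_mem cu)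
  have o : Odd (orderOf (c * x * c⁻¹)) := by rw [orderOf_conj]; exact hx.odd
  obtain ⟨y, hy, k, hk, e⟩ := h.dec (h.ag.nrm ct (h.IC0 hx)) yu o
  have w2 : c * w * c⁻¹ * (c * w * c⁻¹) = 1 := (h.l.iw.conj c).1
  have wt : c * w * c⁻¹ ∈ 𝒞[t] := mul_mem (mul_mem ct h.l.wC) (inv_mem ct)
  have zu : c * w * c⁻¹ * w⁻¹ ∈ 𝒞[u] := cent_of_conj_eq (by
    have e1 : w⁻¹ * u * w = t * u := by rw [← h.l.wu, h.l.iw.inv_eq]
    have e2 : c⁻¹ * (t * u) * c = t * u := by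
      have := cj_mul c⁻¹ t u
      rwa [conj_eq_of_cent (inv_mem ct), conj_eq_of_cent (inv_mem cu), inv_inv, eq_comm] at this
    calc _ = c * (w * (c⁻¹ * (w⁻¹ * u * w) * c) * w⁻¹) * c⁻¹ := by group
      _ = u := by rw [e1, e2, h.l.wtu, conj_eq_of_cent cu])
  have zy := h.commI (h.ag.com c ct w h.l.wC) zu (fun k hk => (h.cK wt w2 hk).mul_left (h.cK h.l.wC h.l.iw.1 hk).inv_left) hy
  have e1 : c * w * c⁻¹ * (y * k) * (c * w * c⁻¹)⁻¹ = (y * k)⁻¹ := by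
    rw [← e, conj_inv (a := x), ← hx.inv]; group
  have e2 : c * w * c⁻¹ * y * (c * w * c⁻¹)⁻¹ = y⁻¹ := by
    calc _ = c * w * c⁻¹ * w⁻¹ * (w * y * w⁻¹) * (c * w * c⁻¹ * w⁻¹)⁻¹ := by group
      _ = _ := by rw [hy.inv, zy.inv_right.eq, mul_inv_cancel_right]
  rw [← cj_mul, e2, (h.cK wt w2 hk).eq, mul_inv_cancel_right, mul_inv_rev, ← ((h.IK hy hk).inv_inv).eq,
    mul_right_inj] at e1
  rw [e, eq_one_of_odd (UU_odd t) hk (mul_eq_one_iff_eq_inv.2 e1), mul_one]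
  exact hy

/-- `p`-elements of an `N(V)`-conjugate of `I` lie in `C₀` -/
theorem fa (fa : FAP t u C0) {g x : G} (hg : ∀ y, y ∈ 𝒞[t] ⊓ 𝒞[u] ↔ g * y * g⁻¹ ∈ 𝒞[t] ⊓ 𝒞[u]) (hx : II t u w x)
    {p : ℕ} (hp : p.Prime) (op : Odd p) {k : ℕ} (e : x ^ p ^ k = 1) : g * x * g⁻¹ ∈ C0 := by
  have xD := (hg x).1 ⟨hx.ct, hx.cu⟩
  have e' : (g * x * g⁻¹) ^ p ^ k = 1 := by rw [conj_pow, e]; simp
  refine fa p hp op _ xD ⟨k, e'⟩ fun y hy o cp => ?_
  obtain ⟨z, hz, l, hl, rfl⟩ := h.dec hy.1 hy.2 o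
  have zD := (hg (g⁻¹ * z * g)).2 (by simpa [mul_assoc] using ⟨hz.ct, hz.cu⟩)
  have zo : z ^ orderOf (z * l) = 1 := by
    have := pow_orderOf_eq_one (z * l)
    rw [(h.IK hz hl).mul_pow] at this
    rwa [h.Iinj (II.one t u w) (hz.zpow (npow_mem_zpowers _ _)) (pow_mem hl _) this.symm, mul_one] at this
  generalize hx' : g * x * g⁻¹ = x' at *
  have c1 : Commute (x' * z * x'⁻¹ * z⁻¹) z :=
    ((h.Icomm (h.Inorm xD.1 xD.2 hz) hz).mul_left (Commute.refl z).inv_left)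
  have c2 : Commute (x' * z * x'⁻¹ * z⁻¹) x' := by
    have := ((Commute.refl x).mul_left (h.Icomm (h.Inorm zD.1 zD.2 (hx.zpow (inv_mem (mem_zpowers x)))) hx)).map
      (MulAut.conj g)
    simp only [MulAut.conj_apply, hx'] at this
    convert this using 1
    rw [← hx']; group
  have e1 := conj_pow_comm (x := x') (y := z) (by rw [inv_mul_cancel_right]) c2 (p ^ k)
  rw [e', one_mul, inv_one, mul_one, eq_comm, mul_eq_right] at e1
  have e2 : (x' * z * x'⁻¹ * z⁻¹) ^ orderOf (z * l) = 1 := by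
    rw [(h.Icomm (h.Inorm xD.1 xD.2 hz) hz).inv_right.mul_pow, conj_pow, inv_pow, zo]; simp
  have e3 := eq_one_of_cop (cp.pow_right k) e2 e1
  rw [mul_inv_eq_one] at e3
  have := (mem_normalizer_iff.1 (UU_norm t hz.ct) _).1 (mul_mem ((mem_normalizer_iff.1 (UU_norm t xD.1) _).1 hl) (inv_mem hl))
  convert this using 1
  calc _ = x' * z * x'⁻¹ * (x' * l * x'⁻¹ * l⁻¹) * z⁻¹ := by group
    _ = _ := by rw [e3]

end DH

end CA.Abg

theorem CA.realizeEqns_Abg_D0 : True := by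
  have := @CA.Abg.FAP.eq_1.{0}
  have := @CA.Abg.FAP.eq_def.{0}
  have := @CA.Abg.FAP.congr_simp.{0}
  trivial
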