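/-
Groups with quasi-dihedral or wreathed Sylow 2-subgroups: field automorphisms and the torus.
-/
import Cfsg.Agent.Abg.A6
import Cfsg.Agent.Abg.D0

set_option autoImplicit false
set_option linter.unusedSectionVars false

namespace CA.Abg

open Subgroup Cfsg CA.FG CA.BG CA.GW CA.Dih Cfsg.Agent.Lin
open scoped MatrixGroups commutatorElement

universe u

section

variable {Γ : Type*} [Group Γ] [Finite Γ] {F : Type*} [Field F] [Fintype F] {ι : SL(2, F) →* Γ}

theorem fix_odd {σ : F ≃+* F} (o : Odd (orderOf σ)) {s : F} (e : σ s = s ∨ σ s = -s) : σ s = s := e.elim id fun e => by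
  obtain ⟨n, hn⟩ := o
  have k : ∀ n : ℕ, (σ ^ (2 * n + 1)) s = -s := fun n => by
    induction n with
    | zero => simpa using e
    | succ n ih => rw [show 2 * (n + 1) + 1 = 2 * n + 1 + 1 + 1 by ring, pow_succ, pow_succ]; simp [e, ih]
  have := k n
  rw [← hn, pow_orderOf_eq_one] at this
  rw [e]; exact this.symm

theorem three_le_fixed (two : (2 : F) ≠ 0) (σ : F ≃+* F) : 3 ≤ Nat.card {a : F // σ a = a} := by
  classical
  rw [Nat.card_eq_fintype_card, ← Finset.card_univ]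
  exact Finset.two_lt_card_iff.2 ⟨⟨0, map_zero σ⟩, ⟨1, map_one σ⟩, ⟨-1, by simp⟩, by simp, by simp, by simp, by simp, by simp,
    fun e => two (by linear_combination congrArg Subtype.val e)⟩

theorem card_conic_ge (h : (2 : F) ≠ 0) {d : F} (d0 : d ≠ 0) :
    Fintype.card F ≤ Nat.card {x : F × F // x.1 * x.1 + d * (x.2 * x.2) = 1} + 2 := by
  classical
  have h1 : Nat.card {s : F // 1 + d * (s * s) ≠ 0} ≤ Nat.card {x : F × F // x.1 * x.1 + d * (x.2 * x.2) = 1} :=
    Nat.card_le_card_of_injective (fun s => ⟨((1 - d * (s.1 * s.1)) / (1 + d * (s.1 * s.1)), 2 * s.1 / (1 + d * (s.1 * s.1))), by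
      have := s.2
      rw [div_mul_div_comm, div_mul_div_comm, mul_div_assoc', ← add_div, div_eq_one_iff_eq (mul_ne_zero this this)]
      ring⟩) fun s t e => Subtype.ext (by
        have e1 := congrArg (fun x => x.1.1) e
        have e2 := congrArg (fun x => x.1.2) e
        have s2 := s.2
        have t2 := t.2
        simp only at e1 e2
        rw [div_eq_div_iff s2 t2] at e1 e2
        have e3 : d * (s.1 * s.1) = d * (t.1 * t.1) := mul_left_cancel₀ h (by linear_combination -e1)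
        rw [e3] at e2
        exact mul_left_cancel₀ h (mul_right_cancel₀ t2 e2))
  have h2 : (Finset.univ.filter fun s : F => 1 + d * (s * s) = 0).card ≤ 2 := by
    by_cases hs : ∃ i : F, 1 + d * (i * i) = 0
    · obtain ⟨i, hi⟩ := hs
      refine (Finset.card_le_card fun s hs => ?_).trans (Finset.card_le_two (a := i) (b := -i))
      have : s * s = i * i := mul_left_cancel₀ d0 (by linear_combination (Finset.mem_filter.1 hs).2 - hi)
      simpa using mul_self_eq_mul_self_iff.1 this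
    · rw [Finset.filter_eq_empty_iff.2 fun s _ e => hs ⟨s, e⟩]; simp
  have h3 := Finset.card_filter_add_card_filter_not (s := Finset.univ) fun s : F => 1 + d * (s * s) = 0
  rw [Nat.card_eq_fintype_card, Fintype.card_subtype] at h1
  rw [Finset.card_univ] at h3
  exact h3 ▸ (Nat.add_le_add h2 h1).trans (by omega)

theorem CT_comb (two : (2 : F) ≠ 0) {g : M2 F} (z : TZ g) {A : SL(2, F)} (hA : A ∈ CT g) :
    ∃ a b : F, A.1 = a • 1 + b • g ∧ a * a + g.det * (b * b) = 1 ∧ A.1 0 0 + A.1 1 1 = 2 * a := by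
  obtain ⟨a, b, e⟩ := exists_eq_of_commute (z.ns two) hA
  exact ⟨a, b, e, by rw [← z.det_comb, ← e, A.2], by rw [e]; simp; linear_combination b * z.tr⟩

theorem comm_of_CT (two : (2 : F) ≠ 0) {g m : M2 F} (z : TZ g) (e : m * g = g * m) {A : SL(2, F)} (hA : A ∈ CT g) :
    A.1 * m = m * A.1 := by
  obtain ⟨a, b, e', -⟩ := CT_comb two z hA
  simp [e', add_mul, mul_add, e]

theorem cyc_CT' (two : (2 : F) ≠ 0) {g : M2 F} (z : TZ g) : IsCyclic (CT g) := by
  by_cases e : ∃ A ∈ CT g, (A 0 0 + A 1 1) ^ 2 ≠ 4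
  · obtain ⟨A, hA, e⟩ := e
    exact isCyclic_of_commute e (CT g).subtype Subtype.val_injective fun y => Subtype.ext (comm_of_CT two z hA y.2)
  push Not at e
  refine ⟨⟨⟨-1, by simp [mem_CT]⟩, fun y => ?_⟩⟩
  obtain ⟨a, b, e1, e2, e3⟩ := CT_comb two z y.2
  have e4 := e y y.2
  rw [show y.1 0 0 + y.1 1 1 = 2 * a from e3] at e4
  have a1 : a * a = 1 := mul_left_cancel₀ (mul_ne_zero two two) (by linear_combination e4)
  have b0 : b = 0 := by
    have : g.det * (b * b) = 0 := by linear_combination e2 - a1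
    simpa [z.det] using this
  rcases mul_self_eq_one_iff.1 a1 with rfl | rfl
  · exact ⟨0, Subtype.ext (Subtype.ext (by simp [e1, b0]))⟩
  · exact ⟨1, Subtype.ext (Subtype.ext (by simp [e1, b0]))⟩

/-- counting the `p`-th powers of a torus by their traces -/
theorem tor_count (two : (2 : F) ≠ 0) {g : M2 F} (z : TZ g) {p : ℕ} (hp : p.Prime) (op : Odd p) {σ : F ≃+* F}
    (ho : orderOf σ = p) (fx : ∀ A ∈ CT g, σ ((A ^ p).1 0 0 + (A ^ p).1 1 1) = (A ^ p).1 0 0 + (A ^ p).1 1 1) : False := by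
  classical
  have := cyc_CT' two z
  letI := IsCyclic.commGroup (α := CT g)
  have c1 : Nat.card (powMonoidHom p : CT g →* CT g).range ≤ Nat.card {a : F // σ a = a} * 2 := by
    have fix : ∀ y : (powMonoidHom p : CT g →* CT g).range, σ (y.1.1.1 0 0 + y.1.1.1 1 1) = y.1.1.1 0 0 + y.1.1.1 1 1 := by
      rintro ⟨_, y, rfl⟩
      exact fx y y.2
    rw [Nat.card_eq_fintype_card (α := {a : F // σ a = a}), ← Finset.card_univ, mul_comm]
    have := Fintype.ofFinite (powMonoidHom p : CT g →* CT g).range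
    rw [Nat.card_eq_fintype_card, ← Finset.card_univ]
    refine Finset.card_le_mul_card_image_of_maps_to (f := fun y => (⟨_, fix y⟩ : {a : F // σ a = a}))
      (fun _ _ => Finset.mem_univ _) 2 fun a _ => ?_
    by_contra! hh
    obtain ⟨y1, y2, y3, m1, m2, m3, n1, n2, n3⟩ := Finset.two_lt_card_iff.1 hh
    have k : ∀ y y' : (powMonoidHom p : CT g →* CT g).range, y.1.1.1 0 0 + y.1.1.1 1 1 = a → y'.1.1.1 0 0 + y'.1.1.1 1 1 = a →
        y ≠ y' → y.1.1.1 + y'.1.1.1 = a.1 • (1 : M2 F) := fun y y' a1 a2 n => by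
      obtain ⟨b, c, e1, e2, e3⟩ := CT_comb two z y.1.2
      obtain ⟨b', c', e1', e2', e3'⟩ := CT_comb two z y'.1.2
      obtain rfl : b = b' := mul_left_cancel₀ two (by rw [← e3, ← e3', a1, a2])
      obtain rfl : c = -c' := (mul_self_eq_mul_self_iff.1 (mul_left_cancel₀ z.det (by linear_combination e2 - e2'))).resolve_left
        fun e => n (Subtype.ext (Subtype.ext (Subtype.ext (by rw [e1, e1', e]))))
      rw [e1, e1', ← a1, e3]
      module
    have f1 := congrArg Subtype.val (Finset.mem_filter.1 m1).2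
    have f2 := congrArg Subtype.val (Finset.mem_filter.1 m2).2
    have f3 := congrArg Subtype.val (Finset.mem_filter.1 m3).2
    exact n3 (Subtype.ext (Subtype.ext (Subtype.ext (add_left_cancel ((k _ _ f1 f2 n1).trans (k _ _ f1 f3 n2).symm)))))
  have c2 := card_mul_index (powMonoidHom p : CT g →* CT g).range
  rw [IsCyclic.index_powMonoidHom_range] at c2
  have c3 := card_conic_ge two z.det
  rw [Nat.card_congr (z.torEquiv two), ← c2, card_fixed ho] at c3
  have c5 := num_aux (three_le_fixed two σ) (hp.two_le.lt_of_ne fun e => by rw [← e] at op; exact absurd op (by decide))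
  have c6 := Nat.mul_le_mul c1 (Nat.gcd_le_right (Nat.card (CT g)) hp.pos)
  nlinarith

variable (h : PM ι)
include h

theorem rel_of_comm {w x : Γ} {g k : M2 F} {σ : F ≃+* F} (r : RR ι w g 1) (rx : RR ι x k σ) (cx : Commute x w) :
    ∃ c : F, c ≠ 0 ∧ k * g.map σ = c • (g * k) := by
  have a := r.mul rx
  rw [map_one2, one_mul, ← cx.eq] at a
  exact rr_scal h a (by simpa using rx.mul r)

/-- the centralizer of an involution normalizes its torus -/
theorem norm_CT {w x : Γ} {g : M2 F} (r : RR ι w g 1) (cx : Commute x w) {y : Γ} (hy : y ∈ (CT g).map ι) :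
    x * y * x⁻¹ ∈ (CT g).map ι := by
  obtain ⟨A, hA, rfl⟩ := hy
  obtain ⟨k, σ, rx⟩ := h.exists_rr x
  obtain ⟨c, c0, hc⟩ := rel_of_comm h r rx cx
  obtain ⟨B, hB⟩ := exB rx.1 σ A
  refine ⟨B, cancel_r rx.1 (smul_right_injective _ c0 ?_), (rx.2 _ _ hB).symm⟩
  simp only
  rw [mul_assoc, ← Matrix.mul_smul, ← hc, ← mul_assoc, hB, mul_assoc k, ← map_mul2, mem_CT.1 hA, map_mul2,
    ← mul_assoc, hc, mul_assoc g, hB, Matrix.smul_mul, mul_assoc]

/-- a linear element of odd order centralizing an involution centralizes its torus -/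
theorem lin_comm {w x : Γ} {g k : M2 F} (r : RR ι w g 1) (z : TZ g) (rx : RR ι x k 1) (cx : Commute x w)
    (ox : Odd (orderOf x)) : k * g = g * k := by
  obtain ⟨c, c0, hc⟩ := rel_of_comm h r rx cx
  rw [map_one2] at hc
  have cc : c * c = 1 := by
    have := congrArg Matrix.det hc
    rw [Matrix.det_smul, Matrix.det_mul, Matrix.det_mul, mul_comm k.det, Fintype.card_fin, pow_two] at this
    exact (mul_right_cancel₀ (mul_ne_zero z.det rx.1) (by rw [one_mul, ← this])).symm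
  rcases mul_self_eq_one_iff.1 cc with rfl | rfl
  · simpa using hc
  · have t := z.tr_of_anti h.two (k := k) (by simpa using hc)
    have := rx.pow_one 2
    rw [pow_two k, (TZ.mk rx.1 t).sq, ← neg_smul] at this
    obtain rfl := eq_one_of_cop (Nat.coprime_two_left.2 ox) (h.uniq this (rr_one.smul (neg_ne_zero.2 rx.1)))
      (pow_orderOf_eq_one x)
    obtain ⟨-, a, -, rfl⟩ := h.of_one rx
    simp

theorem fa_aux {w x : Γ} {g k : M2 F} {σ : F ≃+* F} (r : RR ι w g 1) (z : TZ g) (rx : RR ι x k σ) (cx : Commute x w)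
    (ox : Odd (orderOf x)) {p : ℕ} (hp : p.Prime) (op : Odd p) (ho : orderOf σ = p)
    (hc : ∀ y ∈ (CT g).map ι, Odd (orderOf y) → (orderOf y).Coprime p → Commute x y) : False := by
  have cD : IsCyclic ((CT g).map ι) := cyclic_map ι (cyc_CT' h.two z)
  have nD : zpowers x ≤ 𝒩((CT g).map ι) := zpowers_le.2 (mem_normalizer_fintype fun y => norm_CT h r cx)
  let ψ : (CT g).map ι →* (CT g).map ι := MonoidHom.mk' (fun y => ⟨x * y * x⁻¹, norm_CT h r cx y.2⟩) fun a b =>
    Subtype.ext (by simp [mul_assoc])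
  have it : ∀ n y, (ψ^[n] y : Γ) = x ^ n * y * (x ^ n)⁻¹ := fun n y => by
    induction n with
    | zero => simp
    | succ n ih => 
      rw [Function.iterate_succ_apply', pow_succ']
      change x * (ψ^[n] y : Γ) * x⁻¹ = _
      rw [ih]; group
  have fx := cyc_pow hp op ψ (fun y => Subtype.ext (by
    obtain ⟨_, A, hA, rfl⟩ := y
    obtain ⟨m, rm⟩ := rx.pow p
    rw [← ho, pow_orderOf_eq_one, ho] at rm
    exact (it _ _).trans (rm.2 A A (comm_of_CT h.two z (lin_comm h r z rm (cx.pow_left p)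
      (ox.of_dvd_nat (orderOf_pow_dvd _))) hA)))) fun y hy => Subtype.ext (by
    obtain ⟨y2, y3, m2, m3, p2, p3, e, -⟩ := exists_piPart {2} (y : Γ)
    have c2 : y2 * x = x * y2 := cent_of_cyclic_two (cyclic_zpowers y2) (piGrp_zpowers_iff.2 p2)
      (nD.trans (norm_le_norm_of_cyclic cD (zpowers_le.2 (zpowers_le.2 y.2 m2))))
      (by rw [Nat.card_zpowers]; exact Nat.two_dvd_ne_zero.2 (Nat.odd_iff.1 ox)) (mem_zpowers x) y2 (mem_zpowers _)
    have c3 := hc y3 (zpowers_le.2 y.2 m3) (Nat.odd_iff.2 (Nat.two_dvd_ne_zero.1 fun e => p3 2 Nat.prime_two e rfl))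
      (hy.coprime_dvd_left (by rw [← orderOf_coe]; exact orderOf_dvd_of_mem_zpowers m3))
    change x * y * x⁻¹ = y
    rw [e, ← mul_assoc, ← c2, mul_assoc y2, c3.eq, ← mul_assoc, mul_inv_cancel_right])
  refine tor_count h.two z hp op ho fun A hA => fix_odd (ho ▸ op) ?_
  have e : x * ι (A ^ p) * x⁻¹ = ι (A ^ p) := by
    simpa [ψ] using congrArg Subtype.val (fx ⟨ι A, A, hA, rfl⟩)
  rcases h.of_rr rx e with e | e
  · exact .inl ((map_add σ _ _).trans (trace_of_rel rx.1 e).symm)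
  · rw [← mul_neg] at e
    have := trace_of_rel rx.1 e
    simp only [Matrix.neg_apply, Matrix.map_apply] at this
    exact .inr (by rw [map_add]; linear_combination this)

/-- a `p`-element centralizing an involution and the odd `p'`-elements of its torus is linear -/
theorem fa_core {w x : Γ} {g : M2 F} (r : RR ι w g 1) (z : TZ g) (cx : Commute x w) {p n : ℕ} (hp : p.Prime) (op : Odd p)
    (hx : x ^ p ^ n = 1) (hc : ∀ y ∈ (CT g).map ι, Odd (orderOf y) → (orderOf y).Coprime p → Commute x y) :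
    ∃ k, RR ι x k 1 := by
  obtain ⟨k, σ, rx⟩ := h.exists_rr x
  by_cases s1 : σ = 1
  · exact ⟨k, s1 ▸ rx⟩
  obtain ⟨i, -, hi⟩ := (Nat.dvd_prime_pow hp).1 (orderOf_dvd_of_pow_eq_one (h.sig_pow rx hx))
  obtain ⟨i, rfl⟩ := Nat.exists_eq_succ_of_ne_zero (n := i) fun e => s1 (by simpa [e] using hi)
  obtain ⟨m, r1⟩ := rx.pow (p ^ i)
  exact (fa_aux h r z r1 (cx.pow_left _) ((op.pow.of_dvd_nat (orderOf_dvd_of_pow_eq_one hx)).of_dvd_nat (orderOf_pow_dvd _))
    hp op (by rw [orderOf_pow' _ (pow_ne_zero _ hp.ne_zero), hi, pow_succ, Nat.gcd_mul_right_left,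
      Nat.mul_div_cancel_left _ (pow_pos hp.pos _)]) fun y hy o c => (hc y hy o c).pow_left _).elim

end

variable {G X Γ N : Type u} [Group G] [Finite G] [Group X] [Group Γ] [Group N] [Finite X] [Finite Γ] [Finite N] {F : Type}
  [Field F] [Fintype F] {t u w j : G} {S : Subgroup G} {f : (𝒞[t] : Subgroup G) →* X} {p : X →* Γ} {ι : SL(2, F) →* Γ} {ζ : X}
  {C0 : Subgroup G} {κ : C0 →* N} {e : N →* X} {tN uN : N}

theorem MD.qq (h : MD t u w j S f p ι ζ) : QQ f p ζ ⟨t, mem_centralizer_singleton_iff.2 rfl⟩ :=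
  ⟨by rw [show f.ker = (UU t).subgroupOf 𝒞[t] from Subgroup.ext h.kf]; exact (UU_odd t).subgroupOf _, h.fs, h.ps, h.kp,
    h.cz, h.z2, fun z hz e => (h.zt z hz e).imp_right fun ⟨x, e1, e2⟩ => by rw [e2]; exact congrArg f (Subtype.ext e1)⟩

theorem MD.inv_img (h : MD t u w j S f p ι ζ) {v : (𝒞[t] : Subgroup G)} (iv : IsInv (v : G)) (vt : (v : G) ≠ t) :
    IsInv (p (f v)) :=
  have iv' : IsInv v := ⟨Subtype.ext iv.1, fun e => iv.2 (congrArg Subtype.val e)⟩
  ⟨by rw [← map_mul, ← map_mul, iv'.1, map_one, map_one], h.qq.ne_one iv'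
    ⟨Subtype.ext h.lh.it.1, fun e => h.lh.it.2 (congrArg Subtype.val e)⟩
    (mem_center_iff.2 fun g => Subtype.ext (mem_centralizer_singleton_iff.1 g.2)) fun e => vt (congrArg Subtype.val e)⟩

/-- odd elements centralizing the image of an involution lift to its centralizer -/
theorem MD.lift_odd (h : MD t u w j S f p ι ζ) {v : (𝒞[t] : Subgroup G)} (iv : IsInv (v : G)) {y : Γ}
    (c : Commute y (p (f v))) (o : Odd (orderOf y)) :
    ∃ x : (𝒞[t] : Subgroup G), Commute x v ∧ p (f x) = y ∧ ∀ r : ℕ, r.Prime → r ∣ orderOf x → r ∣ orderOf y := by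
  obtain ⟨k, hk⟩ := o
  obtain ⟨x, cx, e⟩ := h.qq.lift_cent ⟨Subtype.ext iv.1, fun e => iv.2 (congrArg Subtype.val e)⟩ (c.pow_left (k + 1))
  rw [← pow_add, show k + 1 + (k + 1) = 2 * k + 1 + 1 by ring, ← hk, pow_succ, pow_orderOf_eq_one, one_mul] at e
  obtain ⟨a, b, ⟨i, ha⟩, ⟨l, hb⟩, pa, pb, e', -⟩ := exists_piPart {r | r ∣ orderOf y} x
  refine ⟨a, ha ▸ cx.zpow_left i, ?_, pa⟩
  have : p (f b) = 1 := ((show IsPiElt {r | r ∣ orderOf y} y from fun _ _ d => d).of_mem_zpowers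
    ⟨l, by simp [← hb, e]⟩).eq_one ((pb.map f).map p)
  rw [← e, e', map_mul, map_mul, this, mul_one]

theorem fap_of (h : MD t u w j S f p ι ζ) (k : MK t u w S f p ι C0 κ e tN uN) : FAP t u C0 := by
  rintro r hr or x ⟨xt, xu⟩ ⟨n, hn⟩ hc
  have iu := h.inv_img (v := ⟨u, h.lh.uC⟩) h.lh.iu h.lh.ut
  obtain ⟨g, rg, z⟩ := h.pm.inv_model h.r2 iu.1 iu.2
  refine (k.mem ⟨x, xt⟩).2 (fa_core h.pm rg z (((show Commute (⟨x, xt⟩ : (𝒞[t] : Subgroup G)) ⟨u, h.lh.uC⟩ from
    Subtype.ext (mem_centralizer_singleton_iff.1 xu)).map f).map p) hr or (n := n) (by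
      rw [← map_pow, ← map_pow, show (⟨x, xt⟩ : (𝒞[t] : Subgroup G)) ^ r ^ n = 1 from Subtype.ext hn, map_one, map_one]) ?_)
  rintro _ ⟨A, hA, rfl⟩ o c
  obtain ⟨y, cy, e, d⟩ := h.lift_odd (v := ⟨u, h.lh.uC⟩) h.lh.iu ((h.pm.comm_cases rg).2 (.inl hA)).symm o
  have := (h.kf (⟨x, xt⟩ * y * ⟨x, xt⟩⁻¹ * y⁻¹)).2 (hc y ⟨(k.mem y).2 ⟨A.1, e ▸ rr_sl A⟩,
    mem_centralizer_singleton_iff.2 (congrArg Subtype.val cy.eq)⟩ (by
      rw [orderOf_coe, ← Nat.not_even_iff_odd, even_iff_two_dvd] at *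
      exact fun e => o (d 2 Nat.prime_two e)) (by
      rw [orderOf_coe, Nat.coprime_comm, hr.coprime_iff_not_dvd] at *
      exact fun e => c (d r hr e)))
  rw [← e]
  refine Commute.map ?_ p
  simpa [mul_inv_eq_one, mul_inv_eq_iff_eq_mul, Commute, SemiconjBy] using this

theorem q27_of (h : MD t u w j S f p ι ζ) (k : MK t u w S f p ι C0 κ e tN uN) (ne : C0 ≠ 𝒞[t]) : 27 ≤ Fintype.card F := by
  obtain ⟨x, xt, hx⟩ := SetLike.exists_of_lt (lt_of_le_of_ne k.ag.le ne)
  obtain ⟨g, σ, r⟩ := h.pm.exists_rr (p (f ⟨x, xt⟩))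
  have s1 : σ ≠ 1 := fun e => hx ((k.mem ⟨x, xt⟩).2 ⟨g, e ▸ r⟩)
  have : (C0.subgroupOf 𝒞[t]).Normal := ⟨fun x hx c => k.ag.nrm c.2 hx⟩
  obtain ⟨g', r'⟩ := (k.mem _).1 (mem_subgroupOf.1 ((C0.subgroupOf 𝒞[t]).pow_index_mem ⟨x, xt⟩))
  obtain ⟨m, rm⟩ := r.pow (C0.subgroupOf 𝒞[t]).index
  rw [map_pow, map_pow] at r'
  obtain ⟨a, ha⟩ := k.ag.odd.of_dvd_nat (orderOf_dvd_of_pow_eq_one (h.pm.sig_eq rm r'))
  have o3 : 3 ≤ orderOf σ := by have := mt orderOf_eq_one_iff.1 s1; omega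
  rw [card_fixed (σ := σ) rfl]
  exact (Nat.pow_le_pow_left (three_le_fixed h.pm.two σ) 3).trans
    (Nat.pow_le_pow_right (by have := three_le_fixed h.pm.two σ; omega) o3)

end CA.Abg

theorem CA.realizeEqns_Abg_FA1 : True := by

  trivial
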