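/-
Root subgroups of `PSL₂(q) ≤ Γ`.
-/
import Cfsg.Agent.Abg.A7

set_option autoImplicit false
set_option linter.unusedSectionVars false

namespace CA.Abg

open Subgroup Cfsg CA.FG CA.BG CA.GW CA.Dih Cfsg.Agent.Lin
open scoped MatrixGroups commutatorElement

universe u

variable {Γ : Type u} [Group Γ] [Finite Γ] {F : Type} [Field F] [Fintype F] {ι : SL(2, F) →* Γ}

/-- upper root group -/
def Up (ι : SL(2, F) →* Γ) : Subgroup Γ :=
  (MonoidHom.mk' (fun a : Multiplicative F => ι (uu a.toAdd)) fun a b => by simp [uu_add]).range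

/-- lower root group -/
def Um (ι : SL(2, F) →* Γ) : Subgroup Γ :=
  (MonoidHom.mk' (fun a : Multiplicative F => ι (vv a.toAdd)) fun a b => by simp [vv_add]).range

theorem mem_Up {y : Γ} : y ∈ Up ι ↔ ∃ a, ι (uu a) = y := Iff.rfl

theorem mem_Um {y : Γ} : y ∈ Um ι ↔ ∃ a, ι (vv a) = y := Iff.rfl

theorem Up_sup : Up ι ⊔ Um ι = ι.range := le_antisymm
  (sup_le (fun _ ⟨_, e⟩ => ⟨_, e⟩) fun _ ⟨_, e⟩ => ⟨_, e⟩) (by
    rintro _ ⟨A, rfl⟩
    exact sl_ind (fun A => ι A ∈ Up ι ⊔ Um ι) (fun a => mem_sup_left ⟨a, rfl⟩) (fun a => mem_sup_right ⟨a, rfl⟩)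
      (fun A B a b => by rw [map_mul]; exact mul_mem a b) A)

theorem uu_zero : uu (0 : F) = 1 := Subtype.ext (by apply m2_ext <;> simp [uu])

theorem uu_neg (a : F) : ι (uu (-a)) = (ι (uu a))⁻¹ :=
  eq_inv_of_mul_eq_one_left (by rw [← map_mul, ← uu_add, neg_add_cancel, uu_zero, map_one])

theorem Up_inf (h : PM ι) : Up ι ⊓ Um ι = ⊥ := eq_bot_iff.2 (by
  rintro _ ⟨⟨a, rfl⟩, b, e⟩
  have : a.toAdd = 0 := by
    rcases h.eq_iff.1 e with e | e <;> simpa [uu, vv] using (congrArg (fun A : SL(2, F) => A 0 1) e).symm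
  show ι (uu a.toAdd) = 1
  rw [this, uu_zero, map_one])

theorem diag_uu {γ : Γ} {l m : F} (r : RR ι γ !![l, 0; 0, m] 1) (a : F) : γ * ι (uu a) * γ⁻¹ = ι (uu (l * a / m)) := by
  have m0 : m ≠ 0 := fun e => r.1 (by simp [e])
  refine r.2 _ _ ?_
  rw [map_one2]
  apply m2_ext <;> simp [uu, Matrix.mul_apply, Fin.sum_univ_two, m0]

theorem anti_uu {γ : Γ} {l m : F} (r : RR ι γ !![0, l; m, 0] 1) (a : F) : γ * ι (uu a) * γ⁻¹ = ι (vv (m * a / l)) := by
  have l0 : l ≠ 0 := fun e => r.1 (by simp [e])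
  refine r.2 _ _ ?_
  rw [map_one2]
  apply m2_ext <;> simp [uu, vv, Matrix.mul_apply, Fin.sum_univ_two, l0]

theorem anti_Up {γ : Γ} {l m : F} (r : RR ι γ !![0, l; m, 0] 1) : Up ι :^ γ = Um ι := by
  have l0 : l ≠ 0 := fun e => r.1 (by simp [e])
  have m0 : m ≠ 0 := fun e => r.1 (by simp [e])
  refine le_antisymm (by rintro _ ⟨_, ⟨a, rfl⟩, rfl⟩; exact ⟨_, (anti_uu r _).symm⟩) ?_
  rintro _ ⟨a, rfl⟩
  refine ⟨_, ⟨(l * a.toAdd / m : F), rfl⟩, (anti_uu r _).trans ?_⟩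
  show ι (vv (m * (l * a.toAdd / m) / l)) = ι (vv a.toAdd)
  congr 2; field_simp

theorem rr_conj {γ : Γ} {g : M2 F} {σ : F ≃+* F} (r : RR ι γ g σ) (δ : Γ) :
    RR ((MulAut.conj δ).toMonoidHom.comp ι) (δ * γ * δ⁻¹) g σ := ⟨r.1, fun A B e => by
  simp only [MonoidHom.comp_apply, MulEquiv.coe_toMonoidHom, MulAut.conj_apply, ← r.2 A B e]; group⟩

theorem rr_mul {γ δ : Γ} {g k m : M2 F} (r : RR ι γ g 1) (r' : RR ι δ k 1) (e : g * k = m) : RR ι (γ * δ) m 1 := by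
  simpa [e] using r.mul r'

theorem rr_comm (h : PM ι) {γ δ : Γ} {g k : M2 F} (r : RR ι γ g 1) (r' : RR ι δ k 1) (e : g * k = k * g) :
    Commute γ δ := h.uniq (by simpa using r.mul r') (by simpa [e] using r'.mul r)

theorem up_irr (h : PM ι) (pgl : ∀ g : M2 F, g.det ≠ 0 → ∃ γ, RR ι γ g 1) {v : Γ} (r : RR ι v !![1, 0; 0, -1] 1)
    {Z : Subgroup Γ} (le : Z ≤ Up ι) (Z1 : Z ≠ ⊥) (nT : ∀ γ ∈ G0 ι, Commute γ v → γ * γ ≠ 1 → γ ∈ 𝒩(Z)) : Z = Up ι := by
  obtain ⟨⟨y, hy⟩, y1⟩ := ne_bot_iff_exists_ne_one.1 Z1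
  obtain ⟨a, rfl⟩ := mem_Up.1 (le hy)
  have a0 : a ≠ 0 := by rintro rfl; exact y1 (Subtype.ext (by simp [uu_zero]))
  refine le_antisymm le fun y hy' => ?_
  obtain ⟨b, rfl⟩ := mem_Up.1 hy'
  by_cases b0 : b = 0
  · simp [b0, uu_zero]
  by_cases e : b / a * (b / a) = 1
  · rcases mul_self_eq_one_iff.1 e with e | e
    · rwa [(div_eq_one_iff_eq a0).1 e]
    · rw [show b = -a by rw [div_eq_iff a0] at e; rw [e]; ring, uu_neg]; exact inv_mem hy
  obtain ⟨γ, rγ⟩ := pgl !![b / a, 0; 0, 1] (by simp [a0, b0])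
  have := (mem_normalizer_iff.1 (nT γ ⟨_, rγ⟩ (rr_comm h rγ r (by simp)) fun e' => e (by
    obtain ⟨-, c, -, hc⟩ := h.of_one (e' ▸ rγ.mul rγ)
    have e0 := congrFun (congrFun hc 0) 0
    have e1 := congrFun (congrFun hc 1) 1
    simp [Matrix.mul_apply, Fin.sum_univ_two] at e0 e1
    rw [e0, e1])) _).1 hy
  rwa [diag_uu rγ, div_one, div_mul_cancel₀ _ a0] at this

theorem tri (h : PM ι) {a : Γ} (ha : a ∈ G0 ι) {Y : SL(2, F)} (y2 : ι Y * ι Y ≠ 1) (ht : (Y 0 0 + Y 1 1) ^ 2 ≠ 4)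
    (c : Commute (ι Y) (a * ι Y * a⁻¹)) : a * ι Y * a⁻¹ = ι Y ∨ a * ι Y * a⁻¹ = (ι Y)⁻¹ := by
  obtain ⟨k, r⟩ := ha
  obtain ⟨B, hB⟩ := exB r.1 1 Y
  rw [r.2 _ _ hB] at c ⊢
  rw [map_one2] at hB
  have tr := trace_of_rel r.1 hB
  rcases (h.comm_cases (rr_sl Y)).1 c with e | e
  · obtain ⟨x, y, e⟩ := exists_eq_of_commute (not_scalar_of_trace ht) (mem_CT.1 e)
    have d := det_comb Y x y
    rw [← e, B.2] at d
    have t : 2 * x + y * (Y 0 0 + Y 1 1) = Y 0 0 + Y 1 1 := by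
      nth_rewrite 2 [← tr]
      change _ = B.1 0 0 + B.1 1 1
      rw [e]; simp; ring
    have : (y - 1) * (y + 1) * ((Y 0 0 + Y 1 1) ^ 2 - 4) = 0 := by
      linear_combination (4 : F) * d + (2 * x + (y + 1) * (Y 0 0 + Y 1 1)) * t
    rcases mul_eq_zero.1 ((mul_eq_zero.1 this).resolve_right (sub_ne_zero.2 ht)) with e1 | e1
    · obtain rfl : y = 1 := sub_eq_zero.1 e1
      obtain rfl : x = 0 := (mul_eq_zero.1 (show 2 * x = 0 by linear_combination t)).resolve_left h.two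
      exact .inl (congrArg ι (Subtype.ext (by simpa using e)))
    · obtain rfl : y = -1 := eq_neg_of_add_eq_zero_left e1
      obtain rfl : x = Y 0 0 + Y 1 1 := mul_left_cancel₀ h.two (by linear_combination t)
      refine .inr (eq_inv_of_mul_eq_one_left ?_)
      rw [← map_mul, show B * Y = 1 from Subtype.ext (by
        change B.1 * Y.1 = 1
        rw [e, add_mul, Matrix.smul_mul, Matrix.smul_mul, sl2_cayley]; simp), map_one]
  · refine absurd (h.sq_of_tz ?_) y2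
    have := trace_of_rel (A := -Y.1) (B := Y.1) (g := B.1) (by rw [B.2]; exact one_ne_zero) (by rw [mul_neg, e, neg_neg])
    simp only [Matrix.neg_apply] at this
    exact (mul_eq_zero.1 (show 2 * (Y 0 0 + Y 1 1) = 0 by linear_combination this)).resolve_left h.two

theorem upper (h : PM ι) {γ : Γ} {k : M2 F} (r : RR ι γ k 1) {a : F} (a0 : a ≠ 0)
    (c : Commute (ι (uu a)) (γ * ι (uu a) * γ⁻¹)) : k 1 0 = 0 := by
  obtain ⟨B, hB⟩ := exB r.1 1 (uu a)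
  rw [r.2 _ _ hB] at c
  rw [map_one2] at hB
  have tr := trace_of_rel r.1 hB
  rcases (h.comm_cases (rr_sl (uu a))).1 c with e | e
  · have e0 := congrFun (congrFun (mem_CT.1 e) 0) 0
    have e1 := congrFun (congrFun (mem_CT.1 e) 0) 1
    have e2 := congrFun (congrFun hB 1) 1
    simp [uu, Matrix.mul_apply, Fin.sum_univ_two, a0] at e0 e1 e2 tr
    have : B 1 1 = 1 := mul_left_cancel₀ (mul_ne_zero h.two a0) (by linear_combination a * tr - e1)
    rw [e0, this] at e2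
    exact (mul_eq_zero.1 (show k 1 0 * a = 0 by linear_combination -e2)).resolve_right a0
  · have := trace_of_rel (A := -(uu a).1) (B := (uu a).1) (g := B.1) (by rw [B.2]; exact one_ne_zero)
      (by rw [mul_neg, e, neg_neg])
    simp [uu] at this
    exact absurd (mul_self_eq_zero.1 (show (2 : F) * 2 = 0 by linear_combination this)) h.two

/-- the hypotheses on the image of a root subgroup -/
structure RH (ι : SL(2, F) →* Γ) (v : Γ) (Y : Subgroup Γ) (y : Γ) : Prop where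
  iv : IsInv v
  com : Y ≤ ⁅Y, zpowers v⁆
  nv : v ∈ 𝒩(Y)
  nT : ∀ γ ∈ G0 ι, Commute γ v → γ * γ ≠ 1 → γ ∈ 𝒩(Y)
  mem : y ∈ Y
  y1 : y ≠ 1
  ab : ∀ a ∈ 𝒩(Y), Commute y (a * y * a⁻¹)

theorem RH.conj (h : PM ι) {v y : Γ} {Y : Subgroup Γ} (k : RH ι v Y y) (δ : Γ) :
    RH ι (δ * v * δ⁻¹) (Y :^ δ) (δ * y * δ⁻¹) where
  iv := k.iv.conj δ
  com := by rw [← conjg_zpowers, ← conjg_comm]; exact conjg_mono δ k.com
  nv := by rw [← conjg_norm]; exact conj_mem_conjg δ k.nv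
  nT γ hγ c e := by
    rw [← conjg_norm, mem_conjg]
    exact k.nT _ (by simpa using (G0_normal h).conj_mem _ hγ δ⁻¹) ((Commute.conj_iff δ).1 (by simpa [mul_assoc] using c))
      fun e' => e (by rw [← conj_eq_one_iff (a := δ⁻¹), ← e']; group)
  mem := conj_mem_conjg δ k.mem
  y1 e := k.y1 (conj_eq_one_iff.1 e)
  ab a ha := by
    rw [← conjg_norm, mem_conjg] at ha
    simpa [mul_assoc] using (Commute.conj_iff δ).2 (k.ab _ ha)

theorem RH.le (h : PM ι) {v y : Γ} {Y : Subgroup Γ} (k : RH ι v Y y) : Y ≤ ι.range :=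
  k.com.trans (commutator_le.2 fun a _ b _ => h.comm_mem a b)

theorem inv_zpow {v x : Γ} (iv : IsInv v) (hx : x ∈ zpowers v) : x = 1 ∨ x = v := by
  obtain ⟨i, rfl⟩ := hx
  have : v ^ (2 : ℤ) = 1 := by rw [zpow_two, iv.1]
  rcases Int.even_or_odd' i with ⟨n, rfl | rfl⟩ <;> simp [zpow_add, zpow_mul, this]

theorem RH.stdC (h : PM ι) (pgl : ∀ g : M2 F, g.det ≠ 0 → ∃ γ, RR ι γ g 1) {v : Γ} {Y : Subgroup Γ} {a : F}
    (k : RH ι v Y (ι (uu a))) (r : RR ι v !![1, 0; 0, -1] 1) : Y = Up ι := by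
  have a0 : a ≠ 0 := by rintro rfl; exact k.y1 (by rw [uu_zero, map_one])
  refine up_irr h pgl r (k.com.trans (commutator_le.2 fun x hx z hz => ?_)) (fun e => k.y1 (mem_bot.1 (e ▸ k.mem))) k.nT
  rcases inv_zpow k.iv hz with rfl | rfl
  · simp
  obtain ⟨A, rfl⟩ := k.le h hx
  have e := upper h (rr_sl A) a0 (k.ab _ (le_normalizer hx))
  have d := sl2_det A
  rw [e, mul_zero, sub_zero] at d
  refine ⟨(2 * A 0 0 * A 0 1 : F), ?_⟩
  show ι (uu (2 * A 0 0 * A 0 1)) = _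
  rw [show ⁅ι A, z⁆ = ι A * (z * (ι A)⁻¹ * z⁻¹) by rw [commutatorElement_def]; group, ← map_inv,
    r.2 A⁻¹ (sl2 (A 1 1) (A 0 1) 0 (A 0 0) (by linear_combination d)) (by
      rw [map_one2, Matrix.SpecialLinearGroup.coe_inv, Matrix.adjugate_fin_two]
      apply m2_ext <;> simp [Matrix.mul_apply, Fin.sum_univ_two, e]), ← map_mul]
  congr 1
  apply Subtype.ext
  apply m2_ext <;> simp [uu, Matrix.mul_apply, Fin.sum_univ_two, e]
  · exact d.symm
  · ring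
  · linear_combination -d

theorem RH.stdB (h : PM ι) (h2 : R2 Γ) (pgl : ∀ g : M2 F, g.det ≠ 0 → ∃ γ, RR ι γ g 1) {v : Γ} {Y : Subgroup Γ} {a : F}
    (k : RH ι v Y (ι (uu a))) : ∃ δ, RR ι (δ * v * δ⁻¹) !![1, 0; 0, -1] 1 ∧ Y :^ δ = Up ι := by
  have a0 : a ≠ 0 := by rintro rfl; exact k.y1 (by rw [uu_zero, map_one])
  obtain ⟨g, r, z⟩ := h.inv_model h2 k.iv.1 k.iv.2
  have e := upper h r a0 (k.ab _ k.nv)
  have g1 : g 1 1 = -g 0 0 := eq_neg_of_add_eq_zero_right z.tr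
  have g0 : g 0 0 ≠ 0 := fun e' => z.det (by rw [Matrix.det_fin_two, e, e']; simp)
  have two := h.two
  have r' : RR ι (ι (uu (g 0 1 / (2 * g 0 0))) * v * (ι (uu (g 0 1 / (2 * g 0 0))))⁻¹) !![1, 0; 0, -1] 1 := by
    rw [← uu_neg]
    refine rr_mul (rr_mul (rr_sl _) (r.smul (inv_ne_zero g0)) rfl) (rr_sl _) ?_
    rw [Matrix.eta_fin_two g, e, g1]
    apply m2_ext <;> simp [uu, Matrix.mul_apply, Fin.sum_univ_two, g0]
    field_simp; ring
  refine ⟨_, r', RH.stdC h pgl (a := a) ?_ r'⟩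
  have := k.conj h (ι (uu (g 0 1 / (2 * g 0 0))))
  rwa [← map_mul, ← uu_add, add_comm, uu_add, map_mul, mul_inv_cancel_right] at this

theorem root_std (h : PM ι) (h2 : R2 Γ) (pgl : ∀ g : M2 F, g.det ≠ 0 → ∃ γ, RR ι γ g 1) {v : Γ} {Y : Subgroup Γ}
    (iv : IsInv v) (oY : IsPiGrp {2}ᶜ Y) (Y1 : Y ≠ ⊥) (com : Y ≤ ⁅Y, zpowers v⁆) (nv : v ∈ 𝒩(Y))
    (nT : ∀ γ ∈ G0 ι, Commute γ v → γ * γ ≠ 1 → γ ∈ 𝒩(Y)) :
    ∃ δ, RR ι (δ * v * δ⁻¹) !![1, 0; 0, -1] 1 ∧ Y :^ δ = Up ι := by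
  obtain ⟨M, MY, hM⟩ := minNormal_exists Y1 le_rfl
  have ab := abelian_iff_forall.1 (hM.abelian (odd_sol (oY.of_le MY)))
  obtain ⟨⟨y, hy⟩, y1⟩ := ne_bot_iff_exists_ne_one.1 hM.ne_bot
  have k : RH ι v Y y := ⟨iv, com, nv, nT, MY hy, fun e => y1 (Subtype.ext e), fun a ha =>
    ab _ hy _ ((mem_normalizer_iff.1 (hM.norm ha) y).1 hy)⟩
  clear y1
  obtain ⟨A, rfl⟩ := k.le h k.mem
  have oy := oY.piElt k.mem
  have sq : ∀ x ∈ Y, x * x = 1 → x = 1 := fun x hx e =>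
    (pElt_of_pow_eq_one Nat.prime_two (by rwa [pow_two])).eq_one (oY.piElt hx)
  have y2 : ι A * ι A ≠ 1 := fun e => k.y1 (sq _ k.mem e)
  obtain ⟨g, r, z⟩ := h.inv_model h2 iv.1 iv.2
  by_cases ht : (A 0 0 + A 1 1) ^ 2 = 4
  · obtain ⟨B, e, tB⟩ : ∃ B : SL(2, F), ι A = ι B ∧ B 0 0 + B 1 1 = 2 := by
      rcases sq_eq_sq_iff_eq_or_eq_neg.1 (show (A 0 0 + A 1 1) ^ 2 = 2 ^ 2 by rw [ht]; norm_num) with e | e
      · exact ⟨A, rfl, e⟩
      · exact ⟨-A, (h.map_neg A).symm, by simp; linear_combination -e⟩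
    rw [e] at k
    have d := sl2_det B
    by_cases c : B 1 0 = 0
    · have : B = uu (B 0 1) := by
        have b0 : B 0 0 = 1 := sub_eq_zero.1 (mul_self_eq_zero.1 (by
          rw [c] at d; linear_combination B 0 0 * tB - d))
        apply Subtype.ext
        apply m2_ext <;> simp [uu, c, b0]
        linear_combination tB - b0
      exact RH.stdB h h2 pgl (this ▸ k)
    · let Q : SL(2, F) := sl2 (B 0 0 - 1) (-(B 1 0)⁻¹) (B 1 0) 0 (by field_simp; ring)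
      have e : B * Q = Q * uu (-(B 1 0)⁻¹) := by
        apply Subtype.ext
        apply m2_ext <;> simp [Q, uu, Matrix.mul_apply, Fin.sum_univ_two, c]
        · linear_combination B 0 0 * tB - d
        · ring
        · linear_combination B 1 0 * tB
      have := k.conj h (ι Q)⁻¹
      rw [inv_inv, mul_assoc _ (ι B), ← map_mul, e, map_mul, inv_mul_cancel_left] at this
      obtain ⟨δ, r', e'⟩ := RH.stdB h h2 pgl this
      exact ⟨δ * (ι Q)⁻¹, by simpa [mul_assoc] using r', by rw [conjg_mul, e']⟩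
  exfalso
  have ns := not_scalar_of_trace ht
  rcases tri h ⟨g, r⟩ y2 ht (k.ab v nv) with e | e
  · refine Y1 (le_bot_iff.1 (com.trans (commutator_le.2 fun x hx z hz => mem_bot.2 ?_)))
    rw [commutatorElement_eq_one_iff_commute]
    obtain ⟨i, rfl⟩ := hz
    refine Commute.zpow_right ?_ i
    obtain ⟨B, rfl⟩ := k.le h hx
    have tz : ∀ {a b : SL(2, F)}, ι a ∈ Y → a.1 * b.1 = -(b.1 * a.1) → ι a = 1 := fun {a b} ha e => sq _ ha (h.sq_of_tz (by
      have := trace_of_rel (A := -a.1) (B := a.1) (g := b.1) (by rw [b.2]; exact one_ne_zero) (by rw [mul_neg, e])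
      simp only [Matrix.neg_apply] at this
      exact (mul_eq_zero.1 (show 2 * (a 0 0 + a 1 1) = 0 by linear_combination this)).resolve_left h.two))
    have c : Commute (ι A) (ι B) := by
      rcases tri h (range_le_G0 ι ⟨B, rfl⟩) y2 ht (k.ab _ (le_normalizer hx)) with e | e
      · exact (mul_inv_eq_iff_eq_mul.1 e).symm
      · have : ι B * ι B * ι A * (ι B * ι B)⁻¹ = ι A := by
          calc _ = ι B * (ι B * ι A * (ι B)⁻¹) * (ι B)⁻¹ := by group
            _ = (ι B * ι A * (ι B)⁻¹)⁻¹ := by nth_rewrite 1 [e]; group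
            _ = _ := by rw [e, inv_inv]
        obtain ⟨n, hn⟩ := exists_pow_eq_self_of_coprime (x := ι B) (n := 2)
          ((Nat.Prime.coprime_iff_not_dvd Nat.prime_two).2 fun e => oY.piElt hx 2 Nat.prime_two e rfl)
        rw [← hn, pow_two]
        exact Commute.pow_right (mul_inv_eq_iff_eq_mul.1 this).symm n
    rcases (h.comm_cases (rr_sl A)).1 c with e1 | e1
    swap
    · rw [tz hx e1]; exact Commute.one_left _
    rcases (h.comm_cases r).1 (mul_inv_eq_iff_eq_mul.1 e) with e2 | e2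
    · obtain ⟨a, b, e3⟩ := exists_eq_of_commute ns (mem_CT.1 e1)
      refine ((h.comm_cases r).2 (.inl (mem_CT.2 ?_))).symm
      rw [e3]; simp [add_mul, mul_add, mem_CT.1 e2]
    · have := trace_of_rel (A := -A.1) (B := A.1) z.det (by rw [mul_neg, e2])
      simp only [Matrix.neg_apply] at this
      exact absurd (h.sq_of_tz ((mul_eq_zero.1 (show 2 * (A 0 0 + A 1 1) = 0 by linear_combination this)).resolve_left
        h.two)) y2
  · have t0 : A 0 0 + A 1 1 ≠ 0 := fun e => y2 (h.sq_of_tz e)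
    obtain ⟨s, s0, hs⟩ : ∃ s : F, s ≠ 0 ∧ 1 + g.det * (s * s) ≠ 0 := by
      by_contra! n
      have a := n 2 h.two
      have b := n _ t0
      exact ht (mul_left_cancel₀ z.det (by linear_combination b - a))
    obtain ⟨γ, rγ⟩ := pgl ((1 : F) • 1 + s • g) (by rw [z.det_comb]; simpa using hs)
    have cm : ((1 : F) • 1 + s • g) * g = g * ((1 : F) • 1 + s • g) := by simp [add_mul, mul_add]
    have c := rr_comm h rγ r cm
    have nsc : ∀ {δ : Γ} {a b : F}, RR ι δ (a • 1 + b • g) 1 → δ = 1 → b = 0 := fun {δ a b} r' e => by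
      obtain ⟨-, c, -, hc⟩ := h.of_one (e ▸ r')
      exact (comb_unique (z.ns h.two) (a' := c) (b' := 0) (by simpa using hc)).2
    have yL : ι A ∈ ι.range := ⟨A, rfl⟩
    have r2 : RR ι (γ * γ) ((1 - g.det * (s * s)) • 1 + (2 * s) • g) 1 := by
      refine rr_mul rγ rγ ?_
      simp only [mul_add, add_mul, Matrix.mul_smul, Matrix.smul_mul, mul_one, one_mul, z.sq]
      module
    have r3 : RR ι (v * γ) ((-(g.det * s)) • 1 + (1 : F) • g) 1 := by
      refine rr_mul r rγ ?_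
      simp only [mul_add, Matrix.mul_smul, mul_one, z.sq]
      module
    rcases tri h ⟨_, rγ⟩ y2 ht (k.ab γ (nT γ ⟨_, rγ⟩ c fun e => mul_ne_zero h.two s0 (nsc r2 e))) with e' | e'
    · exact s0 (nsc rγ (tz0 h r z rγ cm yL oy e (mul_inv_eq_iff_eq_mul.1 e') k.y1))
    · refine one_ne_zero (nsc r3 (tz0 h r z r3 (by simp [add_mul, mul_add]) yL oy e (mul_inv_eq_iff_eq_mul.1 ?_) k.y1))
      calc _ = v * (γ * ι A * γ⁻¹) * v⁻¹ := by group
        _ = (v * ι A * v⁻¹)⁻¹ := by rw [e']; group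
        _ = _ := by rw [e, inv_inv]

theorem realizeEqns_AbgX1 : True := by
  have := @CA.Abg.Um.eq_1.{0}
  have := @CA.Abg.Um.eq_def.{0}
  have := @CA.Abg.Um.congr_simp.{0}
  have := @CA.Abg.Up.eq_1.{0}
  have := @CA.Abg.Up.eq_def.{0}
  have := @CA.Abg.Up.congr_simp.{0}
  trivial

end CA.Abg
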