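/-
The facts `LX`, `R5` from the model.
-/
import Cfsg.Agent.Abg.X1
import Cfsg.Agent.Abg.FA1
import Cfsg.Agent.Abg.MDefs

set_option autoImplicit false
set_option linter.unusedSectionVars false

namespace CA.Abg

open Subgroup Cfsg CA.FG CA.BG CA.GW CA.GW.BA CA.Dih Cfsg.Agent.Lin
open scoped MatrixGroups commutatorElement

universe u

variable {G X Γ N : Type u} [Group G] [Finite G] [Group X] [Group Γ] [Group N] [Finite X] [Finite Γ] [Finite N] {F : Type}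
  [Field F] [Fintype F] {t u w j : G} {S : Subgroup G} {f : (𝒞[t] : Subgroup G) →* X} {p : X →* Γ} {ι : SL(2, F) →* Γ} {ζ : X}
  {C0 : Subgroup G} {κ : C0 →* N} {e : N →* X} {tN uN : N}

theorem piElt_coe {π : Set ℕ} {H : Subgroup G} {a : H} : IsPiElt π a ↔ IsPiElt π (a : G) := by
  simp [IsPiElt, ← orderOf_coe]

theorem LH.cv (h : LH t u w j) (x : G) (hx : x ∈ 𝒞[t] ⊓ 𝒞[u]) (ox : IsPiElt {2}ᶜ x) : x ∈ RV t u := by
  obtain ⟨P, hP⟩ := sylow_exists Nat.prime_two (𝒞[t] ⊓ 𝒞[u])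
  have ab := h.ab P hP.piGrp hP.le
  have := Burnside_normal_complement Nat.prime_two hP fun y hy => by
    obtain ⟨a, b, ma, mb, p2, p3, rfl, -⟩ := exists_piPart {2} y
    have ha := zpowers_le.2 hy ma
    have hb := zpowers_le.2 hy mb
    refine mul_mem (ab (hP.le_of_le_norm (piGrp_zpowers_iff.2 p2) (zpowers_le.2 ha.1) (zpowers_le.2 ha.2) (mem_zpowers a)))
      (coprime_abelian_pgroup_faithful_Ohm1 hP.piGrp (zpowers_le.2 hb.2)
        (hP.piGrp.coprime (piGrp_zpowers_iff.2 p3)) (abelian_iff_le_cent.2 ab) (le_cent_ohm1_iff.2 fun v hv v2 => ?_)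
        (mem_zpowers b))
    refine zpowers_le.2 (mem_centralizer_singleton_iff.2 ?_)
    have bt := mem_centralizer_singleton_iff.1 hb.1.1
    have bu := mem_centralizer_singleton_iff.1 hb.1.2
    by_cases v1 : v = 1
    · simp [v1]
    rcases h.invV v (hP.le hv) ⟨by rwa [← pow_two], v1⟩ with rfl | rfl | rfl
    exacts [bt, bu, by rw [← mul_assoc, bt, mul_assoc, bu, mul_assoc]]
  exact (pHall_left_of_sup (.inr this.norm) this.sup_eq (pcore_piGrp _ _) (by simpa using hP.piGrp)).mem_of_normal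
    (pcore_norm _ _) ox hx

namespace MD
variable (h : MD t u w j S f p ι ζ)
include h

theorem iu : IsInv (p (f ⟨u, h.lh.uC⟩)) := h.inv_img h.lh.iu h.lh.ut

theorem oddK {x : (𝒞[t] : Subgroup G)} (ox : IsPiElt {2}ᶜ (x : G)) (e : p (f x) = 1) : (x : G) ∈ UU t :=
  (h.kf x).1 (h.qq.odd_ker (piElt_coe.2 ox) e)

theorem cent_lift {x : (𝒞[t] : Subgroup G)} (c : Commute (f x) (f ⟨u, h.lh.uC⟩)) :
    ∃ y : (𝒞[t] : Subgroup G), (y : G) ∈ 𝒞[u] ∧ f y = f x := by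
  have u2 : IsPiElt {2} (⟨u, h.lh.uC⟩ : (𝒞[t] : Subgroup G)) := piElt_coe.2 h.lh.iu.two
  obtain ⟨k, hk, e⟩ := h.qq.conj (u2.conj x) u2 (by simp [c.eq])
  refine ⟨k * x, mem_centralizer_singleton_iff.2 (mul_inv_eq_iff_eq_mul.1 ?_), by simp [hk]⟩
  simpa [mul_assoc] using congrArg Subtype.val e

theorem tor_lift {γ : Γ} {g k : M2 F} (r : RR ι (p (f ⟨u, h.lh.uC⟩)) g 1) (z : TZ g) (rγ : RR ι γ k 1)
    (e : k * g = g * k) : γ ∈ img (p.comp f) (𝒞[t] ⊓ 𝒞[u]) := by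
  by_cases d : 2 ∣ orderOf γ
  · have := Fintype.ofFinite Γ
    obtain ⟨a, ha, a2, a1⟩ := exists_inv_mem_zpowers d
    obtain ⟨n, rfl⟩ := (mem_powers_iff_mem_zpowers.2 ha)
    obtain ⟨k', r', z'⟩ := h.pm.inv_model h.r2 a2 a1
    obtain ⟨c, c0, hc⟩ := rr_scal h.pm (rγ.pow_one n) r'
    obtain ⟨α, β, e'⟩ := exists_eq_of_commute (z.ns h.pm.two) (y := k') (by
      rw [hc, Matrix.smul_mul, Matrix.mul_smul, ((show Commute k g from e).pow_left n).eq])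
    obtain rfl : α = 0 := by
      have := z'.tr
      rw [e'] at this
      simp at this
      exact (mul_eq_zero.1 (show 2 * α = 0 by linear_combination this - β * z.tr)).resolve_left h.pm.two
    have β0 : β ≠ 0 := by rintro rfl; exact z'.det (by simp [e'])
    have e2 := h.pm.uniq (r.smul β0) (by simpa [e'] using r')
    obtain ⟨x, rfl⟩ := h.qq.surj γ
    obtain ⟨y, -, cz, e3⟩ := h.qq.cen (y := f x ^ n) (by simpa using e2)
    obtain ⟨y, hy, e4⟩ := h.cent_lift (x := x) (e3 ▸ ((Commute.refl _).pow_right n).mul_right (mem_center_iff.1 cz _))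
    exact mem_img.2 ⟨y, ⟨y.2, hy⟩, by simp [e4]⟩
  · obtain ⟨n, hn⟩ := exists_pow_eq_self_of_coprime (x := γ) (n := 2) ((Nat.Prime.coprime_iff_not_dvd Nat.prime_two).2 d)
    obtain ⟨y, cy, e'⟩ := h.qq.lift_cent (u := ⟨u, h.lh.uC⟩) ⟨Subtype.ext h.lh.iu.1, fun e => h.lh.iu.2 (congrArg Subtype.val e)⟩
      ((rr_comm h.pm rγ r e).pow_left n)
    exact mem_img.2 ⟨y, ⟨y.2, mem_centralizer_singleton_iff.2 (congrArg Subtype.val cy.eq)⟩, by
      rw [MonoidHom.comp_apply, e', ← pow_two, ← pow_mul, mul_comm, pow_mul, hn]⟩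

theorem nT {Y : Subgroup G} (n : 𝒞[t] ⊓ 𝒞[u] ≤ 𝒩(Y)) (γ : Γ) (hγ : γ ∈ G0 ι) (c : Commute γ (p (f ⟨u, h.lh.uC⟩)))
    (γ2 : γ * γ ≠ 1) : γ ∈ 𝒩(img (p.comp f) Y) := by
  obtain ⟨g, r, z⟩ := h.pm.inv_model h.r2 h.iu.1 h.iu.2
  obtain ⟨k, rγ⟩ := hγ
  obtain ⟨c, c0, hc⟩ := rel_of_comm h.pm r rγ c
  rw [map_one2] at hc
  have cc : c * c = 1 := by
    have := congrArg Matrix.det hc
    rw [Matrix.det_smul, Matrix.det_mul, Matrix.det_mul, mul_comm k.det, Fintype.card_fin, pow_two] at this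
    exact (mul_right_cancel₀ (mul_ne_zero z.det rγ.1) (by rw [one_mul, ← this])).symm
  rcases mul_self_eq_one_iff.1 cc with rfl | rfl
  · exact img_norm n (h.tor_lift r z rγ (by simpa using hc))
  · have := rr_mul rγ rγ (TZ.mk rγ.1 (z.tr_of_anti h.pm.two (by simpa using hc))).sq
    rw [← neg_smul] at this
    exact absurd (h.pm.uniq this (rr_one.smul (neg_ne_zero.2 rγ.1))) γ2

theorem reι (δ : Γ) : MD t u w j S f p ((MulAut.conj δ).toMonoidHom.comp ι) ζ ∧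
    ((MulAut.conj δ).toMonoidHom.comp ι).range = ι.range := by
  have e : ((MulAut.conj δ).toMonoidHom.comp ι).range = ι.range := by
    haveI := h.pm.normal
    rw [MonoidHom.range_comp]
    exact conjg_of_mem_norm ((normalizer_eq_top _).ge trivial)
  exact ⟨{ h with
    pm := PM.comp h.pm _
    pgl := fun g hg => (h.pgl g hg).elim fun γ r => ⟨_, rr_conj r δ⟩
    q5 := by rw [e]; exact h.q5 }, e⟩

theorem rt_std {Y : Subgroup G} (rt : Rt t u Y) : ∃ ι' : SL(2, F) →* Γ, MD t u w j S f p ι' ζ ∧ ι'.range = ι.range ∧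
    RR ι' (p (f ⟨u, h.lh.uC⟩)) !![1, 0; 0, -1] 1 ∧ img (p.comp f) Y = Up ι' ∧ G0 ι ≤ G0 ι' := by
  have uV : u ∈ 𝒞[t] ⊓ 𝒞[u] := ⟨h.lh.uC, mem_centralizer_singleton_iff.2 rfl⟩
  obtain ⟨δ, r, e⟩ := root_std h.pm h.r2 h.pgl h.iu (Y := img (p.comp f) Y) (rt.odd.img _)
    (fun e => rt.nle fun x hx => h.oddK (x := ⟨x, rt.le hx⟩) (rt.odd.piElt hx)
      (mem_bot.1 (e ▸ mem_img_of_mem (f := p.comp f) _ hx)))
    (by
      have := img_mono (p.comp f) rt.com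
      rwa [img_comm rt.le (zpowers_le.2 h.lh.uC), img_zpowers (f := p.comp f) ⟨u, h.lh.uC⟩] at this)
    (img_norm rt.norm (mem_img_of_mem (f := p.comp f) _ uV)) (h.nT rt.norm)
  refine ⟨_, (h.reι δ⁻¹).1, (h.reι δ⁻¹).2, by simpa [mul_assoc] using rr_conj r δ⁻¹, ?_, fun γ hγ =>
    ((G0_normal h.pm).conj_mem γ hγ δ).imp fun g r => by simpa [mul_assoc] using rr_conj r δ⁻¹⟩
  rw [conjg_eq_iff.1 e]
  ext y
  simp only [mem_conjg, mem_Up, MonoidHom.comp_apply, MulEquiv.coe_toMonoidHom, MulAut.conj_apply, inv_inv]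
  exact exists_congr fun a => ⟨fun e => by rw [e]; group, fun e => by rw [← e]; group⟩

theorem ft (x : (𝒞[t] : Subgroup G)) (e : (x : G) = t) : f x ≠ 1 := fun e' =>
  h.lh.it.2 (h.lh.it.two.eq_one ((UU_odd t).piElt (by simpa only [e] using (h.kf x).1 e')))

theorem w_anti (r : RR ι (p (f ⟨u, h.lh.uC⟩)) !![1, 0; 0, -1] 1) : Up ι :^ p (f ⟨w, h.lh.wC⟩) = Um ι := by
  have iw := h.inv_img (v := ⟨w, h.lh.wC⟩) h.lh.iw h.lh.wt
  obtain ⟨k, rw', z⟩ := h.pm.inv_model h.r2 iw.1 iw.2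
  have tC : t ∈ 𝒞[t] := mem_centralizer_singleton_iff.2 rfl
  obtain ⟨c, c0, hc⟩ := rel_of_comm h.pm r rw' (mul_inv_eq_iff_eq_mul.1 (by
    have : (⟨w, h.lh.wC⟩ * ⟨u, h.lh.uC⟩ * ⟨w, h.lh.wC⟩⁻¹ : (𝒞[t] : Subgroup G)) = ⟨t, tC⟩ * ⟨u, h.lh.uC⟩ :=
      Subtype.ext h.lh.wu
    simpa only [map_mul, map_inv, h.tz ⟨t, tC⟩ rfl, one_mul] using congrArg (fun x => p (f x)) this))
  rw [map_one2] at hc
  have e0 := congrFun (congrFun hc 0) 0
  have e1 := congrFun (congrFun hc 0) 1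
  have e2 := congrFun (congrFun hc 1) 0
  simp [Matrix.mul_apply, Fin.sum_univ_two, Matrix.vecMul, dotProduct] at e0 e1 e2
  have k1 : k 1 1 = -k 0 0 := eq_neg_of_add_eq_zero_right z.tr
  by_cases k0 : k 0 0 = 0
  · exact anti_Up (l := k 0 1) (m := k 1 0) (by rwa [Matrix.eta_fin_two k, k1, k0, neg_zero] at rw')
  exfalso
  obtain rfl : c = 1 := (mul_right_cancel₀ k0 (by rw [one_mul, ← e0])).symm
  have a : k 0 1 = 0 := (mul_eq_zero.1 (show 2 * k 0 1 = 0 by linear_combination -e1)).resolve_left h.pm.two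
  have b : k 1 0 = 0 := (mul_eq_zero.1 (show 2 * k 1 0 = 0 by linear_combination e2)).resolve_left h.pm.two
  have := h.pm.uniq (r.smul k0) (by rw [Matrix.eta_fin_two k, k1, a, b] at rw'; simpa using rw')
  have c := mem_center_iff.1 (zpowers_le.2 h.cz (h.kp.le (show f ⟨u * w, h.lh.iC⟩ ∈ p.ker by
    rw [MonoidHom.mem_ker, show (⟨u * w, h.lh.iC⟩ : (𝒞[t] : Subgroup G)) = ⟨u, h.lh.uC⟩ * ⟨w, h.lh.wC⟩ from rfl,
      map_mul, map_mul, this, iw.1]))) (f ⟨j, h.lh.jC⟩)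
  have ji : (⟨j, h.lh.jC⟩ * ⟨u * w, h.lh.iC⟩ * ⟨j, h.lh.jC⟩⁻¹ : (𝒞[t] : Subgroup G)) = ⟨u * w, h.lh.iC⟩⁻¹ :=
    Subtype.ext h.lh.ji
  have ji := congrArg f ji
  rw [map_mul, map_mul, map_inv, c, mul_inv_cancel_right, map_inv, ← mul_eq_one_iff_eq_inv, ← map_mul] at ji
  exact h.ft _ h.lh.i2 ji

theorem odd_mem {H : Subgroup G} {y : (𝒞[t] : Subgroup G)} (oy : IsPiElt {2}ᶜ (y : G))
    (hy : p (f y) ∈ img (p.comp f) H) : (y : G) ∈ UU t ⊔ H := by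
  obtain ⟨x, hx, e⟩ := mem_img.1 hy
  obtain ⟨z, hz, cz, e⟩ := h.qq.cen e
  obtain ⟨i, hi⟩ := mem_zpowers_mul_of_coprime (mem_center_iff.1 cz (f y))
    (PiNat.coprime (h.z2.of_mem_zpowers hz) ((piElt_coe.2 oy).map f)).symm
  have : ((y * (x ^ i)⁻¹ : (𝒞[t] : Subgroup G)) : G) ∈ UU t := (h.kf _).1 (by simp only at hi; simp [e, hi])
  simpa using mul_mem (mem_sup_left this) (mem_sup_right (S := UU t) (zpow_mem hx i))

theorem surj_img : img (p.comp f) 𝒞[t] = ⊤ := by rw [img_dom, MonoidHom.range_eq_top.2 h.qq.surj]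

theorem fr (k : MK t u w S f p ι C0 κ e tN uN) {D : Subgroup G} (hD : ι.range ≤ img (p.comp f) D) :
    𝒞[t] ≤ UU t ⊔ (D ⊔ 𝒞[t] ⊓ 𝒞[u]) := by
  have h0 : C0 ≤ UU t ⊔ (D ⊔ 𝒞[t] ⊓ 𝒞[u]) := fun n hn => by
    obtain ⟨g, r, z⟩ := h.pm.inv_model h.r2 h.iu.1 h.iu.2
    obtain ⟨m, rn⟩ := (k.mem ⟨n, k.ag.le hn⟩).1 hn
    obtain ⟨a, b, -, -, ab⟩ := exists_conic h.pm.two 1 z.det (c := m.det) rfl rfl
    rw [← z.det_comb] at ab
    obtain ⟨γ, rγ⟩ := h.pgl (a • 1 + b • g) (ab ▸ rn.1)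
    obtain ⟨B, hB⟩ := h.pm.mem_of_same rn rγ ⟨m.det, by rw [ab]⟩
    obtain ⟨l, hl, e1⟩ := mem_img.1 (hD ⟨B, rfl⟩)
    obtain ⟨y, hy, e2⟩ := mem_img.1 (h.tor_lift r z rγ (by simp [add_mul, mul_add]))
    obtain ⟨z, hz, cz, e3⟩ := h.qq.cen (x := f ⟨n, k.ag.le hn⟩) (y := f (l * y)) (by rw [hB, ← e1, ← e2]; simp)
    obtain ⟨s, hs, rfl⟩ := mem_img.1 (zpowers_le.2 h.zS hz)
    have su : (s : G) ∈ 𝒞[u] := mem_centralizer_singleton_iff.2 (commutatorElement_eq_one_iff_mul_comm.1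
      ((h.syl.piGrp.piElt (mul_mem (mul_mem (mul_mem hs h.uS) (inv_mem hs)) (inv_mem h.uS))).eq_one
        ((UU_odd t).piElt ((h.kf ⁅s, ⟨u, h.lh.uC⟩⁆).1 (by
          rw [map_commutatorElement, commutatorElement_eq_one_iff_mul_comm, mem_center_iff.1 cz])))))
    have : ((⟨n, k.ag.le hn⟩ * (l * y * s)⁻¹ : (𝒞[t] : Subgroup G)) : G) ∈ UU t := (h.kf _).1 (by simp [e3])
    simpa [mul_assoc] using mul_mem (mem_sup_left this) (mem_sup_right (S := UU t)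
      (mul_mem (mul_mem (mem_sup_left hl) (mem_sup_right hy)) (mem_sup_right (S := D) ⟨s.2, su⟩)))
  intro c hc
  obtain ⟨n, hn, o⟩ := k.ag.syl c hc
  obtain ⟨P, hP⟩ := sylow_exists Nat.prime_two (𝒞[c * n] ⊓ 𝒞[t])
  have hP' : IsSylowOf 2 P 𝒞[t] := hP.trans_index inf_le_right (by
    rw [inf_relIndex_right]; exact (piNat_compl_singleton_iff Nat.prime_two).2 o)
  have hS := h.syl.of_le h.SC le_top
  have PC : P ≤ C0 := by
    obtain ⟨x, hx, rfl⟩ := sylow_trans Nat.prime_two hS hP'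
    rintro _ ⟨s, hs, rfl⟩
    exact k.ag.nrm hx (k.SC0 hs)
  obtain ⟨x, hx, rfl⟩ := sylow_trans Nat.prime_two (hS.of_le k.SC0 k.ag.le) (hP'.of_le PC k.ag.le)
  have xC := k.ag.le hx
  have y1 : x⁻¹ * (c * n) * x ∈ 𝒞[t] := mul_mem (mul_mem (inv_mem xC) (mul_mem hc (k.ag.le hn))) xC
  have y2 : x⁻¹ * (c * n) * x ∈ 𝒞[u] := mem_centralizer_singleton_iff.2 (by
    have := mem_centralizer_singleton_iff.1 (hP.le (conj_mem_conjg x h.uS)).1
    calc _ = x⁻¹ * (c * n * (x * u * x⁻¹)) * x := by group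
      _ = _ := by rw [← this]; group)
  have := mul_mem (h0 (mul_mem hx (k.ag.nrm y1 (inv_mem (mul_mem hn hx)))))
    (mem_sup_right (mem_sup_right ⟨y1, y2⟩))
  rwa [show x * (x⁻¹ * (c * n) * x * (n * x)⁻¹ * (x⁻¹ * (c * n) * x)⁻¹) * (x⁻¹ * (c * n) * x) = c by group] at this


theorem LC : LL t (u * w) ≤ 𝒞[t] := LL_le le_normalizer h.lh.iC

theorem ab_i {A : Type*} [CommGroup A] (φ : (𝒞[t] : Subgroup G) →* A) : φ ⟨u * w, h.lh.iC⟩ = 1 := by
  obtain ⟨c, hc, e⟩ := h.lh.cjk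
  obtain ⟨c', hc', e'⟩ := h.lh.cjj
  have a := congrArg φ (show (⟨c, hc⟩ * ⟨u * w, h.lh.iC⟩ * ⟨c, hc⟩⁻¹ : (𝒞[t] : Subgroup G)) =
    ⟨u * w, h.lh.iC⟩ * ⟨j, h.lh.jC⟩ from Subtype.ext e)
  have b := congrArg φ (show (⟨c', hc'⟩ * ⟨u * w, h.lh.iC⟩ * ⟨c', hc'⟩⁻¹ : (𝒞[t] : Subgroup G)) = ⟨j, h.lh.jC⟩ from
    Subtype.ext e')
  simp only [map_mul, map_inv, mul_inv_cancel_comm] at a b
  rwa [← b, left_eq_mul] at a

theorem iL : p (f ⟨u * w, h.lh.iC⟩) ∈ ι.range := by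
  have := h.ab_i (Abelianization.of.comp (p.comp f))
  exact commutator_le.2 (fun a _ b _ => h.pm.comm_mem a b) ((Abelianization.ker_of Γ).le this)

theorem dih (hd : HasDih Γ) : DihS ((UU t ⊔ LL t (u * w) ⊔ RV t u) /ₛ zpowers t) := by
  obtain ⟨D, b, hD, dh, -⟩ := hd
  have KL : UU t ⊔ LL t (u * w) ≤ 𝒞[t] := sup_le (UU_le t) h.LC
  have RC : RV t u ≤ 𝒞[t] := (pcore_le _ _).trans inf_le_left
  have ker : ∀ x : (𝒞[t] : Subgroup G), (x : G) ∈ UU t ⊔ LL t (u * w) ⊔ RV t u → IsPiElt {2} (x : G) → p (f x) = 1 →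
      (x : G) ∈ zpowers t := fun x hx x2 e => by
    have o : IsPiGrp {2}ᶜ (img (Abelianization.of.comp f) (UU t ⊔ LL t (u * w) ⊔ RV t u)) := by
      rw [img_sup KL RC, (img_eq_bot_iff KL).2 (sup_le (fun k hk => mem_pre.2 ⟨UU_le t hk, by
        simp [(h.kf ⟨k, UU_le t hk⟩).2 hk]⟩) (LL_le (dom_le_norm_pre_bot _) (mem_pre.2 ⟨_, h.ab_i _⟩))), bot_sup_eq]
      exact (pcore_piGrp _ _).img _
    have x2' := (piElt_coe.2 x2).map f
    have d : f x ∈ commutator X := (Abelianization.ker_of X).le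
      ((x2'.map Abelianization.of).eq_one (o.piElt (mem_img.2 ⟨x, hx, rfl⟩)))
    have hz := h.kp.le e
    have := tr_cent ((zpowers b).comap p) (ab_of_cyc (h.kp.le.trans (zpowers_le.2 h.cz)) (cyclic_zpowers b)
      (le_top.trans (MonoidHom.range_eq_top.2 h.ps).ge)) (zpowers_le.2 h.cz hz) d
    rw [index_comap_of_surjective _ h.ps, ← relIndex_mul_index (zpowers_le.2 dh.mem), dh.index, pow_mul] at this
    have sq : f x ^ 2 = 1 := (x2'.pow 2).eq_one (PiNat.of_dvd (by simpa using hD.index) (orderOf_dvd_of_pow_eq_one this))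
    rcases h.zt _ hz (by rwa [← pow_two]) with e | ⟨y, yt, e⟩
    · rw [x2.eq_one ((UU_odd t).piElt ((h.kf x).1 e))]; exact one_mem _
    · obtain ⟨k, -, hk⟩ := h.qq.conj (piElt_coe.2 (by rw [yt]; exact h.lh.it.two)) (piElt_coe.2 x2) e.symm
      have := congrArg Subtype.val hk
      simp only [coe_mul, coe_inv, yt] at this
      rw [← this, mem_centralizer_singleton_iff.1 k.2, mul_inv_cancel_right]
      exact mem_zpowers t
  intro T hT pT
  have tH : zpowers t ≤ UU t ⊔ LL t (u * w) ⊔ RV t u := zpowers_le.2 (mem_sup_left (mem_sup_right (by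
    rw [← h.lh.i2]; nth_rewrite 1 [h.lh.i2]; exact mul_mem (LL_mem _ _) (LL_mem _ _))))
  have TH := quotPre_le_of_le_quot tH hT
  have TC := TH.trans (sup_le KL RC)
  have pT' := pT.quotPre (piGrp_zpowers_iff.2 h.lh.it.two)
  have TN := quotPre_le_norm T
  obtain ⟨_, hc0, k⟩ := dihS_of_isDih hD dh (img (p.comp f) (quotPre (zpowers t) T)) le_top (pT'.img _)
  obtain ⟨c, hc, rfl⟩ := mem_img.1 hc0
  refine ⟨coset _ ⟨c, TN hc⟩, (mem_quotPre.1 hc).2, fun s hs n => ?_⟩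
  obtain ⟨s, rfl⟩ := coset_surjective _ s
  have hs' := coe_mem_quotPre.2 hs
  have := k _ (mem_img_of_mem (TC hs') hs') fun ⟨i, hi⟩ => n ⟨i, by
    have m := mul_mem (inv_mem (zpow_mem hc i)) hs'
    simp only [← map_zpow]
    exact coset_eq_iff.2 (ker ((c ^ i)⁻¹ * ⟨s, TC hs'⟩) (TH m) (pT'.piElt m) (by
      simp only [MonoidHom.comp_apply] at hi
      simp [hi]))⟩
  have m := mul_mem hs' hs'
  rw [← map_mul, coset_eq_one_iff]
  exact ker (⟨s, TC hs'⟩ * ⟨s, TC hs'⟩) (TH m) (pT'.piElt m) (by rw [map_mul, map_mul]; exact this)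

theorem rt_sup {Y : Subgroup G} (rt : Rt t u Y) : img (p.comp f) (Y ⊔ Y :^ w) = ι.range := by
  obtain ⟨ι', h', e, r, eY, -⟩ := h.rt_std rt
  rw [img_sup rt.le (conjg_le_of_mem rt.le h.lh.wC), img_conjg (f := p.comp f) Y ⟨w, h.lh.wC⟩, eY, ← e, ← Up_sup]
  exact congrArg _ (h'.w_anti r)

theorem lx (k : MK t u w S f p ι C0 κ e tN uN) (hd : HasDih Γ) (fx : ∀ N : Subgroup G, 𝒞[t] ⊓ 𝒞[u] ≤ N → w ∈ N →
    (∀ g ∈ N, g * t * g⁻¹ ∈ 𝒞[t] → g * t * g⁻¹ = t) ∨ (∃ g ∈ N, g * t * g⁻¹ = u) ∨ Dh N) : LX t u w := by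
  have uV : u ∈ 𝒞[t] ⊓ 𝒞[u] := ⟨h.lh.uC, mem_centralizer_singleton_iff.2 rfl⟩
  refine ⟨?_, fun Y rt x hx => ?_, fun Y rt => ?_, fun Y rt x hx => ?_, fun Y rt Z le n => ?_,
    fun Y rt => by simpa only [sup_assoc] using h.fr k (h.rt_sup rt).ge, h.lh.cv, h.dih hd, fx⟩
  · obtain ⟨r, _⟩ := CharP.exists F
    obtain ⟨n, pr, -⟩ := FiniteField.card F r
    refine ⟨r, pr, fun Y rt x hx => h.oddK (x := ⟨x, rt.le hx⟩ ^ r) (rt.odd.piElt (pow_mem hx r)) ?_⟩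
    obtain ⟨ι', -, -, -, eY, -⟩ := h.rt_std rt
    obtain ⟨a, ha⟩ := mem_Up.1 (eY.le (mem_img_of_mem (rt.le hx) hx))
    rw [map_pow, map_pow, ← MonoidHom.comp_apply p f, ← ha, ← map_pow,
      pow_char_eq_one_of_trace_two r (by simp [uu]; norm_num), map_one]
  · obtain ⟨ι', -, -, r, eY, -⟩ := h.rt_std rt
    obtain ⟨a, ha⟩ := mem_Up.1 (eY.le (mem_img_of_mem (rt.le hx) hx))
    refine h.oddK (x := ⟨u, h.lh.uC⟩ * ⟨x, rt.le hx⟩ * ⟨u, h.lh.uC⟩⁻¹ * ⟨x, rt.le hx⟩)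
      (rt.odd.piElt (mul_mem ((mem_normalizer_iff.1 (rt.norm uV) x).1 hx) hx)) ?_
    simp only [map_mul, map_inv]
    rw [← MonoidHom.comp_apply p f ⟨x, _⟩, ← ha, diag_uu r, one_mul, div_neg, div_one, uu_neg, inv_mul_cancel]
  · have HC : Y ⊔ Y :^ w ≤ 𝒞[t] := sup_le rt.le (conjg_le_of_mem rt.le h.lh.wC)
    have e := h.rt_sup rt
    haveI := h.pm.normal
    have key : ∀ c ∈ 𝒞[t], ∀ Z : Subgroup G, Z ≤ Y ⊔ Y :^ w → IsPiGrp {2}ᶜ Z → Z :^ c ≤ UU t ⊔ (Y ⊔ Y :^ w) := by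
      rintro c hc Z le o _ ⟨z, hz, rfl⟩
      refine h.odd_mem (y := ⟨c, hc⟩ * ⟨z, HC (le hz)⟩ * ⟨c, hc⟩⁻¹) ((o.piElt hz).conj c) ?_
      rw [e, map_mul, map_mul, map_mul, map_mul, map_inv, map_inv]
      exact Normal.conj_mem ‹_› _ (e.le (mem_img_of_mem _ (le hz))) _
    have n : 𝒞[t] ≤ 𝒩(UU t ⊔ (Y ⊔ Y :^ w)) := fun c hc => mem_norm_of_conjg_le (by
      rw [conjg_sup, conjg_sup, conjg_of_mem_norm (UU_norm t hc)]
      exact sup_le le_sup_left (sup_le (key c hc _ le_sup_left rt.odd) (key c hc _ le_sup_right (rt.odd.conjg w))))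
    refine LL_le n (by_contra fun hi => rt.nle fun x hx => ?_)
    exact h.lh.f3 _ (sup_le (UU_le t) HC) n hi x (mem_sup_right (mem_sup_left hx)) (rt.odd.piElt hx)
  · obtain ⟨ι', h', -, r, eY, -⟩ := h.rt_std rt
    have iK : img (p.comp f) (UU t) = ⊥ := (img_eq_bot_iff (UU_le t)).2 fun k hk => mem_pre.2 ⟨UU_le t hk, by
      simp [(h.kf ⟨k, UU_le t hk⟩).2 hk]⟩
    have xC := sup_le (UU_le t) rt.le hx.1
    have a := mem_img_of_mem (f := p.comp f) xC hx.1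
    have b := mem_img_of_mem (f := p.comp f) xC hx.2
    rw [img_sup (UU_le t) rt.le, iK, bot_sup_eq, eY] at a
    rw [img_sup (UU_le t) (conjg_le_of_mem rt.le h.lh.wC), iK, bot_sup_eq, img_conjg (f := p.comp f) Y ⟨w, h.lh.wC⟩, eY,
      MonoidHom.comp_apply, MonoidHom.comp_apply, h'.w_anti r] at b
    exact h.oddK (x := ⟨x, xC⟩) (((UU_odd t).sup rt.odd (.inr (rt.le.trans (UU_norm t)))).piElt hx.1)
      (mem_bot.1 (Up_inf h'.pm ▸ mem_inf.2 ⟨a, b⟩))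
  · obtain ⟨ι', h', -, r, eY, -⟩ := h.rt_std rt
    by_cases e : img (p.comp f) Z = ⊥
    · exact .inl fun z hz => h.oddK (x := ⟨z, rt.le (le hz)⟩) (rt.odd.piElt (le hz))
        (mem_bot.1 (e ▸ mem_img_of_mem (f := p.comp f) _ hz))
    · have := up_irr h'.pm h'.pgl r (eY ▸ img_mono _ le) e (h'.nT n)
      exact .inr fun x hx => h.odd_mem (y := ⟨x, rt.le hx⟩) (rt.odd.piElt hx)
        (this ▸ eY ▸ mem_img_of_mem (f := p.comp f) _ hx)

theorem r5 (k : MK t u w S f p ι C0 κ e tN uN) (q : Fintype.card F ≠ 3) : R5 t u w := by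
  obtain ⟨a, -, eL⟩ := h.q5.resolve_left q
  refine ⟨fun Y rt x hx => h.odd_mem (y := ⟨x, rt.le hx⟩) (rt.odd.piElt hx)
    (eL ▸ (h.rt_sup rt).le (mem_img_of_mem _ (mem_sup_left hx))), by simpa only [sup_assoc] using h.fr k eL.ge,
    fun Y rt => ?_⟩
  obtain ⟨ι', h', er, r, eY, -⟩ := h.rt_std rt
  obtain ⟨m, m0, m1⟩ : ∃ m : F, m ≠ 0 ∧ m * m ≠ 1 := by
    classical
    by_contra! n
    have : (Finset.univ : Finset F) ⊆ {0, 1, -1} := fun x _ => by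
      by_cases e : x = 0
      · simp [e]
      · rcases mul_self_eq_one_iff.1 (n x e) with e | e <;> simp [e]
    have a := (Finset.card_le_card this).trans Finset.card_le_three
    have b := odd_card h.pm.two
    have c := Fintype.one_lt_card (α := F)
    rw [Finset.card_univ] at a
    omega
  let A : SL(2, F) := sl2 m 0 0 m⁻¹ (by simp [m0])
  have rA : RR ι' (ι' A) !![m, 0; 0, m⁻¹] 1 := rr_sl A
  obtain ⟨l, hl, e1⟩ := mem_img.1 (eL.ge (er.le ⟨A, rfl⟩))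
  obtain ⟨y, hy, e2⟩ := mem_img.1 (h'.tor_lift r ⟨by simp, by simp⟩ rA (by simp))
  obtain ⟨z, -, cz, e3⟩ := h.qq.cen (x := f l) (y := f y) (e1.trans e2.symm)
  have u2 := h.lh.iu.two
  have yu : (y * ⟨u, h.lh.uC⟩ : (𝒞[t] : Subgroup G)) = ⟨u, h.lh.uC⟩ * y :=
    Subtype.ext (mem_centralizer_singleton_iff.1 hy.2)
  have nL := LL_norm t (u * w)
  obtain ⟨c, hc, e4⟩ := conj_two (K := UU t ⊓ LL t (u * w)) ((UU_odd t).inf_left _)
    (norm_inf (UU_norm t) nL h.lh.uC) (u2.conj l) u2 ⟨(h.kf (l * ⟨u, h.lh.uC⟩ * l⁻¹ * ⟨u, h.lh.uC⟩⁻¹)).1 (by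
      simp only [map_mul, map_inv, e3]
      rw [mul_assoc (f y), ← mem_center_iff.1 cz, ← mul_assoc, ← map_mul, yu, map_mul]; group), by
      rw [show (l : G) * u * (l : G)⁻¹ * u⁻¹ = l * (u * (l : G)⁻¹ * u⁻¹) by group]
      exact mul_mem hl ((mem_normalizer_iff.1 (nL h.lh.uC) _).1 (inv_mem hl))⟩
  obtain ⟨x, hx, e5⟩ := mem_img.1 (eY.ge (mem_Up.2 ⟨1, rfl⟩))
  refine ⟨x, hx, c * l, ⟨mul_mem hc.2 hl, mem_centralizer_singleton_iff.2 (mul_inv_eq_iff_eq_mul.1 (by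
    nth_rewrite 2 [← e4]; group))⟩, fun e6 => m1 ?_⟩
  have e7 := congrArg p ((h.kf (x * (⟨c, UU_le t hc.1⟩ * l) * x⁻¹ * (⟨c, UU_le t hc.1⟩ * l)⁻¹)).2 e6)
  simp only [MonoidHom.comp_apply] at e1 e5
  simp only [map_mul, map_inv, (h.kf ⟨c, UU_le t hc.1⟩).2 hc.1, one_mul, e1, e5, map_one] at e7
  rw [mul_assoc, mul_assoc, ← mul_assoc (ι' A), ← uu_neg, diag_uu rA, ← map_mul, ← uu_add] at e7
  have : 1 + m * -1 / m⁻¹ = 0 := by
    rcases (h'.pm.ker _).1 e7 with e | e <;> simpa [uu] using congrArg (fun A : SL(2, F) => A 0 1) e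
  field_simp at this
  linear_combination -this

theorem rv3 (q : Fintype.card F = 3) : RV t u ≤ UU t := fun x hx => by
  have xV := pcore_le _ _ hx
  have ox := (pcore_piGrp _ _).piElt hx
  refine h.oddK (x := ⟨x, xV.1⟩) ox ?_
  have oy : IsPiElt {2}ᶜ (p (f ⟨x, xV.1⟩)) := ((piElt_coe.2 ox).map f).map p
  have cy : Commute (p (f ⟨u, h.lh.uC⟩)) (p (f ⟨x, xV.1⟩)) := ((show Commute (⟨u, h.lh.uC⟩ : (𝒞[t] : Subgroup G)) ⟨x, xV.1⟩ from
    Subtype.ext (mem_centralizer_singleton_iff.1 xV.2).symm).map f).map p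
  generalize p (f ⟨x, xV.1⟩) = y at oy cy
  obtain ⟨g, σ, r⟩ := h.pm.exists_rr y
  obtain rfl : σ = 1 := RingEquiv.ext fun a => by
    obtain ⟨n, ⟨m, rfl⟩, hn⟩ := exists_frob h.pm.two σ
    by_cases a0 : a = 0
    · simp [a0]
    · have : a ^ 2 = 1 := by simpa [q] using FiniteField.pow_card_sub_one_eq_one a a0
      rw [hn, pow_succ, pow_mul, this]; simp
  have yL := G0_odd h.pm ⟨g, r⟩ (mem_zpowers y) oy
  have c := h.pm.card_range
  rw [q] at c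
  have d : orderOf y ∣ 4 * 3 := by rw [show 4 * 3 = Nat.card ι.range by omega]; exact Subgroup.orderOf_dvd_natCard _ yL
  haveI := Fact.mk Nat.prime_three
  haveI : CharP F 3 := charP_of_card_eq_prime q
  exact h.pm.inv_unip h.r2 (p := 3) (k := 1) h.iu.1 h.iu.2 yL (orderOf_dvd_iff_pow_eq_one.1
    ((Nat.Coprime.pow_right 2 ((Nat.Prime.coprime_iff_not_dvd Nat.prime_two).2 fun e =>
      oy 2 Nat.prime_two e rfl).symm).dvd_of_dvd_mul_left d)) cy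

theorem rt_gl (k : MK t u w S f p ι C0 κ e tN uN) (nm : NM p ι e tN uN) {Y : Subgroup G} (rt : Rt t u Y) :
    ∃ φ : GL (Fin 2) F →* N, Br.BK φ ∧ Function.Surjective φ ∧ tN = Br.tt φ ∧ uN = Br.uu φ ∧
      ∀ g, RR ι (p (e (φ g))) g 1 := by
  refine nm.resolve_right ?_
  rintro ⟨K, _, _, φ, uk, -, -, rfl⟩
  obtain ⟨ι', h', -, r, -, le⟩ := h.rt_std rt
  have eu : e (Bu.uu φ) = f ⟨u, h.lh.uC⟩ := by rw [← k.ag.κu, k.eκ]
  obtain ⟨v, hv⟩ := Bu.exists_W uk.fq uk.two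
  have key : ∀ (a : Kˣ), (a : K) * Star.star (a : K) = 1 → a ^ (Fintype.card F - 1) = 1 := fun a ha => by
    let m : Bu.U2 K := ⟨Bu.tg uk.two a 1, Bu.tg_U2.2 ⟨ha, by simp⟩⟩
    have one : ∀ n : ℕ, p (e (φ m)) ^ n = 1 → a ^ n = 1 := fun n e1 => by
      have c := mem_center_iff.1 (zpowers_le.2 h.cz (h.kp.le (show e (φ (m ^ n)) ∈ p.ker by simpa using e1))) (e (φ v))
      have := congrArg Subtype.val (uk.conj_lift (c := v) (g := m ^ n) (k.ei (by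
        rw [map_mul, map_mul, map_inv, c, mul_inv_cancel_right])))
      simp only [m, coe_mul, coe_inv, SubmonoidClass.coe_pow, Bu.tg_pow, hv.tg] at this
      simpa using (Bu.tg_inj this).2
    have c : Commute (p (e (φ m))) (p (f ⟨u, h.lh.uC⟩)) := by
      rw [← eu]
      refine (((show Commute m (Bu.uU K) from Subtype.ext ?_).map φ).map e).map p
      simp only [m, coe_mul, Bu.uU_val, ← Bu.tg_ww (h2 := uk.two), Bu.tg_mul, mul_comm]
    have g0 : p (e (φ m)) ∈ G0 ι' := by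
      obtain ⟨x, hx⟩ := k.ag.sur (φ m)
      rw [← hx, k.eκ]
      exact le ((k.mem ⟨x, k.ag.le x.2⟩).1 x.2)
    obtain ⟨g, rg⟩ := g0
    obtain ⟨c, c0, hc⟩ := rel_of_comm h'.pm r rg c
    rw [map_one2] at hc
    have e0 := congrFun (congrFun hc 0) 0
    have e1 := congrFun (congrFun hc 0) 1
    have e2 := congrFun (congrFun hc 1) 0
    have e3 := congrFun (congrFun hc 1) 1
    simp [Matrix.mul_apply, Fin.sum_univ_two, Matrix.vecMul, dotProduct] at e0 e1 e2 e3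
    by_cases c1 : c = 1
    · subst c1
      have a1 : g 0 1 = 0 := (mul_eq_zero.1 (show 2 * g 0 1 = 0 by linear_combination -e1)).resolve_left h.pm.two
      have a2 : g 1 0 = 0 := (mul_eq_zero.1 (show 2 * g 1 0 = 0 by linear_combination e2)).resolve_left h.pm.two
      have d := rg.1
      rw [Matrix.det_fin_two, a1, zero_mul, sub_zero, mul_ne_zero_iff] at d
      have := rg.pow_one (Fintype.card F - 1)
      rw [show g = Matrix.diagonal ![g 0 0, g 1 1] by apply m2_ext <;> simp [a1, a2], Matrix.diagonal_pow,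
        show (![g 0 0, g 1 1] ^ (Fintype.card F - 1) : Fin 2 → F) = 1 by
          ext i; fin_cases i <;> simp [FiniteField.pow_card_sub_one_eq_one, d.1, d.2], Matrix.diagonal_one'] at this
      exact one _ (h'.pm.uniq this rr_one)
    · have a1 : g 0 0 = 0 := (mul_eq_zero.1 (show (1 - c) * g 0 0 = 0 by linear_combination e0)).resolve_left
        (sub_ne_zero.2 (Ne.symm c1))
      have a2 : g 1 1 = 0 := (mul_eq_zero.1 (show (1 - c) * g 1 1 = 0 by linear_combination e3)).resolve_left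
        (sub_ne_zero.2 (Ne.symm c1))
      have := rr_mul rg rg (TZ.mk rg.1 (by rw [a1, a2, add_zero])).sq
      rw [← neg_smul, ← pow_two] at this
      obtain ⟨n, hn⟩ := uk.odd
      rw [hn, Nat.add_sub_cancel, pow_mul, one 2 (h'.pm.uniq this (rr_one.smul (neg_ne_zero.2 rg.1))), one_pow]
  obtain ⟨s, s0, hs⟩ := uk.exists_im
  have two := uk.two
  have s1 : 1 - s ≠ 0 := fun e => two (by
    rw [← sub_eq_zero.1 e, star_one] at hs; linear_combination hs)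
  have s2 : 1 + s ≠ 0 := fun e => two (by
    rw [eq_neg_of_add_eq_zero_right e, star_neg, star_one] at hs; linear_combination -hs)
  have n1 : (1 + s) / (1 - s) * Star.star ((1 + s) / (1 - s)) = 1 := by
    rw [star_div₀, star_add, star_sub, star_one, hs, ← sub_eq_add_neg, sub_neg_eq_add]; field_simp
  have a := congrArg Units.val (key (Units.mk0 _ (div_ne_zero s2 s1)) n1)
  rw [uk.fq.star_eq, ← pow_succ', show Fintype.card F + 1 = Fintype.card F - 1 + 2 by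
    have := Fintype.card_pos (α := F); omega, pow_add] at n1
  simp only [Units.val_pow_eq_pow_val, Units.val_mk0, Units.val_one] at a
  rw [a, one_mul, div_pow, div_eq_one_iff_eq (pow_ne_zero 2 s1)] at n1
  exact mul_ne_zero (mul_ne_zero two two) s0 (by linear_combination n1)

end MD

end CA.Abg
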