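/-
Root subgroups of `C(t)` meeting `O(C(t))` trivially.
-/
import Cfsg.Agent.Abg.X2

set_option autoImplicit false
set_option linter.unusedSectionVars false

namespace CA.Abg

open Subgroup Cfsg CA.FG CA.BG CA.GW CA.GW.BA CA.Dih Cfsg.Agent.Lin
open scoped MatrixGroups commutatorElement

universe u

variable {G X Γ : Type u} [Group G] [Finite G] [Group X] [Group Γ] [Finite X] [Finite Γ] {F : Type}
  [Field F] [Fintype F] {t u w j : G} {S : Subgroup G} {f : (𝒞[t] : Subgroup G) →* X} {p : X →* Γ} {ι : SL(2, F) →* Γ} {ζ : X}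
  {Y : Subgroup G}

theorem uu_inj (h : PM ι) {a : F} (e : ι (uu a) = 1) : a = 0 := by
  rcases (h.ker _).1 e with e | e <;> simpa [uu] using congrArg (fun A : SL(2, F) => A 0 1) e

namespace MD
variable (h : MD t u w j S f p ι ζ)
include h

theorem rt_one (rt : Rt t u Y) (YK : Y ⊓ UU t = ⊥) {x : (𝒞[t] : Subgroup G)} (hx : (x : G) ∈ Y) (e : p (f x) = 1) :
    (x : G) = 1 := mem_bot.1 (YK ▸ mem_inf.2 ⟨hx, h.oddK (rt.odd.piElt hx) e⟩)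

theorem m1 (rt : Rt t u Y) (YK : Y ⊓ UU t = ⊥) : Nat.card Y = Fintype.card F := by
  obtain ⟨ι', h', -, -, eY, -⟩ := h.rt_std rt
  obtain ⟨e⟩ := img_equiv (f := p.comp f) rt.le (eq_bot_iff.2 fun x hx => by
    obtain ⟨hC, e⟩ := mem_pre.1 hx.1
    exact h.rt_one rt YK (x := ⟨x, hC⟩) hx.2 e)
  rw [Nat.card_congr e.toEquiv, eY, Up, ← Nat.card_congr (MonoidHom.ofInjective
    ((injective_iff_map_eq_one _).2 fun a ha => uu_inj h'.pm ha)).toEquiv]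
  simp

theorem m2 (rt : Rt t u Y) (YK : Y ⊓ UU t = ⊥) (x : G) (hx : x ∈ Y) (y : G) (hy : y ∈ Y) (x1 : x ≠ 1) (y1 : y ≠ 1) :
    ∃ c ∈ 𝒞[t] ⊓ 𝒞[u], c * x * c⁻¹ = y := by
  obtain ⟨ι', h', -, r, eY, -⟩ := h.rt_std rt
  obtain ⟨a, ha⟩ := mem_Up.1 (eY.le (mem_img_of_mem (rt.le hx) hx))
  obtain ⟨b, hb⟩ := mem_Up.1 (eY.le (mem_img_of_mem (rt.le hy) hy))
  rw [MonoidHom.comp_apply] at ha hb
  have a0 : a ≠ 0 := by rintro rfl; exact x1 (h.rt_one rt YK (x := ⟨x, rt.le hx⟩) hx (by rw [← ha, uu_zero, map_one]))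
  have b0 : b ≠ 0 := by rintro rfl; exact y1 (h.rt_one rt YK (x := ⟨y, rt.le hy⟩) hy (by rw [← hb, uu_zero, map_one]))
  obtain ⟨γ, rγ⟩ := h'.pgl !![b / a, 0; 0, 1] (by simp [a0, b0])
  obtain ⟨c, hc, e⟩ := mem_img.1 (h'.tor_lift r ⟨by simp, by simp⟩ rγ (by simp))
  rw [MonoidHom.comp_apply] at e
  refine ⟨c, hc, mul_inv_eq_one.1 (h.rt_one rt YK (x := c * ⟨x, rt.le hx⟩ * c⁻¹ * ⟨y, rt.le hy⟩⁻¹)
    (mul_mem ((mem_normalizer_iff.1 (rt.norm hc) x).1 hx) (inv_mem hy)) ?_)⟩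
  simp only [map_mul, map_inv]
  rw [e, ← ha, ← hb, diag_uu rγ, div_one, div_mul_cancel₀ _ a0, mul_inv_cancel]

theorem zsq (hd : HasDih Γ) {z : X} (hz : z ∈ zpowers ζ) (d : z ∈ commutator X) : z * z = 1 := by
  obtain ⟨D, b, hD, dh, -⟩ := hd
  have := tr_cent ((zpowers b).comap p) (ab_of_cyc (h.kp.le.trans (zpowers_le.2 h.cz)) (cyclic_zpowers b)
    (le_top.trans (MonoidHom.range_eq_top.2 h.ps).ge)) (zpowers_le.2 h.cz hz) d
  rw [index_comap_of_surjective _ h.ps, ← relIndex_mul_index (zpowers_le.2 dh.mem), dh.index, pow_mul] at this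
  rw [← pow_two]
  exact ((h.z2.of_mem_zpowers hz).pow 2).eq_one
    (PiNat.of_dvd (by simpa using hD.index) (orderOf_dvd_of_pow_eq_one this))

theorem m3 (q : Fintype.card F ≠ 3) (rt : Rt t u Y) (x : G) (hx : x ∈ Y) (xK : x ∉ UU t) : ∃ x' ∈ Y :^ w, (x * x' * x) ^ 2 * t ∈ UU t := by
  obtain ⟨ι', h', -, r, eY, -⟩ := h.rt_std rt
  obtain ⟨a, ha⟩ := mem_Up.1 (eY.le (mem_img_of_mem (rt.le hx) hx))
  rw [MonoidHom.comp_apply] at ha
  have a0 : a ≠ 0 := by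
    rintro rfl; exact xK (h.oddK (x := ⟨x, rt.le hx⟩) (rt.odd.piElt hx) (by rw [← ha, uu_zero, map_one]))
  have e := img_conjg (f := p.comp f) Y ⟨w, h.lh.wC⟩
  rw [eY, MonoidHom.comp_apply, h'.w_anti r] at e
  obtain ⟨x', hx', e'⟩ := mem_img.1 (e.ge (mem_Um.2 ⟨-a⁻¹, rfl⟩))
  rw [MonoidHom.comp_apply] at e'
  refine ⟨x', hx', ?_⟩
  obtain ⟨as, -, -⟩ := h'.q5.resolve_left q
  have tC : t ∈ 𝒞[t] := mem_centralizer_singleton_iff.2 rfl
  set n : (𝒞[t] : Subgroup G) := ⟨x, rt.le hx⟩ * x' * ⟨x, rt.le hx⟩ with hn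
  set i : (𝒞[t] : Subgroup G) := ⟨u * w, h.lh.iC⟩ with hi
  have ii : i * i = ⟨t, tC⟩ := Subtype.ext h.lh.i2
  have tz : (uu a * vv (-a⁻¹) * uu a) 0 0 + (uu a * vv (-a⁻¹) * uu a) 1 1 = 0 := by
    simp [uu, vv, Matrix.mul_apply, Fin.sum_univ_two, a0]
  have en : p (f n) = ι' (uu a * vv (-a⁻¹) * uu a) := by simp only [hn, map_mul, ← ha, e']
  obtain ⟨g, -, hg⟩ := as.conj (a := p (f i)) (b := p (f n)) h'.iL (en ▸ ⟨_, rfl⟩)
    ⟨by rw [← map_mul, ← map_mul, ii, h.tz _ rfl], fun e => by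
      have c := mem_center_iff.1 (zpowers_le.2 h.cz (h.kp.le e)) (f ⟨j, h.lh.jC⟩)
      have ji := congrArg f (show ⟨j, h.lh.jC⟩ * i * ⟨j, h.lh.jC⟩⁻¹ = i⁻¹ from Subtype.ext h.lh.ji)
      rw [map_mul, map_mul, map_inv, c, mul_inv_cancel_right, map_inv, ← mul_eq_one_iff_eq_inv, ← map_mul] at ji
      exact h.ft _ h.lh.i2 ji⟩ (en ▸ ⟨h'.pm.sq_of_tz tz, h'.pm.ne_one_of_tz tz⟩)
  obtain ⟨c, rfl⟩ := h.qq.surj g
  obtain ⟨z, hz, cz, e1⟩ := h.qq.cen (x := f n) (y := f (c * i * c⁻¹)) (by simpa using hg.symm)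
  have z2 : z * z = 1 := h.zsq as.hd hz ((Abelianization.ker_of X).le
    (((h.z2.of_mem_zpowers hz).map Abelianization.of).eq_one (by
      have a1 : Abelianization.of (f i) = 1 := h.ab_i (Abelianization.of.comp f)
      have a2 := congrArg Abelianization.of e1
      simp only [map_mul, map_inv, a1, mul_one, mul_inv_cancel, one_mul, hn] at a2
      have o1 := ((piElt_coe.2 (rt.odd.piElt hx) : IsPiElt _ (⟨x, rt.le hx⟩ : (𝒞[t] : Subgroup G))).map f).map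
        Abelianization.of
      have o2 := ((piElt_coe.2 ((rt.odd.conjg w).piElt hx')).map f).map Abelianization.of
      exact a2 ▸ (o1.mul o2 (mul_comm _ _)).mul o1 (mul_comm _ _))))
  have ct : c * ⟨t, tC⟩ * c⁻¹ = ⟨t, tC⟩ := Subtype.ext (mul_inv_eq_iff_eq_mul.2 (mem_centralizer_singleton_iff.1 c.2))
  refine (h.kf (n ^ 2 * ⟨t, tC⟩)).1 ?_
  rw [map_mul, map_pow, e1, pow_two, mul_assoc (f _), ← mul_assoc z, ← mem_center_iff.1 cz, mul_assoc (f _) z, z2, mul_one,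
    ← map_mul, cj_mul, ii, ct, ← map_mul, show (⟨t, tC⟩ * ⟨t, tC⟩ : (𝒞[t] : Subgroup G)) = 1 from Subtype.ext h.lh.it.1,
    map_one]

end MD

end CA.Abg
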