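import Cfsg.Agent.Abg.B13
import Cfsg.Agent.Abg.B7L
import Cfsg.Agent.Abg.X3

/-!
# The final configuration of the parabolic case: degrees
-/

set_option autoImplicit false
set_option linter.unusedSectionVars false
set_option linter.unusedVariables false

open Cfsg Subgroup CA.Chr CA.Dih CA.Blk CA.Br CA.FG Finset
open CA.GW (UU IsInv)
open scoped ComplexConjugate Classical MatrixGroups

namespace CA.Abg

universe u w

variable {G : Type u} {N : Type w} [Group G] [Fintype G] [Group N] [Fintype N] {t u w j : G}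

/-- the degree bound of the final configuration -/
def CFB (t u : G) (X : Subgroup G) : Prop := ∃ Y' : Subgroup G, Y' ≤ UU t ∧ 𝒞[t] ≤ 𝒩(Y') ∧
  (∀ y ∈ Y', u * y * u⁻¹ = y⁻¹) ∧ ∀ χ : G → ℂ, IsCharacter G χ → (∀ y, χ y = χ 1 → y = 1) →
    (∀ x ∈ X, ∀ k ∈ UU t, χ (t * x * k) = χ (t * x)) → ∀ s e : ℤ, χ 1 = s → χ t = e → ∀ O : Subgroup G, Y' ≤ O →
      2 * (Nat.card X : ℤ) ^ 2 - 2 + e ≤ s ∨
        (∑ o : O, χ o).re + Nat.card O * ((Nat.card X : ℝ) * (Nat.card X - 1)) ≤ Nat.card O * s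

theorem faith_of_irr [IsSimpleGroup G] {φ : G → ℂ} (hφ : IsIrrCharacter G φ) {e : ℤ} (pt : φ t = e) (e1 : e ≠ 1) (y : G)
    (hy : φ y = φ 1) : y = 1 := by
  have c := IsIrr.isChar hφ
  have := (cfker_normal (IsChar.mem_CF c)).eq_bot_or_eq_top.resolve_right (IsIrr.cfker_ne_top hφ fun z => e1 (by
    rw [z, Pi.one_apply] at pt; exact_mod_cast pt.symm))
  exact mem_bot.1 (this ▸ (IsChar.mem_cfker c).2 hy)

theorem AG.cf [IsSimpleGroup G] {C0 : Subgroup G} {κ : C0 →* N} {d : ND N} (h : AG t u C0 κ d.t d.u) (l : LH t u w j)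
    (l5 : LH5 t u w j) (hK : UU t ≤ C0) (hk : ∀ m : C0, κ m = 1 ↔ (m : G) ∈ UU t) {K1 X : Subgroup G} (uK : u ∈ K1)
    (hs : ∀ n, ∃ m : C0, (m : G) ∈ K1 ∧ κ m = n) (hL : K1 ⊓ UU t ≤ LL t (u * w)) (LK : LL t (u * w) ≤ 𝒞(UU t))
    (XC : X ≤ C0) (oX : IsPiGrp {2}ᶜ X) (q : d.e = Nat.card X) : ¬ CFB t u X := by
  rintro ⟨Y, YK, nY, iY, hb⟩
  obtain ⟨g, gt, gu⟩ := h.g0.gd
  obtain ⟨χ, ψ, s, n, o⟩ := g.num
  have nZ : 𝒞[t] ≤ 𝒩(LL t (u * w) ⊓ UU t) := norm_inf (LL_norm t _) (GW.UU_norm t)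
  have OK : Y ⊔ LL t (u * w) ⊓ UU t ≤ UU t := sup_le YK inf_le_right
  obtain ⟨r, r1, r2⟩ := l.pair l.four.symm
  obtain ⟨b1, b2⟩ := o.bd (K1.subgroupOf C0) (Y ⊔ LL t (u * w) ⊓ UU t)
    (fun m _ y hy => conj_mem_of_mem_norm (norm_sup nY nZ (h.le m.2)) hy) hs
    (fun m hm e => mem_sup_right ⟨hL ⟨hm, (hk m).1 e⟩, (hk m).1 e⟩) (gu ▸ uK)
    (fun m _ _ y hy => ⟨⟨y, hK (OK hy)⟩ * m, by rw [map_mul, (hk _).2 (OK hy), one_mul], IsConj.refl _⟩)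
    fun y' hy' => by
      obtain ⟨y, hy, c, hc, rfl⟩ := (mem_sup_of_norm (.inr ((inf_le_right.trans (GW.UU_le t)).trans nY))).1 hy'
      obtain ⟨i, ⟨hi, ei⟩, b, hb, rfl⟩ := GW.exists_inv_mul ((GW.UU_odd t).inf_right _) h.u2 (nZ l.uC) hc
      have ci : y * i = i * y := LK hi.1 y (YK hy)
      have yi : y * i ∈ UU t := mul_mem (YK hy) hi.2
      obtain ⟨a, ha, ea⟩ := GW.exists_sqrt (GW.UU_odd t) yi
      have ua := GW.inv_of_mem_zpowers (a := u) (y := y * i) (by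
        rw [← cj_mul, iY y hy, ei, ci, mul_inv_rev]) ha
      have ab : a * b = b * a := LK hb.1.1 a (zpowers_le.2 yi ha)
      have bK : r⁻¹ * b * r⁻¹⁻¹ ∈ UU t := (l5.mult LK).elim (fun e => by
        rw [mem_bot.1 (e.le hb.1)]; simpa using one_mem _) fun e => e.2 _ ⟨by
          have := (cj_cent (g := r⁻¹)).2 hb.2
          rwa [← r1, show r⁻¹ * (r * t * r⁻¹) * r⁻¹⁻¹ = t by group] at this, by
          have := (cj_cent (g := r⁻¹)).2 (GW.UU_le t hb.1.2)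
          rwa [← r2, show r⁻¹ * (r * u * r⁻¹) * r⁻¹⁻¹ = u by group] at this⟩ ((e.1.piElt hb.1).conj _)
      refine ⟨⟨_, hK bK⟩ * ⟨t, h.tC⟩, by rw [map_mul, (hk _).2 bK, h.κt, one_mul], isConj_iff.2 ⟨a * r, ?_⟩⟩
      rw [gu]
      show a * r * (r⁻¹ * b * r⁻¹⁻¹ * t) * (a * r)⁻¹ = y * (i * b) * u
      rw [← mul_assoc y, ← ea, show a * r * (r⁻¹ * b * r⁻¹⁻¹ * t) * (a * r)⁻¹ = a * b * (r * t * r⁻¹) * a⁻¹ by group, r1,
        show a * b * u * a⁻¹ = a * b * (u * a * u⁻¹)⁻¹ * u by group, ua, inv_inv, mul_assoc a b a, ← ab, mul_assoc a a]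
  have c0 : (0 : ℝ) < Nat.card (Y ⊔ LL t (u * w) ⊓ UU t : Subgroup G) := by exact_mod_cast Nat.card_pos
  have q3 : 3 ≤ d.e := by have := d.e3; omega
  have key : ∀ {φ : G → ℂ} {a e c : ℤ} {F : N → ℂ}, IsIrrCharacter G φ → φ 1 = a → φ t = e → e ≠ 1 →
      (∀ m, κ m ∈ DD d.t → φ (inclusion h.le m) = F (κ m)) →
      Nat.card (Y ⊔ LL t (u * w) ⊓ UU t : Subgroup G) * (c : ℝ) ≤ (∑ o : (Y ⊔ LL t (u * w) ⊓ UU t : Subgroup G), φ o).re →
      2 * d.e ^ 2 - 2 + e ≤ a ∨ c + d.e * (d.e - 1) ≤ a := fun {φ a e c F} hφ p1 pt e1 v k => by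
    refine (hb φ (IsIrr.isChar hφ) (faith_of_irr hφ pt e1) (fun x hx y hy => ?_) a e p1 pt
      (Y ⊔ LL t (u * w) ⊓ UU t) le_sup_left).imp
      (fun k => q ▸ k) fun k' => ?_
    · let m : C0 := ⟨t, h.tC⟩ * ⟨x, XC hx⟩
      have hm : κ m ∈ DD d.t := (g.eD m).1 ((g.DC _).2 (mem_zpowers_mul_of_coprime
        (mem_centralizer_singleton_iff.1 (h.le (XC hx))).symm (PiNat.coprime l.it.two (oX.piElt hx))))
      have e : κ (m * ⟨y, hK hy⟩) = κ m := by rw [map_mul κ m, (hk ⟨y, hK hy⟩).2 hy, mul_one]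
      exact (v _ (e ▸ hm)).trans ((congrArg F e).trans (v m hm).symm)
    · have q' : (Nat.card X : ℝ) = d.e := by exact_mod_cast q.symm
      rw [q'] at k'
      have := le_of_mul_le_mul_left (a := (Nat.card (Y ⊔ LL t (u * w) ⊓ UU t : Subgroup G) : ℝ))
        (b := (c : ℝ) + d.e * (d.e - 1)) (c := a) (by linarith) c0
      exact_mod_cast this
  have := o.contra (a := 2 * d.e ^ 2 - 1 - d.e) (b := 2 * d.e ^ 2 + d.e + 1) (by nlinarith) (by nlinarith)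
    (fun p => by
      rcases key (c := d.e ^ 2 - 1 + d.e) (o.c1 p) o.χ1 o.χt (by omega) o.v1 (by simpa using b1 p) with k | k <;>
        nlinarith)
    fun p => by
      rcases key (e := d.e + 1) (c := d.e ^ 2 + d.e) (o.c2 p) o.ψ1 (by rw [o.ψt]; simp) (by omega) o.v2
        (by simpa using b2 p) with k | k <;> nlinarith
  nlinarith

theorem cfp_of' {G X Γ N : Type u} [Group G] [Group X] [Group Γ] [Group N] [Fintype G] [Finite X] [Finite Γ] [Finite N]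
    [IsSimpleGroup G] {F : Type} [Field F] [Fintype F] {t u w j : G} {S : Subgroup G} {f : (𝒞[t] : Subgroup G) →* X}
    {p : X →* Γ} {ι : SL(2, F) →* Γ} {ζ : X} {C0 : Subgroup G} {κ : C0 →* N} {e : N →* X} {tN uN : N}
    (h : MD t u w j S f p ι ζ) (k : MK t u w S f p ι C0 κ e tN uN) (nm : NM p ι e tN uN) (q : Fintype.card F ≠ 3)
    (core : ∀ (g : G) (A X Y : Subgroup G), CFD t u w g A X Y →
      (∀ x ∈ X, ∀ y ∈ X, x ≠ 1 → y ≠ 1 → ∃ c ∈ 𝒞[t] ⊓ 𝒞[u], c * x * c⁻¹ = y) →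
      (∀ x ∈ X, x ≠ 1 → ∃ x' ∈ X :^ w, (x * x' * x) ^ 2 * t ∈ UU t) → CFB t u X) : CFP t u w := fun g A R Y c => by
  have := Fintype.ofFinite N
  obtain ⟨φ, bk, hs, rfl, rfl, -⟩ := h.rt_gl k nm c.rt
  obtain ⟨d, de, -, dt, du⟩ := Lin.nd bk hs
  rw [← dt, ← du] at k
  exact k.ag.cf h.lh (h.q5.resolve_left q).2.1 k.KC0 k.ker (mem_sup_right h.uS) (k.k1 q) k.k1K c.LK
    (c.XL.trans k.LC0) c.rt.odd (by rw [de, h.m1 c.rt c.XK])
    (core g A R Y c (fun x hx y hy => h.m2 c.rt c.XK x hx y hy) fun x hx x1 =>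
      h.m3 q c.rt x hx fun xK => x1 (c.XK.le ⟨hx, xK⟩))

theorem realizeEqns_Abg_CF4 : True := by
  have := @CA.Abg.CFB.eq_1.{0}
  have := @CA.Abg.CFB.eq_def.{0}
  have := @CA.Abg.CFB.congr_simp.{0}
  trivial

end CA.Abg
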