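/-
The final configuration of the parabolic case is impossible.
-/
import Cfsg.Agent.Abg.CF3
import Cfsg.Agent.Abg.CF4

set_option autoImplicit false

namespace CA.Abg

open Subgroup CA.FG CA.GW CA.BG
open scoped MatrixGroups

universe u

theorem MD.cfp {G X Γ N : Type u} [Group G] [Finite G] [IsSimpleGroup G] [Group X] [Group Γ] [Group N] [Finite X]
    [Finite Γ] [Finite N] {F : Type} [Field F] [Fintype F] {t u w j : G} {S : Subgroup G}
    {f : (𝒞[t] : Subgroup G) →* X} {p : X →* Γ} {ι : SL(2, F) →* Γ} {ζ : X} (h : MD t u w j S f p ι ζ) {C0 : Subgroup G}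
    {κ : C0 →* N} {e : N →* X} {tN uN : N} (k : MK t u w S f p ι C0 κ e tN uN) (nm : NM p ι e tN uN)
    (q : Fintype.card F ≠ 3) : CFP t u w :=
  have := Fintype.ofFinite G
  cfp_of' h k nm q fun _ _ _ _ c a b => cf_core h.lh c a b

end CA.Abg
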