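/-
Groups with quasi-dihedral or wreathed Sylow 2-subgroups, the case `a = 1`: characters of `C(t) / C₀` respect fusion.
-/
import Cfsg.Agent.Abg.D0

set_option autoImplicit false
set_option linter.unusedSectionVars false

namespace CA.Abg

open Subgroup Cfsg CA.FG CA.BG CA.GW CA.GW.BA
open scoped Classical

universe u w

variable {G : Type u} {N : Type w} [Group G] [Group N] [Finite G] [Finite N]

/-- two involutions are conjugate by a power of their product, or a power of the product is an involution -/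
theorem two_invs {a b : G} (ha : IsInv a) (hb : IsInv b) :
    (∃ c ∈ zpowers (a * b), c * a * c⁻¹ = b) ∨ ∃ z ∈ zpowers (a * b), IsInv z ∧ Commute z a ∧ Commute z b := by
  have ia : a * (a * b) * a⁻¹ = (a * b)⁻¹ := by rw [← mul_assoc, ha.1, mul_inv_rev, hb.inv_eq, one_mul]
  have ib : b * (a * b) * b⁻¹ = (a * b)⁻¹ := by rw [mul_inv_rev, hb.inv_eq, ha.inv_eq, mul_assoc, mul_assoc, hb.1, mul_one]
  obtain ⟨k, hk | hk⟩ := Nat.even_or_odd' (orderOf (a * b))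
  · have z2 : (a * b) ^ k * (a * b) ^ k = 1 := by rw [← pow_add, ← two_mul, ← hk, pow_orderOf_eq_one]
    have m := npow_mem_zpowers (a * b) k
    have := orderOf_pos (a * b)
    exact .inr ⟨_, m, ⟨z2, pow_ne_one_of_lt_orderOf (by omega) (by omega)⟩,
      (mul_inv_eq_iff_eq_mul.1 ((inv_of_mem_zpowers ia m).trans (inv_eq_of_mul_eq_one_right z2))).symm,
      (mul_inv_eq_iff_eq_mul.1 ((inv_of_mem_zpowers ib m).trans (inv_eq_of_mul_eq_one_right z2))).symm⟩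
  · have m := npow_mem_zpowers (a * b) (k + 1)
    refine .inl ⟨_, inv_mem m, ?_⟩
    have e : (a * b) ^ (k + 1) * (a * b) ^ (k + 1) = a * b := by
      rw [← pow_add, show k + 1 + (k + 1) = 2 * k + 1 + 1 by ring, ← hk, pow_succ, pow_orderOf_eq_one, one_mul]
    rw [← inv_of_mem_zpowers ia m, inv_of_mem_zpowers ia m, inv_inv, ← inv_of_mem_zpowers ia m, inv_mul_cancel_right,
      mul_assoc, e, ← mul_assoc, ha.1, one_mul]

/-- extension by zero -/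
noncomputable def ez {C : Subgroup G} (lam : C →* ℂˣ) (y : G) : ℂ := if h : y ∈ C then lam ⟨y, h⟩ else 0

theorem ez_coe {C : Subgroup G} (lam : C →* ℂˣ) (y : C) : ez lam y = lam y := dif_pos y.2

theorem ez_conj {C : Subgroup G} (lam : C →* ℂˣ) {c y : G} (hc : c ∈ C) (hy : y ∈ C) : ez lam (c * y * c⁻¹) = ez lam y := by
  refine (ez_coe lam (⟨c, hc⟩ * ⟨y, hy⟩ * ⟨c, hc⟩⁻¹)).trans ?_
  rw [ez_coe lam ⟨y, hy⟩, map_mul, map_mul, map_inv, mul_inv_cancel_comm]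

theorem ez_mul {C : Subgroup G} (lam : C →* ℂˣ) {c y : G} (hc : c ∈ C) (hy : y ∈ C) : ez lam (c * y) = ez lam c * ez lam y := by
  refine (ez_coe lam (⟨c, hc⟩ * ⟨y, hy⟩)).trans ?_
  rw [ez_coe lam ⟨y, hy⟩, ez_coe lam ⟨c, hc⟩, map_mul, Units.val_mul]

namespace DH

variable {t u w j : G} {C0 : Subgroup G} {κ : C0 →* N} {tN uN : N} (h : DH t u w j C0 κ tN uN) (fa : FAP t u C0)
  {lam : 𝒞[t] →* ℂˣ} (hl : ∀ c : 𝒞[t], (c : G) ∈ C0 → lam c = 1) {p : ℕ} (hp : p.Prime) (op : Odd p)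
  (lp : ∀ c, lam c ^ p = 1)
include h fa hl hp op lp

theorem lamI {g z : G} (hg : ∀ y, y ∈ 𝒞[t] ⊓ 𝒞[u] ↔ g * y * g⁻¹ ∈ 𝒞[t] ⊓ 𝒞[u]) (hz : z ∈ 𝒞[t] ⊓ 𝒞[u])
    (e : w * z * w⁻¹ = z⁻¹) : ez lam (g * z * g⁻¹) = 1 := by
  obtain ⟨k, m, hm, o⟩ := Nat.exists_eq_pow_mul_and_not_dvd (orderOf_pos z).ne' p hp.ne_one
  have e1 : (z ^ m) ^ p ^ k = 1 := by rw [← pow_mul, mul_comm, ← o, pow_orderOf_eq_one]
  have := hl (⟨_, ((hg z).1 hz).1⟩ ^ m) (by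
    rw [SubmonoidClass.coe_pow, conj_pow]
    exact h.fa fa hg ⟨pow_mem hz.1 _, pow_mem hz.2 _, op.pow.of_dvd_nat (orderOf_dvd_of_pow_eq_one e1),
      inv_of_mem_zpowers e (npow_mem_zpowers _ _)⟩ hp op e1)
  rw [map_pow] at this
  rw [ez_coe lam ⟨_, ((hg z).1 hz).1⟩, (pow_eq_one_iff_of_coprime ((Nat.Prime.coprime_iff_not_dvd hp).2 hm)).1 ⟨lp _, this⟩,
    Units.val_one]

theorem lamD {ρ y : G} (rt : ρ * t * ρ⁻¹ = u) (ru : ρ * u * ρ⁻¹ = t * u) (hy : y ∈ 𝒞[t] ⊓ 𝒞[u]) :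
    ez lam (ρ⁻¹ * y * ρ) = ez lam y := by
  have tu := h.l.four.comm
  have rv : ρ * (t * u) * ρ⁻¹ = t := by rw [← cj_mul, rt, ru, tu, ← mul_assoc, h.l.iu.1, one_mul]
  have key : ∀ y, y ∈ 𝒞[t] ⊓ 𝒞[u] ↔ ρ * y * ρ⁻¹ ∈ 𝒞[t] ⊓ 𝒞[u] := fun y => by
    have a : ρ * y * ρ⁻¹ ∈ 𝒞[t] ↔ y ∈ 𝒞[t * u] := by conv_lhs => rw [← rv, cj_cent]
    have b : ρ * y * ρ⁻¹ ∈ 𝒞[u] ↔ y ∈ 𝒞[t] := by conv_lhs => rw [← rt, cj_cent]
    rw [mem_inf, mem_inf, a, b]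
    simp only [mem_centralizer_singleton_iff]
    exact ⟨fun ⟨c, d⟩ => ⟨by rw [← mul_assoc, c, mul_assoc, d, mul_assoc], c⟩,
      fun ⟨c, d⟩ => ⟨d, by rwa [← mul_assoc, d, mul_assoc, mul_assoc, mul_right_inj] at c⟩⟩
  have key' : ∀ y, y ∈ 𝒞[t] ⊓ 𝒞[u] ↔ ρ⁻¹ * y * ρ⁻¹⁻¹ ∈ 𝒞[t] ⊓ 𝒞[u] := fun y => by rw [key (ρ⁻¹ * y * _)]; simp [mul_assoc]
  have wD : ∀ y ∈ 𝒞[t] ⊓ 𝒞[u], w * y * w⁻¹ ∈ 𝒞[t] ⊓ 𝒞[u] := fun y hy =>
    mem_inf.2 ⟨mul_mem (mul_mem h.l.wC hy.1) (inv_mem h.l.wC), by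
      rw [← h.l.wtu, cj_cent, mem_centralizer_singleton_iff, ← mul_assoc,
        mem_centralizer_singleton_iff.1 hy.1, mul_assoc, mem_centralizer_singleton_iff.1 hy.2, mul_assoc]⟩
  have s1 : ∀ y ∈ 𝒞[t] ⊓ 𝒞[u], ez lam (ρ⁻¹ * y * ρ⁻¹⁻¹) = ez lam (ρ * y * ρ⁻¹) := fun y hy => by
    have zD := mul_mem (inv_mem hy) (wD y hy)
    have e1 := h.lamI fa hl hp op lp key' zD (by simp [mul_assoc, h.l.iw.inv_eq, h.l.iw.1])
    have c : ρ⁻¹ * w * ρ⁻¹ ∈ 𝒞[t] := cent_of_conj_eq (by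
      calc _ = ρ⁻¹ * (w * (ρ⁻¹ * t * ρ) * w⁻¹) * ρ := by group
        _ = t := by rw [show ρ⁻¹ * t * ρ = t * u from conj_injective (x := ρ) (by simp only [rv]; group), h.l.wtu, ← rt]; group)
    rw [← ez_conj lam c ((key y).1 hy).1, ← mul_one (ez lam (ρ⁻¹ * y * _)), ← e1,
      ← ez_mul lam ((key' y).1 hy).1 ((key' _).1 zD).1]
    congr 1
    group
  have c : ρ * ρ * ρ ∈ 𝒞[t] := cent_of_conj_eq (by
    calc _ = ρ * (ρ * (ρ * t * ρ⁻¹) * ρ⁻¹) * ρ⁻¹ := by group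
      _ = t := by rw [rt, ru, rv])
  have := s1 _ ((key y).1 hy)
  rw [← ez_conj lam c (by simpa using ((key' y).1 hy).1), show ez lam y = _ from (congrArg _ (by group)).trans this]
  congr 1
  group

theorem lamF {g y : G} (hy : y ∈ 𝒞[t]) (hg : g * y * g⁻¹ ∈ 𝒞[t]) : ez lam (g * y * g⁻¹) = ez lam y := by
  have it := h.l.it
  let R : G → G → Prop := fun a b => ∀ g g', g * a * g⁻¹ = t → g' * b * g'⁻¹ = t →
    ez lam (g * y * g⁻¹) = ez lam (g' * y * g'⁻¹)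
  have r1 : ∀ a c, y ∈ 𝒞[a] → Commute c y → R a (c * a * c⁻¹) := fun a c ya cy g g' e e' => by
    have := ez_conj lam (c := g' * c * g⁻¹) (y := g * y * g⁻¹) (cent_of_conj_eq (by
      conv_lhs => rw [← e]
      rw [← e']; group)) (by rw [← e]; exact cj_cent.2 ya)
    rw [← this]
    congr 1
    calc _ = g' * (c * y * c⁻¹) * g'⁻¹ := by group
      _ = _ := by rw [cy.eq, mul_inv_cancel_right]
  have r2 : ∀ a b, IsInv a → IsInv b → Commute a b → y ∈ 𝒞[a] → y ∈ 𝒞[b] → R a b := fun a b ia ib c ya yb => by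
    rcases eq_or_ne a b with rfl | ne
    · simpa using r1 a 1 ya (Commute.one_left y)
    obtain ⟨x, rfl, rfl⟩ := h.l.pair ⟨ia, ib, ne, c⟩
    obtain ⟨ρ, rt, ru⟩ := h.l.pair (a := u) (b := t * u) ⟨h.l.iu, h.l.four.ts, (IsInv.mul_ne' it).symm, by
      rw [← mul_assoc, ← h.l.four.comm]⟩
    intro g g' e e'
    have := h.lamD fa hl hp op lp rt ru (y := x⁻¹ * y * x) ⟨(cj_cent (g := x)).1 (by simpa [mul_assoc] using ya),
      (cj_cent (g := x)).1 (by simpa [mul_assoc] using yb)⟩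
    have a := r1 _ 1 ya (Commute.one_left y) g x⁻¹ e (by group)
    have b := r1 _ 1 yb (Commute.one_left y) g' (ρ⁻¹ * x⁻¹) e' (by rw [← rt]; group)
    rw [a, b, inv_inv, ← this]
    congr 1
    group
  have ya : y ∈ 𝒞[g⁻¹ * t * g⁻¹⁻¹] := by
    have := (cj_cent (g := g⁻¹)).2 hg
    simpa [mul_assoc] using this
  have cm : ∀ z ∈ zpowers (g⁻¹ * t * g⁻¹⁻¹ * t), Commute z y := fun z hz => by
    obtain ⟨i, rfl⟩ := hz
    exact (Commute.mul_left (mem_centralizer_singleton_iff.1 ya).symm (mem_centralizer_singleton_iff.1 hy).symm).zpow_left i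
  suffices R (g⁻¹ * t * g⁻¹⁻¹) t by simpa using this g 1 (by group) (by group)
  rcases two_invs (it.conj g⁻¹) it with ⟨c, hc, e⟩ | ⟨z, hz, iz, c1, c2⟩
  · have := r1 _ c ya (cm c hc)
    rwa [e] at this
  · have yz : y ∈ 𝒞[z] := mem_centralizer_singleton_iff.2 (cm z hz).symm
    obtain ⟨x, hx⟩ := h.l.one z iz
    exact fun g1 g2 e1 e2 => (r2 _ _ (it.conj _) iz c1.symm ya yz g1 x⁻¹ e1 (by rw [← hx]; group)).trans
      (r2 _ _ iz it c2 yz hy x⁻¹ g2 (by rw [← hx]; group) e2)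

/-- `λ` extends to a class function on `G` -/
theorem exists_Lam : ∃ Λ : G → ℂ, (∀ g c, Λ (c * g * c⁻¹) = Λ g) ∧ (∀ c : 𝒞[t], Λ c = lam c) ∧
    ∀ g, Λ g = 0 ∨ ∃ c, Λ g = lam c := by
  let Λ : G → ℂ := fun y => if e : ∃ g, g * y * g⁻¹ ∈ 𝒞[t] then ez lam (e.choose * y * e.choose⁻¹) else 0
  have k : ∀ y g, g * y * g⁻¹ ∈ 𝒞[t] → Λ y = ez lam (g * y * g⁻¹) := fun y g e => by
    have e' : ∃ g, g * y * g⁻¹ ∈ 𝒞[t] := ⟨g, e⟩
    simp only [Λ, dif_pos e']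
    rw [← h.lamF fa hl hp op lp (g := e'.choose * g⁻¹) e (by simpa [mul_assoc] using e'.choose_spec)]
    congr 1
    group
  refine ⟨Λ, fun g c => ?_, fun c => by rw [k c 1 (by simp)]; simp [ez_coe], fun g => ?_⟩
  · by_cases e : ∃ x, x * g * x⁻¹ ∈ 𝒞[t]
    · obtain ⟨x, e⟩ := e
      rw [k g x e, k _ (x * c⁻¹) (by simpa [mul_assoc] using e)]
      congr 1
      group
    · simp only [Λ]
      rw [dif_neg e, dif_neg fun ⟨x, e'⟩ => e ⟨x * c, by simpa [mul_assoc] using e'⟩]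
  · by_cases e : ∃ x, x * g * x⁻¹ ∈ 𝒞[t]
    · obtain ⟨x, e⟩ := e
      exact .inr ⟨⟨_, e⟩, (k g x e).trans (ez_coe lam ⟨_, e⟩)⟩
    · exact .inl (dif_neg e)

end DH

end CA.Abg

theorem CA.realizeEqns_Abg_D1 : True := by
  have := @CA.Abg.ez.eq_1.{0}
  have := @CA.Abg.ez.eq_def.{0}
  have := @CA.Abg.ez.congr_simp.{0}
  trivial
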