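import Cfsg.Agent.Abg.B5

/-!
# Twisted principal blocks
-/

set_option autoImplicit false
set_option linter.unusedSectionVars false
set_option linter.unusedVariables false

open Cfsg CA.Chr CA.Blk CA.FG Finset
open scoped ComplexConjugate Classical

namespace CA.Abg

universe u

variable {G : Type u} [Group G] [Fintype G]
variable {Γ : Type*} [LinearOrderedCommGroupWithZero Γ] {v : Valuation ℂ Γ} {p : ℕ}

/-- twisting by a linear character -/
noncomputable def tw (l : G →* ℂˣ) (a : GA G) : GA G := CA.Blk.mk (lin l * ⇑a.coeff)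

theorem ev_tw (l : G →* ℂˣ) (f : G → ℂ) (a : GA G) : ev f (tw l a) = ev (lin l * f) a :=
  sum_congr rfl fun g _ => by simp only [tw, coeff_mk, Pi.mul_apply]; ring

theorem val_lin (l : G →* ℂˣ) (g : G) : v (l g) ≤ 1 :=
  val_le_of_integral v (isIntegral_of_pow_eq_one (orderOf_pos g).ne' (by
    rw [← Units.val_pow_eq_pow_val, ← map_pow, pow_orderOf_eq_one, map_one, Units.val_one]))

theorem tw_int (l : G →* ℂˣ) {a : GA G} (h : a ∈ IntR G v) : tw l a ∈ IntR G v := fun g =>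
  val_mul_le (val_lin l g) (h g)

theorem zz_tw (l : G →* ℂˣ) (w : (G → ℂ) → ℂ) : zz (fun ψ => w (lin l * ψ)) = tw l (zz w) :=
  (cen_zz _).ext (mul_mem (lin_mem_CF l) (cen_zz w)) fun χ hχ => by
    rw [ev_tw, ev_zz hχ, ev_zz (IsIrr.lin_mul hχ l)]; simp

theorem proj_tw (l : G →* ℂˣ) {B : Finset (G → ℂ)} (hB : B ⊆ irr G) {f : G → ℂ} (hf : f ∈ CF G) (c : G) :
    ev f (dl c * tw l⁻¹ (eB B)) = l c * proj B (lin l⁻¹ * f) c := by
  rw [← ev_dl_eB hB (mul_mem (lin_mem_CF _) hf), ev_dl_mul, ev_dl_mul, mul_sum]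
  refine sum_congr rfl fun g _ => ?_
  simp only [tw, coeff_mk, Pi.mul_apply, lin_apply, MonoidHom.inv_apply, map_mul, Units.val_mul,
    Units.val_inv_eq_inv_val]
  field_simp

theorem sm_val {w : (G → ℂ) → ℂ} (h : Sm v (zz w)) {χ : G → ℂ} (hχ : IsIrrCharacter G χ) : v (w χ) < 1 := by
  by_contra! e
  have h0 : w χ ≠ 0 := fun e' => by simp [e'] at e
  exact zz_eigen hχ h0 (h.smul (by rw [map_inv₀]; exact inv_le_one_of_one_le₀ e))

variable {C : Subgroup G} [Fintype C]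

variable (C) in
/-- central characters composed with the Brauer map -/
noncomputable def Th (w : (G → ℂ) → ℂ) (ψ : C → ℂ) : ℂ := ev ψ (res C (zz w)) / ψ 1

theorem zz_Th (w : (G → ℂ) → ℂ) : zz (Th C w) = res C (zz w) :=
  (Cen.eq_zz (c := res C (zz w)) (CF_comp (cen_zz w) C.subtype)).symm

theorem Th_const {ψ : C → ℂ} (hψ : IsIrrCharacter C ψ) (c : ℂ) : Th C (fun _ => c) ψ = c := by
  rw [Th, show (fun _ => c : (G → ℂ) → ℂ) = c • 1 by ext; simp, map_smul, map_one, map_smul, res_one, map_smul, ev_one,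
    smul_eq_mul, mul_div_cancel_right₀ _ (IsIrr.deg_ne_zero hψ)]

variable (hp : p.Prime) (hv : v p < 1) {x : G} {k : ℕ} (hx : x ^ p ^ k = 1) (hC : C = Subgroup.centralizer {x})
include hp hv hx hC

theorem Th_mul {a b : (G → ℂ) → ℂ} (ha : zz a ∈ IntR G v) (hb : zz b ∈ IntR G v) :
    Sm v (zz (Th C (a * b) - Th C a * Th C b)) := by
  rw [map_sub, map_mul, zz_Th, zz_Th, zz_Th, map_mul]
  exact res_mul hp hv hx hC ha hb ((cen_zz _).comm _).symm ((cen_zz _).comm _).symm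

/-- congruences for central characters composed with the Brauer map -/
noncomputable def ThR {ψ : C → ℂ} (hψ : IsIrrCharacter C ψ) : Subring (((G → ℂ) → ℂ) × ℂ) where
  carrier := {q | zz q.1 ∈ IntR G v ∧ v (Th C q.1 ψ - q.2) < 1}
  zero_mem' := ⟨by simp, by simp [Th]⟩
  one_mem' := ⟨by simp, by rw [show (1 : ((G → ℂ) → ℂ) × ℂ).1 = fun _ => 1 from rfl, Th_const hψ]; simp⟩
  add_mem' := fun {a b} ha hb => ⟨by simpa using add_mem ha.1 hb.1, by
    convert val_add_lt ha.2 hb.2 using 2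
    simp only [Th, Prod.fst_add, Prod.snd_add, map_add]; ring⟩
  neg_mem' := fun {a} ha => ⟨by simpa using neg_mem ha.1, by
    rw [← Valuation.map_neg]
    convert ha.2 using 2
    simp only [Th, Prod.fst_neg, Prod.snd_neg, map_neg]; ring⟩
  mul_mem' := fun {a b} ha hb => ⟨by simpa using mul_mem ha.1 hb.1, by
    have l1 := val_le_of_zz hψ (zz_Th (C := C) a.1 ▸ res_int ha.1)
    have l2 := val_le_of_zz hψ (zz_Th (C := C) b.1 ▸ res_int hb.1)
    have l3 := val_sub_le l2 hb.2.le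
    convert val_add_lt (val_add_lt (sm_val (Th_mul hp hv hx hC ha.1 hb.1) hψ) (val_mul_lt l1 hb.2))
      (val_mul_lt' ha.2 l3) using 2
    simp only [Prod.fst_mul, Prod.snd_mul, Pi.sub_apply, Pi.mul_apply]; ring⟩

theorem twist_main (l : C →* ℂˣ) {Λ : G → ℂ} (cf : Λ ∈ CF G) (hΛ : ∀ c : C, Λ c = l c) (hi : ∀ g, v (Λ g) ≤ 1) :
    ∃ B ⊆ irr G, eB B ∈ IntR G v ∧ Sm v (res C (eB B) - tw l (eB (B0 p C))) := by
  have i0 := lin_irr l⁻¹
  have mem : ∀ {ψ : C → ℂ} (hψ : IsIrrCharacter C ψ) (a : (G → ℂ) → ℂ) (b : ℂ),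
      (a, b) ∈ ThR hp hv hx hC hψ ↔ zz a ∈ IntR G v ∧ v (Th C a ψ - b) < 1 := fun _ _ _ => Iff.rfl
  have slf : ∀ {ψ : C → ℂ} (hψ : IsIrrCharacter C ψ) {a : (G → ℂ) → ℂ}, zz a ∈ IntR G v →
      (a, Th C a ψ) ∈ ThR hp hv hx hC hψ := fun _ _ h => ⟨h, by simp⟩
  have cst : ∀ {ψ : C → ℂ} (hψ : IsIrrCharacter C ψ) {c : ℂ}, v c ≤ 1 →
      ((fun _ => c), c) ∈ ThR hp hv hx hC hψ := fun hψ _ h => ⟨smul_one_mem h, by simp [Th_const hψ]⟩
  have le : ∀ {ψ : C → ℂ} (hψ : IsIrrCharacter C ψ) {a : (G → ℂ) → ℂ}, zz a ∈ IntR G v → v (Th C a ψ) ≤ 1 :=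
    fun hψ a h => val_le_of_zz hψ (zz_Th (C := C) a ▸ res_int h)
  let B := (irr G).filter fun χ => ∀ w, zz w ∈ IntR G v → v (w χ - Th C w (lin l⁻¹)) < 1
  have h1 : ∀ χ ∈ irr G \ B, ∃ z, zz z ∈ IntR G v ∧ v (z χ - Th C z (lin l⁻¹)) = 1 := by
    intro χ hχ
    obtain ⟨h1, h2⟩ := mem_sdiff.mp hχ
    rw [mem_filter, not_and] at h2
    have := h2 h1
    push Not at this
    obtain ⟨z, hz, h3⟩ := this
    exact ⟨z, hz, le_antisymm (val_sub_le (val_le_of_zz (mem_irr.mp h1) hz) (le i0 hz)) h3⟩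
  choose! z hz hz1 using h1
  obtain ⟨⟨u, a⟩, hu, va, u0⟩ : ∃ q ∈ ThR hp hv hx hC i0, v q.2 = 1 ∧ ∀ χ ∈ irr G \ B, q.1 χ = 0 := by
    have := prod_mem (t := irr G \ B) (S := ThR hp hv hx hC i0) fun χ hχ => sub_mem (slf i0 (hz χ hχ))
      (cst i0 (val_le_of_zz (mem_irr.mp (mem_sdiff.mp hχ).1) (hz χ hχ)))
    refine ⟨_, this, ?_, fun χ hχ => ?_⟩
    · rw [Prod.snd_prod, map_prod]
      exact prod_eq_one fun χ hχ => by rw [← hz1 χ hχ, ← Valuation.map_neg]; simp
    · rw [Prod.fst_prod, prod_apply]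
      exact prod_eq_zero hχ (by simp)
  simp only at va u0
  have tu : v (Th C u (lin l⁻¹)) = 1 := val_eq_one_of_sub va hu.2
  have ub : ∀ ψ ∈ B, v (u ψ - Th C u (lin l⁻¹)) < 1 := fun ψ h => (mem_filter.1 h).2 _ hu.1
  have hu1 : ∀ ψ ∈ B, v (u ψ) = 1 := fun ψ h => val_eq_one_of_sub tu (ub ψ h)
  obtain ⟨ψ0, h0⟩ : B.Nonempty := nonempty_iff_ne_empty.2 fun e => val_ne_zero tu (by
    rw [Th, zz_congr (w' := 0) fun χ hχ => u0 χ (by simpa [e] using mem_irr.2 hχ)]; simp)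
  obtain ⟨I, hI⟩ : ∃ I : (G → ℂ) → ℂ, I = fun χ => if χ ∈ B then 1 else 0 := ⟨_, rfl⟩
  have eI : zz I = eB B := by rw [hI, eB]
  obtain ⟨iI, tI⟩ : zz I ∈ IntR G v ∧ v (Th C I (lin l⁻¹) - 1) < 1 := by
    have := sub_mem (one_mem _) (prod_mem (t := B) (S := ThR hp hv hx hC i0) fun ψ hψ => sub_mem (one_mem _)
      (mul_mem (cst i0 (val_inv (hu1 ψ hψ)).le) (slf i0 hu.1)))
    have e : zz I = zz (1 - ∏ ψ ∈ B, (1 - ((fun _ => (u ψ)⁻¹), (u ψ)⁻¹) * (u, Th C u (lin l⁻¹)))).1 := by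
      refine zz_congr fun χ hχ => ?_
      simp only [hI, Prod.fst_sub, Prod.fst_prod, Prod.fst_mul, Prod.fst_one, Pi.sub_apply, Pi.one_apply, prod_apply,
        Pi.mul_apply]
      split_ifs with h
      · rw [prod_eq_zero h (by rw [inv_mul_cancel₀ (val_ne_zero (hu1 χ h)), sub_self]), sub_zero]
      · simp [u0 χ (mem_sdiff.mpr ⟨mem_irr.mpr hχ, h⟩)]
    refine ⟨e ▸ this.1, ?_⟩
    have k : v (∏ ψ ∈ B, (1 - (u ψ)⁻¹ * Th C u (lin l⁻¹))) < 1 := by
      have s : ∀ ψ ∈ B, v (1 - (u ψ)⁻¹ * Th C u (lin l⁻¹)) < 1 := fun ψ h => by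
        convert val_mul_lt (val_inv (hu1 ψ h)).le (ub ψ h) using 2
        rw [mul_sub, inv_mul_cancel₀ (val_ne_zero (hu1 ψ h))]
      rw [← mul_prod_erase _ _ h0]
      refine val_mul_lt' (s _ h0) ?_
      rw [map_prod]
      exact prod_le_one' fun ψ h => (s ψ (mem_of_mem_erase h)).le
    convert val_sub_lt this.2 k using 2
    simp only [Th, e, Prod.snd_sub, Prod.snd_prod, Prod.snd_mul, Prod.snd_one]; ring
  obtain ⟨ζ, eζ⟩ : ∃ ζ, zz ζ = CA.Blk.mk (Λ * regI p G) :=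
    ⟨_, (Cen.eq_zz (c := CA.Blk.mk (Λ * regI p G)) (mul_mem cf (regI_mem_CF p))).symm⟩
  have iζ : zz ζ ∈ IntR G v := eζ ▸ fun g => val_mul_le (hi g) (regI_int g)
  have tζ : ∀ ψ, Th C ζ ψ = wR p C (lin l * ψ) := fun ψ => by
    rw [Th, wR, eζ, ← ev_tw, show res C (CA.Blk.mk (Λ * regI p G)) = tw l (CA.Blk.mk (regI p C)) from
      ext_coeff fun c => by simp [tw, hΛ, regI_subtype]]
    simp
  have hr := val_sum_regI hp hv _ C rfl
  have ll : lin l * lin l⁻¹ = 1 := by rw [← lin_mul]; ext; simp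
  have tr : Th C ζ (lin l⁻¹) = ∑ g, regI p C g := by rw [tζ, ll, wR_one]
  generalize ∑ g, regI p C g = r at hr tr
  obtain ⟨J, hJ⟩ : ∃ J : (C → ℂ) → ℂ, J = fun ψ => if lin l * ψ ∈ B0 p C then 1 else 0 := ⟨_, rfl⟩
  have eJ : zz J = tw l (eB (B0 p C)) := by rw [hJ, eB, ← zz_tw]
  have iD : zz (Th C I - J) ∈ IntR C v := by
    rw [map_sub, zz_Th, eJ]; exact sub_mem (res_int iI) (tw_int l (eB0_int hp hv))
  have sD : ∀ ψ, IsIrrCharacter C ψ → v ((Th C I - J) ψ) < 1 := fun ψ hψ => by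
    simp only [hJ, Pi.sub_apply]
    split_ifs with h
    · have := (mem_Bv.1 (B0_eq_Bv (G := C) hp hv ▸ h)).2 (fun χ => Th C I (lin l⁻¹ * χ)) (by
        rw [zz_tw, zz_Th]; exact tw_int _ (res_int iI))
      rw [← mul_assoc, mul_comm (lin l⁻¹), ll, one_mul, mul_one] at this
      simpa using val_add_lt this tI
    · have m := pow_mem (mul_mem (slf hψ iI) (sub_mem (one_mem _) (mul_mem (cst hψ (val_inv hr).le) (slf hψ iζ))))
        ((irr G).card + 1)
      have m1 := (mul_mem (slf hψ iI) (sub_mem (one_mem _) (mul_mem (cst hψ (val_inv hr).le) (slf hψ iζ)))).1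
      have s := (sm_pow m1 (fun χ hχ => by
        simp only [hI, Prod.fst_mul, Prod.fst_sub, Prod.fst_one, Pi.mul_apply, Pi.sub_apply, Pi.one_apply]
        split_ifs with k
        · have := val_mul_lt (val_inv hr).le ((mem_filter.1 k).2 _ iζ)
          rwa [tr, mul_sub, inv_mul_cancel₀ (val_ne_zero hr), ← Valuation.map_neg, neg_sub, ← one_mul (1 - _)] at this
        · simp) (Nat.le_succ _)).res (C := C)
      rw [← map_pow, ← zz_Th] at s
      have := val_sub_lt (sm_val s hψ) m.2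
      rw [mem_B0, not_and, not_not] at h
      simp only [Prod.pow_fst, sub_sub_cancel, Prod.pow_snd, Prod.snd_mul, Prod.snd_sub, Prod.snd_one, tζ, wR_eq,
        h (IsIrr.lin_mul hψ l), mul_zero, zero_div, sub_zero, mul_one, map_pow] at this
      rw [sub_zero]
      exact lt_of_pow_lt_pow_left' _ (by rwa [one_pow])
  have s3 : Sm v (zz (Th C I - J) ^ 3 - zz (Th C I - J)) := by
    have := (Th_mul hp hv hx hC iI iI).neg.mul_right (b := zz (Th C I + 1 - J - J - J)) (by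
      simp only [map_sub, map_add, map_one, zz_Th, eJ]
      have := tw_int l (eB0_int (G := C) hp hv)
      exact sub_mem (sub_mem (sub_mem (add_mem (res_int iI) (one_mem _)) this) this) this)
    rw [show I * I = I by rw [hI]; ext; simp] at this
    convert this using 1
    rw [← map_pow, ← map_sub, ← map_neg, ← map_mul]
    congr 1
    ext ψ
    simp only [hJ, Pi.sub_apply, Pi.pow_apply, Pi.mul_apply, Pi.neg_apply, Pi.add_apply, Pi.one_apply]
    split_ifs <;> ring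
  have sn : ∀ n : ℕ, Sm v (zz (Th C I - J) ^ 3 ^ n - zz (Th C I - J)) := fun n => by
    induction n with
    | zero => simpa using Sm.zero
    | succ n ih => rw [pow_succ, pow_mul]; exact (ih.cong_pow (pow_mem iD _) iD 3).trans s3
  refine ⟨B, filter_subset _ _, eI ▸ iI, ?_⟩
  have := (sm_pow iD sD (Nat.lt_pow_self (by norm_num : 1 < 3)).le).sub (sn (irr C).card)
  rwa [sub_sub_cancel, map_sub, zz_Th, eI, eJ] at this

/-- Brauer's second main theorem -/
theorem second_gen {E : GA G} {e : GA C} (h3 : Sm v (res C E - e)) (iE : E ∈ IntR G v) (iC : e ∈ IntR C v)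
    (mE : E * E = E) (mC : e * e = e) (cE : Cen E) (cC : Cen e) {f : G → ℂ} (hf : f ∈ CF G) (g : C)
    (hg : x ∈ Subgroup.zpowers (g : G)) : ev f (dl (g : G) * E) = ev (f ∘ C.subtype) (dl g * e) := by
  rw [← ev_inc, map_mul (inc C), inc_single]
  have mE' : inc C e * inc C e = inc C e := by rw [← map_mul, mC]
  have cE' : ∀ c : C, Commute (dl (c : G)) (inc C e) := fun c => by
    rw [dl, ← inc_single]
    exact Commute.map (cC.comm _).symm _
  have hxC : x ∈ C := hC ▸ Subgroup.mem_centralizer_singleton_iff.mpr rfl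
  have key : ∀ a b : GA G, a * a = a → b * b = b → Commute a b → a ∈ IntR G v → b ∈ IntR G v →
      (∀ c : C, Commute (dl (c : G)) a) → (∀ c : C, Commute (dl (c : G)) b) →
      Sm v (res C a - e) → Sm v (res C b - e) → ev f (dl (g : G) * (a * (1 - b))) = 0 := by
    intro a b ma mb cab ia ib ca cb sa sb
    have i1 := sub_mem (one_mem _) ib
    have c1 : ∀ c : C, Commute (dl (c : G)) (1 - b) := fun c => (Commute.one_right _).sub_right (cb c)
    refine ev_idem_zero hp hv hf ?_ (mul_mem ia i1) ((ca g).mul_right (c1 g)) fun h i hi c => ?_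
    · have : (1 - b) * a = a * (1 - b) := ((Commute.one_left _).sub_left cab.symm).eq
      rw [mul_assoc, ← mul_assoc (1 - b), this, ← mul_assoc, ← mul_assoc, ma, mul_assoc]
      congr 1
      rw [mul_sub, sub_mul, sub_mul, mb]; simp
    · have hh : h ∈ C := by
        obtain ⟨j, hj⟩ := hg
        have : Commute (x ^ i) h := by
          rw [← hj]
          simp only
          rw [← zpow_natCast, ← zpow_mul, mul_comm, zpow_mul, zpow_natCast]
          exact c.zpow_left j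
        exact hC ▸ Subgroup.mem_centralizer_singleton_iff.mpr
          (commute_of_mem_zpowers (mem_zpowers_pow hp hx hi) this).eq.symm
      have s1 := res_mul hp hv hx hC ia i1 (ca ⟨x, hxC⟩) (c1 ⟨x, hxC⟩)
      have s2 : Sm v (res C a * res C (1 - b) - e * (1 - e)) :=
        sa.cong_mul (by rw [map_sub, res_one]; convert sb.neg using 1; abel) iC (res_int i1)
      have := s1.trans s2
      rw [mul_sub e, mul_one, mC, sub_self, sub_zero] at this
      exact this ⟨h, hh⟩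
  have cc : Commute E (inc C e) := cE.comm _
  have s0 : Sm v (res C (inc C e) - e) := by rw [res_inc]; simpa using Sm.zero
  have k1 := key E _ mE mE' cc iE (inc_int iC) (fun _ => (cE.comm _).symm) cE' h3 s0
  have k2 := key _ E mE' mE cc.symm (inc_int iC) iE cE' (fun _ => (cE.comm _).symm) s0 h3
  rw [mul_sub, mul_one, mul_sub, map_sub, sub_eq_zero] at k1 k2
  rw [k1, cc.eq, ← k2]

omit hp hv hx hC in
/-- the twisted principal block -/
theorem exists_blk {t : G} (t2 : t * t = 1) (lam : 𝒞[t] →* ℂˣ) {Λ : G → ℂ} (cf : Λ ∈ CF G)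
    (hΛ : ∀ c : 𝒞[t], Λ c = lam c) (hi : ∀ g, Λ g = 0 ∨ ∃ c, Λ g = lam c) : ∃ B, Blk t lam Λ B := by
  obtain ⟨V, hV⟩ := exists_val Nat.prime_two
  have hx : t ^ 2 ^ 1 = 1 := by rw [pow_one, sq, t2]
  obtain ⟨B, sB, iB, s⟩ := twist_main Nat.prime_two hV hx rfl lam⁻¹ (Λ := fun g => (Λ g)⁻¹)
    (mem_CF.2 fun g c => by simp only [CF_conj cf]) (fun c => by simp [hΛ]) fun g => by
      rcases hi g with e | ⟨c, e⟩
      · simp [e]
      · simpa [e] using val_lin (v := V.valuation) lam⁻¹ c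
  refine ⟨B, sB, cf, hΛ, fun f hf c hc => ?_, fun f hf ho g o => ?_⟩
  · rw [← ev_dl_eB sB hf, second_gen Nat.prime_two hV hx rfl s iB (tw_int _ (eB0_int Nat.prime_two hV)) (eB_mul B)
      (by rw [eB, ← zz_tw, ← map_mul]; congr 1; ext; simp) (cen_zz _) (by rw [eB, ← zz_tw]; exact cen_zz _) hf c hc,
      proj_tw lam (B0_subset 2) (CF_comp hf _), hΛ, lin_inv, show (fun c : 𝒞[t] => conj (Λ c) * f c) =
      conjFun (lin lam) * f ∘ 𝒞[t].subtype from funext fun c => by simp [hΛ, conjFun]]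
  · exact proj_zero_of_int Nat.prime_two hV sB iB fun h hh => (sep_of_orderOf (k := 1) Nat.prime_two (by
      rw [pow_one, ← even_iff_two_dvd, ← Nat.not_odd_iff_even]; exact fun o => hh (ho h o)) (by
      rwa [pow_one, ← even_iff_two_dvd, Nat.not_even_iff_odd])).symm

end CA.Abg

theorem CA.realizeEqns_Abg_D2 : True := by
  have := @CA.Abg.Th.eq_1.{0}
  have := @CA.Abg.Th.eq_def.{0}
  have := @CA.Abg.Th.congr_simp.{0}
  have := @CA.Abg.tw.eq_1.{0}
  have := @CA.Abg.tw.eq_def.{0}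
  have := @CA.Abg.tw.congr_simp.{0}
  have := @CA.Abg.ThR.eq_1.{0,0}
  have := @CA.Abg.ThR.eq_def.{0,0}
  have := @CA.Abg.ThR.congr_simp.{0,0}
  trivial
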