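import Cfsg.Agent.Abg.B13
import Cfsg.Agent.Abg.D1
import Cfsg.Agent.Abg.D2

/-!
# The case `a = 1`: there are no field automorphisms
-/

set_option autoImplicit false
set_option linter.unusedSectionVars false
set_option linter.unusedVariables false

open Cfsg Subgroup CA.Chr CA.Dih CA.Blk CA.Br CA.FG Finset
open CA.GW (UU IsInv)
open scoped ComplexConjugate Classical

namespace CA.Abg

universe u v w

theorem num0 {e s n : ℤ} (q : 27 ≤ e ∨ e ≤ -27)
    (eq : (n + e + 1) * (s - e) = e * (e + 1) * (s - e) + e * (e - 1) * (n + e + 1)) (s0 : s - e ≠ 0)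
    (ha : 0 < s - e → e ^ 2 - 1 ≤ s - e) (hb : 0 < n + e + 1 → (e + 1) ^ 2 ≤ n + e + 1) :
    0 < s * (s - 1) ∧ 5 * (s * (s - 1)) ≤ 6 * (s - e) ^ 2 := by
  obtain ⟨x, rfl⟩ : ∃ x, s = x + e := ⟨s - e, by ring⟩
  generalize n + e + 1 = y at *
  simp only [add_sub_cancel_right] at *
  have p1 : 0 < e * (e + 1) := by rcases q with k | k <;> nlinarith
  have p2 : 0 < e * (e - 1) := by rcases q with k | k <;> nlinarith
  have neg : x < 0 → 0 < y ∧ y < e * (e + 1) := fun hx => by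
    have : 0 < y := by
      by_contra c
      nlinarith [mul_nonneg_of_nonpos_of_nonpos (not_lt.1 c) hx.le, mul_pos p1 (neg_pos.2 hx),
        mul_nonneg p2.le (neg_nonneg.2 (not_lt.1 c))]
    exact ⟨this, by by_contra c; nlinarith [mul_pos p2 this, mul_nonneg (sub_nonneg.2 (not_lt.1 c)) (neg_pos.2 hx).le]⟩
  rcases q with e3 | e3
  · have : 0 < x := s0.lt_or_gt.resolve_left fun hx => by have := hb (neg hx).1; have := (neg hx).2; nlinarith
    have := ha this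
    have : 26 * e ≤ x := by nlinarith
    constructor <;> nlinarith
  · rcases s0.lt_or_gt with hx | hx
    · have h1 := hb (neg hx).1
      have h2 := (neg hx).2
      have h3 : x ≤ -(e + 1) * (e * (e - 1)) * -1 := by
        by_contra c
        have a : 0 < -(e + 1) := by omega
        have : (e * (e - 1) - x) * (e * (e + 1) - y) = e * (e + 1) * (e * (e - 1)) := by linear_combination eq
        have : (e * (e - 1) - x) * (e * (e + 1) - y) ≤ (e * (e - 1) - x) * -(e + 1) :=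
          mul_le_mul_of_nonneg_left (by nlinarith) (by omega)
        nlinarith [mul_pos a (sub_pos.2 (not_le.1 c))]
      have : x ≤ 26 * e := by nlinarith
      constructor <;> nlinarith
    · have := ha hx
      have : -26 * e ≤ x := by nlinarith
      constructor <;> nlinarith

theorem num1 {e H E x a f : ℤ} (q : 27 ≤ e ∨ e ≤ -27) (H0 : 0 < H) (hE : 5 * H ≤ 6 * E) (x0 : x ≠ 0) (a0 : a ≠ 0)
    (b0 : x + a ≠ 0) (e1 : H * (a + e * x) ^ 2 = E * (x * a * (x + a)))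
    (e2 : H * (f - e * x) ^ 2 * (e - 1) = E * (e + 1) * (x * f * (x + f)))
    (e3 : (a + f) * (a * f + e ^ 2 * x * (x + a + f)) = 0) (hx : 4 ∣ x + 3) (hy : 4 ∣ -(x + a + f) - 3) :
    x = 1 ∨ x + a + f = 1 := by
  have E0 : 0 < E := by omega
  have k : ∀ z P : ℤ, 0 < P → H * (a + e * x) ^ 2 = E * (z * P) → 25 * P > 6 * (a + e * x) ^ 2 → z ≠ 0 → 0 < z ∧ z < 5 :=
    fun z P P0 h1 h2 z0 => by
      have := mul_nonneg H0.le (sq_nonneg (a + e * x))
      have z1 : 0 ≤ z := (mul_nonneg_iff_of_pos_right P0).1 ((mul_nonneg_iff_of_pos_left E0).1 (h1 ▸ this))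
      refine ⟨by omega, lt_of_not_ge fun c => ?_⟩
      have h3 : 5 * P ≤ z * P := mul_le_mul_of_nonneg_right c P0.le
      have h4 := mul_le_mul hE h3 (by omega) (by omega)
      nlinarith [mul_lt_mul_of_pos_left h2 H0]
  have xx := sq_pos_of_ne_zero x0
  rcases mul_eq_zero.1 e3 with e3 | e3
  · obtain rfl : f = -a := by omega
    have : E * (x * a) * (2 * (a - e * x)) = 0 := by linear_combination (e - 1) * e1 - e2
    obtain rfl : a = e * x := by simpa [E0.ne', x0, a0, sub_eq_zero] using this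
    have := k x (e * (e + 1) * x ^ 2) (mul_pos (by rcases q with k | k <;> nlinarith) xx) (by linear_combination e1) (by
      have : 24 * e ^ 2 < 25 * (e * (e + 1)) := by rcases q with k | k <;> nlinarith
      nlinarith [mul_lt_mul_of_pos_right this xx]) x0
    omega
  have ee : 27 ^ 2 ≤ e ^ 2 := by rcases q with k | k <;> nlinarith
  have sq : (a + e * x) ^ 2 ≤ 2 * a ^ 2 + 2 * (e * x) ^ 2 := by nlinarith [sq_nonneg (a - e * x)]
  rcases lt_or_ge ((e * x) ^ 2) (a ^ 2) with c | c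
  · have c1 : (27 * x) ^ 2 < a ^ 2 := by nlinarith [mul_le_mul_of_nonneg_right ee xx.le]
    have c2 : 26 * a ^ 2 < 27 * (a * (x + a)) := by
      rcases lt_or_gt_of_ne a0 with z | z
      · have := abs_lt.1 (show |27 * x| < -a by rw [← abs_of_neg z]; exact sq_lt_sq.1 c1)
        nlinarith
      · have := abs_lt.1 (show |27 * x| < a by exact (sq_lt_sq.1 c1).trans_eq (abs_of_pos z))
        nlinarith
    have := k x (a * (x + a)) (by nlinarith [sq_nonneg a]) (by linear_combination e1) (by nlinarith [sq_nonneg a]) x0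
    omega
  · have c1 : (27 * a) ^ 2 ≤ (e ^ 2 * x) ^ 2 := by nlinarith [mul_le_mul ee c (sq_nonneg a) (sq_nonneg e)]
    have e0 : 0 < e ^ 2 := by omega
    have c2 : 26 * (e * x) ^ 2 ≤ 27 * (x * (a + e ^ 2 * x)) := by
      rcases lt_or_gt_of_ne x0 with z | z
      · have := abs_le.1 (show |27 * a| ≤ -(e ^ 2 * x) by
          rw [← abs_of_neg (mul_neg_of_pos_of_neg e0 z)]; exact sq_le_sq.1 c1)
        nlinarith
      · have := abs_le.1 (show |27 * a| ≤ e ^ 2 * x by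
          exact (sq_le_sq.1 c1).trans_eq (abs_of_pos (mul_pos e0 z)))
        nlinarith
    have ex : 0 < (e * x) ^ 2 := by rw [mul_pow]; exact mul_pos e0 xx
    have := k (x + a + f) (x * (a + e ^ 2 * x)) (by omega) (by linear_combination e1 - E * x * e3) (by omega) (by omega)
    omega

variable {G : Type u} {M : Type v} {N : Type w} [Group G] [Fintype G] [Group M] [Fintype M] [Group N] [Fintype N]

/-- a block with the columns of the principal block contains a linear character -/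
theorem GD.deg_one {d : ND N} {t : G} {ι : M →* 𝒞[t]} {κ : M →* N} (h : GD d t ι κ) (q : 27 ≤ d.q) (K : Subgroup M)
    (hs : ∀ n, ∃ m ∈ K, κ m = n) (hk : ∀ m ∈ K, κ m = 1 → m = 1) (uK : h.uM ∈ K)
    {lam : 𝒞[t] →* ℂˣ} {Λ : G → ℂ} {B : Finset (G → ℂ)} (k : Blk t lam Λ B) (hl : ∀ m, lam (ι m) = 1) :
    ∃ χ, IsIrrCharacter G χ ∧ proj B χ = χ ∧ χ 1 = 1 := by
  have q' : 27 ≤ d.e ∨ d.e ≤ -27 := by rcases d.eq with e | e <;> omega
  obtain ⟨χ, ψ, s, n, o⟩ := h.num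
  obtain ⟨b1, b2⟩ := o.bd K ⊥ (by simp) hs (fun m hm e => by simp [hk m hm e]) uK (fun m _ _ o ho => ⟨m, rfl, by
    rw [mem_bot.1 ho, one_mul]⟩) fun o ho => ⟨h.tM, h.κt, by
      rw [mem_bot.1 ho, one_mul, h.ιt]; exact h.cj _ (congrArg Subtype.val h.uC2) fun e => h.uC1 (Subtype.ext e)⟩
  obtain ⟨p0, p1⟩ := num0 q' o.e3 o.s0 (fun p => by
    have := (b1 p).trans (re_sum_le (IsIrr.isChar (o.c1 p)) ⊥ o.χ1)
    rw [card_bot, Nat.cast_one, one_mul, one_mul] at this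
    have : d.e ^ 2 - 1 + d.e ≤ s := by exact_mod_cast this
    omega) fun p => by
    have := (b2 p).trans (re_sum_le (IsIrr.isChar (o.c2 p)) ⊥ o.ψ1)
    rw [card_bot, Nat.cast_one, one_mul, one_mul] at this
    have : d.e ^ 2 + d.e ≤ n := by exact_mod_cast this
    nlinarith
  have H0 : (0 : ℤ) < (𝒞[t]).index := by exact_mod_cast Nat.pos_of_ne_zero index_ne_zero_of_finite
  have hE : 5 * ((𝒞[t]).index : ℤ) ≤ 6 * (h.A ^ 2 * (d.e * (d.e - 1) * (d.e + 1) ^ 2)) :=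
    le_of_mul_le_mul_right (by nlinarith [o.e1, mul_le_mul_of_nonneg_left p1 H0.le]) p0
  obtain ⟨x, a, b, c, f, y, o⟩ := h.main k hl
  obtain ⟨xt, -, -, -, -, yt⟩ := o.at_t k hl
  obtain ⟨x1, hx⟩ := ZIrr.deg_int o.dx.mem_ZIrr
  obtain ⟨a1, ha⟩ := ZIrr.deg_int o.da.mem_ZIrr
  obtain ⟨f1, hf⟩ := ZIrr.deg_int o.df.mem_ZIrr
  obtain ⟨o1, o2, o3⟩ := o.odd (g := 1) (by simp)
  rw [hx, ha] at o1 o3
  rw [hx, hf] at o2
  rw [hf] at o3
  have hb : b 1 = -(x1 + a1) := by linear_combination o1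
  have hc : c 1 = -(x1 + f1) := by linear_combination o2
  have hy : y 1 = -(x1 + a1 + f1) := by linear_combination o3
  have x0 : (x1 : ℂ) ≠ 0 := hx ▸ o.dx.deg_ne_zero
  have a0 : (a1 : ℂ) ≠ 0 := ha ▸ o.da.deg_ne_zero
  have f0 : (f1 : ℂ) ≠ 0 := hf ▸ o.df.deg_ne_zero
  have b0 : (x1 : ℂ) + a1 ≠ 0 := neg_ne_zero.1 (hb ▸ o.db.deg_ne_zero)
  have c0 : (x1 : ℂ) + f1 ≠ 0 := neg_ne_zero.1 (hc ▸ o.dc.deg_ne_zero)
  have y0 : (x1 : ℂ) + a1 + f1 ≠ 0 := neg_ne_zero.1 (hy ▸ o.dy.deg_ne_zero)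
  obtain ⟨e1, e2, e3⟩ := o.eqs k hl
  simp only [hx, ha, hb, hc, hf, hy, div_neg] at e1 e2 e3
  rcases num1 (x := x1) (a := a1) (f := f1) q' H0 hE (by exact_mod_cast x0) (by exact_mod_cast a0) (by exact_mod_cast b0)
    (Int.cast_injective (α := ℂ) (by push_cast; rw [← e1]; field_simp; ring))
    (Int.cast_injective (α := ℂ) (by
      push_cast
      rw [show (h.A : ℂ) ^ 2 * (d.e * (d.e - 1) * (d.e + 1) ^ 2) * (d.e + 1) =
        h.A ^ 2 * (d.e * (d.e + 1) ^ 3) * (d.e - 1) by ring, ← e2]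
      field_simp; ring))
    (Int.cast_injective (α := ℂ) (by push_cast; field_simp at e3; linear_combination e3))
    (by simpa using (deg3 h.four h.cj o.dx (e := 1) hx (by simp [xt])).1)
    (by simpa [sub_eq_add_neg] using (deg3 h.four h.cj o.dy (d := -(x1 + a1 + f1)) (e := -1) (by simp [hy])
      (by simp [yt])).1) with e | e
  · exact ⟨x, o.dx.irr_of_deg_pos (by simp [hx, e]), o.px, by simp [hx, e]⟩
  · have : (-y) 1 = 1 := by rw [Pi.neg_apply, hy, neg_neg]; exact_mod_cast e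
    exact ⟨-y, o.dy.neg.irr_of_deg_pos (by simp [this]), by rw [map_neg, o.py], this⟩

/-- `C(t) = C₀` -/
theorem DH.c0_eq [IsSimpleGroup G] {t u w j : G} {C0 : Subgroup G} {κ : C0 →* N} {d : ND N}
    (h : DH t u w j C0 κ d.t d.u) (fa : FAP t u C0) (q : 27 ≤ d.q) {K1 : Subgroup G} (uK : u ∈ K1)
    (hs : ∀ n, ∃ m : C0, (m : G) ∈ K1 ∧ κ m = n) (hL : K1 ⊓ UU t = ⊥) : C0 = 𝒞[t] := by
  by_contra ne
  obtain ⟨g, -, gu⟩ := h.ag.g0.gd
  have r : (inclusion h.ag.le).range = C0.subgroupOf 𝒞[t] := inclusion_range _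
  have := g.alp.normal
  obtain ⟨l, l1, lk⟩ := exists_lin_ne_one_of_ne_top (N := (inclusion h.ag.le).range)
    (commutator_le.2 fun a _ b _ => g.alp.com a b) (by
      rw [r, Ne, subgroupOf_eq_top]; exact fun e => ne (h.ag.le.antisymm e))
  have lo : orderOf l ∣ (inclusion h.ag.le).range.index := orderOf_dvd_of_pow_eq_one (MonoidHom.ext fun c => by
    rw [MonoidHom.pow_apply, ← map_pow]; exact lk (pow_index_mem _ c))
  have l0 : orderOf l ≠ 0 := fun e => index_ne_zero_of_finite (Nat.eq_zero_of_zero_dvd (e ▸ lo))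
  obtain ⟨p, hp, pd⟩ := Nat.exists_prime_and_dvd (mt orderOf_eq_one_iff.1 l1)
  have op : Odd p := hp.odd_of_ne_two fun e => g.alp.odd ((e ▸ pd).trans lo)
  have o := orderOf_pow_orderOf_div l0 pd
  have lk' : (inclusion h.ag.le).range ≤ (l ^ (orderOf l / p)).ker := fun c hc => by
    rw [MonoidHom.mem_ker, MonoidHom.pow_apply, show l c = 1 from lk hc, one_pow]
  generalize l ^ (orderOf l / p) = lam at o lk'
  obtain ⟨Λ, cf, hΛ, hi⟩ := h.exists_Lam fa (lam := lam) (fun c hc => lk' (r ▸ hc)) hp op fun c => by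
    rw [← MonoidHom.pow_apply, ← o, pow_orderOf_eq_one]; rfl
  obtain ⟨B, k⟩ := exists_blk h.ag.t2 lam (mem_CF.2 cf) hΛ hi
  obtain ⟨χ, iχ, pχ, χ1⟩ := g.deg_one q (K1.subgroupOf C0) hs (fun m hm e => Subtype.ext (mem_bot.1
    (hL ▸ (⟨hm, (h.hk m).1 e⟩ : (m : G) ∈ K1 ⊓ UU t)))) (gu ▸ uK) k fun m => lk' ⟨m, rfl⟩
  obtain ⟨μ, rfl⟩ := IsChar.exists_lin_of_deg_one (IsIrr.isChar iχ) χ1
  obtain rfl : μ = 1 := by
    rcases (MonoidHom.normal_ker μ).eq_bot_or_eq_top with e | e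
    · obtain ⟨c, hc⟩ := h.l.one u h.l.iu
      exact absurd ((MonoidHom.ker_eq_bot_iff μ).1 e (by rw [← hc, map_mul, map_mul, map_inv, mul_inv_cancel_comm])) h.l.ut
    · exact MonoidHom.ext fun x => (e.ge (mem_top x) : x ∈ μ.ker)
  have s := k.sec' (lin_mem_CF 1) ⟨t, mem_cent_singleton_self t⟩ (mem_zpowers t)
  have i1 : lin lam⁻¹ * lin (1 : G →* ℂˣ) ∘ 𝒞[t].subtype = lin lam⁻¹ * 1 := rfl
  rw [pχ, i1, proj_irr (B0_subset 2) (IsIrr.lin_mul one_irr _)] at s
  split_ifs at s with m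
  · rw [inv_eq_one.1 (g.alp.lin_one (fun c hc => inv_eq_one.2 (lk' hc)) (one_mem_B0 Nat.prime_two) m), orderOf_one] at o
    exact hp.ne_one o.symm
  · simp at s

end CA.Abg
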