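import Cfsg.Agent.Abg.D3
import Cfsg.Agent.Abg.FA1

/-!
# The case `a = 1`: `C(t) = C₀` in the model
-/

set_option autoImplicit false
set_option linter.unusedSectionVars false
set_option linter.unusedVariables false

open Cfsg Subgroup CA.FG CA.BG CA.GW
open scoped MatrixGroups

namespace CA.Abg

universe u

variable {G X Γ N : Type u} [Group G] [Group X] [Group Γ] [Group N] [Finite G] [Finite X] [Finite Γ] [Finite N]
  {F : Type} [Field F] [Fintype F] {t u w j : G}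

theorem DH.LK_bot [IsSimpleGroup G] {C0 : Subgroup G} {κ : C0 →* N} {tN uN : N} (h : DH t u w j C0 κ tN uN)
    (l5 : LH5 t u w j) (ix : IXP t u) : LL t (u * w) ⊓ UU t = ⊥ := by
  refine (l5.mult (LL_le (norm_cent (UU_norm t)) (mem_centralizer_iff.2 fun k hk =>
    ((h.cK h.l.uC h.l.iu.1 hk).mul_left (h.cK h.l.wC h.l.iw.1 hk)).symm.eq))).elim id fun ⟨p3, h3⟩ => ?_
  obtain ⟨ρ, rt, ru⟩ := h.l.pair (a := u) (b := t * u) ⟨h.l.iu, h.l.four.ts, (IsInv.mul_ne' h.l.it).symm, by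
    rw [← mul_assoc, ← h.l.four.comm]⟩
  have rv : ρ * (t * u) * ρ⁻¹ = t := by rw [← cj_mul, rt, ru, h.l.four.comm, ← mul_assoc, h.l.iu.1, one_mul]
  have Ku : ∀ k ∈ UU t, k ∈ 𝒞[u] := fun k hk => mem_centralizer_singleton_iff.2 (h.cK h.l.uC h.l.iu.1 hk).symm.eq
  let J := closure {x | x ∈ UU t ∧ IsPiElt {3} x}
  have n : ∀ g, (∀ x ∈ UU t, IsPiElt {3} x → g * x * g⁻¹ ∈ UU t) → g ∈ 𝒩(J) := fun g hg => mem_norm_of_conjg_le (by
    rw [conjg_closure]
    exact closure_mono (by rintro _ ⟨x, hx, rfl⟩; exact ⟨hg x hx.1 hx.2, hx.2.conj g⟩))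
  have top : 𝒩(J) = ⊤ := by_contra fun ne => ix _ ne (fun c hc => n c fun x hx _ => (mem_normalizer_iff.1 (UU_norm t hc) x).1 hx)
    ρ (n ρ fun x hx p => h3 _ ⟨by
      rw [← rv]
      exact cj_cent.2 (mem_centralizer_singleton_iff.2 (Commute.mul_right
        (mem_centralizer_singleton_iff.1 (UU_le t hx)) (mem_centralizer_singleton_iff.1 (Ku x hx)))), by
      rw [← rt]; exact cj_cent.2 (UU_le t hx)⟩ (p.conj ρ)) rt
  have JK : J ≤ UU t := (closure_le _).2 fun x hx => hx.1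
  rcases (normalizer_eq_top_iff.1 top).eq_bot_or_eq_top with e | e
  · exact eq_bot_iff.2 fun x hx => e ▸ subset_closure ⟨hx.2, p3.piElt hx⟩
  · exact absurd (eq_one_of_odd (UU_odd t) (JK (e ▸ mem_top t)) h.l.it.1) h.l.it.2

theorem c0_of [IsSimpleGroup G] {S : Subgroup G} {f : (𝒞[t] : Subgroup G) →* X} {p : X →* Γ} {ι : SL(2, F) →* Γ} {ζ : X}
    {C0 : Subgroup G} {κ : C0 →* N} {e : N →* X} [Fintype N] {d : ND N} (h : MD t u w j S f p ι ζ)
    (k : MK t u w S f p ι C0 κ e d.t d.u) (q : d.q = Fintype.card F) (a : A1 G) (ix : IXP t u) (tn : TN d.t d.u) :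
    C0 = 𝒞[t] := by
  have := Fintype.ofFinite G
  by_contra ne
  have q27 := q27_of h k ne
  have D : DH t u w j C0 κ d.t d.u := ⟨h.lh, a, k.ag, k.ker, tn⟩
  exact ne (D.c0_eq (fap_of h k) (q ▸ q27) (mem_sup_right h.uS) (k.k1 (by omega)) (eq_bot_iff.2
    ((le_inf k.k1K inf_le_right).trans (D.LK_bot (h.q5.resolve_left (by omega)).2.1 ix).le)))

end CA.Abg
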