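import Cfsg.Agent.Abg.DM

/-!
# The case `a = 1`, `C(t) = C₀`: the extension `K . N` is central and splits
-/

set_option autoImplicit false
set_option linter.unusedSectionVars false
set_option linter.unusedVariables false

open Cfsg Subgroup CA.FG CA.BG CA.GW

namespace CA.Abg

universe u w

variable {G : Type u} {N : Type w} [Group G] [Group N] [Finite G] [Finite N] {t u w j : G}

theorem IXP.triv [IsSimpleGroup G] (ix : IXP t u) (it : IsInv t) {g : G} (e : g * t * g⁻¹ = u) {S : Set G}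
    (hK : ∀ s ∈ S, s ∈ UU t) (hC : ∀ c ∈ 𝒞[t], ∀ s ∈ S, c * s * c⁻¹ ∈ S) (hg : ∀ s ∈ S, g * s * g⁻¹ ∈ S) :
    ∀ s ∈ S, s = 1 := fun s hs => by
  have n : ∀ g, (∀ s ∈ S, g * s * g⁻¹ ∈ S) → g ∈ 𝒩(closure S) := fun g hg => mem_norm_of_conjg_le (by
    rw [conjg_closure]
    exact closure_mono (by rintro _ ⟨x, hx, rfl⟩; exact hg x hx))
  have top : 𝒩(closure S) = ⊤ := by_contra fun ne => ix _ ne (fun c hc => n c (hC c hc)) g (n g hg) e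
  rcases (normalizer_eq_top_iff.1 top).eq_bot_or_eq_top with e | e
  · exact mem_bot.1 (e ▸ subset_closure hs)
  · exact absurd (eq_one_of_odd (UU_odd t) ((closure_le (UU t)).2 hK (e ▸ mem_top t)) it.1) it.2

namespace DH

variable [IsSimpleGroup G] {κ : 𝒞[t] →* N} {tN uN : N} (h : DH t u w j 𝒞[t] κ tN uN) (ix : IXP t u)
include h

theorem Ku {k : G} (hk : k ∈ UU t) : k ∈ 𝒞[u] := mem_centralizer_singleton_iff.2 (h.cK h.l.uC h.l.iu.1 hk).symm.eq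

theorem rho : ∃ ρ, ρ * t * ρ⁻¹ = u ∧ ρ * u * ρ⁻¹ = t * u ∧ (∀ y ∈ 𝒞[t], y ∈ 𝒞[u] → ρ * y * ρ⁻¹ ∈ 𝒞[t] ⊓ 𝒞[u]) ∧
    ∀ k ∈ UU t, ∃ x, II t u w x ∧ ∃ l ∈ UU t, ρ * k * ρ⁻¹ = x * l := by
  obtain ⟨ρ, rt, ru⟩ := h.l.pair (a := u) (b := t * u) ⟨h.l.iu, h.l.four.ts, (IsInv.mul_ne' h.l.it).symm, by
    rw [← mul_assoc, ← h.l.four.comm]⟩
  have rv : ρ * (t * u) * ρ⁻¹ = t := by rw [← cj_mul, rt, ru, h.l.four.comm, ← mul_assoc, h.l.iu.1, one_mul]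
  have D : ∀ y ∈ 𝒞[t], y ∈ 𝒞[u] → ρ * y * ρ⁻¹ ∈ 𝒞[t] ⊓ 𝒞[u] := fun y a b => mem_inf.2 ⟨by
    rw [← rv]
    exact cj_cent.2 (mem_centralizer_singleton_iff.2 (Commute.mul_right
      (mem_centralizer_singleton_iff.1 a) (mem_centralizer_singleton_iff.1 b))), by rw [← rt]; exact cj_cent.2 a⟩
  exact ⟨ρ, rt, ru, D, fun k hk => h.dec (D k (UU_le t hk) (h.Ku hk)).1 (D k (UU_le t hk) (h.Ku hk)).2
    (by rw [orderOf_conj]; exact odd_UU hk)⟩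

theorem DI {d x : G} (ct : d ∈ 𝒞[t]) (cu : d ∈ 𝒞[u]) (hx : II t u w x) : Commute d x := by
  have := h.Iinj (h.Imul (h.Inorm ct cu hx) (hx.zpow (inv_mem (mem_zpowers x)))) (II.one t u w)
    (h.comK ct cu hx.ct hx.cu) (one_mul _).symm
  rwa [mul_inv_eq_one, mul_inv_eq_iff_eq_mul] at this

include ix

theorem Kcomm {k l : G} (hk : k ∈ UU t) (hl : l ∈ UU t) : Commute k l := by
  obtain ⟨ρ, rt, -, -, hρ⟩ := h.rho
  have := ix.triv h.l.it rt (S := {z | ∃ k ∈ UU t, ∃ l ∈ UU t, z = k * l * k⁻¹ * l⁻¹})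
    (by rintro _ ⟨k, hk, l, hl, rfl⟩; exact mul_mem (mul_mem (mul_mem hk hl) (inv_mem hk)) (inv_mem hl))
    (by
      rintro c hc _ ⟨k, hk, l, hl, rfl⟩
      exact ⟨_, (mem_normalizer_iff.1 (UU_norm t hc) k).1 hk, _, (mem_normalizer_iff.1 (UU_norm t hc) l).1 hl, by group⟩)
    (by
      rintro _ ⟨k, hk, l, hl, rfl⟩
      obtain ⟨x, hx, k', hk', e⟩ := hρ k hk
      obtain ⟨y, hy, l', hl', e'⟩ := hρ l hl
      refine ⟨k', hk', l', hl', ?_⟩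
      have m := mul_mem (mul_mem (mul_mem hk' hl') (inv_mem hk')) (inv_mem hl')
      calc _ = ρ * k * ρ⁻¹ * (ρ * l * ρ⁻¹) * (ρ * k * ρ⁻¹)⁻¹ * (ρ * l * ρ⁻¹)⁻¹ := by group
        _ = x * (k' * y) * l' * k'⁻¹ * (x⁻¹ * l'⁻¹) * y⁻¹ := by rw [e, e']; group
        _ = x * y * (k' * l' * k'⁻¹ * l'⁻¹) * (y * x)⁻¹ := by rw [← (h.IK hy hk').eq, (h.IK hx hl').inv_inv.eq]; group
        _ = _ := by rw [← (h.Icomm hx hy).eq, (h.IK (h.Imul hx hy) m).eq, mul_inv_cancel_right])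
    _ ⟨k, hk, l, hl, rfl⟩
  rwa [mul_inv_eq_one, mul_inv_eq_iff_eq_mul] at this

theorem Kpow {n : ℕ} (hn : ∀ x : N, Commute x uN → Odd (orderOf x) → x ^ n = 1) {k : G} (hk : k ∈ UU t) : k ^ n = 1 := by
  obtain ⟨ρ, rt, -, -, hρ⟩ := h.rho
  refine ix.triv h.l.it rt (S := {z | ∃ k ∈ UU t, z = k ^ n}) (by rintro _ ⟨k, hk, rfl⟩; exact pow_mem hk n)
    (by rintro c hc _ ⟨k, hk, rfl⟩; exact ⟨_, (mem_normalizer_iff.1 (UU_norm t hc) k).1 hk, conj_pow.symm⟩) ?_ _ ⟨k, hk, rfl⟩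
  rintro _ ⟨k, hk, rfl⟩
  obtain ⟨x, hx, l, hl, e⟩ := hρ k hk
  have := h.Iinj (hx.zpow (npow_mem_zpowers x n)) (II.one t u w) ((h.hk (⟨x, hx.ct⟩ ^ n)).1 (by
    rw [map_pow]
    exact hn _ (h.commN _ hx.cu) (hx.odd.of_dvd_nat (by
      rw [← Subgroup.orderOf_mk x hx.ct]; exact orderOf_map_dvd _ _)))) (one_mul _).symm
  exact ⟨l, hl, by rw [← conj_pow, e, (h.IK hx hl).mul_pow, show x ^ n = 1 from this, one_mul]⟩

theorem Kcen (mj : MJ uN) {k c : G} (hk : k ∈ UU t) (hc : c ∈ 𝒞[t]) : Commute k c := by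
  obtain ⟨ρ, rt, -, hD, hρ⟩ := h.rho
  by_cases z : ∃ x : N, x ≠ 1 ∧ Odd (orderOf x) ∧ Commute x uN
  swap
  · rw [← pow_one k, h.Kpow ix (fun x c o => by_contra fun e => z ⟨x, by simpa using e, o, c⟩) hk]
    exact Commute.one_left c
  have : ((𝒞(UU t)).subgroupOf 𝒞[t]).Normal :=
    (normal_subgroupOf_iff_le_normalizer_inf).2 (norm_inf (norm_cent (UU_norm t)) le_normalizer)
  have dec : ∀ c ∈ 𝒞[t], ∃ a ∈ 𝒞(UU t), ∃ d ∈ 𝒞[t], d ∈ 𝒞[u] ∧ c = a * d := fun c hc => by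
    obtain ⟨_, ⟨a, ha, rfl⟩, y, cy, e⟩ := mj (((𝒞(UU t)).subgroupOf 𝒞[t]).map κ) (this.map κ h.ag.sur) (fun i i2 => by
      obtain ⟨m, rfl⟩ := h.ag.sur i
      obtain ⟨r, hr⟩ := odd_UU ((h.hk (m * m)).1 (by rw [map_mul, i2]))
      have m2 : (m : G) ^ (2 * r + 1) * (m : G) ^ (2 * r + 1) = 1 := by
        rw [← (Commute.refl (m : G)).mul_pow, ← hr]; exact pow_orderOf_eq_one _
      exact ⟨m ^ (2 * r + 1), mem_centralizer_iff.2 fun k hk => (h.cK (pow_mem m.2 _) m2 hk).symm.eq, by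
        rw [map_pow, pow_succ, pow_mul, pow_two, i2, one_pow, one_mul]⟩) z (κ ⟨c, hc⟩)
    obtain ⟨d, rfl⟩ := h.ag.sur y
    have m := (h.hk (⟨c, hc⟩ * d⁻¹ * a⁻¹)).1 (by simp only [map_mul, map_inv, e]; group)
    exact ⟨_, mul_mem (mem_centralizer_iff.2 fun k hk => (h.Kcomm ix hk m).eq) ha, d, d.2, h.memD cy, by simp⟩
  have := ix.triv h.l.it rt (S := {z | ∃ k ∈ UU t, ∃ c ∈ 𝒞[t], z = k * c * k⁻¹ * c⁻¹})
    (by
      rintro _ ⟨k, hk, c, hc, rfl⟩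
      simpa [mul_assoc] using mul_mem hk ((mem_normalizer_iff.1 (UU_norm t hc) _).1 (inv_mem hk)))
    (by
      rintro c hc _ ⟨k, hk, l, hl, rfl⟩
      exact ⟨_, (mem_normalizer_iff.1 (UU_norm t hc) k).1 hk, _, mul_mem (mul_mem hc hl) (inv_mem hc), by group⟩)
    (by
      rintro _ ⟨k, hk, c, hc, rfl⟩
      obtain ⟨a, ha, d, dt, du, rfl⟩ := dec c hc
      obtain ⟨x, hx, l, hl, e⟩ := hρ k hk
      obtain ⟨d1, d2⟩ := hD d dt du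
      refine ⟨l, hl, _, d1, ?_⟩
      have m := (mem_normalizer_iff.1 (UU_norm t dt) _).1 (inv_mem hk)
      have m' := mul_mem hl ((mem_normalizer_iff.1 (UU_norm t d1) _).1 (inv_mem hl))
      generalize hd : ρ * d * ρ⁻¹ = d' at *
      calc _ = ρ * (k * (a * (d * k⁻¹ * d⁻¹)) * a⁻¹) * ρ⁻¹ := by group
        _ = ρ * k * ρ⁻¹ * d' * (ρ * k * ρ⁻¹)⁻¹ * d'⁻¹ := by rw [← mem_centralizer_iff.1 ha _ m, ← hd]; group
        _ = x * l * d' * l⁻¹ * (x⁻¹ * d'⁻¹) := by rw [e]; group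
        _ = x * (l * (d' * l⁻¹ * d'⁻¹)) * x⁻¹ := by rw [← (h.DI d1 d2 hx).inv_inv.eq]; group
        _ = _ := by rw [(h.IK hx m').eq]; group)
    _ ⟨k, hk, c, hc, rfl⟩
  rwa [mul_inv_eq_one, mul_inv_eq_iff_eq_mul] at this

theorem Kcyc (c : ∀ k ∈ UU t, ∀ c ∈ 𝒞[t], Commute k c) : IsCyclic (UU t) := by
  obtain ⟨ρ, rt, ru, hD, -⟩ := h.rho
  obtain ⟨η, -, -, hη⟩ := h.tn.cyc
  have m : ∀ k : UU t, ρ * k * ρ⁻¹ ∈ 𝒞[t] ⊓ 𝒞[u] := fun k => hD k (UU_le t k.2) (h.Ku k.2)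
  let θ : UU t →* N := κ.comp (((MulAut.conj ρ).toMonoidHom.comp (UU t).subtype).codRestrict _ fun k => (m k).1)
  refine isCyclic_of_injective (θ.codRestrict (zpowers η) fun k => hη _ (h.commN (m k).1 (m k).2)
    ((odd_UU k.2).of_dvd_nat (by rw [Subgroup.orderOf_coe]; exact orderOf_map_dvd θ k))) ((injective_iff_map_eq_one _).2 fun k e => ?_)
  have e : ρ * k * ρ⁻¹ ∈ UU t := (h.hk _).1 (congrArg Subtype.val e)
  refine Subtype.ext (ix.triv h.l.it (g := ρ⁻¹ * w * ρ) (S := {(k : G)}) ?_ (by simp) ?_ ?_ _ rfl)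
  · calc _ = ρ⁻¹ * (w * (ρ * t * ρ⁻¹) * w⁻¹) * ρ := by group
      _ = _ := by rw [rt, h.l.wu, ← ru]; group
  · rintro a ha _ rfl
    rw [← (c _ k.2 a ha).eq, mul_inv_cancel_right]; rfl
  · rintro _ rfl
    calc _ = ρ⁻¹ * (w * (ρ * k * ρ⁻¹) * w⁻¹) * ρ := by group
      _ = (k : G) := by rw [← (c _ e w h.l.wC).eq]; group

omit ix in
theorem Dcomm (c : ∀ k ∈ UU t, ∀ c ∈ 𝒞[t], Commute k c) {x y : G} (xt : x ∈ 𝒞[t]) (xu : x ∈ 𝒞[u]) (yt : y ∈ 𝒞[t])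
    (yu : y ∈ 𝒞[u]) : Commute x y := by
  have k := h.comK xt xu yt yu
  obtain ⟨a, o⟩ := exists_two_pow x
  obtain ⟨z, hz, l, hl, e⟩ := h.dec (pow_mem xt _) (pow_mem xu _) o
  have := conj_pow_comm (x := x) (y := y) (by rw [inv_mul_cancel_right]) (c _ k _ xt) (2 ^ a)
  rw [e, ((h.DI yt yu hz).symm.mul_left (c _ hl _ yt)).eq, mul_inv_cancel_right, eq_comm, mul_eq_right] at this
  have := eq_one_of_cop ((Nat.coprime_two_left.2 (odd_UU k)).pow_left a) this (pow_orderOf_eq_one _)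
  rwa [mul_inv_eq_one, mul_inv_eq_iff_eq_mul] at this

omit ix in
theorem sect (c : ∀ k ∈ UU t, ∀ c ∈ 𝒞[t], Commute k c) (co : (𝒞[uN]).index.Coprime (Nat.card κ.ker)) :
    ∃ s : N →* 𝒞[t], ∀ x, κ (s x) = x := by
  have c' : ∀ (k : κ.ker) (x : 𝒞[t]), Commute (k : 𝒞[t]) x := fun k x => Subtype.ext (c _ ((h.hk _).1 k.2) _ x.2)
  let _ : CommGroup κ.ker := { (inferInstance : Group κ.ker) with mul_comm := fun a b => Subtype.ext (c' a b) }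
  obtain ⟨a, m, hm, e⟩ := Nat.exists_eq_two_pow_mul_odd (Nat.card_pos (α := G)).ne'
  have o : ∀ x : G, Odd (orderOf (x ^ 2 ^ a)) := fun x =>
    hm.of_dvd_nat (orderOf_dvd_of_pow_eq_one (by rw [← pow_mul, ← e, pow_card_eq_one']))
  have hu : ∀ x : (𝒞[uN]).comap κ, (x.1 : G) ∈ 𝒞[u] := fun x => h.memD (mem_centralizer_singleton_iff.1 x.2)
  let W : 𝒞[t] := ⟨w, h.l.wC⟩
  have wu : ∀ x : (𝒞[uN]).comap κ, ((W * x.1 * W⁻¹ : 𝒞[t]) : G) ∈ 𝒞[u] := fun x => by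
    change w * x.1 * w⁻¹ ∈ _
    rw [← h.l.wtu, cj_cent]
    exact mem_centralizer_singleton_iff.2 (Commute.mul_right
      (mem_centralizer_singleton_iff.1 x.1.2) (mem_centralizer_singleton_iff.1 (hu x)))
  let φ : (𝒞[uN]).comap κ →* κ.ker := MonoidHom.mk' (fun x => ⟨x.1 ^ 2 ^ a * (W * x.1 * W⁻¹) ^ 2 ^ a, (h.hk _).2 (by
      obtain ⟨z, hz, l, hl, e⟩ := h.dec (pow_mem x.1.2 _) (pow_mem (hu x) _) (o _)
      change (x.1 : G) ^ 2 ^ a * (w * x.1 * w⁻¹) ^ 2 ^ a ∈ _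
      rw [conj_pow, e, ← cj_mul, hz.inv, ← (c _ hl _ h.l.wC).eq, mul_inv_cancel_right, (h.IK hz hl).eq, mul_assoc,
        mul_inv_cancel_left]
      exact mul_mem hl hl)⟩) fun x y => Subtype.ext (by
    have c1 : Commute x.1 y.1 := Subtype.ext (h.Dcomm c x.1.2 (hu x) y.1.2 (hu y))
    have c2 : Commute (W * x.1 * W⁻¹) y.1 := Subtype.ext (h.Dcomm c (W * x.1 * W⁻¹).2 (wu x) y.1.2 (hu y))
    change (x.1 * y.1) ^ _ * (W * (x.1 * y.1) * W⁻¹) ^ _ = _ * _ * (_ * _)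
    rw [c1.mul_pow, conj_pow, c1.mul_pow, ← cj_mul, ← conj_pow, ← conj_pow, mul_assoc (x.1 ^ _), mul_assoc (x.1 ^ _),
      ← mul_assoc (y.1 ^ _), ← (c2.pow_pow _ _).eq, mul_assoc (_ ^ _)])
  have ht : ∀ k : κ.ker, MonoidHom.transfer φ k = k ^ (2 ^ (a + 1) * (𝒞[uN]).index) := fun k => by
    rw [MonoidHom.transfer_eq_pow φ k fun n g _ => by rw [mul_assoc, ((c' k g).pow_left n).eq, inv_mul_cancel_left]]
    refine Subtype.ext ?_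
    change (k.1 ^ _) ^ _ * (W * k.1 ^ _ * W⁻¹) ^ _ = k.1 ^ _
    rw [← ((c' k W).pow_left _).eq, mul_inv_cancel_right, ← pow_add, ← pow_mul, index_comap_of_surjective _ h.ag.sur]
    congr 1
    ring
  obtain ⟨r, hr⟩ : ∃ r, ∀ k : κ.ker, (k ^ (2 ^ (a + 1) * (𝒞[uN]).index)) ^ r = k := by
    obtain ⟨r, -, hr⟩ := Nat.exists_mul_mod_eq_of_coprime 1 (((Nat.coprime_two_left.2 h.ag.ko).pow_left (a + 1)).mul_left co)
      Nat.card_pos.ne'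
    exact ⟨r, fun k => by rw [← pow_mul, ← pow_mod_natCard, hr, pow_mod_natCard, pow_one]⟩
  let π : 𝒞[t] →* 𝒞[t] := MonoidHom.mk' (fun x => x * ((MonoidHom.transfer φ x ^ r)⁻¹ : κ.ker)) fun x y => by
    rw [map_mul, mul_pow, mul_inv, Subgroup.coe_mul κ.ker, mul_assoc x, mul_assoc x,
      (c' _ y).left_comm]
  refine ⟨κ.liftOfRightInverse _ (Function.rightInverse_surjInv h.ag.sur) ⟨π, fun k hk => ?_⟩, fun x => ?_⟩
  · change k * ((MonoidHom.transfer φ (⟨k, hk⟩ : κ.ker) ^ r)⁻¹ : κ.ker) = 1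
    rw [ht, hr]; simp
  · obtain ⟨x, rfl⟩ := h.ag.sur x
    rw [MonoidHom.liftOfRightInverse_comp_apply]
    change κ (x * _) = _
    rw [map_mul, show κ _ = 1 from Subtype.property (_ : κ.ker), mul_one]

theorem splits (mj : MJ uN) {n : ℕ} (hn : ∀ x : N, Commute x uN → Odd (orderOf x) → x ^ n = 1)
    (co : ∀ l, l.Prime → Odd l → l ∣ n → ¬ l ∣ (𝒞[uN]).index) : IsCyclic (UU t) ∧ Nat.card (UU t) ∣ n ∧
      (∀ k ∈ UU t, ∀ c ∈ 𝒞[t], Commute k c) ∧ ∃ s : N →* 𝒞[t], ∀ x, κ (s x) = x := by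
  have c : ∀ k ∈ UU t, ∀ c ∈ 𝒞[t], Commute k c := fun k hk c hc => h.Kcen ix mj hk hc
  have cy := h.Kcyc ix c
  have dv : Nat.card (UU t) ∣ n := by
    rw [← IsCyclic.exponent_eq_card]
    exact Monoid.exponent_dvd_of_forall_pow_eq_one fun k => Subtype.ext (h.Kpow ix hn k.2)
  refine ⟨cy, dv, c, h.sect c (Nat.Coprime.symm (Nat.coprime_of_dvd fun l hl d => co l hl (h.ag.ko.of_dvd_nat d) ?_))⟩
  rw [show κ.ker = (UU t).subgroupOf 𝒞[t] from Subgroup.ext h.hk, Nat.card_congr (subgroupOfEquivOfLe (UU_le t)).toEquiv] at d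
  exact d.trans dv

end DH

end CA.Abg
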