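import Cfsg.Agent.Abg.D4
import Cfsg.Agent.Abg.DS
import Cfsg.Agent.Abg.B7L
import Cfsg.Agent.Abg.B7U

/-!
# The case `a = 1`: identification
-/

set_option autoImplicit false
set_option linter.unusedSectionVars false
set_option linter.unusedVariables false

open Cfsg Subgroup CA.FG CA.BG CA.GW
open scoped MatrixGroups

namespace CA.Abg

universe u

variable {G X Γ N : Type u} [Group G] [Group X] [Group Γ] [Group N] [Finite G] [Finite X] [Finite Γ] [Finite N]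
  {F : Type} [Field F] [Fintype F] {t u w j : G}

theorem l3_of [IsSimpleGroup G] {S : Subgroup G} {f : (𝒞[t] : Subgroup G) →* X} {p : X →* Γ} {ι : SL(2, F) →* Γ} {ζ : X}
    {C0 : Subgroup G} {κ : C0 →* N} {e : N →* X} {tN uN : N} (h : MD t u w j S f p ι ζ)
    (k : MK t u w S f p ι C0 κ e tN uN) (nm : NM p ι e tN uN) (a : A1 G) (ix : IXP t u) : L3 G := by
  have := Fintype.ofFinite N
  have oc := k.ag.oc k.ker
  have cj := k.ag.cj u h.lh.iu.1 h.lh.iu.2
  rcases nm with ⟨φ, b, hs, rfl, rfl, -⟩ | ⟨K, _, _, φ, b, hs, rfl, rfl⟩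
  · have m := tmL b hs oc
    obtain ⟨d, -, dq, dt, du⟩ := Lin.nd b hs
    obtain rfl := c0_of (d := d) h (dt ▸ du ▸ k) dq a ix (dt ▸ du ▸ m.tn)
    have D : DH t u w j 𝒞[t] κ _ _ := ⟨h.lh, a, k.ag, k.ker, m.tn⟩
    obtain ⟨cy, dv, c, s, e⟩ := D.splits ix (mjL b hs) (fun x => m.pow_card) (coL b hs)
    obtain ⟨Φ, r, l, et, eu⟩ := D.exists_phi m cy dv c s e
    exact finL b hs cj r l et eu
  · have := b.fq.finite
    obtain ⟨w', m⟩ := tmU b hs oc
    have tn := m.tn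
    have pc := fun x => m.pow_card (x := x)
    rw [dO_t, dO_u] at tn
    rw [dO_u] at pc
    obtain ⟨d, -, dq, dt, du⟩ := Uni.nd b hs
    obtain rfl := c0_of (d := d) h (dt ▸ du ▸ k) dq a ix (dt ▸ du ▸ tn)
    have D : DH t u w j 𝒞[t] κ _ _ := ⟨h.lh, a, k.ag, k.ker, tn⟩
    obtain ⟨cy, dv, c, s, e⟩ := D.splits ix (mjU b hs oc) pc (coU b hs)
    obtain ⟨Φ, r, l, et, eu⟩ := DH.exists_phi (by rw [dO_t, dO_u]; exact D) m cy dv c s e
    rw [dO_t] at et
    rw [dO_u] at eu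
    exact finU b hs cj r l et eu

end CA.Abg
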