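import Cfsg.Agent.Abg.Mod4
import Cfsg.Agent.S0483
import Cfsg.Agent.S0486
import Cfsg.Agent.S0516

/-!
# Simple groups of `2`-rank two, given the quasi-dihedral and wreathed case
-/

set_option autoImplicit false

open Cfsg Subgroup

namespace CA.Abg

universe u

/-- `G` is `PSL₃(q)`, `PSU₃(q)` (`q` odd) or simple of order `7920` -/
def L3 (G : Type u) [Group G] : Prop :=
  (∃ (F : Type) (_ : Field F) (_ : Fintype F), Odd (Fintype.card F) ∧
      Nonempty (G ≃* Matrix.ProjectiveSpecialLinearGroup (Fin 3) F)) ∨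
    (∃ (F : Type) (_ : Field F) (_ : Fintype F) (q : ℕ), Fintype.card F = q ^ 2 ∧ Odd q ∧
      Nonempty (G ≃* PSU 3 F q)) ∨ IsM11 G

variable {G : Type u} [Group G] [Finite G] [IsSimpleGroup G]

theorem s0507_of (h : L3 G) (S : Sylow 2 G) (hS : IsQuasiDihedral (S : Subgroup G)) :
    (∃ (F : Type) (_ : Field F) (_ : Fintype F), Fintype.card F % 4 = 3 ∧
      Nonempty (G ≃* Matrix.ProjectiveSpecialLinearGroup (Fin 3) F)) ∨
    (∃ (F : Type) (_ : Field F) (_ : Fintype F) (q : ℕ), Fintype.card F = q ^ 2 ∧ q % 4 = 1 ∧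
      Nonempty (G ≃* PSU 3 F q)) ∨ IsM11 G := by
  rcases h with ⟨F, _, _, o, ⟨e⟩⟩ | ⟨F, _, _, q, c, o, ⟨e⟩⟩ | h
  exacts [.inl ⟨F, _, _, psl_mod S hS o e, ⟨e⟩⟩, .inr (.inl ⟨F, _, _, q, c, psu_mod S hS c o e, ⟨e⟩⟩), .inr (.inr h)]

theorem s0482_of (h : ∀ S : Sylow 2 G, IsQuasiDihedral (S : Subgroup G) ∨ IsWreathed (S : Subgroup G) → L3 G)
    (hG : ¬ IsMulCommutative G) (h2 : PRankLE 2 2 G) :
    (∃ (F : Type) (_ : Field F) (_ : Fintype F), Odd (Fintype.card F) ∧ 5 ≤ Fintype.card F ∧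
        Nonempty (G ≃* Matrix.ProjectiveSpecialLinearGroup (Fin 2) F)) ∨
      (∃ (F : Type) (_ : Field F) (_ : Fintype F), Odd (Fintype.card F) ∧
        Nonempty (G ≃* Matrix.ProjectiveSpecialLinearGroup (Fin 3) F)) ∨
      (∃ (F : Type) (_ : Field F) (_ : Fintype F) (q : ℕ), Fintype.card F = q ^ 2 ∧ Odd q ∧
        Nonempty (G ≃* PSU 3 F q)) ∨
      (∃ (F : Type) (_ : Field F) (_ : Fintype F), Fintype.card F = 16 ∧ Nonempty (G ≃* PSU 3 F 4)) ∨
      Nonempty (G ≃* alternatingGroup (Fin 7)) ∨ IsM11 G := by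
  haveI : Fact (Nat.Prime 2) := ⟨Nat.prime_two⟩
  obtain ⟨S⟩ : Nonempty (Sylow 2 G) := inferInstance
  letI := Fintype.ofFinite (GaloisField 2 4)
  have c : Fintype.card (GaloisField 2 4) = 16 := by
    rw [← Nat.card_eq_fintype_card, GaloisField.card 2 4 (by decide)]; rfl
  obtain ⟨P⟩ : Nonempty (Sylow 2 (PSU 3 (GaloisField 2 4) 4)) := inferInstance
  rcases Agent.S0516.result hG h2 S c P with ⟨n, hn, e⟩ | e | e | e
  · haveI : Group.IsPerfect G := ⟨(commutator_normal ⊤ ⊤).eq_bot_or_eq_top.resolve_left fun e => hG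
      ⟨⟨fun a b => commutatorElement_eq_one_iff_mul_comm.1
        (mem_bot.1 (e ▸ commutator_mem_commutator (mem_top a) (mem_top b)))⟩⟩⟩
    have b : oddCore G = ⊥ := (inferInstance : (oddCore G).Normal).eq_bot_or_eq_top.resolve_right fun t => by
      have o : ¬ 2 ∣ Nat.card (oddCore G) := by
        rw [oddCore, CA.FG.pPrimeCore_eq_top Nat.prime_two]
        exact (CA.FG.piGrp_compl_singleton_iff Nat.prime_two).1 (CA.FG.pcore_piGrp _ _)
      obtain ⟨e⟩ := e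
      rw [t, card_top] at o
      exact o (Dvd.dvd.trans ⟨n, by rw [Nat.card_congr e.toEquiv, DihedralGroup.nat_card]⟩ (card_subgroup_dvd_card S.1))
    have f : G ≃* G ⧸ oddCore G := (QuotientGroup.quotientBot.symm).trans (QuotientGroup.quotientMulEquivOfEq b.symm)
    rcases Agent.S0483.result S n hn e with ⟨F, _, _, o, l, ⟨e⟩⟩ | ⟨⟨e⟩⟩
    · exact .inl ⟨F, _, _, o, by obtain ⟨j, hj⟩ := o; omega, ⟨f.trans e⟩⟩
    · exact .inr (.inr (.inr (.inr (.inl ⟨f.trans e⟩))))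
  · rcases h S (.inl e) with a | a | a
    exacts [.inr (.inl a), .inr (.inr (.inl a)), .inr (.inr (.inr (.inr (.inr a))))]
  · rcases h S (.inr e) with a | a | a
    exacts [.inr (.inl a), .inr (.inr (.inl a)), .inr (.inr (.inr (.inr (.inr a))))]
  · exact .inr (.inr (.inr (.inl ⟨_, _, _, c, Agent.S0486.result c S P e⟩)))

end CA.Abg

theorem CA.realizeEqns_Abg_Fin : True := by
  have := @CA.Abg.L3.eq_1.{0}
  have := @CA.Abg.L3.eq_def.{0}
  have := @CA.Abg.L3.congr_simp.{0}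
  trivial
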