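import Cfsg.Agent.Abg.D0
import Cfsg.Agent.Abg.Fin
import Cfsg.Agent.Br.Fin
import Cfsg.Agent.Br.W3
import Cfsg.Agent.Bu.Fin
import Cfsg.Agent.Bu.Id4
import Cfsg.Agent.Bu.Id5

/-!
# The case `a = 1`: facts about `GL₂^ε(q)`
-/

set_option autoImplicit false
set_option linter.unusedSectionVars false
set_option linter.unusedVariables false

open Cfsg Subgroup CA.FG CA.BG CA.GW

namespace CA.Abg

universe u v w

local notation "dt" => Matrix.GeneralLinearGroup.det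

section abstract

variable {G : Type u} {A : Type*} {Z : Type*} {N : Type w} [Group G] [Group A] [CommGroup Z] [Group N]

/-- normal subgroups containing all involutions supplement the torus -/
def MJ (uN : N) : Prop := ∀ J : Subgroup N, J.Normal → (∀ i, i * i = 1 → i ∈ J) →
  (∃ x : N, x ≠ 1 ∧ Odd (orderOf x) ∧ Commute x uN) → ∀ n, ∃ j ∈ J, ∃ y, Commute y uN ∧ n = j * y

/-- the torus `Z × Z` of `A = GL₂^ε(q)` -/
structure TM (φ : A →* N) (δ : Z × Z →* A) (de : A →* Z) (wA : A) (m : Z) : Prop where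
  sur : Function.Surjective φ
  cyc : IsCyclic Z
  cen : ∀ a g, Commute (δ (a, a)) g
  det : ∀ a d, de (δ (a, d)) = a * d
  sw : ∀ a d, wA * δ (a, d) * wA⁻¹ = δ (d, a)
  m2 : m * m = 1
  cu : ∀ x, Commute x (φ (δ (1, m))) → ∃ a d, φ (δ (a, d)) = x
  oc : ∀ z : N, (∀ x, Commute z x) → Odd (orderOf z) → z = 1

variable [Finite G] [Finite N] [Finite Z]

theorem AG.oc {t u : G} {C0 : Subgroup G} {κ : C0 →* N} {tN uN : N} (h : AG t u C0 κ tN uN)
    (hk : ∀ m, κ m = 1 ↔ (m : G) ∈ UU t) (z : N) (c : ∀ x, Commute z x) (o : Odd (orderOf z)) : z = 1 := by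
  have : (zpowers z).Normal := ⟨by rintro _ ⟨i, rfl⟩ g; simp [← ((c g).zpow_left i).eq]⟩
  obtain ⟨m, rfl⟩ := h.sur z
  refine (hk m).2 ((show OO C0 ≤ UU t from pcore_max ⟨(pcore_le _ _).trans h.le, norm_pcore _ fun c hc =>
    mem_norm_of_conjg_le (by rintro _ ⟨x, hx, rfl⟩; exact h.nrm hc hx)⟩ (pcore_piGrp _ _))
    (pcore_max (normalIn_map_subtype ((zpowers (κ m)).comap κ)) (piGrp_iff_forall_piElt.2 ?_) ⟨m, mem_zpowers _, rfl⟩))
  rintro _ ⟨x, hx, rfl⟩ p hp d rfl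
  have e := odd_UU ((hk (x ^ orderOf (κ m))).1 (by
    rw [map_pow]; exact orderOf_dvd_iff_pow_eq_one.1 (orderOf_dvd_of_mem_zpowers hx)))
  refine (o.mul e).not_two_dvd_nat (d.trans (orderOf_dvd_of_pow_eq_one ?_))
  rw [pow_mul, Subgroup.subtype_apply, ← SubmonoidClass.coe_pow, pow_orderOf_eq_one]

namespace TM

variable {φ : A →* N} {δ : Z × Z →* A} {de : A →* Z} {wA : A} {m : Z} (h : TM φ δ de wA m)
include h

theorem cenN (a : Z) (x : N) : Commute (φ (δ (a, a))) x := by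
  obtain ⟨g, rfl⟩ := h.sur x
  exact (h.cen a g).map φ

theorem comm (a b : Z × Z) : Commute (φ (δ a)) (φ (δ b)) := ((Commute.all a b).map δ).map φ

theorem winv {x : N} (c : Commute x (φ (δ (1, m)))) (o : Odd (orderOf x)) : φ wA * x * (φ wA)⁻¹ = x⁻¹ := by
  obtain ⟨a, d, rfl⟩ := h.cu x c
  have e : φ wA * φ (δ (a, d)) * (φ wA)⁻¹ = φ (δ (d, a)) := by rw [← h.sw a d, map_mul, map_mul, map_inv]
  have e' : φ (δ (d, a)) * φ (δ (a, d)) = φ (δ (a * d, a * d)) := by rw [← map_mul, ← map_mul, Prod.mk_mul_mk, mul_comm d]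
  rw [e, ← mul_eq_one_iff_eq_inv, e']
  refine h.oc _ (h.cenN _) ((Odd.mul ?_ o).of_dvd_nat (e' ▸ (h.comm _ _).orderOf_mul_dvd_mul_orderOf))
  rwa [← e, orderOf_conj]

theorem odd_mem {x : N} (c : Commute x (φ (δ (1, m)))) (o : Odd (orderOf x)) :
    x ∈ (φ.comp (δ.comp ((MonoidHom.id Z).prod invMonoidHom))).range := by
  have e := h.winv c o
  obtain ⟨a, d, rfl⟩ := h.cu x c
  refine mem_of_sq_mem o ⟨a * d⁻¹, ?_⟩
  rw [← map_inv, ← map_mul, ← map_mul, h.sw] at e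
  have e' : φ (δ (d⁻¹, a⁻¹)) = φ (δ (a, d)) := by rw [← inv_inv (φ (δ (a, d))), ← e, ← map_inv, ← map_inv]; rfl
  nth_rewrite 2 [← e']
  rw [← map_mul, ← map_mul]
  simp

theorem pow_card {x : N} (c : Commute x (φ (δ (1, m)))) (o : Odd (orderOf x)) : x ^ Nat.card Z = 1 := by
  obtain ⟨a, rfl⟩ := h.odd_mem c o
  rw [← map_pow, pow_card_eq_one', map_one]

theorem tn : TN (φ (δ (m, m))) (φ (δ (1, m))) := by
  refine ⟨fun x y cx cy => ?_, ?_, fun v x e c o => ?_⟩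
  · obtain ⟨a, d, rfl⟩ := h.cu x cx
    obtain ⟨a', d', rfl⟩ := h.cu y cy
    exact h.comm _ _
  · obtain ⟨g, hg⟩ := h.cyc.exists_generator
    obtain ⟨n, o⟩ := exists_two_pow (φ (δ (g, g⁻¹)))
    refine ⟨_, (h.comm _ _).pow_left _, o, fun x c ox => ?_⟩
    obtain ⟨a, rfl⟩ := h.odd_mem c ox
    obtain ⟨k, hk⟩ := exists_pow_eq_self_of_coprime ((Nat.coprime_two_left.2 ox).pow_left n)
    obtain ⟨i, rfl⟩ := hg a
    rw [← hk]
    refine pow_mem (mem_zpowers_iff.2 ⟨i, ?_⟩) _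
    simp only [map_zpow]
    rw [← zpow_natCast, ← zpow_natCast, ← zpow_mul, ← zpow_mul, mul_comm]; rfl
  · have e1 : φ wA * φ (δ (1, m)) * (φ wA)⁻¹ = φ (δ (m, m)) * φ (δ (1, m)) := by
      rw [← map_inv, ← map_mul, ← map_mul, h.sw, ← map_mul, ← map_mul, Prod.mk_mul_mk, h.m2, mul_one]
    obtain ⟨a, d, k⟩ := h.cu ((φ wA)⁻¹ * v) (mul_inv_eq_iff_eq_mul.1 (by
      rw [mul_inv_rev, inv_inv, show (φ wA)⁻¹ * v * φ (δ (1, m)) * (v⁻¹ * φ wA) =
        (φ wA)⁻¹ * (v * φ (δ (1, m)) * v⁻¹) * φ wA by group, e, ← e1]; group))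
    obtain ⟨a', d', k'⟩ := h.cu x c
    rw [← h.winv c o, eq_inv_mul_iff_mul_eq.1 k.symm.symm |>.symm, mul_assoc (φ wA), ← k', (h.comm _ _).eq]
    group

theorem exists_hom {C : Type*} [Group C] [Finite C] {κ : C →* N} (s : N →* C) (hs : ∀ x, κ (s x) = x)
    (cy : IsCyclic κ.ker) (dv : Nat.card κ.ker ∣ Nat.card Z) (ko : Odd (Nat.card κ.ker))
    (c : ∀ k ∈ κ.ker, ∀ x, Commute k x) : ∃ Φ : A →* C, Function.Surjective Φ ∧ ∀ g, κ (Φ g) = φ g := by
  obtain ⟨g, hg⟩ := h.cyc.exists_generator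
  obtain ⟨k0, hk⟩ := cy.exists_generator
  obtain ⟨μ, hμ⟩ : ∃ μ : Z →* κ.ker, μ g = k0 := ⟨_, monoidHomOfForallMemZpowers_apply_gen hg (by
    rwa [orderOf_eq_card_of_forall_mem_zpowers hg, orderOf_eq_card_of_forall_mem_zpowers hk])⟩
  let Φ : A →* C := MonoidHom.mk' (fun x => s (φ x) * μ (de x)) fun x y => by
    simp only [map_mul, coe_mul, mul_assoc]
    rw [← mul_assoc (μ (de x) : C), (c _ (μ (de x)).2 (s (φ y))).eq, mul_assoc]
  have e : ∀ x, κ (Φ x) = φ x := fun x => by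
    change κ (s (φ x) * μ (de x)) = _
    rw [map_mul, hs, show κ (μ (de x)) = 1 from (μ (de x)).2, mul_one]
  refine ⟨Φ, fun y => ?_, e⟩
  obtain ⟨x, hx⟩ := h.sur (κ y)
  obtain ⟨i, hi⟩ := hk ⟨(Φ x)⁻¹ * y, by rw [MonoidHom.mem_ker, map_mul, map_inv, e, hx, inv_mul_cancel]⟩
  obtain ⟨n, o⟩ := exists_two_pow (g ^ i)
  obtain ⟨j, hj⟩ := exists_pow_eq_self_of_coprime ((Nat.coprime_two_left.2
    (ko.of_dvd_nat (orderOf_dvd_natCard (k0 ^ i)))).pow_left (n + 1))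
  have z := h.oc _ (h.cenN (((g ^ i) ^ 2 ^ n) ^ j)) ((o.of_dvd_nat (orderOf_pow_dvd j)).of_dvd_nat
    (orderOf_map_dvd (φ.comp (δ.comp ((MonoidHom.id Z).prod (MonoidHom.id Z)))) _))
  refine ⟨x * δ (((g ^ i) ^ 2 ^ n) ^ j, ((g ^ i) ^ 2 ^ n) ^ j), ?_⟩
  rw [map_mul, ← eq_inv_mul_iff_mul_eq]
  change s (φ _) * μ (de _) = _
  rw [z, map_one, one_mul, h.det, ← mul_pow, ← pow_two, ← pow_mul (g ^ i), ← pow_succ, map_pow, map_pow, map_zpow, hμ, hj]
  exact congrArg Subtype.val hi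

end TM

theorem DH.exists_phi {t u w j : G} {κ : 𝒞[t] →* N} {φ : A →* N} {δ : Z × Z →* A} {de : A →* Z} {wA : A} {m : Z}
    (h : DH t u w j 𝒞[t] κ (φ (δ (m, m))) (φ (δ (1, m)))) (k : TM φ δ de wA m) (cy : IsCyclic (UU t))
    (dv : Nat.card (UU t) ∣ Nat.card Z) (c : ∀ k ∈ UU t, ∀ c ∈ 𝒞[t], Commute k c) (s : N →* 𝒞[t]) (hs : ∀ x, κ (s x) = x) :
    ∃ Φ : A →* G, Φ.range = 𝒞[t] ∧ Φ.ker ≤ φ.ker ∧ Φ (δ (m, m)) = t ∧ Φ (δ (1, m)) = u := by
  have e : κ.ker = (UU t).subgroupOf 𝒞[t] := Subgroup.ext h.hk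
  have f : κ.ker ≃* UU t := (MulEquiv.subgroupCongr e).trans (subgroupOfEquivOfLe (UU_le t))
  obtain ⟨Φ, sΦ, hΦ⟩ := k.exists_hom s hs (f.isCyclic.2 cy) (Nat.card_congr f.toEquiv ▸ dv) h.ag.ko
    fun a ha x => Subtype.ext (c _ ((h.hk a).1 ha) _ x.2)
  have key : ∀ (a : Z × Z) (v : 𝒞[t]), a * a = 1 → v * v = 1 → κ v = φ (δ a) → Φ (δ a) = v := fun a v a2 v2 e => by
    have m := (h.hk (v⁻¹ * Φ (δ a))).1 (by rw [map_mul, map_inv, hΦ, e, inv_mul_cancel])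
    have e2 : Φ (δ a) * Φ (δ a) = 1 := by rw [← map_mul, ← map_mul, a2, map_one, map_one]
    have cm : Commute (v⁻¹ * Φ (δ a)) v := Subtype.ext (c _ m _ v.2)
    have : v⁻¹ * Φ (δ a) * (v⁻¹ * Φ (δ a)) = 1 := by
      rw [← mul_assoc, cm.inv_right.eq, ← mul_assoc, ← mul_inv_rev, v2, mul_assoc, e2]; simp
    exact (inv_mul_eq_one.1 (Subtype.ext (eq_one_of_odd (UU_odd t) m (congrArg Subtype.val this)))).symm
  refine ⟨𝒞[t].subtype.comp Φ, by rw [MonoidHom.range_comp, MonoidHom.range_eq_top.2 sΦ, ← MonoidHom.range_eq_map,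
    range_subtype], fun g hg => by rw [MonoidHom.mem_ker, ← hΦ, show Φ g = 1 from Subtype.ext hg, map_one], ?_, ?_⟩
  · exact congrArg Subtype.val (key _ ⟨t, h.ag.tC⟩ (by simp [k.m2]) (Subtype.ext h.ag.t2) h.ag.κt)
  · exact congrArg Subtype.val (key _ ⟨u, h.ag.uC⟩ (by simp [k.m2]) (Subtype.ext h.ag.u2) h.ag.κu)

end abstract

section linear

open CA.Br

variable {G : Type u} {N : Type w} [Group G] [Group N] [Finite G] [Finite N] {F : Type} [Field F] [Fintype F]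
  {φ : GL (Fin 2) F →* N} (h : BK φ) (hs : Function.Surjective φ)
include h hs

theorem cuL : 𝒞[uu φ] = Tt φ := by rw [← h.cent_u, MonoidHom.range_eq_top.2 hs, top_inf_eq]

theorem tmL (oc : ∀ z : N, (∀ x, Commute z x) → Odd (orderOf z) → z = 1) : TM φ dgH dt (ww F) (-1) :=
  ⟨hs, inferInstance, fun a g => (dg_comm a g).symm, det_dg, ww_dg, by simp, fun x c =>
    mem_Tt'.1 (cuL h hs ▸ mem_centralizer_singleton_iff.2 c), oc⟩

theorem coL (l : ℕ) (hl : l.Prime) (o : Odd l) (d : l ∣ Nat.card Fˣ) : ¬ l ∣ (𝒞[uu φ]).index := fun e => by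
  have r := h.relT
  rw [MonoidHom.range_eq_top.2 hs, relIndex_top_right, ← cuL h hs] at r
  rw [Nat.card_units, Nat.card_eq_fintype_card] at d
  obtain ⟨n, hn⟩ : ∃ n, Fintype.card F = n + 1 := ⟨_, (Nat.sub_add_cancel (by have := h.q3; omega)).symm⟩
  rw [r, hn] at e
  rw [hn, Nat.add_sub_cancel] at d
  rcases (Nat.Prime.dvd_mul hl).1 e with e | e
  · exact hl.one_lt.ne' (Nat.dvd_one.1 ((Nat.dvd_add_right d).1 e))
  · exact o.not_two_dvd_nat (by rw [(Nat.prime_dvd_prime_iff_eq hl Nat.prime_two).1 ((Nat.dvd_add_right d).1 e)])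

theorem mjL : MJ (uu φ) := fun J nJ hJ _ n => by
  obtain ⟨g, rfl⟩ := hs n
  have hx : ∀ c, φ (xp c) ∈ J := fun c => by
    have := mul_mem (nJ.conj_mem _ (hJ _ (uu_mul (φ := φ))) (φ (xp (c / 2)))) (inv_mem (hJ _ (uu_mul (φ := φ))))
    rw [Br.uu, ← map_inv, ← map_inv, ← map_mul, ← map_mul, ← map_mul, mul_assoc, mul_assoc, ← mul_assoc (dg _ _),
      ← conj_inv, dg_xp] at this
    convert this using 2
    rw [eq_mul_inv_iff_mul_eq, xp_add]
    congr 1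
    have := h.two
    simp; field_simp; ring
  have hy : ∀ c, φ (xm c) ∈ J := fun c => by rw [← ww_xp, ← cj]; exact nJ.conj_mem _ (hx c) _
  have key : ∀ g : GL (Fin 2) F, dt g = 1 → g 1 0 ≠ 0 → φ g ∈ J := fun g d c => by
    have e := det_ent g
    rw [d, Units.val_one] at e
    rw [show g = xp ((g 0 0 - 1) / g 1 0) * xm (g 1 0) * xp ((g 1 1 - 1) / g 1 0) from gl_ext ?_ ?_ ?_ ?_,
      map_mul, map_mul]
    · exact mul_mem (mul_mem (hx _) (hy _)) (hx _)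
    all_goals simp [mul_ent]
    all_goals field_simp
    · ring
    · linear_combination e
    · ring
  have sl : ∀ g : GL (Fin 2) F, dt g = 1 → φ g ∈ J := fun g d => by
    by_cases c : g 1 0 = 0
    · refine (Subgroup.mul_mem_cancel_left _ (hy 1)).1 (map_mul φ _ _ ▸ key _ (by simp [d, det_xm]) ?_)
      have e := dne g
      rw [c, mul_zero, sub_zero] at e
      simpa [mul_ent, c] using left_ne_zero_of_mul e
    · exact key g d c
  exact ⟨_, sl (g * (dg (dt g) 1)⁻¹) (by simp [det_dg]), φ (dg (dt g) 1),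
    mem_centralizer_singleton_iff.1 ((cuL h hs).ge (mem_Tt'.2 ⟨_, _, rfl⟩)), by simp⟩

theorem finL [IsSimpleGroup G] {t u : G} (cj : IsConj t u) {Φ : GL (Fin 2) F →* G} (r : Φ.range = 𝒞[t])
    (k : Φ.ker ≤ φ.ker) (et : tt Φ = t) (eu : uu Φ = u) : L3 G := by
  have := Fintype.ofFinite G
  have b : BL Φ := ⟨⟨h.odd, k.trans h.kerc, h.kero.of_dvd_nat (card_dvd_of_le k)⟩, et ▸ r, et ▸ eu ▸ cj⟩
  exact (b.fin b.no_iv).imp (fun e => ⟨F, _, _, h.odd, e⟩) .inr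

end linear

section unitary

open CA.Bu Cfsg.Agent.Unit

variable {G : Type u} {N : Type w} [Group G] [Group N] [Finite G] [Finite N] {K : Type} [Field K] [StarRing K] {q : ℕ}
  {φ : U2 K →* N} (h : UK φ q) (hs : Function.Surjective φ)

/-- the elements of norm one -/
def nO (K : Type) [Field K] [StarRing K] : Subgroup Kˣ where
  carrier := {a | (a : K) * star (a : K) = 1}
  one_mem' := by simp
  mul_mem' := fun {a b} ha hb => by
    simp only [Set.mem_ofPred_eq, Units.val_mul, star_mul'] at *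
    linear_combination b * star (b : K) * ha + hb
  inv_mem' := fun {a} ha => by
    simp only [Set.mem_ofPred_eq, Units.val_inv_eq_inv_val, star_inv₀] at *
    rw [← mul_inv, ha, inv_one]

/-- the torus -/
noncomputable def dO (h2 : (2 : K) ≠ 0) : nO K × nO K →* U2 K :=
  MonoidHom.mk' (fun a => ⟨tg h2 a.1 a.2, tg_U2.2 ⟨a.1.2, a.2.2⟩⟩) fun a b => Subtype.ext (tg_mul _ _ _ _).symm

/-- the determinant -/
noncomputable def deO (K : Type) [Field K] [StarRing K] : U2 K →* nO K :=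
  (Matrix.GeneralLinearGroup.det.comp (U2 K).subtype).codRestrict _ fun g => det_norm g.2

/-- `-1` -/
def mO (K : Type) [Field K] [StarRing K] : nO K := ⟨-1, show ((-1 : Kˣ) : K) * star ((-1 : Kˣ) : K) = 1 by simp⟩

theorem dO_u (h2 : (2 : K) ≠ 0) : dO h2 (1, mO K) = uU K := Subtype.ext tg_ww
theorem dO_t (h2 : (2 : K) ≠ 0) : dO h2 (mO K, mO K) = tU K := Subtype.ext (tg_self _)

include h

theorem card_nO : Nat.card (nO K) = q + 1 := by
  rw [← h.fq.card_norm_one]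
  exact Nat.card_congr ⟨fun a => ⟨a.1, a.2⟩, fun a => ⟨nu a, a.2⟩, fun a => Subtype.ext (Units.ext rfl), fun a => rfl⟩

include hs

theorem cuU : 𝒞[uu φ] = Tt φ := by rw [← h.cent_u, MonoidHom.range_eq_top.2 hs, top_inf_eq]

theorem tmU (oc : ∀ z : N, (∀ x, Commute z x) → Odd (orderOf z) → z = 1) : ∃ w, TM φ (dO h.two) (deO K) w (mO K) := by
  have := h.fq.finite
  obtain ⟨w, hw⟩ := exists_W h.fq h.two
  refine ⟨w, hs, inferInstance, fun a g => cen_comm (tg_cen.2 rfl) g, fun a d => Subtype.ext (det_tg (h2 := h.two) _ _),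
    fun a d => Subtype.ext (hw.tg _ _), Subtype.ext (by simp [mO]), fun x c => ?_, oc⟩
  rw [dO_u] at c
  obtain ⟨a, d, m, e⟩ := (mem_Tt' h.two).1 (cuU h hs ▸ mem_centralizer_singleton_iff.2 c)
  exact ⟨⟨a, (tg_U2.1 m).1⟩, ⟨d, (tg_U2.1 m).2⟩, e⟩

theorem coU (l : ℕ) (hl : l.Prime) (o : Odd l) (d : l ∣ Nat.card (nO K)) : ¬ l ∣ (𝒞[uu φ]).index := fun e => by
  have r := h.relT
  rw [MonoidHom.range_eq_top.2 hs, relIndex_top_right, ← cuU h hs] at r
  rw [card_nO h] at d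
  obtain ⟨n, rfl⟩ : ∃ n, q = n + 1 := ⟨_, (Nat.sub_add_cancel (by have := h.q3; omega)).symm⟩
  rw [r, Nat.add_sub_cancel] at e
  rcases (Nat.Prime.dvd_mul hl).1 e with e | e
  · exact hl.one_lt.ne' (Nat.dvd_one.1 ((Nat.dvd_add_right e).1 d))
  · exact o.not_two_dvd_nat (by rw [(Nat.prime_dvd_prime_iff_eq hl Nat.prime_two).1 ((Nat.dvd_add_right e).1 d)])

theorem mjU (oc : ∀ z : N, (∀ x, Commute z x) → Odd (orderOf z) → z = 1) : MJ (uu φ) := fun J nJ hJ ⟨x, x1, ox, cx⟩ n => by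
  have := h.fq.finite
  obtain ⟨g, rfl⟩ := hs n
  obtain ⟨w, k⟩ := tmU h hs oc
  have q3 : q ≠ 3 := fun e => x1 (eq_one_of_cop ((Nat.coprime_two_left.2 ox).pow_left 2)
    (by have := k.pow_card (by rwa [dO_u]) ox; rwa [card_nO h, e] at this) (pow_orderOf_eq_one x))
  obtain ⟨c, sc, c0, c1⟩ : ∃ c : K, star c = c ∧ c ≠ 0 ∧ c * c ≠ 1 := by
    by_contra! e
    have := Nat.card_le_card_of_injective (β := ({0, 1, -1} : Set K)) (fun x : {x : K // star x = x} => ⟨x.1, by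
      by_cases z : x.1 = 0
      · exact .inl z
      · exact .inr (mul_self_eq_one_iff.1 (e _ x.2 z))⟩) fun x y e => Subtype.ext (by simpa using e)
    have l := this.trans (Set.ncard_insert_le _ _ |>.trans (Nat.succ_le_succ (Set.ncard_insert_le _ _)))
    rw [h.fq.card_fixed, Set.ncard_singleton] at l
    have := h.q3
    omega
  obtain ⟨a, ha⟩ := exists_N h.fq (c := Units.mk0 c c0) (Units.ext sc)
  have ha : (a : K) * star (a : K) = c := congrArg Units.val ha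
  have uJ : ∀ g, φ (uU K * g * (uU K)⁻¹ * g⁻¹) ∈ J := fun g => by
    have := mul_mem (hJ _ (uu_mul (φ := φ))) (nJ.conj_mem _ (inv_mem (hJ _ (uu_mul (φ := φ)))) (φ g))
    simpa only [Bu.uu, map_mul, map_inv, mul_assoc] using this
  have hx : ∀ s hs, xU s hs ∈ J.comap φ := fun s hs => by
    have hb : dU ((star a)⁻¹ * a⁻¹) ∈ J.comap φ := by
      have := uJ (dU a)
      rwa [u_dU, dU_inv, dU_mul] at this
    have e : (((star a)⁻¹ * a⁻¹ : Kˣ) : K) = c⁻¹ := by simp [← ha]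
    have c2 : c⁻¹ * c⁻¹ - 1 ≠ 0 := fun z => c1 (by field_simp at z; linear_combination -z)
    have := mul_mem hb ((nJ.comap φ).conj_mem _ (inv_mem hb) (xU (s / (c⁻¹ * c⁻¹ - 1)) (by simp [hs, sc, neg_div])))
    rw [← mul_assoc, ← mul_assoc, dU_xU] at this
    convert this using 1
    rw [eq_mul_inv_iff_mul_eq, xU_add]
    congr 1
    rw [e, star_inv₀, sc, eq_comm, ← sub_eq_iff_eq_add, ← sub_one_mul, mul_div_cancel₀ _ c2]
  have hy : ∀ s hs, yU s hs ∈ J.comap φ := fun s hs => by rw [← u_xU]; exact (nJ.comap φ).conj_mem _ (hx s hs) _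
  exact ⟨_, SU_le h.fq hx hy (g := g * (dO h.two (deO K g, 1))⁻¹) (congrArg Subtype.val
    (show deO K (g * (dO h.two (deO K g, 1))⁻¹) = 1 by simp [k.det])), φ (dO h.two (deO K g, 1)),
    by rw [Bu.uu, ← dO_u h.two]; exact k.comm _ _, by simp⟩

theorem finU [IsSimpleGroup G] {t u : G} (cj : IsConj t u) {Φ : U2 K →* G} (r : Φ.range = 𝒞[t])
    (k : Φ.ker ≤ φ.ker) (et : tt Φ = t) (eu : uu Φ = u) : L3 G := by
  have := h.fq.finite
  have := Fintype.ofFinite K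
  have b : BU Φ q := ⟨⟨h.fq, h.odd, fun g e => h.kerc g (k e), h.kero.of_dvd_nat (card_dvd_of_le k)⟩, et ▸ r, et ▸ eu ▸ cj⟩
  obtain ⟨hi, Q, kQ, XQ, QC, tQ⟩ := b.pl
  exact .inr (.inl ⟨K, _, _, q, Nat.card_eq_fintype_card.symm.trans h.fq.card, h.odd, (b.bn kQ XQ QC tQ hi).psu3 b.cenZ⟩)

end unitary

end CA.Abg

theorem CA.realizeEqns_Abg_DM : True := by
  have := @CA.Abg.mO.eq_1
  have := @CA.Abg.mO.eq_def
  have := @CA.Abg.mO.congr_simp
  have := @CA.Abg.dO.eq_1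
  have := @CA.Abg.dO.eq_def
  have := @CA.Abg.dO.congr_simp
  have := @CA.Abg.nO.eq_1
  have := @CA.Abg.nO.eq_def
  have := @CA.Abg.nO.congr_simp
  have := @CA.Abg.MJ.eq_1.{0}
  have := @CA.Abg.MJ.eq_def.{0}
  have := @CA.Abg.MJ.congr_simp.{0}
  have := @CA.Abg.deO.eq_1
  have := @CA.Abg.deO.eq_def
  have := @CA.Abg.deO.congr_simp
  trivial
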