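/-
Groups with quasi-dihedral or wreathed Sylow 2-subgroups: fusion in overgroups of `C(t, u) ⟨w⟩`.
-/
import Cfsg.Agent.Abg.A7
import Cfsg.Agent.Abg.MA1

set_option autoImplicit false
set_option linter.unusedSectionVars false

namespace CA.Abg

open Subgroup Cfsg CA.FG CA.BG CA.GW CA.GW.BA CA.Dih

universe u

variable {G : Type u} [Group G] [Finite G] {S N : Subgroup G} {c ζ r t u w j : G} {m o : ℕ}

theorem ZS.cjg (z : ZS S c ζ r m o) (g : G) : ZS (S :^ g) (g * c * g⁻¹) (g * ζ * g⁻¹) (g * r * g⁻¹) m o :=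
  z.map' (MulAut.conj g).toMonoidHom fun s _ e => by simpa using e

theorem ZS.qd_r (z : ZS S c ζ r m o) (q : o = 2 ∧ c ^ m = ζ) {v : G} (hv : v ∈ S) (iv : IsInv v) (vt : v ≠ ζ ^ (o / 2)) :
    ∃ i l : ℤ, v = c ^ i * ζ ^ l * r ∧ 2 ∣ i := by
  obtain ⟨i, l, rfl⟩ := z.out hv fun e => vt (z.invT' q e iv)
  have := iv.1
  rw [z.sq, z.zeq, q.1] at this
  exact ⟨i, l, rfl, (dvd_add_left (dvd_mul_right 2 l)).1 this⟩

theorem ZS.fx (z : ZS S c ζ r m o) (hS : IsSylowOf 2 S ⊤) (SN : S ≤ N) (ht : ζ ^ (o / 2) = t) (uS : u ∈ S) (iu : IsInv u)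
    (ut : u ≠ t) (hu : o = m ∧ c ^ m = 1 → u = c ^ (m / 2)) {g : G} (gN : g ∈ N) (hg : g * t * g⁻¹ ∈ 𝒞[t])
    (ne : g * t * g⁻¹ ≠ t) : ∃ g ∈ N, g * t * g⁻¹ = u := by
  subst ht
  have it := z.tinv
  have sy : IsSylowOf 2 S (N ⊓ 𝒞[ζ ^ (o / 2)]) := hS.of_le (le_inf SN z.SC) le_top
  obtain ⟨x, hx, e⟩ := sylow_Jsub Nat.prime_two sy (piGrp_zpowers_iff.2 (it.conj g).two) (zpowers_le.2
    (mem_inf.2 ⟨mul_mem (mul_mem gN (SN (pow_mem z.zS _))) (inv_mem gN), hg⟩))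
  have vS : x * g * ζ ^ (o / 2) * (x * g)⁻¹ ∈ S := by
    simpa [mul_assoc] using e (conj_mem_conjg x (mem_zpowers _))
  have vt : x * g * ζ ^ (o / 2) * (x * g)⁻¹ ≠ ζ ^ (o / 2) := fun e => ne (by
    calc _ = x⁻¹ * (x * g * ζ ^ (o / 2) * (x * g)⁻¹) * x⁻¹⁻¹ := by group
      _ = _ := by rw [e, conj_eq_of_cent (inv_mem (mem_inf.1 hx).2)])
  have hN := mul_mem hx.1 gN
  generalize x * g = y at vS vt hN
  rcases z.cas with q | q
  · obtain ⟨i, l, e1, d1⟩ := z.qd_r q vS (it.conj y) vt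
    obtain ⟨i', l', e2, d2⟩ := z.qd_r q uS iu ut
    obtain ⟨a, ha⟩ := z.qd_conj q (i := i) (i' := 0) l (by simpa using d1)
    obtain ⟨b, hb⟩ := z.qd_conj q (i := i') (i' := 0) l' (by simpa using d2)
    refine ⟨(c ^ b)⁻¹ * c ^ a * y, mul_mem (mul_mem (inv_mem (zpow_mem (SN z.cS) _)) (zpow_mem (SN z.cS) _)) hN, ?_⟩
    calc _ = (c ^ b)⁻¹ * (c ^ a * (y * ζ ^ (o / 2) * y⁻¹) * (c ^ a)⁻¹) * c ^ b := by group
      _ = _ := by rw [e1, ha, ← hb, e2]; group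
  · have s2 := sy.conjg y
    rw [conjg_inf, conjg_cent1, conjg_of_mem hN] at s2
    obtain ⟨a, ha, e⟩ := sylow_Jsub Nat.prime_two s2 (piGrp_zpowers_iff.2 (hS.piGrp.piElt z.zS)) (zpowers_le.2
      ⟨SN z.zS, mem_centralizer_singleton_iff.2 (z.cen vS).symm.eq⟩)
    have e := mem_conjg.1 (e (conj_mem_conjg a (mem_zpowers _)))
    have bN : y⁻¹ * a ∈ N := mul_mem (inv_mem hN) ha.1
    obtain ⟨n, -, e4, -⟩ := z.exists_n
    have mT : y⁻¹ * a * ζ ^ (o / 2) * (y⁻¹ * a)⁻¹ ∈ TT c ζ := by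
      rw [show o / 2 = 2 * n by omega, z.sq_pow q]
      exact pow_mem (z.sqT (by simpa [mul_assoc] using e)) _
    rcases z.invT q mT (it.conj _) with e1 | e1 | e1
    · refine absurd ?_ vt
      calc _ = a⁻¹ * (y * ζ ^ (o / 2) * y⁻¹) * a⁻¹⁻¹ := (conj_eq_of_cent (inv_mem (mem_inf.1 ha).2)).symm
        _ = _ := by nth_rewrite 1 [← e1]; group
    · exact ⟨_, bN, e1.trans (hu q).symm⟩
    · refine ⟨r⁻¹ * (y⁻¹ * a), mul_mem (inv_mem (SN z.rS)) bN, ?_⟩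
      calc _ = r⁻¹ * (y⁻¹ * a * ζ ^ (o / 2) * (y⁻¹ * a)⁻¹) * r := by group
        _ = _ := by rw [e1, ← z.ru q, hu q]; group

/-- the field `LX.fx` -/
theorem LH.fx (h : LH t u w j) (qw : QW G) (N : Subgroup G) (VN : 𝒞[t] ⊓ 𝒞[u] ≤ N) (wN : w ∈ N) :
    (∀ g ∈ N, g * t * g⁻¹ ∈ 𝒞[t] → g * t * g⁻¹ = t) ∨ (∃ g ∈ N, g * t * g⁻¹ = u) ∨ Dh N := by
  refine or_iff_not_imp_left.2 fun iso => ?_
  push Not at iso
  obtain ⟨g, gN, hg, ne⟩ := iso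
  obtain ⟨S, c, ζ, r, m, o, z, hS⟩ := exists_zs qw
  have tN : t ∈ N := VN ⟨mem_centralizer_singleton_iff.2 rfl, mem_centralizer_singleton_iff.2 (mem_centralizer_singleton_iff.1 h.uC).symm⟩
  have uN : u ∈ N := VN ⟨h.uC, mem_centralizer_singleton_iff.2 rfl⟩
  rcases z.cas with q | q
  · obtain ⟨T, hT, DT⟩ := sylow_superset Nat.prime_two h.d8.1 (sup_le (sup_le (zpowers_le.2 tN) (zpowers_le.2 uN))
      (zpowers_le.2 wN) : V4 t u ⊔ zpowers w ≤ N)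
    have uT : u ∈ T := DT (mem_sup_left (mem_sup_right (mem_zpowers u)))
    have wT : w ∈ T := DT (mem_sup_right (mem_zpowers w))
    obtain ⟨x, -, TS⟩ := sylow_subJ Nat.prime_two hS hT.piGrp le_top
    have z' := z.cjg x
    have hS' := hS.conjg_of_mem (mem_top x)
    replace q : o = 2 ∧ (x * c * x⁻¹) ^ m = x * ζ * x⁻¹ := ⟨q.1, by rw [conj_pow, q.2]⟩
    clear z hS
    generalize S :^ x = S, x * c * x⁻¹ = c, x * ζ * x⁻¹ = ζ, x * r * x⁻¹ = r at *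
    have ht := (z'.invT' q (h.i2 ▸ z'.sqT (TS (mul_mem uT wT))) h.it).symm
    have Tc : TT c ζ ≤ zpowers c := sup_le le_rfl (zpowers_le.2 (q.2 ▸ npow_mem_zpowers c m))
    obtain ⟨k, l, eu, dk⟩ := z'.qd_r q (TS uT) h.iu (ht ▸ h.ut)
    by_cases e : ∀ s ∈ T, s ∉ zpowers c → s * s = 1
    · obtain ⟨d, hd, e'⟩ := exists_gen_of_cyclic (cyclic_of_le (cyclic_zpowers c) (inf_le_left (b := T)))
      refine .inr (dh_of hT (c := d) ⟨hd.2, ?_, fun s hs hn => e s hs fun hz => hn (e' ▸ ⟨hz, hs⟩)⟩)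
      have h2 := relIndex_le_of_le_right (H := TT c ζ) TS (relIndex_pos _ _).ne'
      have h3 := one_lt_relIndex (show ¬ T ≤ zpowers c from fun le => z'.out_not k l (eu ▸ mem_sup_left (le uT)))
      rw [z'.idx, show TT c ζ = zpowers c from le_antisymm Tc le_sup_left] at h2
      rw [← e', inf_relIndex_right]
      omega
    push Not at e
    obtain ⟨s, sT, sc, s2⟩ := e
    obtain ⟨i, n, rfl⟩ := z'.out (TS sT) fun e => sc (Tc e)
    rw [z'.sq, Ne, z'.zeq, q.1] at s2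
    have cT : c ∈ T := by
      have e1 : c ^ (i - k + m * (n - l)) = c ^ i * ζ ^ n * r * u⁻¹ := by
        rw [eu, ← q.2, ← zpow_natCast]; group
      obtain ⟨a, ha⟩ := (pElt_iff Nat.prime_two).1 (hS'.piGrp.piElt z'.cS)
      obtain ⟨b, -, hb⟩ := (Nat.dvd_prime_pow Nat.prime_two).1 (orderOf_dvd_of_pow_eq_one ha)
      refine zpowers_le.2 (e1 ▸ mul_mem sT (inv_mem uT)) (mem_zpowers_zpow_iff.2 ?_)
      obtain ⟨n', -, e4, -⟩ := z'.exists_n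
      rw [hb, ← Int.isCoprime_iff_gcd_eq_one]
      push_cast
      refine IsCoprime.pow_right (Int.isCoprime_two_right.2 (Int.not_even_iff_odd.1 fun ev => s2 ?_))
      have := (dvd_add_left (show (2 : ℤ) ∣ m * (n - l) from ⟨2 * n' * (n - l), by rw [e4]; push_cast; ring⟩)).1 ev.two_dvd
      simpa using dvd_add (dvd_add this dk) (dvd_mul_right 2 n)
    have zT : ζ ∈ T := q.2 ▸ pow_mem cT m
    have rT : r ∈ T := (mul_mem_cancel_left (mul_mem (zpow_mem cT k) (zpow_mem zT l))).1 (eu ▸ uT)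
    refine .inl (z'.fx hS' (fun s hs => hT.le ?_) ht (TS uT) h.iu h.ut (fun q' => ?_) gN hg ne)
    · obtain ⟨a, b, rfl | rfl⟩ := z'.mem s hs
      exacts [mul_mem (zpow_mem cT a) (zpow_mem zT b), mul_mem (mul_mem (zpow_mem cT a) (zpow_mem zT b)) rT]
    · obtain ⟨n', n0, e4, -⟩ := z'.exists_n
      omega
  · obtain ⟨x, hx⟩ := h.one _ z.tinv
    have iv : IsInv (c ^ (m / 2)) := ⟨z.u2 q, fun e => z.uZ q (e ▸ one_mem _)⟩
    obtain ⟨y, hy, e⟩ := h.cju (x⁻¹ * c ^ (m / 2) * x⁻¹⁻¹) (by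
        rw [← conj_mem_conjg_iff (g := x), conjg_cent1, hx]
        simpa [mul_assoc] using z.SC (pow_mem z.cS (m / 2))) (iv.conj _) fun e => z.uZ q (by
        rw [show c ^ (m / 2) = ζ ^ (o / 2) by rw [← hx, ← e]; group]; exact npow_mem_zpowers ζ _)
    have z' := z.cjg (x * y)⁻¹
    have hS' := hS.conjg_of_mem (mem_top (x * y)⁻¹)
    have ht : ((x * y)⁻¹ * ζ * (x * y)⁻¹⁻¹) ^ (o / 2) = t := by
      rw [conj_pow, ← hx]
      calc _ = y⁻¹ * t * y⁻¹⁻¹ := by group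
        _ = t := conj_eq_of_cent (inv_mem hy)
    have hu : u = ((x * y)⁻¹ * c * (x * y)⁻¹⁻¹) ^ (m / 2) := by
      rw [conj_pow]
      calc u = y⁻¹ * (y * u * y⁻¹) * y := by group
        _ = _ := by rw [e]; group
    replace q : o = m ∧ ((x * y)⁻¹ * c * (x * y)⁻¹⁻¹) ^ m = 1 := ⟨q.1, by rw [conj_pow, q.2]; simp⟩
    clear z hS hx iv e
    generalize S :^ (x * y)⁻¹ = S, (x * y)⁻¹ * c * (x * y)⁻¹⁻¹ = c, (x * y)⁻¹ * ζ * (x * y)⁻¹⁻¹ = ζ,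
      (x * y)⁻¹ * r * (x * y)⁻¹⁻¹ = r at *
    have TN : TT c ζ ≤ N := fun a ha => VN ⟨ht ▸ z'.SC (z'.TS ha), mem_centralizer_singleton_iff.2
      (z'.comT ha (hu ▸ pow_mem (mem_sup_left (mem_zpowers c)) _)).eq⟩
    obtain ⟨a, ha, e⟩ := h.cjw r (ht ▸ z'.SC z'.rS) ⟨z'.r2, fun e => z'.rnT (e ▸ one_mem _)⟩ (by
      rw [← mem_centralizer_singleton_iff.1 h.uC, hu, z'.ru q, ht])
    have rN : r ∈ N := e ▸ mul_mem (mul_mem (VN ha) wN) (inv_mem (VN ha))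
    refine .inl (z'.fx hS' (fun s hs => ?_) ht (hu ▸ pow_mem z'.cS _) h.iu h.ut (fun _ => hu) gN hg ne)
    obtain ⟨a, b, rfl | rfl⟩ := z'.mem s hs
    exacts [TN (z'.memT.2 ⟨a, b, rfl⟩), mul_mem (TN (z'.memT.2 ⟨a, b, rfl⟩)) rN]

end CA.Abg

theorem CA.realizeEqns_Abg_FX : True := by

  trivial
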