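/-
The case `C(t) < M`: the Fitting subgroup of `M` is a `p`-group in case (II).
-/
import Cfsg.Agent.Abg.MA1

set_option autoImplicit false
set_option linter.unusedSectionVars false

namespace CA.Abg

open Subgroup Cfsg CA.FG CA.BG CA.GW CA.GW.BA CA.Dih
open scoped commutatorElement

universe u v

variable {G : Type u} [Group G] [Finite G] {t u v w j x : G}

theorem mem_comm_inv {Y : Subgroup G} (oY : IsPiGrp {2}ᶜ Y) (hx : x ∈ Y) (e : t * x * t⁻¹ = x⁻¹) :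
    x ∈ ⁅Y, zpowers t⁆ := by
  obtain ⟨b, hb, rfl⟩ := exists_sqrt oY hx
  have := commutator_mem_commutator (zpowers_le.2 hx hb) (mem_zpowers t)
  rwa [commutatorElement_def, show b * t * b⁻¹ * t⁻¹ = b * (t * b * t⁻¹)⁻¹ by group, inv_of_mem_zpowers e hb,
    inv_inv] at this

theorem comm_le_of_dec {A O : Subgroup G} (nA : A ≤ 𝒩(O)) (tA : t ∈ A) (AC : A ⊓ 𝒞[t] ⊔ O = A) :
    ⁅A, zpowers t⁆ ≤ O := comm_zpowers_le nA (nA tA) fun a ha => by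
  obtain ⟨c, hc, o, ho, rfl⟩ := (mem_sup_of_norm (.inl (inf_le_left.trans nA))).1 (AC.ge ha)
  rw [show (c * o)⁻¹ * (t * (c * o) * t⁻¹) = o⁻¹ * ((c⁻¹ * t * c⁻¹⁻¹) * o * t⁻¹) by group,
    conj_eq_of_cent (inv_mem hc.2)]
  exact mul_mem (inv_mem ho) (conj_mem_of_mem_norm (nA tA) ho)

theorem zs_dec {N : Subgroup G} (it : IsInv t) (tN : t ∈ N) (e : ∀ g ∈ N, g * t * g⁻¹ ∈ 𝒞[t] → g * t * g⁻¹ = t) :
    N ⊓ 𝒞[t] ⊔ OO N = N :=
  (sup_comm _ _).trans (CA.Blk.Zstar_sup_of it.ord tN fun g hg c => e g hg (mem_c1.2 c.symm))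

theorem pcore_le_OO {p : ℕ} (p2 : p ≠ 2) (N : Subgroup G) : pCoreOf p N ≤ OO N :=
  pcore_max (pcore_normal _ N) (odd_of_pGrp (pcore_pGrp p N) p2)

namespace MT

variable {p : ℕ} {s z ρ : G} {A B C : Subgroup G} (h : MT p t s z A B C ρ)
include h

theorem inv_z {a : G} (c : a ∈ 𝒞[s]) (e : t * a * t⁻¹ = a⁻¹) : z * a * z⁻¹ = a⁻¹ := by
  rw [← h.hz, show t * s * a * (t * s)⁻¹ = t * (s * a * s⁻¹) * t⁻¹ by group,
    conj_eq_iff.2 (mem_cent_singleton_comm.1 c), e]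

theorem cVz : 𝒞[z] ⊓ 𝒞[t] = 𝒞[t] ⊓ 𝒞[s] :=
  le_antisymm (fun _ hx => ⟨hx.2, h.rev.cz hx.2 hx.1⟩) fun _ hx => ⟨h.cz hx.1 hx.2, hx.1⟩

theorem cVs : 𝒞[s] ⊓ 𝒞[z] = 𝒞[t] ⊓ 𝒞[s] := h.rot.rot.cVz.trans h.cVz

theorem tV : t ∈ 𝒞[t] ⊓ 𝒞[s] := ⟨mem_cent_singleton_self t, h.f.cs⟩

theorem sV : s ∈ 𝒞[t] ⊓ 𝒞[s] := ⟨h.f.ct, mem_cent_singleton_self s⟩

theorem tb_sd {N E : Subgroup G} (d : SD N E s t ∨ SD N E t s) : ⁅pCoreOf p A ⊓ N, zpowers t⁆ ≤ pCoreOf p N := by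
  obtain ⟨le, nE, tE, dh⟩ : E ≤ N ∧ N ≤ 𝒩(E) ∧ t ∈ E ∧ Dh E :=
    d.elim (fun d => ⟨d.le, d.norm, d.vE, d.dh⟩) fun d => ⟨d.le, d.norm, d.tE, d.dh⟩
  rw [← h.RR p (le tE)]
  exact (tb_dh dh t tE h.t2 p h.pp h.p2 _ ((commutator_mono le_rfl (zpowers_le.2 tE)).trans
    (comm_le_right (inf_le_right.trans nE))) (((pcore_pGrp p A).inf_left _).of_le (h.R_le p (le tE)))
    ((inf_le_inf_right _ le).trans (h.nR p))).trans (NormalIn.pcore_le ⟨le, nE⟩ _)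

theorem tb_dh' {N : Subgroup G} (tN : t ∈ N) (d : Dh N) : ⁅pCoreOf p A ⊓ N, zpowers t⁆ ≤ pCoreOf p N :=
  tb_dh d t tN h.t2 p h.pp h.p2 _ inf_le_right ((pcore_pGrp p A).inf_left _) (h.nOX p)

variable [IsSimpleGroup G]

/-- (TBa) -/
theorem tba (f : FA z t w j) {N : Subgroup G} (N1 : N ≠ ⊤) (VN : 𝒞[t] ⊓ 𝒞[s] ≤ N) (wN : w ∈ N) {a : G}
    (ha : a ∈ pCoreOf p A ⊓ UU s) (aN : a ∈ N) (e : t * a * t⁻¹ = a⁻¹) : a ∈ OO N := by
  have tN := VN h.tV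
  have sN := VN h.sV
  have zN : z ∈ N := h.hz ▸ mul_mem tN sN
  have m := mem_comm_inv ((h.oO p).inf_left N) ⟨ha.1, aN⟩ e
  have wt : w * t * w⁻¹ = s := f.toLH.wu.trans h.rot.rot.hz
  rcases f.lx.fx N (h.cVz ▸ VN) wN with i | ⟨g, gN, eg⟩ | d
  · exact comm_le_of_dec (pcore_norm _ N) zN (zs_dec f.it zN i) (commutator_mono inf_le_right le_rfl
      (mem_comm_inv ((h.oO p).inf_left N) ⟨ha.1, aN⟩ (h.inv_z (UU_le s ha.2) e)))
  · by_contra aO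
    have k : w⁻¹ * s * w⁻¹⁻¹ = t := by rw [← wt]; group
    obtain ⟨E, d⟩ := sub2 f.toLH.ra h.ih N1 h.f.symm sN tN ⟨_, inv_mem wN, k⟩
      ⟨g⁻¹ * w⁻¹, mul_mem (inv_mem gN) (inv_mem wN), by
        rw [h.swp.hz, show g⁻¹ * w⁻¹ * s * (g⁻¹ * w⁻¹)⁻¹ = g⁻¹ * (w⁻¹ * s * w⁻¹⁻¹) * g by group, k, ← eg]; group⟩
      (mem_OC ha.2 aN) e aO
    exact aO (pcore_le_OO h.p2 N (h.tb_sd (.inl d) m))
  · exact pcore_le_OO h.p2 N (h.tb_dh' tN d m)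

theorem norm_nt {D : Subgroup G} (D0 : D ≠ ⊥) (o : IsPiGrp {2}ᶜ D) : 𝒩(D) ≠ ⊤ := fun e =>
  odd_not_mem o h.f.it.two h.f.it.2 (((inferInstance : IsSimpleGroup G).eq_bot_or_eq_top_of_normal D
    (normalizer_eq_top_iff.1 e)).resolve_left D0 ▸ mem_top t)

theorem stepQ' (hc : ∀ q, q.Prime → ∃ r, r ≠ q ∧ pCoreOf r A ≠ ⊥) {M : Subgroup G} {r : ℕ} (VM : 𝒞[t] ⊓ 𝒞[s] ≤ M)
    (sc : SC (fittingOf A ⊓ M) A) (s2 : SC (fittingOf B ⊓ M) B) (e : pCoreOf r A = ⊥) : pCoreOf r M = ⊥ := by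
  have tM := VM h.tV
  have sM := VM h.sV
  have hB := pcore_inf_eq_bot s2 (h.rot.lay ▸ bot_le) inf_le_right (h.OB e)
  set Q := pCoreOf r M with hQ
  have pQ : IsPGrp r Q := pcore_pGrp r M
  have MQ : M ≤ 𝒩(Q) := pcore_norm _ M
  have oQ := h.Q_odd tM sc e
  have ft := h.Q_fix sc e
  have fs : Q ⊓ 𝒞[s] = ⊥ := eq_bot_iff.2 ((inf_le_inf_left _ h.rot.cA).trans hB.le)
  have it := fun y (hy : y ∈ Q) => inv_of_fpf h.t2 (MQ tM) ft hy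
  have zQ : z ∈ 𝒞(Q) := h.hz ▸ mul_mem_cent_of_inv it fun y hy => inv_of_fpf h.rot.t2 (MQ sM) fs hy
  have Qz : Q ≤ 𝒞[z] := mem_cent_iff_le_cent_singleton.1 zQ
  have h3 := h.rot.rot
  have QC : Q ≤ C := Qz.trans h3.cA
  have h4 : fittingOf C ≤ 𝒞(Q) := fitting_le_of_forall_pcore fun q hq => le_cent_symm (by
    obtain ⟨l, lq, l0⟩ := hc q hq
    set Z := 𝒵(pCoreOf l A) with hZ
    have nZ : Z ⊲ A := center_pcore_normal l A
    have ZM : Z ≤ M := (sc.p_center_le l).trans ((pcore_le _ _).trans inf_le_right)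
    have oZ : IsPiGrp {2}ᶜ Z := (h.oO l).inf_left _
    have co := (coprime_fitting_of_pcore pQ e).coprime_dvd_left
      (card_dvd_of_le ((inf_le_left (b := 𝒞(pCoreOf l A))).trans (pcore_le_fitting l A)))
    have tZ : t ∈ 𝒩(Z ⊓ 𝒞[z]) := norm_inf (zpowers_le.2 (nZ.2 h.tA)) (norm_of_le (zpowers_le.2 h3.f.ct)) (mem_zpowers t)
    have Z0 : Z ⊓ 𝒞[z] ⊓ 𝒞[t] ≤ Z := inf_le_left.trans inf_le_left
    have h1 : Q ⊓ 𝒞(Z ⊓ 𝒞[z] ⊓ 𝒞[t]) = ⊥ := by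
      have h2 : Q ⊓ 𝒞(Z ⊓ 𝒞[z] ⊓ 𝒞[t]) ≤ 𝒞(Z) := by
        conv_rhs => rw [← comm_sup_cent oZ h3.t2 (nZ.2 h.zA), ← comm_sup_cent (oZ.inf_left 𝒞[z]) h.t2 tZ]
        exact le_cent_sup (inf_le_left.trans (le_cent_symm ((commutator_mono le_rfl (zpowers_le.2 zQ)).trans
          (comm_le_right (norm_cent (ZM.trans MQ)))))) (le_cent_sup (inf_le_left.trans (le_cent_symm
            (comm_le_cent_of_inv it (inf_le_left.trans (ZM.trans MQ))))) inf_le_right)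
      exact eq_bot_iff.2 ((le_inf inf_le_left (h2.trans (h.prim.cent nZ (center_pcore_ne_bot l0)))).trans
        (pcore_inf_eq_bot sc (h.lay ▸ bot_le) inf_le_right e).le)
    have h2 := coprime_cent_prod (A := Z ⊓ 𝒞[z] ⊓ 𝒞[t]) (Z0.trans (ZM.trans MQ))
      (co.symm.coprime_dvd_right (card_dvd_of_le Z0)) (.inl pQ.sol)
    rw [h1, sup_bot_eq] at h2
    have co' := (coprime_fitting_of_pcore pQ (h.rot.OB (h.OB e))).coprime_dvd_left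
      (card_dvd_of_le (pcore_le_fitting q C))
    have nP : C ≤ 𝒩(pCoreOf q C) := pcore_norm _ C
    have nF : C ⊓ 𝒞[z] ≤ 𝒩(pCoreOf q C ⊓ 𝒞[z]) := norm_inf (inf_le_left.trans nP) (norm_of_le inf_le_right)
    have co2 := co'.coprime_dvd_left (card_dvd_of_le (inf_le_left (b := 𝒞[z])))
    have ZC : Z ⊓ 𝒞[z] ⊓ 𝒞[t] ≤ C := (inf_le_left.trans inf_le_right).trans h3.cA
    refine kill h.t2 h3.t2 h3.f.cs (pcore_pGrp q C).nil (h3.oO q) oQ (oZ.of_le Z0) co' (MQ tM) ft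
      (cent_le_norm Q zQ) (nP h3.sA) (nP h3.tA) (QC.trans nP) (ZC.trans nP)
      (Z0.trans (ZM.trans MQ)) h2.ge (le_cent_symm ?_) ?_
    · refine cent_of_cent_fix (IsPGrp.nil ((pcore_pGrp q C).inf_left _)) ((h3.oO q).inf_left _) h.t2
        (nF ⟨h3.sA, h3.f.ct⟩) (MQ tM) ((le_inf QC Qz).trans nF) co2 (comm_eq_of_inv oQ h.t2 (MQ tM) ft).ge ?_
      exact comm_eq_bot_iff.1 (eq_bot_iff.2 ((le_inf
        ((commutator_mono inf_le_left le_rfl).trans (comm_le_left ((le_inf QC Qz).trans nF)))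
        (comm_le_right (((inf_le_inf_right _ inf_le_right).trans h.cVz.le).trans (VM.trans MQ)))).trans
          (inf_eq_bot_of_cop co2).le))
    · refine le_trans ?_ (cent_anti (comm_le_left (norm_inf (zpowers_le.2 (nP h3.tA))
        (norm_of_le (zpowers_le.2 h3.f.cs)))))
      exact comm_eq_bot_iff.1 (eq_bot_iff.2 ((le_inf ((commutator_mono Z0 le_rfl).trans
        (comm_le_left (inf_le_right.trans (h.cA.trans nZ.2)))) ((commutator_mono le_rfl inf_le_left).trans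
          (comm_le_right (ZC.trans nP)))).trans
        (inf_eq_bot_of_cop (((pcore_pGrp l A).inf_left _).coprime_of_ne (pcore_pGrp q C) lq)).le)))
  exact eq_bot_iff.2 ((le_pcore_of_le_fitting ((le_inf QC (le_cent_symm h4)).trans (cent_fitting_of_layer h3.lay))
    pQ).trans (h.rot.OB (h.OB e)).le)

theorem a_mem {a : G} (ha : a ∈ pCoreOf p A ⊓ UU s) (e : t * a * t⁻¹ = a⁻¹) : a ∈ pCoreOf p B :=
  h.gs p (mem_comm_inv ((h.oO p).inf_left _) ⟨ha.1, h.rot.KO ha.2⟩ e)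

/-- (IIa) -/
theorem charP {a : G} (ha : a ∈ pCoreOf p A ⊓ UU s) (a1 : a ≠ 1) (e : t * a * t⁻¹ = a⁻¹) : CharP p A := by
  by_contra hc
  have hc' : ∀ r, r.Prime → ¬ CharP r A := fun r _ e =>
    hc (((pcore_pGrp p A).mem_of_piGrp h.O0 (e.2.of_le (pcore_le_fitting p A))) ▸ e)
  obtain ⟨w, j, f⟩ := h.rot.rot.fa
  have wt : w * t * w⁻¹ = s := f.toLH.wu.trans h.rot.rot.hz
  have ws : w * s * w⁻¹ = t := h.rot.rot.hz ▸ f.toLH.wtu
  have aD : a ∈ pCoreOf p A ⊓ pCoreOf p B := ⟨ha.1, h.a_mem ha e⟩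
  obtain ⟨N, hN, nN⟩ := exists_coatom_ge (h.norm_nt (ne_bot_of_mem aD a1) ((h.oO p).inf_left _))
  have s1 := sc_of_norm' (inf_le_left.trans (pcore_le_fitting p A)) nN
  have s2 := sc_of_norm' (inf_le_right.trans (pcore_le_fitting p B)) nN
  have VN : 𝒞[t] ⊓ 𝒞[s] ≤ N := (norm_inf (inf_le_left.trans (h.cA.trans (pcore_norm _ A)))
    (inf_le_right.trans (h.rot.cA.trans (pcore_norm _ B)))).trans nN
  have wN : w ∈ N := nN (conjg_eq_self_iff.1 (by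
    rw [conjg_inf, pcore_conjg', pcore_conjg', h.conj_eq wt, h.swp.conj_eq ws, inf_comm]))
  have aO := h.tba f hN.1 VN wN ha (nN (le_normalizer aD)) e
  have k : ∀ {v : G}, v * a * v⁻¹ = a⁻¹ → v ∉ 𝒞(OO N) := fun e c =>
    a1 (one_of_inv_cent (pcore_piGrp _ N) aO e (mem_c1.2 (c a aO)))
  have l : layerOf N = ⊥ := by_contra fun l => by
    have c := layerOf_cent_of_normal (pcore_normal {2}ᶜ N) (odd_sol (pcore_piGrp _ N))
    obtain ⟨w', j', f'⟩ := h.fa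
    rcases f'.toLH.meetV (VN h.tV) (VN h.sV) (layerOf_normal N) (fun o => layer_nsol l (odd_sol o)) with m | m | m
    · exact k e (c m)
    · exact k e (c (ws ▸ conj_mem_of_mem_norm (layerOf_norm N wN) m))
    · exact k (h.inv_z (UU_le s ha.2) e) (c (h.hz ▸ m))
  have hq : ∀ q, q.Prime → ∃ r, r ≠ q ∧ pCoreOf r A ≠ ⊥ := fun q hq => by
    by_contra! e
    exact hc' q hq ⟨h.lay, pGrp_fitting_of_forall fun r _ rq => e r rq⟩
  have e1 := bender' h.prim (prim_of_coatom hN) s1 inf_le_right (h.lay ▸ bot_le) (l ▸ bot_le)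
    (fun r _ a b => a (h.stepQ' hq VN s1 s2 b)) hc'
  have e2 := bender' h.rot.prim (prim_of_coatom hN) s2 inf_le_right (h.rot.lay ▸ bot_le) (l ▸ bot_le)
    (fun r _ a b => a (h.stepQ' hq VN s1 s2 (h.swp.OB b))) fun r hr e => hc' r hr (h.swp.rA ▸ e.conjg _)
  exact h.ne (e1.trans e2.symm)

end MT

end CA.Abg
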