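/-
The case `C(t) < M`: reduction to the cases (I) and (II).
-/
import Cfsg.Agent.Abg.MA2

set_option autoImplicit false
set_option linter.unusedSectionVars false

namespace CA.Abg

open Subgroup Cfsg CA.FG CA.BG CA.GW CA.GW.BA CA.Dih
open scoped commutatorElement

universe u v

variable {G : Type u} [Group G] [Finite G] {t u v w j x : G}

theorem LH.meetV' (h : LH t u w j) {N E : Subgroup G} (tN : t ∈ N) (uN : u ∈ N) (wN : w ∈ N) (hE : E ⊲ N)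
    (o : ¬ IsPiGrp {2}ᶜ E) : t ∈ E := by
  have k : u ∈ E → t ∈ E := fun m => by
    have := mul_mem (h.wu ▸ conj_mem_of_mem_norm (hE.2 wN) m) m
    rwa [mul_assoc, h.iu.1, mul_one] at this
  rcases h.meetV tN uN hE o with m | m | m
  exacts [m, k m, k (h.wtu ▸ conj_mem_of_mem_norm (hE.2 wN) m)]

theorem not_cent_pcore {X : Subgroup G} (t2 : t * t = 1) (o : IsPiGrp {2}ᶜ X) (n : t ∈ 𝒩(X)) (e : ¬ X ≤ 𝒞[t]) :
    ∃ p : ℕ, p.Prime ∧ t ∉ 𝒞(pCoreOf p X) := by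
  by_contra! k
  exact e (mem_cent_iff_le_cent_singleton.1 (coprime_cent_Fitting (zpowers_le.2 n) ((two_zpowers t2).coprime o).symm
    (sol_of_odd o) ⟨mem_zpowers t, mem_cent_iff_le_cent_singleton.2 (fitting_le_of_forall_pcore fun p hp =>
      mem_cent_iff_le_cent_singleton.1 (k p hp))⟩))

theorem FA.exists_MT (gx : GX G) (ih : IH G) [IsSimpleGroup G] (f : FA t u w j) (mx : ¬ IsCoatom 𝒞[t]) :
    ∃ p A B C ρ, MT p t u (t * u) A B C ρ := by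
  have h := f.toLH
  have C1 : 𝒞[t] ≠ ⊤ := fun e => by
    obtain ⟨g, eg⟩ := h.one u h.iu
    exact h.ut (eg.symm.trans (conj_eq_of_cent (e.ge trivial)))
  obtain ⟨M, hM, tM⟩ := exists_coatom_ge C1
  have tm := tM (mem_cent_singleton_self t)
  have dec := zs_dec h.it tm fun g hg c => by_contra fun ne => by
    obtain ⟨c, hc, e⟩ := h.cju _ c (h.it.conj g) ne
    exact f.ix M hM.1 tM (c⁻¹ * g) (mul_mem (inv_mem (tM hc)) hg) (by
      rw [show c⁻¹ * g * t * (c⁻¹ * g)⁻¹ = c⁻¹ * (g * t * g⁻¹) * c by group, ← e]; group)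
  obtain ⟨p, hp, nc⟩ := not_cent_pcore h.it.1 (pcore_piGrp {2}ᶜ M) (pcore_norm _ M tm) fun e =>
    mx (le_antisymm tM (dec.ge.trans (sup_le inf_le_right e)) ▸ hM)
  have nc' : t ∉ 𝒞(pCoreOf p M) := fun e => nc (cent_anti ((pcore_normal _ M).pcore_le _) e)
  have p2 : p ≠ 2 := fun e => nc (by
    rw [e, show pCoreOf 2 (OO M) = ⊥ from ((pcore_piGrp _ M).of_le (pcore_le _ _)).eq_bot
      ((pcore_pGrp 2 (OO M)).piGrp (by simp)), cent_bot]; trivial)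
  have O2 : pCoreOf 2 M = ⊥ := by_contra fun h0 => nc' (pcore_cent_of_disjoint (π := {2}) (by simpa using p2.symm) M
    (h.meetV' tm (tM h.uC) (tM h.wC) (pcore_normal _ M) fun o => h0 (IsPiGrp.eq_bot (pcore_pGrp 2 M) (by simpa using o))))
  have lay : layerOf M = ⊥ := by_contra fun l => nc' (layerOf_cent_pcore p M
    (h.meetV' tm (tM h.uC) (tM h.wC) (layerOf_normal M) fun o => layer_nsol l (odd_sol o)))
  have odd : IsPiGrp {2}ᶜ (fittingOf M) := (pcore_piGrp _ M).of_le (fitting_le_of_forall_pcore fun q _ => by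
    by_cases q2 : q = 2
    · rw [q2, O2]; exact bot_le
    · exact pcore_le_OO q2 M)
  obtain ⟨ρ, r1, r2⟩ := h.pair (a := u) (b := t * u) ⟨h.iu, h.four.ts, fun e => h.it.2 (mul_eq_right.1 e.symm), by
    rw [← mul_assoc, ← h.four.comm]⟩
  have r3 : ρ * (t * u) * ρ⁻¹ = t := by
    rw [show ρ * (t * u) * ρ⁻¹ = ρ * t * ρ⁻¹ * (ρ * u * ρ⁻¹) by group, r1, r2, h.four.sts]
  refine ⟨p, M, _, _, ρ, ⟨h.four, rfl, r1, r2, r3, rfl, rfl, ?_, hM, tM, fun e => ?_, lay, odd, hp, nc'⟩, gx, ih,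
    dec.ge.trans (sup_le (inf_le_right.trans le_sup_right) le_sup_left)⟩
  · rw [← conjg_mul, ← conjg_mul]
    refine conjg_of_mem (tM (conj_eq_iff.1 ?_))
    rw [show ρ * ρ * ρ * t * (ρ * ρ * ρ)⁻¹ = ρ * (ρ * (ρ * t * ρ⁻¹) * ρ⁻¹) * ρ⁻¹ by group, r1, r2, r3]
  · exact f.ix M hM.1 tM ρ (prim_of_coatom hM M ⟨le_rfl, le_normalizer⟩ (ne_bot_of_mem tm h.it.2)
      (conjg_eq_self_iff.1 e.symm)) r1

theorem MT.exists_a {p : ℕ} {s z ρ : G} {A B C : Subgroup G} (h : MT p t s z A B C ρ)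
    (e : ¬ fittingOf A ⊓ UU s ≤ 𝒞[t]) : ∃ r, MT r t s z A B C ρ ∧
      ∃ a ∈ pCoreOf r A ⊓ UU s, a ≠ 1 ∧ t * a * t⁻¹ = a⁻¹ := by
  have tn : t ∈ 𝒩(fittingOf A ⊓ UU s) := norm_inf (zpowers_le.2 (fitting_norm A h.tA))
    (zpowers_le.2 (UU_norm s h.f.cs)) (mem_zpowers t)
  obtain ⟨r, hr, nc⟩ := not_cent_pcore h.t2 (h.odd.inf_left _) tn e
  have le : pCoreOf r (fittingOf A ⊓ UU s) ≤ pCoreOf r A ⊓ UU s :=
    le_inf (le_pcore_of_le_fitting ((pcore_le _ _).trans inf_le_left) (pcore_pGrp _ _)) ((pcore_le _ _).trans inf_le_right)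
  refine ⟨r, h.prime hr fun c => nc (cent_anti (le.trans inf_le_left) c), by_contra fun k => nc ?_⟩
  push Not at k
  refine mem_cent_iff_le_cent_singleton.2 (le.trans fun y hy => ?_)
  obtain ⟨i, ⟨hi, ei⟩, b, hb, rfl⟩ := exists_inv_mul ((h.oO r).inf_left (UU s)) h.t2 (norm_inf (zpowers_le.2
    (pcore_norm _ A h.tA)) (zpowers_le.2 (UU_norm s h.f.cs)) (mem_zpowers t)) hy
  rw [by_contra fun i1 => k i hi i1 ei, one_mul]
  exact hb.2

theorem abg_core (gx : GX G) (ih : IH G) [IsSimpleGroup G]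
    (cI : ∀ {p : ℕ} {t s z ρ : G} {A B C : Subgroup G}, MT p t s z A B C ρ → fittingOf A ⊓ UU s ≤ 𝒞[t] → s ∈ 𝒞(UU t))
    (cII : ∀ {p : ℕ} {t s z ρ : G} {A B C : Subgroup G}, MT p t s z A B C ρ → CharP p A →
      ∀ a ∈ pCoreOf p A ⊓ UU s, a ≠ 1 → t * a * t⁻¹ = a⁻¹ → False) : A1 G := fun t v it iv vC x hx e => by
  by_cases vt : v = t
  · exact one_of_inv_cent (UU_odd t) hx e (vt ▸ UU_le t hx)
  obtain ⟨w, j, f⟩ := gx t v (four_of it vC iv vt)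
  refine f.toLH.a1 ?_ t v it iv vC x hx e
  by_cases mx : IsCoatom 𝒞[t]
  · exact cmax f.toLH ih mx (f.c35.imp (·.1) fun c => ⟨c.1, c.2.1⟩)
  obtain ⟨p, A, B, C, ρ, h⟩ := f.exists_MT gx ih mx
  refine cI h (by_contra fun e => ?_)
  obtain ⟨r, h', a, ha, a1, ea⟩ := h.exists_a e
  exact cII h' (h'.charP ha a1 ea) a ha a1 ea

end CA.Abg
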