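/-
Groups with quasi-dihedral or wreathed Sylow 2-subgroups, `C(t) < M`: lemmas on inverted elements.
-/
import Cfsg.Agent.Abg.MDefs

set_option autoImplicit false
set_option linter.unusedSectionVars false

namespace CA.Abg

open Subgroup Cfsg CA.FG CA.BG CA.Dih CA.GW CA.GW.BA CA.GW.L1
open scoped commutatorElement IsMulCommutative Classical

universe u

variable {G : Type u} [Group G] [Finite G] {t s a y : G} {U X F B : Subgroup G}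

theorem eq_of_inv (oU : IsPiGrp {2}ᶜ U) {y' : G} (hy : y ∈ U) (hy' : y' ∈ U) (e : a * y * a⁻¹ = y⁻¹)
    (e' : a * y' * a⁻¹ = y'⁻¹) (c : y⁻¹ * y' ∈ 𝒞[a]) : y = y' := by
  have h1 : y * y'⁻¹ = y⁻¹ * y' := by
    rw [← conj_eq_iff.2 (mem_cent_singleton_comm.1 c), ← cj_mul, e', ← conj_inv, e, inv_inv]
  have h2 : y * (y⁻¹ * y') * y⁻¹ = (y⁻¹ * y')⁻¹ := by
    calc _ = (y * y'⁻¹)⁻¹ := by group
      _ = _ := by rw [h1]
  have m := mul_mem (inv_mem hy) hy'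
  have h4 : y * y * (y⁻¹ * y') * (y * y)⁻¹ = y⁻¹ * y' := by
    calc _ = y * (y * (y⁻¹ * y') * y⁻¹) * y⁻¹ := by group
      _ = _ := by rw [h2, ← conj_inv, h2, inv_inv]
  have h5 : y ∈ 𝒞[y⁻¹ * y'] := by
    obtain ⟨z, hz, ez⟩ := exists_sqrt (piGrp_zpowers_iff.2 (oU.piElt hy)) (mem_zpowers y)
    obtain ⟨k, rfl⟩ := hz
    have := zpow_mem (conj_eq_iff.1 h4) k
    rwa [(Commute.refl y).mul_zpow, show y ^ k * y ^ k = y from ez] at this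
  exact (inv_mul_eq_one.1 (one_of_inv_cent oU m h2 (mem_cent_singleton_comm.1 h5)))

theorem mem_comm_of_inv (oU : IsPiGrp {2}ᶜ U) (hy : y ∈ U) (e : a * y * a⁻¹ = y⁻¹) : y ∈ ⁅U, zpowers a⁆ := by
  obtain ⟨z, hz, rfl⟩ := exists_sqrt oU hy
  have := commutator_mem_commutator (zpowers_le.2 hy hz) (mem_zpowers a)
  rwa [commutatorElement_def, mul_assoc, mul_assoc, ← mul_assoc a, ← conj_inv, inv_of_mem_zpowers e hz, inv_inv] at this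

theorem comm_inv_le (a2 : a * a = 1) (na : a ∈ 𝒩(U)) (h : ∀ y ∈ U, a * y * a⁻¹ = y⁻¹ → y ∈ X) : ⁅U, zpowers a⁆ ≤ X :=
  commutator_le.2 fun x hx b hb => by
    rcases (mem_zpowers_inv a2).1 hb with rfl | rfl
    · simp
    refine h _ (comm_le_left (zpowers_le.2 na) (commutator_mem_commutator hx hb)) ?_
    calc _ = b * x * b⁻¹ * (b * b) * x⁻¹ * (b * b)⁻¹ := by simp only [commutatorElement_def]; group
      _ = b * x * b⁻¹ * x⁻¹ := by rw [a2]; group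
      _ = _ := by simp only [commutatorElement_def]; group

theorem le_cent_of_inv (oU : IsPiGrp {2}ᶜ U) (a2 : a * a = 1) (na : a ∈ 𝒩(U))
    (h : ∀ y ∈ U, a * y * a⁻¹ = y⁻¹ → y = 1) : U ≤ 𝒞[a] := fun y hy => by
  obtain ⟨i, ⟨hi, e⟩, b, hb, rfl⟩ := exists_inv_mul oU a2 na hy
  rw [h i hi e, one_mul]; exact hb.2

theorem le_cent_of_comm (oU : IsPiGrp {2}ᶜ U) (a2 : a * a = 1) (na : a ∈ 𝒩(U)) (h : ⁅U, zpowers a⁆ ≤ 𝒞[a]) :
    U ≤ 𝒞[a] := le_cent_of_inv oU a2 na fun _ hy e => one_of_inv_cent oU hy e (h (mem_comm_of_inv oU hy e))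

/-- an element of `C(a)` moving the inverted elements inside their `C(a)`-cosets centralizes `[U, a]` -/
theorem cent_comm_of (oU : IsPiGrp {2}ᶜ U) (a2 : a * a = 1) (na : a ∈ 𝒩(U)) {x : G} (nx : x ∈ 𝒩(U)) (c : x ∈ 𝒞[a])
    (h : ∀ y ∈ U, a * y * a⁻¹ = y⁻¹ → y⁻¹ * (x * y * x⁻¹) ∈ 𝒞[a]) : ⁅U, zpowers a⁆ ≤ 𝒞[x] :=
  comm_inv_le a2 na fun y hy e => mem_cent_singleton_comm.1 (conj_eq_iff.1 (eq_of_inv oU hy (conj_mem_of_mem_norm nx hy) e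
    (by
      calc _ = x * ((x⁻¹ * a * x) * y * (x⁻¹ * a * x)⁻¹) * x⁻¹ := by group
        _ = _ := by rw [mul_assoc x⁻¹, ← mem_c1.1 c, inv_mul_cancel_left, e]; group) (h y hy e)).symm)

theorem cent_le_der (oU : IsPiGrp {2}ᶜ U) (a2 : a * a = 1) (na : a ∈ 𝒩(U)) (h : U ≤ ⁅U, zpowers a⁆) :
    U ⊓ 𝒞[a] ≤ ⁅U, U⁆ := by
  have nD : U ≤ 𝒩(⁅U, U⁆) := norm_comm le_normalizer le_normalizer
  have aD : a ∈ 𝒩(⁅U, U⁆) := zpowers_le.1 (norm_comm (zpowers_le.2 na) (zpowers_le.2 na))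
  have h1 := coprime_abel_cent_TI (zpowers_le.2 (coset_mem_norm aD na)) (co_zpowers (coset_sq a2 aD) (oU.quot _))
    ((quot_abelian_iff nD).2 le_rfl)
  rw [← quot_comm_zpowers aD nD, le_antisymm (comm_le_left (zpowers_le.2 na)) h, cent_zpowers,
    ← quot_cent1 oU a2 (comm_le_of_le le_rfl le_rfl) aD] at h1
  exact (quot_eq_bot_iff (inf_le_left.trans nD)).1 h1

/-- `[F, t]` is generated by the inverted elements of `C_F(s)` and `C_F(t s)` -/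
theorem gen2 (f : Four t s) (nF : Group.IsNilpotent F) (oF : IsPiGrp {2}ᶜ F) (ht : t ∈ 𝒩(F)) (hs : s ∈ 𝒩(F))
    (h1 : ∀ y ∈ F ⊓ 𝒞[s], t * y * t⁻¹ = y⁻¹ → y ∈ X) (h2 : ∀ y ∈ F ⊓ 𝒞[t * s], t * y * t⁻¹ = y⁻¹ → y ∈ X) :
    ⁅F, zpowers t⁆ ≤ X := by
  have WF : ⁅F, zpowers t⁆ ≤ F := comm_le_left (zpowers_le.2 ht)
  have cc := (comm_comm_zpowers oF f.it.1 ht).ge
  have n : ∀ {b : G}, b ∈ 𝒩(F) → b ∈ 𝒞[t] → b ∈ 𝒩(⁅F, zpowers t⁆) := fun h c =>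
    zpowers_le.1 (norm_comm (zpowers_le.2 h) (norm_zpowers_of_cent (zpowers_le.2 c)))
  have tW := n ht (mem_cent_singleton_self t)
  have sW := n hs f.ct
  generalize ⁅F, zpowers t⁆ = W at *
  have oW := oF.of_le WF
  have d := (cent_le_der oW f.it.1 tW cc).trans (le_sup_left (b := W ⊓ X))
  have k : ∀ {b : G}, t ∈ 𝒞[b] → (∀ y ∈ F ⊓ 𝒞[b], t * y * t⁻¹ = y⁻¹ → y ∈ X) → W ⊓ 𝒞[b] ≤ ⁅W, W⁆ ⊔ W ⊓ X :=
    fun c h y hy => by
      obtain ⟨i, ⟨hi, e⟩, b, hb, rfl⟩ := exists_inv_mul (oW.of_le inf_le_left) f.it.1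
        (zpowers_le.1 (norm_inf (zpowers_le.2 tW) (norm_of_le (zpowers_le.2 c)))) hy
      exact mul_mem (mem_sup_right ⟨hi.1, h i ⟨WF hi.1, hi.2⟩ e⟩) (d ⟨hb.1.1, hb.2⟩)
  exact (eq_of_nil_of_le_der_sup (nil_of_le nF WF) inf_le_left
    (f.gen oW tW sW d (k f.cs h1) (k f.left.cs h2))).ge.trans inf_le_right

/-- `B = [B, a]` centralizes `C_F(a)`: then the `2`-elements of `B` centralize `F` -/
theorem cent_pp (nF : Group.IsNilpotent F) (oF : IsPiGrp {2}ᶜ F) (a2 : a * a = 1) (aF : a ∈ 𝒩(F)) (aB : a ∈ 𝒩(B))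
    (BF : B ≤ 𝒩(F)) (hB : B ≤ ⁅B, zpowers a⁆) (h : F ⊓ 𝒞[a] ≤ 𝒞(B)) {g : G} (hg : g ∈ B) (g2 : IsPiElt {2} g) :
    g ∈ 𝒞(F) := by
  obtain ⟨A, hA⟩ : ∃ A, A = closure {g | g ∈ B ∧ IsPiElt {2} g} := ⟨_, rfl⟩
  have nA : 𝒩(B) ≤ 𝒩(A) := hA ▸ norm_closure fun b hb _ hx => ⟨conj_mem_of_mem_norm hb hx.1, hx.2.conj b⟩
  have AB : A ≤ B := hA ▸ (closure_le _).2 fun _ hx => hx.1
  have n : ∀ {Z : Subgroup G}, Z ≤ 𝒩(F) → Z ≤ 𝒩(B) → Z ≤ 𝒩(F ⊓ 𝒞(A)) := fun h1 h2 =>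
    norm_inf h1 (norm_cent (h2.trans nA))
  have za := n (zpowers_le.2 aF) (zpowers_le.2 aB)
  have zB := n BF le_normalizer
  by_contra e
  have lt := nilpotent_proper_norm nF (lt_of_le_of_ne (inf_le_left (b := 𝒞(A))) fun e' =>
    e (le_cent_symm (e'.ge.trans inf_le_right) (hA ▸ subset_closure ⟨hg, g2⟩)))
  have h1 := comm_comm_le_of_fix (oF.of_le inf_le_left) a2 ⟨lt.le, inf_le_right⟩
    (zpowers_le.1 (norm_inf (zpowers_le.2 aF) (norm_norm za))) (zpowers_le.1 za) (norm_inf BF (norm_norm zB)) zB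
    (le_inf (inf_le_left.trans inf_le_left) (((inf_le_inf_right _ inf_le_left).trans h).trans (cent_anti AB)))
  refine lt.not_ge (le_inf inf_le_left (le_cent_symm ?_))
  refine hA.le.trans ((closure_le _).2 fun x hx => zpowers_le.1 (stable_factor_cent' (K := F ⊓ 𝒞(A)) ?_
    ((commutator_mono le_rfl ((zpowers_le.2 hx.1).trans hB)).trans h1)
    ((piGrp_zpowers_iff.2 hx.2).coprime (oF.of_le inf_le_left)).symm))
  exact le_cent_symm (inf_le_right.trans (cent_anti (zpowers_le.2 (hA ▸ subset_closure hx))))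

/-- a `2`-element lying in `K L`, where the `2`-elements of `L` centralize `K` -/
theorem cent_of_two {K L : Subgroup G} (oK : IsPiGrp {2}ᶜ K) (nL : L ≤ 𝒩(K)) {i : G} (hi : i ∈ K ⊔ L)
    (i2 : IsPiElt {2} i) (h : ∀ g ∈ L, IsPiElt {2} g → g ∈ 𝒞(K)) : i ∈ 𝒞(K) := by
  obtain ⟨k, hk, l, hl, e⟩ := (mem_sup_of_right_le_norm nL).1 hi
  obtain ⟨b, c, hb, hc, pb, pc, el, cm⟩ := exists_piPart {2} l
  have ni : zpowers i ≤ 𝒩(K) := zpowers_le.2 (sup_le le_normalizer nL hi)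
  have cK : c ∈ K := mem_of_coprime_relIndex (M := K ⊔ zpowers i) (zpowers_le.2 (by
    rw [eq_inv_mul_of_mul_eq e]; exact mul_mem (mem_sup_left (inv_mem hk)) (mem_sup_right (mem_zpowers i))) hc)
    (sup_le le_normalizer ni) (by
      rw [relIndex_sup_of_right_le_norm ni]; exact PiNat.coprime' pc ((piGrp_zpowers_iff.2 i2).relIndex K))
  have nC : K ≤ 𝒩(𝒞(K)) := norm_cent le_normalizer
  refine mem_of_coprime_relIndex (M := 𝒞(K) ⊔ K) ?_ (sup_le le_normalizer nC) (by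
    rw [relIndex_sup_of_right_le_norm nC]; exact PiNat.coprime i2 (oK.relIndex _))
  rw [← e, el]
  exact mul_mem (mem_sup_right hk) (mul_mem (mem_sup_left (h b (zpowers_le.2 hl hb) pb)) (mem_sup_right cK))

end CA.Abg
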