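/-
Groups with quasi-dihedral or wreathed Sylow 2-subgroups, `C(t) < M`, parabolic case: `i` centralizes `O(C(t))`.
-/
import Cfsg.Agent.Abg.MI1

set_option autoImplicit false
set_option linter.unusedSectionVars false

namespace CA.Abg

open Subgroup Cfsg CA.FG CA.BG CA.Dih CA.GW CA.GW.BA CA.GW.L1
open scoped commutatorElement IsMulCommutative Classical

universe u

variable {G : Type u} [Group G] [Finite G] [IsSimpleGroup G] {p : ℕ} {t s z w j ρ a y : G} {A B C U X Y : Subgroup G}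

theorem cov_inv {K : Subgroup G} (oU : IsPiGrp {2}ᶜ U) (a2 : a * a = 1) (YU : Y ≤ U) (na : a ∈ 𝒩(Y)) (nK : Y ≤ 𝒩(K))
    (h : U ⊓ K ≤ 𝒞[a]) (hy : y ∈ U) (e : a * y * a⁻¹ = y⁻¹) (m : y ∈ K ⊔ Y) : y ∈ Y := by
  obtain ⟨k, hk, x, hx, rfl⟩ := (mem_sup_of_right_le_norm nK).1 m
  obtain ⟨i, ⟨hi, ei⟩, b, hb, rfl⟩ := exists_inv_mul (oU.of_le YU) a2 na hx
  have kU : k ∈ U := (mul_mem_cancel_right (YU hx)).1 hy
  rw [← eq_of_inv oU (YU hi) hy ei e (by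
    rw [show i⁻¹ * (k * (i * b)) = i⁻¹ * k * i * b by group]
    exact mul_mem (h (mem_inf.2 ⟨mul_mem (mul_mem (inv_mem (YU hi)) kU) (YU hi), conj_mem_of_mem_norm' (nK hi) hk⟩)) hb.2)]
  exact hi

theorem comm_ts (f : Four t s) (oU : IsPiGrp {2}ᶜ U) (c : U ≤ 𝒞[t]) (n : s ∈ 𝒩(U)) :
    ⁅U, zpowers (t * s)⁆ ≤ ⁅U, zpowers s⁆ :=
  comm_inv_le f.ts.1 (mul_mem (cent_le_norm _ (mem_cent_iff_le_cent_singleton.2 c)) n) fun y hy e =>
    mem_comm_of_inv oU hy (by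
      rw [← e, f.comm, show s * t * y * (s * t)⁻¹ = s * (t * y * t⁻¹) * s⁻¹ by group,
        conj_eq_iff.2 (mem_cent_singleton_comm.1 (c hy))])

theorem LH.wV (h : LH t s w j) : w ∈ 𝒩(𝒞[t] ⊓ 𝒞[s]) := norm_fix le_rfl (le_normalizer h.wC) h.wtu

theorem Rt.conjw (h : LH t s w j) (r : Rt t s X) : Rt t s (X :^ w) := by
  have n : 𝒞[t] ⊓ 𝒞[s] ≤ 𝒩(X :^ w) := by rw [← conjg_of_mem_norm h.wV]; exact conjg_le_norm_iff.2 r.norm
  have l : X :^ w ≤ 𝒞[t] := by rw [← conjg_of_mem h.wC]; exact conjg_mono w r.le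
  refine ⟨l, r.odd.conjg w, n, (conjg_mono w r.com).trans ?_, fun e => r.nle ?_⟩
  · rw [conjg_comm, conjg_zpowers, h.wu]
    exact comm_ts h.four (r.odd.conjg w) l (n ⟨h.uC, mem_cent_singleton_self s⟩)
  · rwa [← conjg_of_mem_norm (UU_norm t h.wC), conjg_le_conjg] at e

/-- `[C_P(b), a]` -/
abbrev XX (P : Subgroup G) (a b : G) : Subgroup G := ⁅P ⊓ 𝒞[b], zpowers a⁆

/-- the parabolic case -/
structure MI (p : ℕ) (t s z : G) (A B C : Subgroup G) (ρ : G) : Prop extends MT p t s z A B C ρ where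
  hI : fittingOf A ⊓ UU s ≤ 𝒞[t]

namespace MI

variable (h : MI p t s z A B C ρ)
include h

theorem rot : MI p s z t B C A ρ := ⟨h.toMT.rot, by
  have := conjg_mono ρ h.hI
  rwa [conjg_inf, fitting_conjg, UU_conj, conjg_cent1, h.rA, h.rs, h.rt] at this⟩

theorem rev : MI p t z s A C B ρ⁻¹ := ⟨h.toMT.rev, by
  obtain ⟨w, j, a⟩ := h.gx t s h.f
  have := conjg_mono w h.hI
  rwa [conjg_inf, fitting_conjg, UU_conj, conjg_of_mem a.wC, conjg_of_mem (h.cA a.wC), a.wu, h.hz] at this⟩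

theorem swp : MI p s t z B A C ρ⁻¹ := h.rot.rev

theorem nP : 𝒞[t] ≤ 𝒩(pCoreOf p A) := h.cA.trans (pcore_norm _ A)

theorem PK : pCoreOf p A ⊓ 𝒞[t] ≤ UU t :=
  pcore_max ⟨inf_le_right, norm_inf h.nP (norm_of_le le_rfl)⟩ ((h.oO p).of_le inf_le_left)

theorem PI : pCoreOf p A ⊓ UU s ≤ 𝒞[t] := (inf_le_inf_right _ (pcore_le_fitting p A)).trans h.hI

theorem nle : ¬ pCoreOf p A ⊓ 𝒞[s] ≤ 𝒞[t] := fun e => by
  obtain ⟨w, j, a⟩ := h.gx t s h.f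
  have := conjg_mono w e
  rw [conjg_inf, conjg_of_mem_norm (h.nP a.wC), conjg_cent1, conjg_of_mem a.wC, a.wu] at this
  exact h.nc (mem_cent_iff_le_cent_singleton.2
    (h.f.gen (h.oO p) (h.nP (mem_cent_singleton_self t)) (h.nP h.f.ct) inf_le_right e this))

theorem nV (n : 𝒞[t] ⊓ 𝒞[s] ≤ 𝒩(Y)) : 𝒞[s] ⊓ 𝒞[t] ≤ 𝒩(Y ⊓ 𝒞[s]) :=
  norm_inf ((inf_comm _ _).le.trans n) (norm_of_le inf_le_left)

theorem tV : t ∈ 𝒞[s] ⊓ 𝒞[t] := ⟨h.f.cs, mem_cent_singleton_self t⟩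

theorem tP : t ∈ 𝒩(pCoreOf p A ⊓ 𝒞[s]) := h.nV (inf_le_left.trans h.nP) h.tV

theorem XP : XX (pCoreOf p A) t s ≤ pCoreOf p A ⊓ 𝒞[s] := comm_le_left (zpowers_le.2 h.tP)

theorem oP : IsPiGrp {2}ᶜ (pCoreOf p A ⊓ 𝒞[s] : Subgroup G) := (h.oO p).of_le inf_le_left

theorem rt' : Rt s t (XX (pCoreOf p A) t s) :=
  ⟨h.XP.trans inf_le_right, h.oP.of_le h.XP,
    norm_comm (h.nV (inf_le_left.trans h.nP)) (norm_zpowers_of_cent inf_le_right),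
    (comm_comm_zpowers h.oP h.t2 h.tP).ge, fun e => h.nle (le_cent_of_comm h.oP h.t2 h.tP
      ((le_inf (h.XP.trans inf_le_left) e).trans h.PI))⟩

theorem dich (YP : Y ≤ pCoreOf p A) (n : 𝒞[t] ⊓ 𝒞[s] ≤ 𝒩(Y)) : Y ⊓ 𝒞[s] ≤ 𝒞[t] ∨ XX (pCoreOf p A) t s ≤ Y := by
  obtain ⟨w, j, a⟩ := h.gx s t h.f.symm
  have l := inf_le_inf_right 𝒞[s] YP
  have tY := h.nV n h.tV
  have l' : XX Y t s ≤ Y ⊓ 𝒞[s] := comm_le_left (zpowers_le.2 tY)
  refine (a.lx.min _ h.rt' (XX Y t s) (commutator_mono l le_rfl)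
    (norm_comm (h.nV n) (norm_zpowers_of_cent inf_le_right))).imp (fun e => ?_) fun e => ?_
  · exact le_cent_of_comm (h.oP.of_le l) h.t2 tY ((le_inf (l'.trans (inf_le_left.trans YP)) e).trans h.PI)
  · exact comm_inv_le h.t2 h.tP fun y hy ey => (cov_inv h.oP h.t2 l tY (inf_le_right.trans (UU_norm s))
      ((inf_le_inf_right _ inf_le_left).trans h.PI) hy ey (sup_le_sup_left l' _ (e (mem_comm_of_inv h.oP hy ey)))).1

theorem PP : pCoreOf p A ⊓ pCoreOf p B ≤ 𝒞[t] := by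
  have n : 𝒞[t] ⊓ 𝒞[s] ≤ 𝒩(pCoreOf p A ⊓ pCoreOf p B) :=
    norm_inf (inf_le_left.trans h.nP) (inf_le_right.trans h.swp.nP)
  refine h.f.gen ((h.oO p).of_le inf_le_left) (n ⟨mem_cent_singleton_self t, h.f.cs⟩)
    (n ⟨h.f.ct, mem_cent_singleton_self s⟩) inf_le_right
    ((le_inf (inf_le_left.trans inf_le_left) ((inf_le_inf_right _ inf_le_right).trans h.swp.PK)).trans h.PI) ?_
  rw [h.hz]
  refine (h.rev.dich inf_le_left (le_trans (fun x hx => mem_inf.2 ⟨hx.1, h.rev.cz hx.1 hx.2⟩) n)).resolve_right fun e => ?_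
  obtain ⟨g, j, a⟩ := h.gx z t h.rev.f.symm
  have r := h.rev.rt'
  have e1 : XX (pCoreOf p A) t z :^ g ≤ pCoreOf p B := by
    rw [← h.conj_eq (a.wu.trans h.rot.rot.hz), ← pcore_conjg']; exact conjg_mono g (h.rev.XP.trans inf_le_left)
  have l := le_inf (sup_le (e.trans inf_le_right) e1) (sup_le r.le (r.conjw a.toLH).le)
  have m := sup_le_sup_left l _ (a.lx.gen _ r (LL_mem _ _))
  exact a.it.2 (a.i2 ▸ eq_one_of_odd ((UU_odd z).sup ((h.rot.oO p).of_le inf_le_left)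
    (.inr (inf_le_right.trans (UU_norm z)))) (mul_mem m m) (by rw [a.i2, a.it.1]))

theorem iK (a : FA t s w j) : s * w ∈ 𝒞(UU t) := by
  have r := h.swp.rt'
  have r' := r.conjw a.toLH
  have sV := h.swp.tV
  have c1 : UU t ⊓ 𝒞[s] ≤ 𝒞(XX (pCoreOf p B) s t) := fun x hx => mem_cent_iff_le_cent_singleton.2
    (cent_comm_of h.swp.oP a.iu.1 h.swp.tP (h.swp.nV (inf_le_left.trans h.swp.nP) ⟨UU_le t hx.1, hx.2⟩) hx.2
      fun y hy _ => h.swp.PI (mem_inf.2 ⟨mul_mem (inv_mem hy.1) (conj_mem_of_mem_norm (h.swp.nP hx.2) hy.1), by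
        rw [← mul_assoc, ← mul_assoc]
        exact mul_mem (conj_mem_of_mem_norm' (UU_norm t hy.2) hx.1) (inv_mem hx.1)⟩))
  generalize XX (pCoreOf p B) s t = X at *
  have c2 : UU t ⊓ 𝒞[s] ≤ 𝒞(X :^ w) := by
    rw [← conjg_of_mem_norm (norm_fix (UU_le t) (UU_norm t a.wC) a.wtu), ← conjg_cent]; exact conjg_mono w c1
  have l := sup_le r.le r'.le
  exact cent_of_two (UU_odd t) (l.trans (UU_norm t)) (a.lx.gen X r (LL_mem _ _)) a.i_two fun g hg g2 =>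
    cent_UU_of_FF (l hg) g2 (cent_pp (fitting_nil _) (FF_odd t) a.iu.1 ((FF_normal t).2 a.uC)
      (norm_sup r.norm r'.norm sV) (l.trans (FF_normal t).2)
      (sup_le (r.com.trans (commutator_mono le_sup_left le_rfl)) (r'.com.trans (commutator_mono le_sup_right le_rfl)))
      ((inf_le_inf_right _ (FF_le t)).trans (le_cent_sup c1 c2)) hg g2)

end MI

theorem realizeEqns_Abg_MI2 : True := by
  have := @CA.Abg.XX.eq_1.{0}
  have := @CA.Abg.XX.eq_def.{0}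
  have := @CA.Abg.XX.congr_simp.{0}
  trivial

end CA.Abg
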