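/-
Groups with quasi-dihedral or wreathed Sylow 2-subgroups, `C(t) < M`: the parabolic case.
-/
import Cfsg.Agent.Abg.MI2

set_option autoImplicit false
set_option linter.unusedSectionVars false

namespace CA.Abg

open Subgroup Cfsg CA.FG CA.BG CA.Dih CA.GW CA.GW.BA CA.GW.L1
open scoped commutatorElement IsMulCommutative Classical

universe u

variable {G : Type u} [Group G] [Finite G] [IsSimpleGroup G] {p : ℕ} {t s z w j ρ y : G} {A B C U X Y : Subgroup G}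

theorem cent_of_inv {a : G} (oU : IsPiGrp {2}ᶜ U) (hy : y ∈ U) (e : a * y * a⁻¹ = y⁻¹) {x : G} (nx : x ∈ 𝒩(U)) (c : x ∈ 𝒞[a])
    (h : y⁻¹ * (x * y * x⁻¹) ∈ 𝒞[a]) : y ∈ 𝒞[x] :=
  mem_cent_singleton_comm.1 (conj_eq_iff.1 (eq_of_inv oU hy (conj_mem_of_mem_norm nx hy) e (by
    calc _ = x * ((x⁻¹ * a * x) * y * (x⁻¹ * a * x)⁻¹) * x⁻¹ := by group
      _ = _ := by rw [mul_assoc x⁻¹, ← mem_c1.1 c, inv_mul_cancel_left, e]; group) h).symm)

theorem cj_inv {a g x : G} (e : a * x * a⁻¹ = x⁻¹) : g * a * g⁻¹ * (g * x * g⁻¹) * (g * a * g⁻¹)⁻¹ = (g * x * g⁻¹)⁻¹ := by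
  calc _ = g * (a * x * a⁻¹) * g⁻¹ := by group
    _ = _ := by rw [e]; group

/-- `s` inverts the derived group of `W = A B` -/
theorem inv_der {W : Subgroup G} (oW : IsPiGrp {2}ᶜ W) (s2 : s * s = 1) (eW : A ⊔ B = W) (cA : A ≤ 𝒞(A)) (cB : B ≤ 𝒞(B))
    (As : A ≤ 𝒞[s]) (Bs : ∀ b ∈ B, s * b * s⁻¹ = b⁻¹) (sW : s ∈ 𝒩(W)) (d : ⁅W, W⁆ ≤ 𝒞(W)) :
    ∀ y ∈ ⁅W, W⁆, s * y * s⁻¹ = y⁻¹ := by
  have DW : ⁅W, W⁆ ≤ W := comm_le_of_le le_rfl le_rfl
  have sD : zpowers s ≤ 𝒩(⁅W, W⁆) := norm_comm (zpowers_le.2 sW) (zpowers_le.2 sW)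
  have n : W ≤ 𝒩(⁅⁅W, W⁆, zpowers s⁆) := norm_of_cent' ((comm_le_left sD).trans d)
  have AW : A ≤ W := eW ▸ le_sup_left
  have BW : B ≤ W := eW ▸ le_sup_right
  have k : ⁅A, B⁆ ≤ ⁅⁅W, W⁆, zpowers s⁆ := commutator_le.2 fun a ha b hb => by
    have m := commutator_mem_commutator (AW ha) (BW hb)
    refine mem_comm_of_inv (oW.of_le DW) m ?_
    rw [conjugate_commutatorElement, conj_eq_iff.2 (mem_cent_singleton_comm.1 (As ha)), Bs b hb]
    calc _ = b⁻¹ * ⁅a, b⁆⁻¹ * b := by simp only [commutatorElement_def]; group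
      _ = _ := by rw [mul_assoc, comm_of_le_cent d (inv_mem m) (BW hb), inv_mul_cancel_left]
  have l : ⁅W, W⁆ ≤ ⁅⁅W, W⁆, zpowers s⁆ := by
    refine le_trans (le_of_eq (by rw [eW] : ⁅W, W⁆ = ⁅A ⊔ B, A ⊔ B⁆)) ?_
    exact comm_sup_left_le (AW.trans n) (BW.trans n)
      (comm_sup_right_le (AW.trans n) (BW.trans n) ((comm_eq_bot_iff.2 cA).le.trans bot_le) k)
      (comm_sup_right_le (AW.trans n) (BW.trans n) (commutator_comm A B ▸ k) ((comm_eq_bot_iff.2 cB).le.trans bot_le))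
  have := coprime_abel_cent_TI sD (co_zpowers s2 (oW.of_le DW)) (abelian_iff_le_cent.2 (d.trans (cent_anti DW)))
  rw [cent_zpowers] at this
  exact fun y hy => inv_of_fpf s2 (zpowers_le.1 sD) (eq_bot_iff.2 (this ▸ inf_le_inf_right _ l)) hy

namespace MI

variable (h : MI p t s z A B C ρ) (a : FA t s w j)
include h a

theorem XL (r5 : R5 t s w) : XX (pCoreOf p B) s t ≤ LL t (s * w) := by
  have r := h.swp.rt'
  have n := norm_inf r.norm (inf_le_left.trans (LL_norm t (s * w)))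
  obtain ⟨x, hx, k, hk, e⟩ := r5.mv _ r
  rcases a.lx.min _ r _ inf_le_left n with m | m
  · refine (e (m (mem_inf.2 ⟨?_, mul_mem (conj_mem_of_mem_norm (LL_norm _ _ (r.le hx)) hk.1) (inv_mem hk.1)⟩))).elim
    rw [mul_assoc, mul_assoc, ← mul_assoc k]
    exact mul_mem hx (conj_mem_of_mem_norm (r.norm ⟨LL_le (norm_of_le le_rfl) a.iC hk.1, hk.2⟩) (inv_mem hx))
  exact comm_inv_le a.iu.1 h.swp.tP fun y hy ey => (cov_inv h.swp.oP a.iu.1 (inf_le_left.trans h.swp.XP) (n h.swp.tV)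
    (inf_le_left.trans (r.le.trans (UU_norm t))) ((inf_le_inf_right _ inf_le_left).trans h.swp.PI) hy ey
    (m (mem_comm_of_inv h.swp.oP hy ey))).2

theorem XK (h5 : LH5 t s w j) (r5 : R5 t s w) : XX (pCoreOf p B) s t ⊓ UU t = ⊥ := by
  have LK := LL_le (norm_cent (UU_norm t)) (h.iK a)
  refine eq_bot_iff.2 ((le_inf (inf_le_inf_right _ (h.XL a r5))
    ((inf_le_inf_right _ (h.swp.XP.trans inf_le_left)).trans h.swp.PI)).trans (by_contra fun e => ?_))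
  obtain ⟨pA, b⟩ := (h5.mult LK).resolve_left fun e' => e (inf_le_left.trans e'.le)
  obtain ⟨g, i, e1, e2, ci, ei⟩ := a.swap (h.iK a)
  have AK : LL t (s * w) ⊓ UU t ⊓ 𝒞[s] ≤ UU s := fun y hy => by
    rw [← e1, ← UU_conj, mem_conjg]
    refine b _ (mem_inf.2 ⟨?_, ?_⟩) (by simpa using (pA.piElt hy.1).conj g⁻¹)
    · rw [← mem_conjg, conjg_cent1, e1]; exact hy.2
    · rw [← mem_conjg, conjg_cent1, e2]; exact UU_le t hy.1.2
  have n : 𝒞[t] ≤ 𝒩(LL t (s * w) ⊓ UU t ⊓ 𝒞[s]) := r5.fr.trans (sup_le (sup_le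
    (norm_of_cent' ((inf_le_left.trans inf_le_left).trans LK))
    (norm_of_cent (LK.trans (cent_anti (inf_le_left.trans inf_le_right)))))
    (norm_inf (inf_le_left.trans (norm_inf (LL_norm _ _) (UU_norm t))) (norm_of_le inf_le_right)))
  exact a.ix _ (norm_ne_top (fun e' => e e'.le) (odd_ne_top a.it ((UU_odd s).of_le AK))) n _
    (mul_mem (n a.wC) (cent_le_norm _ (cent_anti AK ci))) (by rw [← a.wtu, ← ei]; group)

theorem fin (h5 : LH5 t s w j) (r5 : R5 t s w) (cf : CFP t s w) : s ∈ 𝒞(UU t) := by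
  have f := h.f
  have LK := LL_le (norm_cent (UU_norm t)) (h.iK a)
  have r := h.swp.rt'
  have r1 := h.rt'
  have XK := h.XK a h5 r5
  have XL := h.XL a r5
  have uX := fun x hx => eq_inv_of_mul_eq_one_left (XK.le (mem_inf.2
    ⟨mul_mem (conj_mem_of_mem_norm (r.norm h.swp.tV) hx) hx, a.lx.inv _ r x hx⟩))
  obtain ⟨g, j', b⟩ := h.gx z t h.rev.f.symm
  have e1 : g * t * g⁻¹ = s := b.wu.trans h.rot.rot.hz
  have e2 : g * s * g⁻¹ = t := h.rot.rot.hz ▸ b.wtu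
  have XA : XX (pCoreOf p B) s t :^ g = XX (pCoreOf p A) t s := by
    rw [conjg_comm, conjg_inf, pcore_conjg', conjg_cent1, conjg_zpowers, h.swp.conj_eq e2, e1, e2]
  have AX : XX (pCoreOf p A) t s :^ g = XX (pCoreOf p B) s t := by
    rw [conjg_comm, conjg_inf, pcore_conjg', conjg_cent1, conjg_zpowers, h.conj_eq e1, e1, e2]
  have Aw : XX (pCoreOf p A) t s :^ w = XX (pCoreOf p A) t z := by
    rw [conjg_comm, conjg_inf, conjg_of_mem_norm (h.nP a.wC), conjg_cent1, conjg_zpowers, a.wu, conj_eq_of_cent a.wC, h.hz]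
  have oP := h.oO p
  have nP := h.nP
  have tC := mem_cent_singleton_self t
  have pP : IsPGrp p (pCoreOf p A) := pcore_pGrp _ _
  have eW : XX (pCoreOf p A) t s ⊔ XX (pCoreOf p A) t s :^ w = ⁅pCoreOf p A, zpowers t⁆ := by
    rw [Aw]
    exact le_antisymm (sup_le (commutator_mono inf_le_left le_rfl) (commutator_mono inf_le_left le_rfl))
      (gen2 f pP.nil oP (nP tC) (nP f.ct) (fun y hy e => mem_sup_left (mem_comm_of_inv h.oP hy e))
        fun y hy e => mem_sup_right (mem_comm_of_inv h.rev.oP (h.hz ▸ hy) e))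
  have d1 := fun Y => h.dich (Y := Y)
  have d2 := fun Y => h.rev.dich (Y := Y)
  have mA : ∀ y ∈ pCoreOf p A ⊓ 𝒞[s], t * y * t⁻¹ = y⁻¹ → y ∈ XX (pCoreOf p A) t s :=
    fun y hy e => mem_comm_of_inv h.oP hy e
  have AP := h.XP.trans inf_le_left
  have XP := h.swp.XP.trans inf_le_left
  rw [← Aw] at d2
  generalize XX (pCoreOf p A) t s = Aa at *
  generalize XX (pCoreOf p B) s t = X at *
  have tA : ∀ y ∈ Aa, t * y * t⁻¹ = y⁻¹ := fun y hy => by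
    obtain ⟨x, hx, rfl⟩ := mem_conjg'.1 (XA.ge hy)
    exact e2 ▸ cj_inv (uX x hx)
  have cXA : X ≤ 𝒞(Aa) := fun x hx => mem_cent_iff_le_cent_singleton.2 fun y hy =>
    cent_of_inv oP (AP hy) (tA y hy) (nP (r.le hx)) (r.le hx) (h.PP (mem_inf.2
      ⟨mul_mem (inv_mem (AP hy)) (conj_mem_of_mem_norm (nP (r.le hx)) (AP hy)), by
        rw [← mul_assoc, ← mul_assoc]
        exact mul_mem (conj_mem_of_mem_norm' (h.swp.nP (r1.le hy)) (XP hx)) (inv_mem (XP hx))⟩))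
  have nW : 𝒞[t] ≤ 𝒩(⁅pCoreOf p A, zpowers t⁆) := norm_comm nP (norm_zpowers_of_cent le_rfl)
  have WP : ⁅pCoreOf p A, zpowers t⁆ ≤ pCoreOf p A := comm_le_left (zpowers_le.2 (nP tC))
  have cc := (comm_comm_zpowers oP h.t2 (nP tC)).ge
  have tW : ¬ ⁅pCoreOf p A, zpowers t⁆ ≤ 𝒞[t] := fun e =>
    h.nc (mem_cent_iff_le_cent_singleton.2 (le_cent_of_comm oP h.t2 (nP tC) e))
  rw [← eW] at nW WP cc tW
  have VA : 𝒞[t] ⊓ 𝒞[s] ≤ 𝒩(Aa) := (inf_comm _ _).le.trans r1.norm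
  have Vz : 𝒞[t] ⊓ 𝒞[z] ≤ 𝒞[t] ⊓ 𝒞[s] := fun x hx => mem_inf.2 ⟨hx.1, h.rev.cz hx.1 hx.2⟩
  have nB : 𝒞[t] ⊓ 𝒞[s] ≤ 𝒩(pCoreOf p A ⊓ 𝒞(X)) := norm_inf (inf_le_left.trans nP) (norm_cent r.norm)
  have zB := (d2 _ inf_le_left (Vz.trans nB)).resolve_right fun e => r.nle fun x hx =>
    a.f3 _ inf_le_left (inf_cent_normalIn_of_norm nW).2 (fun e => tW (mem_cent_iff_le_cent_singleton.1
      (a.i2 ▸ mul_mem e.2 e.2))) x ⟨r.le hx, le_cent_sup cXA (le_cent_symm (e.trans inf_le_right)) hx⟩ (r.odd.piElt hx)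
  have KA : UU t ≤ 𝒩(Aa) := by
    rw [show Aa = ⁅pCoreOf p A ⊓ 𝒞(X), zpowers t⁆ from le_antisymm
      (r1.com.trans (commutator_mono (le_inf AP (le_cent_symm cXA)) le_rfl))
      (gen2 f (IsPGrp.nil (pP.of_le inf_le_left)) (oP.of_le inf_le_left) (nB ⟨tC, f.cs⟩) (nB h.swp.tV)
        (fun y hy e => mA y ⟨hy.1.1, hy.2⟩ e) fun y hy e => by
          rw [one_of_inv_cent oP hy.1.1 e (zB (h.hz ▸ hy))]; exact one_mem _)]
    exact norm_comm (norm_inf ((UU_le t).trans nP) (norm_cent (norm_of_cent' (XL.trans LK))))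
      (norm_zpowers_of_cent (UU_le t))
  have K0K : ⁅UU t, zpowers s⁆ ≤ UU t := comm_le_left (zpowers_le.2 (UU_norm t a.uC))
  have nK0 : 𝒞[t] ≤ 𝒩(⁅UU t, zpowers s⁆) := r5.fr.trans (sup_le (sup_le (normalizer_commutator_ge_left _ _)
    (norm_of_cent (LK.trans (cent_anti K0K))))
    (norm_comm (inf_le_left.trans (UU_norm t)) (norm_zpowers_of_cent inf_le_right)))
  have c1 : ⁅UU t, zpowers s⁆ ≤ 𝒞(Aa) := (commutator_mono le_rfl
    (zpowers_le.2 (mem_cent_iff_le_cent_singleton.2 r1.le))).trans (comm_le_right (norm_cent KA))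
  have c2 : ⁅UU t, zpowers s⁆ ≤ 𝒞(Aa :^ w) := by
    rw [← conjg_of_mem_norm (nK0 a.wC), ← conjg_cent]; exact conjg_mono w c1
  have oW := oP.of_le WP
  have DW : ⁅Aa ⊔ Aa :^ w, Aa ⊔ Aa :^ w⁆ ≤ Aa ⊔ Aa :^ w := comm_le_of_le le_rfl le_rfl
  have nD := norm_comm nW nW
  have D1 := (d1 _ (DW.trans WP) (inf_le_left.trans nD)).resolve_right fun e =>
    (der_lt_of_sol (odd_sol oW) fun e => tW (e.le.trans bot_le)).not_ge (sup_le e (by
      have := conjg_mono w e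
      rwa [conjg_of_mem_norm (nD a.wC)] at this))
  have D2 := conjg_mono w D1
  rw [conjg_inf, conjg_of_mem_norm (nD a.wC), conjg_cent1, a.wu, conjg_of_mem a.wC] at D2
  have DC := f.gen (oW.of_le DW) (nD tC) (nD f.ct) inf_le_right D1 D2
  have cD : ⁅Aa ⊔ Aa :^ w, Aa ⊔ Aa :^ w⁆ ≤ 𝒞(Aa ⊔ Aa :^ w) := fun d hd => mem_cent_iff_le_cent_singleton.2
    (cc.trans (cent_comm_of oW h.t2 (nW tC) (le_normalizer (DW hd)) (DC hd) fun y hy _ => DC (by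
      rw [← mul_assoc, ← mul_assoc]
      exact mul_mem (conj_mem_of_mem_norm' (norm_comm le_normalizer le_normalizer hy) hd) (inv_mem hd))))
  have cA : Aa ≤ 𝒞(Aa) := r1.com.trans (comm_le_cent_of_inv tA le_normalizer)
  have uW := inv_der oW a.iu.1 rfl cA (by rw [← conjg_cent]; exact conjg_mono w cA) r1.le (fun y hy => by
    obtain ⟨x, hx, rfl⟩ := mem_conjg'.1 hy
    rw [← a.wtu]
    refine cj_inv ?_
    rw [show t * s * x * (t * s)⁻¹ = t * (s * x * s⁻¹) * t⁻¹ by group,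
      conj_eq_iff.2 (mem_cent_singleton_comm.1 (r1.le hx)), tA x hx]) (nW f.ct) cD
  by_contra ne
  have K1 : ⁅UU t, zpowers s⁆ ⊓ 𝒞[s] = ⊥ := by_contra fun e => by
    obtain ⟨w', j'', c⟩ := h.gx s t f.symm
    obtain ⟨-, i, -, -, ci, ei⟩ := a.swap (h.iK a)
    have oX := (UU_odd t).of_le (inf_le_left.trans K0K : ⁅UU t, zpowers s⁆ ⊓ 𝒞[s] ≤ _)
    have AK : ⁅UU t, zpowers s⁆ ⊓ 𝒞[s] ≤ UU s := fun x hx => c.f4 Aa r1.le r1.odd r1.nle tA r1.norm x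
      ⟨hx.2, UU_le t (K0K hx.1)⟩ (oX.piElt hx) (c1 hx.1)
    have LC := LL_le (norm_of_le le_rfl) a.iC
    refine e (eq_bot_of_pcore_eq_bot (a.qk ⟨X, r⟩ _ (norm_ne_top e (odd_ne_top a.it oX)) (r5.fr.trans (sup_le
      (sup_le_sup_left (le_inf (norm_of_cent (LK.trans (cent_anti (inf_le_left.trans K0K)))) LC) _)
      (le_sup_of_le_right (le_inf (norm_inf (inf_le_left.trans nK0) (norm_of_le inf_le_right)) inf_le_left))))
      ⟨_, mul_mem (norm_fix (K0K.trans (UU_le t)) (nK0 a.wC) a.wtu) (cent_le_norm _ (cent_anti AK ci)),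
        by rw [← a.wtu, ← ei]; group⟩) ⟨le_normalizer, le_rfl⟩ oX)
  exact cf g Aa X _ ⟨r, XL, XK, uX, XA, AX, cXA, r1.le, tA, VA, KA, nW, oW, (inf_le_inf_right _ WP).trans h.PK,
    le_inf ((le_inf (DW.trans WP) DC).trans h.PK) cD, uW, LK, K0K,
    fun e => ne (zpowers_le.1 (comm_eq_bot_iff'.1 e)), fun y hy => inv_of_fpf a.iu.1 (nK0 f.ct) K1 hy, nK0,
    le_cent_sup c1 c2⟩

end MI

theorem MT.caseI (h : MT p t s z A B C ρ) (hI : fittingOf A ⊓ UU s ≤ 𝒞[t]) : s ∈ 𝒞(UU t) := by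
  have m : MI p t s z A B C ρ := ⟨h, hI⟩
  obtain ⟨w, j, a⟩ := h.gx t s h.f
  rcases a.c35 with ⟨q, -⟩ | ⟨h5, -, r5, cf⟩
  exacts [q (m.iK a), m.fin a h5 r5 cf]

end CA.Abg
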