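/-
The case `C(t) < M`: tools for the uniqueness theorem in characteristic `p`.
-/
import Cfsg.Agent.Abg.MA3

set_option autoImplicit false
set_option linter.unusedSectionVars false

namespace CA.Abg

open Subgroup Cfsg CA.FG CA.BG CA.BG.P06 CA.GW CA.GW.BA CA.Dih
open scoped commutatorElement

universe u v

variable {G : Type u} [Group G] [Finite G] {t u v w j x : G} {p : ℕ}

/-- `N = Q (N ∩ A)` with a normal `p'`-subgroup `Q` of odd order -/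
structure UQ (p : ℕ) (A N Q : Subgroup G) : Prop where
  le : Q ≤ N
  norm : N ≤ 𝒩(Q)
  pq : IsPiGrp {p}ᶜ Q
  odd : IsPiGrp {2}ᶜ Q
  inf : Q ⊓ A = ⊥
  dec : N ≤ Q ⊔ N ⊓ A

theorem odd_of {H : Subgroup G} (h : IsPiGrp {2}ᶜ H) : Odd (Nat.card H) :=
  Nat.odd_iff.2 (Nat.two_dvd_ne_zero.1 ((piGrp_compl_singleton_iff Nat.prime_two).1 h))

theorem uq_of_le {A N : Subgroup G} (h : N ≤ A) : UQ p A N ⊥ :=
  ⟨bot_le, by rw [normalizer_eq_top]; exact le_top, piGrp_bot _, piGrp_bot _, bot_inf_eq _,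
    (le_inf le_rfl h).trans le_sup_right⟩

namespace UQ

variable {A N Q : Subgroup G} (h : UQ p A N Q)
include h

theorem conj {g : G} (hg : g ∈ N) (tN : t ∈ N) (tA : t ∈ A) (e : g * t * g⁻¹ ∈ A) :
    ∃ m ∈ A, m * t * m⁻¹ = g * t * g⁻¹ := by
  obtain ⟨q, hq, m, hm, rfl⟩ := (mem_sup_of_norm (.inr (inf_le_left.trans h.norm))).1 (h.dec hg)
  have a : m * t * m⁻¹ ∈ N ⊓ A := conj_mem_of_mem_norm (le_normalizer hm) ⟨tN, tA⟩
  refine ⟨m, hm.2, ?_⟩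
  have : q * (m * t * m⁻¹ * q⁻¹ * (m * t * m⁻¹)⁻¹) = 1 := h.inf.le ⟨mul_mem hq (conj_mem_of_mem_norm (h.norm a.1) (inv_mem hq)),
    by rw [show q * (m * t * m⁻¹ * q⁻¹ * (m * t * m⁻¹)⁻¹) = q * m * t * (q * m)⁻¹ * (m * t * m⁻¹)⁻¹ by group]
       exact A.mul_mem e (A.inv_mem a.2)⟩
  calc _ = q * (m * t * m⁻¹ * q⁻¹ * (m * t * m⁻¹)⁻¹) * (m * t * m⁻¹) := by rw [this, one_mul]
    _ = _ := by group

theorem c3 (hp : p.Prime) {Z X : Subgroup G} (pZ : IsPGrp p Z) (nZ : A ≤ 𝒩(Z)) (NZ : 𝒩(Z) ≤ A) (ZX : Z ≤ X)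
    (XN : X ≤ N) : X ≤ X ⊓ Q ⊔ X ⊓ A := by
  have ZQ := (ZX.trans XN).trans h.norm
  have n : N ≤ 𝒩(Q ⊔ Z) := h.dec.trans (sup_le (norm_of_le le_sup_left)
    (norm_sup (inf_le_left.trans h.norm) (inf_le_right.trans nZ)))
  have e := inf_sup_of_right_le (.inr ZQ) ZX
  have k := frattini_arg hp (K := X ⊓ Q ⊔ Z) (M := X) ⟨sup_le inf_le_left ZX, e ▸ norm_inf le_normalizer (XN.trans n)⟩
    (pHall_right_of_sup (.inr (norm_inf (norm_of_le ZX) ZQ)) rfl (h.pq.inf_right X) pZ)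
  exact k.ge.trans (sup_le (sup_le_sup_left (le_inf ZX (le_normalizer.trans NZ)) _)
    ((inf_le_inf_left _ NZ).trans le_sup_right))

theorem c2 (hp : p.Prime) {Z X : Subgroup G} (nZ : A ≤ 𝒩(Z)) (NZ : 𝒩(Z) ≤ A) (ZX : Z ≤ X)
    (XN : X ≤ N) (pX : IsPGrp p X) : X ≤ A :=
  (h.c3 hp (pX.of_le ZX) nZ NZ ZX XN).trans (sup_le ((IsPiGrp.inf_eq_bot pX h.pq).le.trans bot_le) inf_le_right)

theorem c1 (hp : p.Prime) (p2 : p ≠ 2) (t2 : t * t = 1) (tN : t ∈ N) (cA : 𝒞[t] ≤ A) {Y : Subgroup G} (YN : Y ≤ N)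
    (pY : IsPGrp p Y) (tY : t ∈ 𝒩(Y)) : Y ≤ A := by
  have YQ := YN.trans h.norm
  have oH : IsPiGrp {2}ᶜ (Q ⊔ Y : Subgroup G) := h.odd.sup (odd_of_pGrp pY p2) (.inr YQ)
  have tH : zpowers t ≤ 𝒩(Q ⊔ Y) := norm_sup (zpowers_le.2 (h.norm tN)) (zpowers_le.2 tY)
  have co := ((two_zpowers t2).coprime oH).symm
  have e : Q ⊔ (Q ⊔ Y) ⊓ A = Q ⊔ Y := by
    have := inf_sup_of_left_le (H := Q) (K := N ⊓ A) (L := Q ⊔ Y) (.inr (inf_le_left.trans h.norm)) le_sup_left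
    rw [inf_eq_left.2 ((sup_le h.le YN).trans h.dec), ← inf_assoc, inf_eq_left.2 (sup_le h.le YN)] at this
    exact this.symm
  obtain ⟨P, hP, nP⟩ := sol_coprime_Sylow_exists hp (M := (Q ⊔ Y) ⊓ A) (.inl (odd_sol (oH.inf_left _)))
    (norm_inf tH (norm_of_le (zpowers_le.2 (cA (mem_cent_singleton_self t)))))
    (co.coprime_dvd_left (card_dvd_of_le inf_le_left))
  have i : PiNat {p}ᶜ (((Q ⊔ Y) ⊓ A).relIndex (Q ⊔ Y)) := by
    have := complIn_of_norm (A := Q) (B := (Q ⊔ Y) ⊓ A) (.inr (inf_le_left.trans (sup_le le_normalizer YQ))) e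
      (eq_bot_iff.2 ((inf_le_inf_left _ inf_le_right).trans h.inf.le))
    rw [this.relIndex_right]; exact h.pq
  obtain ⟨x, hx, ex⟩ := sol_coprime_Sylow_trans hp (.inl (odd_sol oH)) tH co
    (pHall_right_of_sup (.inr YQ) rfl h.pq pY) (zpowers_le.2 tY) (hP.trans_index inf_le_left i) nP
  rw [ex]
  exact (conjg_mono x (hP.le.trans inf_le_right)).trans (conjg_of_mem (cA (cent_zpowers t ▸ hx.2))).le

/-- (KL) -/
theorem kl (hp : p.Prime) {Z X S : Subgroup G} (nZ : A ≤ 𝒩(Z)) (NZ : 𝒩(Z) ≤ A) (ZS : Z ≤ S) (hS : IsSylowOf p S X)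
    (hN : 𝒩(𝒵(puigOf S)) ≤ N) (n : (pPrimeCoreOf p X ⊔ 𝒵(puigOf S)) ⊲ X) : X ≤ pPrimeCoreOf p X ⊔ X ⊓ A := by
  have sZ : 𝒵(puigOf S) ≤ S := inf_le_left.trans (Puig_sub S)
  have h1 := frattini_arg hp n (pHall_right_of_sup (Or.inr ((sZ.trans hS.le).trans (pcore_norm _ X)))
    rfl (pcore_piGrp _ X) (hS.piGrp.of_le sZ))
  rw [sup_assoc, sup_eq_right.2 (le_inf (sZ.trans hS.le) le_normalizer)] at h1
  set X' := X ⊓ 𝒩(𝒵(puigOf S))
  have X'N : X' ≤ N := inf_le_right.trans hN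
  have h2 := h.c3 hp (hS.piGrp.of_le ZS) nZ NZ (X := X')
    (ZS.trans (le_inf hS.le (le_normalizer.trans (center_Puig_char S).norm_le))) X'N
  have nO : X' ≤ 𝒩(pPrimeCoreOf p X) := inf_le_left.trans (pcore_norm _ X)
  have h3 : X' ⊓ Q ≤ pPrimeCoreOf p X := le_sup_right.trans (pcore_max (K := pPrimeCoreOf p X ⊔ X' ⊓ Q)
    ⟨sup_le (pcore_le _ _) (inf_le_left.trans inf_le_left), h1.ge.trans (sup_le (norm_of_le le_sup_left)
      (norm_sup nO (norm_inf le_normalizer (X'N.trans h.norm))))⟩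
    ((pcore_piGrp _ X).sup (h.pq.inf_right _) (.inr (inf_le_left.trans nO))))
  exact h1.ge.trans (sup_le le_sup_left (h2.trans (sup_le_sup h3 (inf_le_inf_right _ inf_le_left))))

/-- a Sylow subgroup stays Sylow -/
theorem syl (hp : p.Prime) {Z X S Γ : Subgroup G} (nZ : A ≤ 𝒩(Z)) (NZ : 𝒩(Z) ≤ A) (ZS : Z ≤ S) (hS : IsSylowOf p S Γ)
    (hN : 𝒩(𝒵(puigOf S)) ≤ N) (ΓX : Γ ≤ X) (e : ∀ y ∈ X ⊓ A, IsPiElt {p} y → y ∈ Γ) : IsSylowOf p S X :=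
  sylow_of_sylow_norm hp (hS.le.trans ΓX) (sylow_of_maximal hp hS.piGrp (le_inf (hS.le.trans ΓX) le_normalizer)
    fun T pT ST TX => hS.eq_of_le pT ST fun y hy => e y ⟨(TX hy).1, h.c2 hp nZ NZ (ZS.trans ST)
      ((TX.trans inf_le_right).trans ((center_Puig_char S).norm_le.trans hN)) pT hy⟩ (pT.piElt hy))

end UQ

theorem norm_ZL (hp : p.Prime) {X S : Subgroup G} (o : IsPiGrp {2}ᶜ X) (hS : IsSylowOf p S X)
    (hO : pPrimeCoreOf p X = ⊥) : 𝒩(X) ≤ 𝒩(𝒵(puigOf S)) := fun g hg => by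
  obtain ⟨x, hx, n, hn, rfl⟩ := frattini_arg_mem hp hS hg
  exact mul_mem ((Puig_center_normal hp (odd_of o) (odd_sol o) hS hO).2 hx) ((center_Puig_char S).norm_le hn)

theorem dh_ZL (hp : p.Prime) (p2 : p ≠ 2) {H S : Subgroup G} (d : Dh H) (o : IsPiGrp {2}ᶜ (H ⊓ 𝒞(pCoreOf p H) : Subgroup G))
    (sylS : IsSylowOf p S H) : (pPrimeCoreOf p H ⊔ 𝒵(puigOf S)) ⊲ H := by
  have nsO := pcore_normal {p}ᶜ H
  have nOS := sylS.le.trans nsO.2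
  have inj := coset_comp_injective nOS (inf_comm S _ ▸ sylS.piGrp.inf_eq_bot (pcore_piGrp {p}ᶜ H))
  have sZ : 𝒵(puigOf S) ≤ H := (inf_le_left.trans (Puig_sub S)).trans sylS.le
  have c : CharP p (H /ₛ piCoreOf {p}ᶜ H) := by
    refine ⟨by_contra fun l => layer_nsol l (odd_sol ?_), pGrp_fitting_of (eq_bot_iff.2
      (((fitting_normal _).pcore_le _).trans (pcore_quot_pcore _ H).le))⟩
    have nE := quotPre_normalIn_of nsO (layerOf_normal (H /ₛ piCoreOf {p}ᶜ H))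
    have h1 : ⁅quotPre _ (layerOf (H /ₛ piCoreOf {p}ᶜ H)), pCoreOf p H⁆ ≤ piCoreOf {p}ᶜ H :=
      (quot_cent_iff (quotPre_le_norm _) ((pcore_le _ _).trans nsO.2)).1 (by
        rw [quot_quotPre]; exact (layerOf_cent_pcore p _).trans (cent_anti (pcore_quot_le _ _ _)))
    have h2 := (o.of_le (le_inf nE.1 (comm_eq_bot_iff.1 (eq_bot_iff.2 ((le_inf (comm_le_right
      (nE.1.trans (pcore_norm _ H))) h1).trans (pcore_inf_pcore_compl _ H H).le))))).quot (piCoreOf {p}ᶜ H)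
    rwa [quot_quotPre] at h2
  have h := charP_Puig_center_normal hp ((d.dihS.quot _).stable hp p2) c (sylS.quot nsO.2)
  have e : 𝒵(puigOf (S /ₛ piCoreOf {p}ᶜ H)) = (pPrimeCoreOf p H ⊔ 𝒵(puigOf S)) /ₛ piCoreOf {p}ᶜ H := by
    rw [quot_sup_self_left (sZ.trans nsO.2)]
    conv => lhs; rw [← map_subtype_top S, quot_map_subtype nOS, Puig_map_of_inj _ inj,
      ← map_inf_cent_of_inj _ _ inj, ← quot_map_subtype nOS,
      map_inf_cent_of_inj _ _ S.subtype_injective, ← Puig_map_of_inj _ S.subtype_injective,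
      map_subtype_top]
  rw [e] at h
  exact (quot_normalIn_iff ⟨le_sup_left, (sup_le nsO.1 sZ).trans nsO.2⟩ nsO).1 h

theorem dh_sup {E Y : Subgroup G} (d : Dh E) (o : IsPiGrp {2}ᶜ Y) (n : Y ≤ 𝒩(E)) : Dh (E ⊔ Y) := fun T hT pT =>
  d T ((quot_eq_bot_iff (hT.trans (sup_le le_normalizer n))).1 (IsPiGrp.eq_bot (IsPiGrp.quot pT E)
    ((o.quot E).of_le (quot_sup_self_left n ▸ quot_mono E hT)))) pT

end CA.Abg
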