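/-
The case `C(t) < M`: the uniqueness theorem in characteristic `p` and the end of case (II).
-/
import Cfsg.Agent.Abg.MU1

set_option autoImplicit false
set_option linter.unusedSectionVars false

namespace CA.Abg

open Subgroup Cfsg CA.FG CA.BG CA.BG.P06 CA.GW CA.GW.BA CA.Dih
open scoped commutatorElement

universe u v

variable {G : Type u} [Group G] [Finite G] {t w j : G} {p : ℕ}

/-- the subgroups to which the uniqueness theorem applies -/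
structure Cl (t s w : G) (A N : Subgroup G) : Prop where
  nt : N ≠ ⊤
  VN : 𝒞[t] ⊓ 𝒞[s] ≤ N
  wN : w ∈ N
  sc : SC (fittingOf A ⊓ N) A
  O0 : OO N ≠ ⊥

theorem RV_odd (t s : G) : IsPiGrp {2}ᶜ (RV t s) := pcore_piGrp _ _

theorem RV_le (t s : G) : RV t s ≤ 𝒞[t] ⊓ 𝒞[s] := pcore_le _ _

namespace MT

variable {s z ρ : G} {A B C N S Q : Subgroup G} (h : MT p t s z A B C ρ)
include h

theorem ΓA : OO A ⊔ RV t s ≤ A := sup_le (pcore_le _ _) (((RV_le t s).trans inf_le_left).trans h.cA)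

theorem oΓ : IsPiGrp {2}ᶜ (OO A ⊔ RV t s : Subgroup G) :=
  h.oA.sup (RV_odd t s) (.inr ((le_sup_right.trans h.ΓA).trans h.nA))

theorem nΓ : 𝒞[t] ⊓ 𝒞[s] ≤ 𝒩(OO A ⊔ RV t s) := norm_sup ((inf_le_left.trans h.cA).trans h.nA) (pcore_norm _ _)

theorem wΓ (f : FA t s w j) : zpowers w ≤ 𝒩(OO A ⊔ RV t s) :=
  norm_sup (zpowers_le.2 (h.nA (h.cA f.wC))) (norm_pcore _ (zpowers_le.2 f.toLH.nCV))

theorem FΓ : fittingOf A ⊓ N ≤ (OO A ⊔ RV t s) ⊓ N := inf_le_inf_right _ (h.FO.trans le_sup_left)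

theorem q_bot (c : CharP p A) (sc : SC (fittingOf A ⊓ N) A) {X : Subgroup G} (ΓX : (OO A ⊔ RV t s) ⊓ N ≤ X)
    (n : X ≤ 𝒩(Q)) (pq : IsPiGrp {p}ᶜ Q) (o : IsPiGrp {2}ᶜ Q) : Q ⊓ A = ⊥ :=
  inf_eq_bot_of_sc sc (h.lay ▸ bot_le) (h.FΓ.trans ΓX) n (odd_sol o) (IsPiGrp.coprime c.2 pq)

theorem ZS (c : CharP p A) (sc : SC (fittingOf A ⊓ N) A) (hS : IsSylowOf p S ((OO A ⊔ RV t s) ⊓ N)) :
    𝒵(fittingOf A) ≤ S := sc.center_le.trans (hS.le_of_norm_le (c.2.inf_left _) h.FΓ (hS.le.trans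
      (norm_inf ((inf_le_left.trans h.ΓA).trans (fitting_norm A)) (norm_of_le inf_le_right))))

theorem nZ : A ≤ 𝒩(𝒵(fittingOf A)) := (charIn_center _).norm (fitting_norm A)

theorem Z0 : 𝒵(fittingOf A) ≠ ⊥ :=
  center_nil_ne_bot (fitting_nil A) fun e => h.O0 (eq_bot_iff.2 ((pcore_le_fitting p A).trans e.le))

variable [IsSimpleGroup G]

theorem NZ : 𝒩(𝒵(fittingOf A)) ≤ A := h.prim _ ⟨inf_le_left.trans (fitting_le A), h.nZ⟩ h.Z0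

/-- (DL) -/
theorem dl (c : CharP p A) (f : FA t s w j) (sc : SC (fittingOf A ⊓ N) A) (hS : IsSylowOf p S ((OO A ⊔ RV t s) ⊓ N))
    (U : UQ p A 𝒩(𝒵(puigOf S)) Q) {X : Subgroup G} (XN : X ≤ N) (ΓX : (OO A ⊔ RV t s) ⊓ N ≤ X) (tX : t ∈ X) (sX : s ∈ X)
    (nX : 𝒞[t] ⊓ 𝒞[s] ≤ 𝒩(X)) (wX : w ∈ 𝒩(X)) (d : Dh X) : UQ p A X (pPrimeCoreOf p X) := by
  have sy : IsSylowOf p S X := U.syl h.pp h.nZ h.NZ (h.ZS c sc hS) hS le_rfl ΓX fun y hy py => by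
    refine ⟨?_, XN hy.1⟩
    obtain ⟨g, hg, e⟩ := conj_of_odd (h.oA.inf_right X) (h.f.it.conj y).1 h.t2 ⟨mul_mem (conj_mem_of_mem_norm
      (le_normalizer hy.1) tX) tX, h.comO (by
        have := commutator_mem_commutator hy.2 (mem_zpowers t)
        rwa [commutatorElement_def, h.f.it.inv_eq] at this)⟩
    have cC : g⁻¹ * y ∈ 𝒞[t] := conj_eq_iff.1 (by
      rw [show g⁻¹ * y * t * (g⁻¹ * y)⁻¹ = g⁻¹ * (y * t * y⁻¹) * g by group, ← e]; group)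
    have oc : IsPiElt {2}ᶜ (g⁻¹ * y) := (h.oA.sup (odd_of_pGrp (piGrp_zpowers_iff.2 py) h.p2)
      (.inr (zpowers_le.2 (h.nA hy.2)))).piElt (mul_mem_sup (inv_mem hg.2) (mem_zpowers y))
    have := h.u4 f (((pcore_le _ _).trans inf_le_right).trans h.cA) (pcore_piGrp _ (X ⊓ 𝒞[t]))
      (norm_pcore _ (norm_inf nX (norm_of_le inf_le_left))) (norm_pcore _ (norm_inf (zpowers_le.2 wX)
        (norm_of_le (zpowers_le.2 f.wC))) (mem_zpowers w))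
      ((d.hall tX h.f.it).mem_of_normal (pcore_norm _ _) oc ⟨X.mul_mem (X.inv_mem hg.1) hy.1, cC⟩)
    simpa using mul_mem (mem_sup_left hg.2) this
  have nD : 𝒩(X) ≤ 𝒩(X ⊓ 𝒞(pCoreOf p X)) := norm_inf le_rfl (norm_cent (norm_pcore _ le_rfl))
  have o : IsPiGrp {2}ᶜ (X ⊓ 𝒞(pCoreOf p X) : Subgroup G) := by_contra fun o => h.nc_sc (M := X)
    (sc.mono (le_inf inf_le_left (h.FΓ.trans ΓX)) inf_le_left) (by
      have m := f.toLH.meetV' (le_normalizer tX) (le_normalizer sX) wX ⟨inf_le_left.trans le_normalizer, nD⟩ o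
      rw [← h.RR p tX, comm_eq_bot_iff, cent_zpowers]
      exact (h.tb_dh' tX d).trans (mem_cent_iff_le_cent_singleton.1 m.2))
  have oQ := o.of_le (le_inf (pcore_le {p}ᶜ X) (le_cent_symm (pcore_cent_compl {p} X)))
  exact ⟨pcore_le _ _, pcore_norm _ _, pcore_piGrp _ _, oQ, h.q_bot c sc ΓX (pcore_norm _ _) (pcore_piGrp _ _) oQ,
    U.kl h.pp h.nZ h.NZ (h.ZS c sc hS) sy le_rfl (dh_ZL h.pp h.p2 d o sy)⟩

/-- the fused case: `Γ ∩ N ≤ O(N) R` -/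
theorem fused (c : CharP p A) (f : FA t s w j) (cl : Cl t s w A N) (hS : IsSylowOf p S ((OO A ⊔ RV t s) ⊓ N))
    (U : UQ p A 𝒩(𝒵(puigOf S)) Q) {g w' j' : G} (gN : g ∈ N) (eg : g * t * g⁻¹ = s) (f' : FA s t w' j') (w'N : w' ∈ N) :
    (OO A ⊔ RV t s) ⊓ N ≤ OO N ⊔ RV t s := by
  set Γ := (OO A ⊔ RV t s) ⊓ N with hΓ
  have tN := cl.VN h.tV
  have sN := cl.VN h.sV
  have oΓ : IsPiGrp {2}ᶜ Γ := h.oΓ.inf_left N
  have nΓ : 𝒞[t] ⊓ 𝒞[s] ≤ 𝒩(Γ) := norm_inf h.nΓ (norm_of_le cl.VN)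
  have wΓ : zpowers w ≤ 𝒩(Γ) := norm_inf (h.wΓ f) (norm_of_le (zpowers_le.2 cl.wN))
  have eg' : g⁻¹ * s * g⁻¹⁻¹ = t := by rw [← eg]; group
  have no : ∀ E, SD N E t s ∨ SD N E s t → False := fun E d => by
    obtain ⟨le, nE, tE, sE, dh, k, kE, ek⟩ : E ≤ N ∧ N ≤ 𝒩(E) ∧ t ∈ E ∧ s ∈ E ∧ Dh E ∧ ∃ k ∈ E, k * t * k⁻¹ = s :=
      d.elim (fun d => ⟨d.le, d.norm, d.tE, d.vE, d.dh, d.cj⟩) fun d => ⟨d.le, d.norm, d.vE, d.tE, d.dh,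
        let ⟨k, kE, ek⟩ := d.cj; ⟨k⁻¹, inv_mem kE, by rw [← ek]; group⟩⟩
    obtain ⟨m, mA, em⟩ := (h.dl c f cl.sc hS U (X := E ⊔ Γ) (sup_le le inf_le_right) le_sup_right (mem_sup_left tE)
      (mem_sup_left sE) (norm_sup (cl.VN.trans nE) nΓ) (norm_sup (zpowers_le.2 (nE cl.wN)) wΓ (mem_zpowers w))
      (dh_sup dh oΓ (inf_le_right.trans nE))).conj (mem_sup_left kE) (mem_sup_left tE) h.tA (ek ▸ h.sA)
    exact h.nfus mA (em.trans ek)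
  have k1 : ∀ x ∈ UU t, x ∈ N → s * x * s⁻¹ = x⁻¹ → x ∈ OO N := fun x hx xN e => by_contra fun xO =>
    let ⟨E, d⟩ := sub2 f.toLH.ra h.ih cl.nt h.f tN sN ⟨g, gN, eg⟩ ⟨w', w'N, f'.toLH.wu.trans h.f.comm.symm⟩
      (mem_OC hx xN) e xO
    no E (.inl d)
  have k2 : ∀ x ∈ UU s, x ∈ N → t * x * t⁻¹ = x⁻¹ → x ∈ OO N := fun x hx xN e => by_contra fun xO =>
    let ⟨E, d⟩ := sub2 f.toLH.ra h.ih cl.nt h.f.symm sN tN ⟨_, inv_mem gN, eg'⟩ ⟨w, cl.wN, f.toLH.wu.trans h.f.comm⟩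
      (mem_OC hx xN) e xO
    no E (.inr d)
  have n1 : 𝒞[t] ⊓ 𝒞[s] ≤ 𝒩(Γ ⊓ 𝒞[t]) := norm_inf nΓ (norm_of_le inf_le_left)
  have n2 : 𝒞[s] ⊓ 𝒞[t] ≤ 𝒩(Γ ⊓ 𝒞[s]) := norm_inf (inf_comm 𝒞[t] _ ▸ nΓ) (norm_of_le inf_le_left)
  have h2 : Γ ⊓ 𝒞[s] ≤ OO N ⊔ RV t s := fun y hy => by
    obtain ⟨i, ⟨hi, ei⟩, b, hb, rfl⟩ := exists_inv_mul (oΓ.inf_left _) h.t2 (n2 ⟨h.f.cs, mem_cent_singleton_self t⟩) hy
    refine mul_mem_sup (k2 i ?_ hi.1.2 ei) (f.lx.cv b ⟨hb.2, hb.1.2⟩ (oΓ.piElt hb.1.1))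
    refine (f'.toLH.rt_or inf_le_right (oΓ.inf_left _) n2).resolve_right (fun r => ?_)
      (mem_comm_inv (oΓ.inf_left _) hi ei)
    have le : ⁅Γ ⊓ 𝒞[s], zpowers t⁆ ≤ N ⊓ 𝒞[s] := (comm_le_left (zpowers_le.2
      (n2 ⟨h.f.cs, mem_cent_singleton_self t⟩))).trans (inf_le_inf_right _ inf_le_right)
    exact cl.O0 (f'.qk ⟨_, r⟩ N cl.nt ((f'.lx.cov _ r).trans (sup_le_sup_left (sup_le (sup_le le
      ((conjg_mono w' le).trans (conjg_of_mem (X := N ⊓ 𝒞[s]) ⟨w'N, f'.wC⟩).le))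
        (le_inf (inf_comm 𝒞[t] _ ▸ cl.VN) inf_le_left)) _)) ⟨_, inv_mem gN, eg'⟩)
  refine h.f.gen oΓ (nΓ h.tV) (nΓ h.sV) (fun y hy => ?_) h2 ?_
  · obtain ⟨i, ⟨hi, ei⟩, b, hb, rfl⟩ := exists_inv_mul (oΓ.inf_left _) h.rot.t2 (n1 h.sV) hy
    refine mul_mem_sup (k1 i ?_ hi.1.2 ei) (f.lx.cv b ⟨hb.1.2, hb.2⟩ (oΓ.piElt hb.1.1))
    refine comm_le_of_dec (A := UU t ⊔ 𝒞[t] ⊓ 𝒞[s]) (sup_le le_normalizer (inf_le_left.trans (UU_norm t)))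
      (mem_sup_right h.sV) (le_antisymm (sup_le inf_le_left le_sup_left) (sup_le le_sup_right
        ((le_inf le_sup_right inf_le_right).trans le_sup_left))) (commutator_mono ((f.toLH.u4 f.lx inf_le_right
          (oΓ.inf_left _) n1 (norm_inf wΓ (norm_of_le (zpowers_le.2 f.wC)) (mem_zpowers w))).trans
            (sup_le_sup_left (RV_le t s) _)) le_rfl (mem_comm_inv (oΓ.inf_left _) hi ei))
  · have := conjg_mono w h2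
    rwa [conjg_inf, conjg_cent1, f.toLH.wu, conjg_of_mem_norm (wΓ (mem_zpowers w)), conjg_of_mem_norm (norm_sup
      (zpowers_le.2 (pcore_norm _ N cl.wN)) (norm_pcore _ (zpowers_le.2 f.toLH.nCV)) (mem_zpowers w))] at this

theorem step (c : CharP p A) (f : FA t s w j) (cl : Cl t s w A N) (hS : IsSylowOf p S ((OO A ⊔ RV t s) ⊓ N))
    (U : UQ p A 𝒩(𝒵(puigOf S)) Q) : ∃ Q, UQ p A N Q := by
  set Γ := (OO A ⊔ RV t s) ⊓ N with hΓ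
  have tN := cl.VN h.tV
  have sN := cl.VN h.sV
  have nO : N ≤ 𝒩(OO N) := pcore_norm _ N
  have oO : IsPiGrp {2}ᶜ (OO N) := pcore_piGrp _ N
  have oΘ : IsPiGrp {2}ᶜ (OO N ⊔ Γ : Subgroup G) := oO.sup (h.oΓ.inf_left N) (.inr (inf_le_right.trans nO))
  have nΘ : 𝒞[t] ⊓ 𝒞[s] ≤ 𝒩(OO N ⊔ Γ) := norm_sup (cl.VN.trans nO) (norm_inf h.nΓ (norm_of_le cl.VN))
  have ΘN : OO N ⊔ Γ ≤ N := sup_le (pcore_le _ _) inf_le_right
  have ΘA : (OO N ⊔ Γ) ⊓ A ≤ Γ := by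
    refine le_inf ?_ (inf_le_left.trans ΘN)
    rw [inf_comm, inf_sup_of_right_le (.inr (inf_le_right.trans nO)) (inf_le_left.trans h.ΓA)]
    exact sup_le (h.u4 f inf_le_left (oO.inf_right _) (norm_inf (norm_of_le (inf_le_left.trans h.cA)) (cl.VN.trans nO))
      (norm_inf (norm_of_le (zpowers_le.2 (h.cA f.wC))) (zpowers_le.2 (nO cl.wN)) (mem_zpowers w))) inf_le_left
  have sΘ := U.syl h.pp h.nZ h.NZ (h.ZS c cl.sc hS) hS le_rfl le_sup_right fun y hy _ => ΘA hy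
  have kΘ := U.kl h.pp h.nZ h.NZ (h.ZS c cl.sc hS) sΘ le_rfl
    (Puig_center_p'core_normal h.pp (odd_of oΘ) (odd_sol oΘ) sΘ)
  set Q0 := pPrimeCoreOf p (OO N ⊔ Γ)
  have oQ : IsPiGrp {2}ᶜ Q0 := oΘ.of_le (pcore_le _ _)
  have nQ : 𝒩(OO N ⊔ Γ) ≤ 𝒩(Q0) := norm_pcore _ le_rfl
  have ft : Q0 ⊓ 𝒞[t] = ⊥ := eq_bot_iff.2 ((inf_le_inf_left _ h.cA).trans
    (h.q_bot c cl.sc le_sup_right (pcore_norm _ _) (pcore_piGrp _ _) oQ).le)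
  rcases f.lx.fx N cl.VN cl.wN with i | ⟨g, gN, eg⟩ | d
  · have dec := zs_dec f.it tN i
    have h1 : Q0 ≤ OO N := fun y hy => comm_le_of_dec nO tN dec (commutator_mono ((pcore_le _ _).trans ΘN) le_rfl
      (mem_comm_inv oQ hy (inv_of_fpf h.t2 (nQ (nΘ h.tV)) ft hy)))
    have o := oO.of_le (pcore_le {p}ᶜ _)
    exact ⟨pPrimeCoreOf p (OO N), (pcore_le _ _).trans (pcore_le _ _), norm_pcore _ nO, pcore_piGrp _ _, o,
      h.q_bot c cl.sc inf_le_right (norm_pcore _ nO) (pcore_piGrp _ _) o, dec.ge.trans (sup_le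
        ((inf_le_inf_left _ h.cA).trans le_sup_right) (le_sup_left.trans (kΘ.trans (sup_le_sup
          (pcore_le_of_le _ le_sup_left h1) (inf_le_inf_right _ ΘN)))))⟩
  · exfalso
    obtain ⟨w', j', f'⟩ := h.swp.fa
    obtain ⟨k, hk, ek⟩ := f.toLH.sw' tN sN cl.wN gN eg
    have w'N : w' ∈ N := by
      have : k⁻¹ * w' ∈ N := cl.VN ⟨conj_eq_iff.1 (by
        rw [show k⁻¹ * w' * t * (k⁻¹ * w')⁻¹ = k⁻¹ * (w' * t * w'⁻¹) * k by group, f'.toLH.wu, ← ek]; group),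
        (𝒞[s]).mul_mem ((𝒞[s]).inv_mem hk.2) f'.wC⟩
      simpa using mul_mem hk.1 this
    have e : OO N ⊔ Γ = OO N ⊔ RV t s := le_antisymm (sup_le le_sup_left (h.fused c f cl hS U gN eg f' w'N))
      (sup_le_sup_left (le_inf le_sup_right ((RV_le t s).trans cl.VN)) _)
    have n : ∀ {x : G}, x ∈ N → x ∈ 𝒩(𝒞[t] ⊓ 𝒞[s]) → x ∈ 𝒩(OO N ⊔ Γ) := fun xN xV =>
      e ▸ norm_sup (zpowers_le.2 (nO xN)) (norm_pcore _ (zpowers_le.2 xV)) (mem_zpowers _)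
    have w'Θ := n w'N (inf_comm 𝒞[t] _ ▸ f'.toLH.nCV)
    have fz := fpf_conj (nQ w'Θ) ft
    rw [f'.toLH.wu, ← h.f.comm] at fz
    have fs := fpf_conj (nQ (n cl.wN f.toLH.nCV)) fz
    rw [f.toLH.wtu] at fs
    have nZ := norm_ZL h.pp oΘ sΘ (eq_bot_iff.2 (h.f.gen oQ (nQ (nΘ h.tV)) (nQ (nΘ h.sV)) ft.le fs.le fz.le))
    have ez : w' * t * w'⁻¹ = z := f'.toLH.wu.trans h.swp.hz
    obtain ⟨m, mA, em⟩ := U.conj (nZ w'Θ) (nZ (nΘ h.tV)) h.tA (ez ▸ h.zA)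
    exact h.rev.nfus mA (em.trans ez)
  · exact ⟨_, h.dl c f cl.sc hS U le_rfl inf_le_right tN sN (norm_of_le cl.VN) (le_normalizer cl.wN) d⟩

/-- the uniqueness theorem -/
theorem un (c : CharP p A) (f : FA t s w j) (zn : ∀ S, IsSylowOf p S (OO A ⊔ RV t s) → 𝒵(puigOf S) ⊲ A)
    (cl : Cl t s w A N) : ∃ Q, UQ p A N Q := by
  by_contra hN
  obtain ⟨S0, h0⟩ := sylow_exists h.pp ((OO A ⊔ RV t s) ⊓ N)
  obtain ⟨S, -, ⟨N, cl, hN, hS⟩, mx⟩ := exists_max_subgroup (P := fun S => ∃ N, Cl t s w A N ∧ (¬ ∃ Q, UQ p A N Q) ∧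
    IsSylowOf p S ((OO A ⊔ RV t s) ⊓ N)) ⟨N, cl, hN, h0⟩
  have oΓ := h.oΓ.inf_left N
  have oQ := oΓ.of_le (pcore_le {p}ᶜ _)
  have nZ := norm_ZL h.pp oΓ hS (eq_bot_iff.2 ((le_inf le_rfl (((pcore_le _ _).trans inf_le_left).trans h.ΓA)).trans
    (h.q_bot c cl.sc le_rfl (pcore_norm _ _) (pcore_piGrp _ _) oQ).le))
  have Z0 : 𝒵(puigOf S) ≠ ⊥ := fun e => h.Z0 (eq_bot_iff.2 ((h.ZS c cl.sc hS).trans
    (trivg_center_Puig_pgroup hS.piGrp e).le))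
  have oZ := (oΓ.of_le hS.le).of_le ((inf_le_left (b := 𝒞(puigOf S))).trans (Puig_sub S))
  have cl' : Cl t s w A 𝒩(𝒵(puigOf S)) := ⟨h.norm_nt Z0 oZ, (norm_inf h.nΓ (norm_of_le cl.VN)).trans nZ,
    nZ (norm_inf (h.wΓ f) (norm_of_le (zpowers_le.2 cl.wN)) (mem_zpowers w)),
    cl.sc.mono (le_inf inf_le_left ((h.FΓ.trans le_normalizer).trans nZ)) inf_le_left,
    fun e => Z0 (eq_bot_of_pcore_eq_bot e ⟨le_normalizer, le_rfl⟩ oZ)⟩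
  have hN' : ¬ ∃ Q, UQ p A 𝒩(𝒵(puigOf S)) Q := fun ⟨Q, U⟩ => hN (h.step c f cl hS U)
  obtain ⟨S', hS', le⟩ := sylow_superset h.pp hS.piGrp (le_inf (hS.le.trans inf_le_left)
    ((hS.le.trans le_normalizer).trans nZ))
  rw [mx S' ⟨_, cl', hN', hS'⟩ le] at hS'
  exact hN' ⟨⊥, uq_of_le (h.prim _ (zn S (sylow_of_sylow_norm h.pp (hS.le.trans inf_le_left) (hS'.of_le
    (le_inf (hS.le.trans inf_le_left) le_normalizer) (inf_le_inf_left _ (center_Puig_char S).norm_le)))) Z0)⟩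

theorem cl_norm {D : Subgroup G} (D0 : D ≠ ⊥) (DP : D ≤ pCoreOf p A) (VN : 𝒞[t] ⊓ 𝒞[s] ≤ 𝒩(D)) (wN : w ∈ 𝒩(D)) :
    Cl t s w A 𝒩(D) := ⟨h.norm_nt D0 ((h.oO p).of_le DP), VN, wN, sc_of_norm' (DP.trans (pcore_le_fitting p A)) le_rfl,
  fun e => D0 (eq_bot_of_pcore_eq_bot e ⟨le_normalizer, le_rfl⟩ ((h.oO p).of_le DP))⟩

/-- (IIb) -/
theorem caseII (c : CharP p A) (zn : ∀ S, IsSylowOf p S (OO A ⊔ RV t s) → 𝒵(puigOf S) ⊲ A) {a : G}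
    (ha : a ∈ pCoreOf p A ⊓ UU s) (a1 : a ≠ 1) (e : t * a * t⁻¹ = a⁻¹) : False := by
  obtain ⟨w, j, f⟩ := h.fa
  have ws : w * s * w⁻¹ = z := f.toLH.wu.trans h.hz
  have wz : w * z * w⁻¹ = s := h.hz ▸ f.toLH.wtu
  have nA : 𝒞[t] ≤ 𝒩(pCoreOf p A) := h.cA.trans (pcore_norm _ A)
  have nB : 𝒞[t] ⊓ 𝒞[s] ≤ 𝒩(pCoreOf p B) := inf_le_right.trans (h.rot.cA.trans (pcore_norm _ B))
  have nC : 𝒞[t] ⊓ 𝒞[s] ≤ 𝒩(pCoreOf p C) :=
    (h.cVz.ge.trans inf_le_left).trans (h.rot.rot.cA.trans (pcore_norm _ C))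
  have cj : ∀ g : G, g * a * g⁻¹ ∈ pCoreOf p (A :^ g) ⊓ UU (g * s * g⁻¹) ∧ g * a * g⁻¹ ≠ 1 ∧
      g * t * g⁻¹ * (g * a * g⁻¹) * (g * t * g⁻¹)⁻¹ = (g * a * g⁻¹)⁻¹ := fun g =>
    ⟨by rw [← pcore_conjg', ← UU_conj, ← conjg_inf]; exact conj_mem_conjg g ha, fun e => a1 (by simpa using e),
      by rw [show g * t * g⁻¹ * (g * a * g⁻¹) * (g * t * g⁻¹)⁻¹ = g * (t * a * t⁻¹) * g⁻¹ by group, e]; group⟩
  have D0 : pCoreOf p A ⊓ (pCoreOf p B ⊓ pCoreOf p C) ≠ ⊥ := fun D0 => by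
    by_cases Δ : pCoreOf p A ⊓ (𝒞[t] ⊓ 𝒞[s]) = ⊥
    · obtain ⟨g, e1, e2⟩ := f.toLH.pair h.f.symm
      obtain ⟨m, m1, em⟩ := cj g
      rw [h.conj_eq e1, e2] at m
      rw [e1] at em
      have mA := h.swp.a_mem m em
      generalize g * a * g⁻¹ = b at m m1 mA
      obtain ⟨k, hk, ek⟩ := f.cju w f.wC f.iw f.wt
      have nE : 𝒞[t] ≤ 𝒩(pCoreOf p A ⊓ 𝒞[t]) := norm_inf nA le_normalizer
      have fw := fpf_conj (nE hk) (inf_assoc (pCoreOf p A) _ _ ▸ Δ)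
      rw [ek] at fw
      have := inv_of_fpf f.iw.1 (nE f.wC) fw ⟨mA, UU_le t m.2⟩
      refine m1 (D0.le ⟨mA, m.1, (pCoreOf p C).inv_mem_iff.1 ?_⟩)
      rw [← this, ← h.cjB ws, ← pcore_conjg']
      exact conj_mem_conjg w m.1
    · obtain ⟨Q, U⟩ := h.un c f zn (h.cl_norm Δ inf_le_left (norm_inf (inf_le_left.trans nA) le_normalizer)
        (norm_inf (zpowers_le.2 (nA f.wC)) (zpowers_le.2 f.toLH.nCV) (mem_zpowers w)))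
      set D := pCoreOf p A ⊓ (𝒞[t] ⊓ 𝒞[s])
      set Y := pCoreOf p B ⊓ pCoreOf p C
      have nY : 𝒞[t] ⊓ 𝒞[s] ≤ 𝒩(Y) := norm_inf nB nC
      have pY : IsPGrp p Y := (pcore_pGrp p B).inf_left _
      have tD : zpowers t ≤ 𝒞(D) := zpowers_le.2 (mem_cent_iff_le_cent_singleton.2 (inf_le_right.trans inf_le_left))
      have tY : zpowers t ≤ 𝒩(Y ⊓ 𝒞(D)) := norm_inf (zpowers_le.2 (nY h.tV)) (norm_of_le tD)
      have YA := U.c1 h.pp h.p2 h.t2 (cent_le_norm D (tD (mem_zpowers t))) h.cA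
        (inf_le_right.trans (cent_le_norm D)) (pY.inf_left _) (tY (mem_zpowers t))
      have nW : 𝒞[t] ⊓ 𝒞[s] ≤ 𝒩(OO A ⊓ Y) := norm_inf ((inf_le_left.trans h.cA).trans h.nA) nY
      have k : ∀ {v : G}, v ∈ 𝒞[t] ⊓ 𝒞[s] → ⁅OO A ⊓ Y, zpowers v⁆ ≤ pCoreOf p A → OO A ⊓ Y ≤ 𝒞[v] := fun hv e => by
        rw [← cent_zpowers, ← comm_eq_bot_iff, eq_bot_iff, ← D0]
        exact le_inf e ((comm_le_left (zpowers_le.2 (nW hv))).trans inf_le_right)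
      have k1 := k h.sV ((commutator_mono (le_inf (inf_le_right.trans inf_le_left) inf_le_left) le_rfl).trans (h.swp.gs p))
      have k2 := k (h.cVz.le h.rot.rot.tV) ((commutator_mono (le_inf (inf_le_right.trans inf_le_right) inf_le_left)
        le_rfl).trans (h.rot.rot.gs p))
      have h1 := coprime_A_times_B pY ((pcore_pGrp p A).inf_left _) ((two_zpowers h.t2).piGrp (by simpa using h.p2.symm))
        (zpowers_le.2 (nY h.tV)) (inf_le_right.trans nY) tD (le_cent_symm (by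
          rw [← comm_eq_bot_iff, ← comm_comm_zpowers ((odd_of_pGrp pY h.p2).inf_left _) h.t2 (tY (mem_zpowers t)),
            comm_eq_bot_iff, cent_zpowers]
          exact (le_inf (h.comO' YA) ((comm_le_left tY).trans inf_le_left)).trans
            fun y hy => h.rot.cz (k1 hy) (k2 hy)))
      obtain ⟨m, m1, em⟩ := cj ρ
      rw [h.rA, h.rs] at m
      rw [h.rt] at em
      exact m1 (one_of_inv_cent (UU_odd z) m.2 (h.rot.inv_z (UU_le z m.2) em)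
        (mem_c1.2 (h1 (mem_zpowers t) _ ⟨m.1, h.rot.a_mem m em⟩)))
  obtain ⟨Q, U⟩ := h.un c f zn (h.cl_norm D0 inf_le_left (norm_inf (inf_le_left.trans nA) (norm_inf nB nC))
    (conjg_eq_self_iff.1 (by
      rw [conjg_inf, conjg_inf, pcore_conjg', pcore_conjg', pcore_conjg', h.cjA f.wC, h.cjB ws, h.cjC wz,
        inf_comm (pCoreOf p C)])))
  obtain ⟨m, mA, em⟩ := U.conj (g := ρ) (conjg_eq_self_iff.1 (by
    rw [conjg_inf, conjg_inf, pcore_conjg', pcore_conjg', pcore_conjg', h.rA, h.rB, h.rC, ← inf_assoc, inf_comm]))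
    (norm_inf (inf_le_left.trans nA) (norm_inf nB nC) h.tV) h.tA (h.rt ▸ h.sA)
  exact h.nfus mA (em.trans h.rt)

end MT

end CA.Abg
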