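/-
Groups with quasi-dihedral or wreathed Sylow 2-subgroups, `C(t) < M`: the `Z(L(S))` theorem for `M`.
-/
import Cfsg.Agent.Abg.MI1
import Cfsg.Agent.Abg.MA1

set_option autoImplicit false
set_option linter.unusedSectionVars false

namespace CA.Abg

open Subgroup Cfsg CA.FG CA.BG CA.Dih CA.GW CA.GW.BA CA.GW.L1 CA.BG.P06
open scoped commutatorElement IsMulCommutative Classical

universe u

variable {G : Type u} [Group G] [Finite G] {p : ℕ} {A H N O P S V X Y Z : Subgroup G} {x : G}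

theorem mem_of_sup {π : Set ℕ} (n : X ≤ 𝒩(N)) (pX : IsPiGrp πᶜ X) (hx : x ∈ N ⊔ X) (px : IsPiElt π x) : x ∈ N :=
  zpowers_le.1 (le_of_piGrp_of_relIndex (zpowers_le.2 hx) (sup_le le_normalizer n) (piGrp_zpowers_iff.2 px) (by
    rw [← piGrp_quot_iff (sup_le le_normalizer n), quot_sup_self_left n]; exact pX.quot N))

/-- the centralizer of `Y / Z` -/
abbrev CS (Y Z : Subgroup G) : Subgroup G := quotPre Z 𝒞(Y /ₛ Z)

theorem le_CS (hX : X ≤ 𝒩(Z)) (hY : Y ≤ 𝒩(Z)) : X ≤ CS Y Z ↔ ⁅Y, X⁆ ≤ Z :=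
  (quot_le_iff hX).symm.trans (quot_cent_iff' hX hY)

theorem norm_CS (hZ : N ≤ 𝒩(Z)) (hY : N ≤ 𝒩(Y)) : N ≤ 𝒩(CS Y Z) := le_norm_quotPre hZ (norm_cent (quot_norm Z hY))

/-- `O_p(H mod C_H(V))` -/
abbrev Mp (p : ℕ) (H V : Subgroup G) : Subgroup G := quotPre (H ⊓ 𝒞(V)) (pCoreOf p (H /ₛ (H ⊓ 𝒞(V))))

theorem norm_Mp (hH : N ≤ 𝒩(H)) (hV : N ≤ 𝒩(V)) : N ≤ 𝒩(Mp p H V) :=
  le_norm_quotPre (norm_inf hH (norm_cent hV)) (norm_pcore _ (quot_norm _ hH))

theorem Mp_cent (hX : X ≤ Mp p H V) (o : IsPiGrp {p}ᶜ X) : X ≤ 𝒞(V) :=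
  (le_of_piGrp_of_relIndex hX (quotPre_le_norm _) o (by
    rw [relIndex_quotPre_self, compl_compl]; exact pcore_piGrp _ _)).trans inf_le_right

theorem le_Mp (st : PStable p H) (pV : IsPGrp p V) (n : V ⊲ H) (hX : X ≤ H) (pX : IsPGrp p X)
    (q : ⁅⁅V, X⁆, X⁆ = ⊥) : X ≤ Mp p H V := by
  have h := st V X pV ((pcore_normal _ H).sup n) (le_inf hX (hX.trans n.2)) pX q
  rw [inf_eq_left.2 n.2] at h
  exact (quot_le_iff (hX.trans (inf_cent_normalIn_of_norm n.2).2)).1 h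

theorem mn_cent (hp : p.Prime) (m : MinNormal V A) (pV : IsPGrp p V) (nO : O ⊲ A) (nN : N ⊲ O)
    (h : ∀ Q, Q ≤ N → IsPiGrp {p}ᶜ Q → Q ≤ 𝒞(V)) : N ≤ 𝒞(V) := by
  have nD := inf_cent_normalIn_of_norm m.norm
  have NA := nN.1.trans nO.1
  have h1 : N ≤ Mp p A V := (quot_le_iff (NA.trans nD.2)).1 ((pcore_max (quot_normalIn _ nN)
    ((piGrp_quot_iff (NA.trans nD.2)).2 (piNat_relIndex_of_forall_le fun Q hQ o =>
      le_inf (hQ.trans NA) (h Q hQ o)))).trans ((quot_normalIn _ nO).pcore_le _))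
  have nM : Mp p A V ⊲ A := quotPre_normalIn_of nD (pcore_normal _ _)
  obtain ⟨T, hT⟩ := sylow_exists hp (Mp p A V)
  have e := hT.sup_eq_of_index (le_quotPre _) (by rw [relIndex_quotPre_self]; exact pcore_piGrp _ _)
  have lt := pGrp_comm_lt pV hT.piGrp ((hT.le.trans nM.1).trans m.norm) m.ne_bot
  have : ⁅V, Mp p A V⁆ ≤ ⁅V, T⁆ := (commutator_mono le_rfl e.ge).trans (comm_sup_right_le
    (norm_of_cent (inf_le_right.trans (cent_anti lt.le))) (normalizer_commutator_ge_right _ _)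
    ((comm_eq_bot_iff'.2 inf_le_right).le.trans bot_le) le_rfl)
  exact h1.trans (comm_eq_bot_iff'.1 ((m.eq_bot_or_eq (comm_le_left (nM.1.trans m.norm))
    (norm_comm m.norm nM.2)).resolve_right (this.trans_lt lt).ne))

theorem quad_sup (nX : X ≤ 𝒩(Y)) (XZ : X ≤ 𝒩(Z)) (NZ : N ≤ 𝒩(Z)) (YZ : Y ≤ 𝒩(Z)) (ZY : Z ≤ Y) (c : ⁅Y, N⁆ ≤ Z)
    (q : ⁅⁅Y, X⁆, X⁆ ≤ Z) (hx : x ∈ N ⊔ X) : ⁅⁅Y, zpowers x⁆, zpowers x⁆ ≤ Z := by
  have c' : ⁅Z ⊔ ⁅Y, X⁆, N⁆ ≤ Z := (commutator_mono (sup_le ZY (comm_le_left nX)) le_rfl).trans c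
  have h1 : ⁅Y, N ⊔ X⁆ ≤ Z ⊔ ⁅Y, X⁆ := comm_sup_right_le
    (le_normalizer_iff_commutator_le_left.2 (c'.trans le_sup_left))
    (norm_sup XZ (normalizer_commutator_ge_right _ _)) (c.trans le_sup_left) le_sup_right
  exact (commutator_mono ((commutator_mono le_rfl (zpowers_le.2 hx)).trans h1) (zpowers_le.2 hx)).trans
    (comm_sup_right_le NZ XZ c' (comm_sup_left_le le_normalizer ((comm_le_left nX).trans YZ) (comm_le_left XZ) q))

theorem quad_quot (nX : X ≤ 𝒩(Y)) (XZ : X ≤ 𝒩(Z)) (YZ : Y ≤ 𝒩(Z)) (q : ⁅⁅Y, X⁆, X⁆ ≤ ⊥) :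
    ⁅⁅Y /ₛ Z, X /ₛ Z⁆, X /ₛ Z⁆ = ⊥ := by
  rw [← quot_comm YZ XZ, ← quot_comm ((comm_le_left nX).trans YZ) XZ, le_bot_iff.1 q, bot_quot]

theorem odd_stable (hp : p.Prime) (o : IsPiGrp {2}ᶜ H) : PStable p H :=
  odd_p_stable hp (Nat.not_even_iff_odd.1 (mt even_iff_two_dvd.1 ((piGrp_compl_singleton_iff Nat.prime_two).1 o)))

theorem charP_of_odd (c : CharP p A) (o : IsPiGrp {2}ᶜ H) (PH : pCoreOf p A ≤ H) (HA : H ≤ A) : CharP p H :=
  ⟨layerOf_eq_bot_of_sol (odd_sol o), pGrp_fitting_of_forall fun r _ rp => by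
    have co := (pcore_pGrp r H).coprime_of_ne (pcore_pGrp p A) rp
    exact eq_bot_iff.2 ((le_inf le_rfl ((le_inf ((pcore_le _ _).trans HA) (comm_eq_bot_iff.1 (eq_bot_iff.2
      ((le_inf (comm_le_left (PH.trans (pcore_norm _ H))) (comm_le_right (((pcore_le _ _).trans HA).trans
        (pcore_norm _ A)))).trans (inf_eq_bot_of_cop co).le)))).trans c.cent_le)).trans (inf_eq_bot_of_cop co).le)⟩

theorem norm_ZLc (hp : p.Prime) (o : IsPiGrp {2}ᶜ H) (c : CharP p H) (hS : IsSylowOf p S H) :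
    𝒩(H) ≤ 𝒩(𝒵(puigOf S)) := fun g hg => by
  obtain ⟨x, hx, n, hn, rfl⟩ := frattini_arg_mem hp hS hg
  exact mul_mem ((charP_Puig_center_normal hp (odd_stable hp o) c hS).2 hx) ((center_Puig_char S).norm_le hn)

theorem puig_sub (sTS : P ≤ S) (h1 : puigSucc S (puigOf P) ≤ P) :
    puigInfOf S ≤ puigInfOf P ∧ puigOf P ≤ puigOf S := by
  have h2 : puigInfOf S ≤ puigInfOf P := by
    refine puigInfOf_le_iff.2 fun n => ?_
    induction n with
    | zero => exact bot_le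
    | succ n ih =>
      exact (puigSucc_mono le_rfl ((Puig_def _).ge.trans (puigSucc_mono sTS ih))).trans
        ((puigSucc_restrict sTS h1).symm.trans (Puig_inf_def _)).le
  exact ⟨h2, (Puig_def _).ge.trans ((puigSucc_mono sTS h2).trans (Puig_def S).le)⟩

namespace MT

variable [IsSimpleGroup G] {t s z w j ρ : G} {B C : Subgroup G} (h : MT p t s z A B C ρ)
include h

theorem GA : OO A ⊔ RV t s ≤ A := sup_le (pcore_le _ _) (((pcore_le _ _).trans inf_le_left).trans h.cA)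

theorem oG : IsPiGrp {2}ᶜ (OO A ⊔ RV t s : Subgroup G) :=
  h.oA.sup (pcore_piGrp _ _) (.inr ((le_sup_right.trans h.GA).trans h.nA))

theorem nG : 𝒞[t] ⊓ 𝒞[s] ≤ 𝒩(OO A ⊔ RV t s) := norm_sup ((inf_le_left.trans h.cA).trans h.nA) (pcore_norm _ _)

theorem split (hx : x ∈ OO A ⊔ RV t s) (px : IsPiElt {p} x) (xO : x ∉ OO A) :
    ∃ y ∈ UU t ⊔ RV t s, y ∉ UU t ∧ IsPiElt {p} y ∧ y ∈ ⁅A, zpowers t⁆ ⊔ zpowers x := by
  obtain ⟨a, ⟨ha, ea⟩, b, hb, rfl⟩ := exists_inv_mul h.oG h.t2 (h.nG ⟨mem_cent_singleton_self t, h.f.cs⟩) hx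
  have aN := commutator_mono h.GA le_rfl (mem_comm_of_inv h.oG ha ea)
  obtain ⟨y, y', hy, hy', py, py', e, -⟩ := exists_piPart {p} b
  have l : zpowers b ≤ ⁅A, zpowers t⁆ ⊔ zpowers (a * b) := zpowers_le.2
    ((mul_mem_cancel_left (mem_sup_left aN)).1 (mem_sup_right (mem_zpowers _)))
  refine ⟨y, zpowers_le.2 ?_ hy, fun m => xO (mul_mem (h.comO aN) (e ▸ mul_mem (h.KO m) (h.comO (mem_of_sup
    ((zpowers_le.2 (h.GA hx)).trans (normalizer_commutator_ge_left _ _))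
    (by rw [compl_compl]; exact piGrp_zpowers_iff.2 px) (l hy') py')))), py, l hy⟩
  rw [inf_comm, inf_sup_of_right_le (.inr ((le_sup_right.trans h.GA).trans h.nA))
    ((pcore_le _ _).trans inf_le_left), inf_comm] at hb
  exact sup_le_sup_right h.OK _ hb

/-- no quadratic action outside `O(A)` -/
theorem quad (a : FA t s w j) (r5 : R5 t s w) (nY : Y ⊲ A) (pY : IsPGrp p Y) (iY : s * w ∉ 𝒞(Y))
    (hx : x ∈ OO A ⊔ RV t s) (px : IsPiElt {p} x) (q : ⁅⁅Y, zpowers x⁆, zpowers x⁆ ≤ ⊥) : x ∈ OO A := by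
  by_contra xO
  obtain ⟨y, yK, yn, py, hy⟩ := h.split hx px xO
  obtain ⟨Y, YY, ⟨nY', iY⟩, mY⟩ := exists_min_subgroup (P := fun W => A ≤ 𝒩(W) ∧ s * w ∉ 𝒞(W)) ⟨nY.2, iY⟩
  replace nY : Y ⊲ A := ⟨YY.trans nY.1, nY'⟩
  replace pY : IsPGrp p Y := pY.of_le YY
  replace q := (commutator_mono (commutator_mono YY le_rfl) le_rfl).trans q
  obtain ⟨Z, -, cf⟩ := chiefFactor_exists_below nY (bot_normalIn A).2
    (bot_lt_iff_ne_bot.2 fun e => iY (by rw [e, cent_bot]; trivial))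
  have nZ := cf.normal_left.2
  have iZ : s * w ∈ 𝒞(Z) := by_contra fun e => cf.lt.ne (mY Z ⟨nZ, e⟩ cf.lt.le)
  have tZ : Z ≤ Y ⊓ 𝒞[t] := le_inf cf.lt.le (mem_cent_iff_le_cent_singleton.1 (a.i2 ▸ mul_mem iZ iZ))
  have oY := odd_of_pGrp pY h.p2
  have OA : OO A ≤ A := pcore_le _ _
  have XA := zpowers_le.2 (h.GA hx)
  have RC : RV t s ≤ 𝒞[t] := (pcore_le _ _).trans inf_le_left
  have yC := sup_le (UU_le t) RC yK
  have oy : IsPiElt {2}ᶜ y := py.mono (by simpa using h.p2.symm)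
  have nD := norm_CS nZ nY.2
  have h1 : ⁅OO A, zpowers x⁆ ≤ CS Y Z := by
    have hM := le_Mp (odd_stable h.pp (h.oG.quot Z)) (pY.quot Z)
      (quot_normalIn Z (nY.of_le (le_sup_of_le_left (pcore_max nY oY)) h.GA)) (quot_mono Z (zpowers_le.2 hx))
      ((piGrp_zpowers_iff.2 px).quot Z) (quad_quot (XA.trans nY.2) (XA.trans nZ) cf.normal.2 q)
    have nM := norm_Mp (p := p) (norm_of_le (quot_mono Z (le_sup_left : _ ≤ OO A ⊔ RV t s)))
      (quot_norm Z (OA.trans nY.2))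
    refine (quot_le_iff (((comm_le_left (XA.trans h.nA)).trans OA).trans nZ)).1 ?_
    rw [quot_comm (OA.trans nZ) (XA.trans nZ)]
    exact (le_inf (comm_le_left (quot_norm Z (XA.trans h.nA)))
      ((commutator_mono le_rfl hM).trans (comm_le_right nM))).trans (mn_cent h.pp cf.minNormal (pY.quot Z)
        (quot_normalIn Z (pcore_normal _ A)) ⟨inf_le_left, norm_inf le_normalizer nM⟩
        fun Q hQ => Mp_cent (hQ.trans inf_le_right))
  have nE := norm_CS nD h.nA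
  have iE := mem_of_sup (π := {2}) (OA.trans nE) h.oA (by_contra fun e => yn (a.f3 ((_ ⊔ OO A) ⊓ 𝒞[t]) inf_le_right
    (norm_inf (h.cA.trans (norm_sup nE h.nA)) le_normalizer) (fun m => e m.1) y ⟨sup_le (le_sup_of_le_right h.comO)
      (le_sup_of_le_left ((le_CS (XA.trans nD) (OA.trans nD)).2 h1)) hy, yC⟩ oy)) a.i_two
  have LC := LL_le (norm_of_le le_rfl) a.iC
  have OL := (le_CS ((LC.trans h.cA).trans nD) (OA.trans nD)).1 (LL_le (h.cA.trans nE) iE)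
  have tL : t ∈ LL t (s * w) := a.i2 ▸ mul_mem (LL_mem _ _) (LL_mem _ _)
  have NA := h.comO.trans OA
  have c := (le_CS (NA.trans nZ) cf.normal.2).1 ((commutator_mono h.dec le_rfl).trans (comm_sup_left_le
    (OA.trans nD) (h.cA.trans nD) ((commutator_mono le_rfl (zpowers_le.2 tL)).trans OL)
    ((comm_eq_bot_iff.2 (cent_zpowers t).ge).le.trans bot_le)))
  by_cases e : Y ≤ 𝒞[t]
  · have nb := fun X : Subgroup G => (bot_normalIn X).2
    have q' := quad_sup (XA.trans nY.2) (nb _) (nb _) (nb _) bot_le (comm_eq_bot_iff'.2 ((commutator_mono le_rfl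
      (zpowers_le.2 (mem_cent_iff_le_cent_singleton.2 e))).trans (comm_le_right (norm_cent nY.2)))).le q hy
    have nH : 𝒞[t] ≤ 𝒩(UU t ⊔ LL t (s * w) ⊔ RV t s) := r5.fr.trans (sup_le (norm_of_le le_sup_left)
      (norm_sup (inf_le_left.trans (norm_sup (UU_norm t) (LL_norm _ _))) (pcore_norm _ _)))
    have nT : 𝒞[t] ≤ 𝒩(zpowers t) := norm_zpowers_of_cent le_rfl
    have CY := h.cA.trans nY.2
    have yl := zpowers_le.2 yC
    have hM := le_Mp (a.lx.dih.stable h.pp h.p2) (pY.quot _) (quot_normalIn _ ⟨le_sup_of_le_left (le_sup_of_le_left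
      (pcore_max ⟨e, CY⟩ oY)), (sup_le (sup_le (UU_le t) LC) RC).trans CY⟩)
      (quot_mono _ ((zpowers_le.2 yK).trans (sup_le_sup_right le_sup_left _))) ((piGrp_zpowers_iff.2 py).quot _)
      (quad_quot (yl.trans CY) (yl.trans nT) (e.trans nT) q')
    have il := zpowers_le.2 a.iC
    refine yn (a.f3 (quotPre (zpowers t) _ ⊓ 𝒞[t]) inf_le_right (norm_inf (le_norm_quotPre nT (norm_Mp (quot_norm _ nH)
      (quot_norm _ CY))) le_normalizer) (fun m => iY ?_) y ⟨(quot_le_iff (yl.trans nT)).1 hM (mem_zpowers y), yC⟩ oy)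
    exact zpowers_le.1 (comm_eq_bot_iff'.1 (eq_bot_iff.2 ((le_inf ((quot_cent_iff' (il.trans nT) (e.trans nT)).1
      (Mp_cent (quot_le_of_le_quotPre (zpowers_le.2 m.1)) (IsPGrp.piGrp ((piGrp_zpowers_iff.2 a.i_two).quot _)
        (by simpa using h.p2.symm)))) (comm_le_left (il.trans CY))).trans ((two_zpowers h.t2).inf_eq_bot oY).le)))
  have eW := cf.2.2.2 _ tZ (inf_lt_left.2 e) (h.dec.trans (sup_le ((comm_sup_cent h.oA h.t2 (h.nA h.tA)).ge.trans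
    (sup_le ((commutator_mono OA le_rfl).trans (le_normalizer_iff_commutator_le_left.2
      ((commutator_mono inf_le_left le_rfl).trans (c.trans tZ)))) (inf_le_right.trans ?_))) ?_))
  rotate_left
  iterate 2 exact norm_inf (h.cA.trans nY.2) le_normalizer
  obtain ⟨r, hr, ab⟩ := cf.abelem (odd_sol oY)
  obtain rfl : r = p := (abelem_pGrp hr ab).mem_of_piGrp cf.minNormal.ne_bot (pY.quot Z)
  exact cf.lt.not_ge (a.rs r Y Z y hr h.p2 pY cf.lt.le (h.cA.trans nY.2) (sup_le (h.cA.trans nZ) cf.normal.2) eW.le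
    ((quot_abelian_iff cf.normal.2).1 ab.1) (fun g hg => (coset_eq_one_iff (x := ⟨g, cf.normal.2 hg⟩ ^ r)).1
      (by rw [map_pow]; exact ab.2 _ (mem_quot_of_mem _ hg))) yK yn py
    (quad_sup (XA.trans nY.2) (XA.trans nZ) (NA.trans nZ) cf.normal.2 cf.lt.le c (q.trans bot_le) hy)
    ((le_CS (((comm_le_left (LC.trans (UU_norm t))).trans ((UU_le t).trans h.cA)).trans nZ) cf.normal.2).1
      ((commutator_mono h.KO le_rfl).trans OL)))

theorem ab_le (a : FA t s w j) (r5 : R5 t s w) (nY : Y ⊲ A) (pY : IsPGrp p Y) (iY : s * w ∉ 𝒞(Y))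
    (hS : IsSylowOf p S (OO A ⊔ RV t s)) (XS : X ≤ S) (ab : IsMulCommutative X) (n : Y ≤ 𝒩(X)) : X ≤ OO A :=
  fun _ hx => h.quad a r5 nY pY iY (hS.le (XS hx)) (hS.piGrp.piElt (XS hx)) ((commutator_mono
    ((commutator_mono le_rfl (zpowers_le.2 hx)).trans (comm_le_right n)) (zpowers_le.2 hx)).trans
    (comm_eq_bot_iff.2 (abelian_iff_le_cent.1 ab)).le)

/-- the `Z(L(S))` theorem for `A` -/
theorem zn (c : CharP p A) (hS : IsSylowOf p S (OO A ⊔ RV t s)) : 𝒵(puigOf S) ⊲ A := by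
  have OA : OO A ≤ A := pcore_le _ _
  have cO := charP_of_odd c h.oA (h.pO p) OA
  have sLS := Puig_sub S
  refine ⟨((inf_le_left.trans sLS).trans hS.le).trans h.GA, ?_⟩
  have k : puigOf S ≤ OO A → A ≤ 𝒩(𝒵(puigOf S)) := fun l => by
    rw [← sub_Puig_eq inf_le_right (le_inf l sLS)]
    exact h.nA.trans (norm_ZLc h.pp h.oA cO (hS.normal_inf ((pcore_normal _ A).of_le le_sup_left h.GA)))
  obtain ⟨w, j, a⟩ := h.fa
  rcases a.c35 with ⟨-, e⟩ | ⟨-, -, r5, -⟩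
  · exact k ((sLS.trans hS.le).trans (sup_le le_rfl (e.trans h.KO)))
  have pP := pcore_pGrp p A
  have nP := pcore_normal {p} A
  have pS : IsPGrp p S := hS.piGrp
  have sTS : pCoreOf p A ≤ S := hS.le_of_norm_le pP (le_sup_of_le_left (h.pO p)) ((hS.le.trans h.GA).trans nP.2)
  have nL := (Puig_char _).trans_normal nP
  have iL : s * w ∉ 𝒞(puigOf (pCoreOf p A)) := fun e => by
    have l : puigOf (pCoreOf p A) ≤ pCoreOf p A ⊓ 𝒞(zpowers (s * w)) :=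
      le_inf (Puig_sub _) (le_cent_symm (zpowers_le.2 e))
    have := zpowers_le.1 (coprime_nil_faithful_cent_stab ((zpowers_le.2 (h.cA a.iC)).trans nP.2)
      ((piGrp_zpowers_iff.2 a.i_two).coprime (h.oO p)).symm pP.nil
      (((inf_le_inf_left _ (cent_anti l)).trans (cent_Puig pP)).trans l))
    exact h.nc (a.i2 ▸ mul_mem this this)
  obtain ⟨sLi, sL⟩ := puig_sub sTS ((abelian_gen_charP (odd_stable h.pp h.oA) cO (pP.of_le (Puig_sub _))
    (nL.of_le ((Puig_sub _).trans (h.pO p)) OA) (fun X hX => ⟨h.ab_le a r5 nL (pP.of_le (Puig_sub _)) iL hS hX.1 hX.2.1 hX.2.2,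
      hX.2.1, pS.of_le hX.1, hX.2.2⟩) ((inf_le_inf_right _ (h.pOO p)).trans (cent_Puig pP))).trans (h.pOO p))
  have nY := (center_Puig_char _).trans_normal nP
  have YP : 𝒵(puigOf (pCoreOf p A)) ≤ pCoreOf p A := inf_le_left.trans (Puig_sub _)
  by_cases iY : s * w ∈ 𝒞(𝒵(puigOf (pCoreOf p A)))
  · have sZY : 𝒵(puigOf S) ≤ 𝒵(puigOf (pCoreOf p A)) := by
      refine le_inf (le_trans ?_ (sLi.trans (Puig_inf_sub _))) (inf_le_right.trans (cent_anti sL))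
      refine (inf_le_inf sLS (cent_anti (Puig_inf_sub S))).trans ?_
      rw [← Puig_inf_def S]
      exact cent_puigSucc pS.nil sLS
    have n := norm_ZLc h.pp h.oG (charP_of_odd c h.oG (le_sup_of_le_left (h.pO p)) h.GA) hS
    have nO := (norm_of_le le_sup_left).trans n
    exact h.dec.trans (sup_le nO (r5.fr.trans (sup_le (sup_le (h.KO.trans nO) (norm_of_cent
      ((LL_le (h.cA.trans (norm_cent nY.2)) iY).trans (cent_anti sZY)))) (h.nG.trans n))))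
  · exact k (((Puig_def S).ge.trans (puigSucc_mono le_rfl ((le_puigSucc (YP.trans sTS) (abelian_inf_cent _)
      (((sLS.trans hS.le).trans h.GA).trans nY.2)).trans (Puig_inf_def S).le))).trans
      (puigSucc_le_iff.2 fun X => h.ab_le a r5 nY (pP.of_le YP) iY hS))

end MT

theorem realizeEqns_Abg_MZ : True := by
  have := @CA.Abg.CS.eq_1.{0}
  have := @CA.Abg.CS.eq_def.{0}
  have := @CA.Abg.CS.congr_simp.{0}
  have := @CA.Abg.Mp.eq_1.{0}
  have := @CA.Abg.Mp.eq_def.{0}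
  have := @CA.Abg.Mp.congr_simp.{0}
  trivial

end CA.Abg
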