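/-
Groups with quasi-dihedral or wreathed Sylow 2-subgroups: `a = 1` from the local facts.
-/
import Cfsg.Agent.Abg.MI3
import Cfsg.Agent.Abg.MZ
import Cfsg.Agent.Abg.MU2

set_option autoImplicit false

namespace CA.Abg

universe u

theorem abg_a1 {G : Type u} [Group G] [Finite G] (gx : GX G) (ih : IH G) [IsSimpleGroup G] : A1 G :=
  abg_core gx ih (fun h => h.caseI) fun h c _ ha => h.caseII c (fun _ => h.zn c) ha

end CA.Abg
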