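import Cfsg.Agent.GW.B4
import Cfsg.Prelude.Def_CaseTheorems
import Cfsg.Prelude.Def_Classical

/-!
# Quasi-dihedral Sylow subgroups and the congruence on `q`
-/

set_option autoImplicit false

open Cfsg Subgroup CA.Dih CA.FG CA.BG CA.GW CA.GW.BA

namespace CA.Abg

universe u v

theorem qd_sq {S : Type u} [Group S] [Finite S] (h : IsQuasiDihedral S) {a b : S} (ha : IsInv (a * a))
    (hb : IsInv (b * b)) : a * a = b * b := by
  obtain ⟨n, -, hc, x, -, hx, -⟩ := h
  have : (zpowers x).index = 2 := by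
    have := (zpowers x).card_mul_index
    rw [Nat.card_zpowers, hx, hc, pow_succ] at this
    exact Nat.eq_of_mul_eq_mul_left (by positivity) this
  exact dih_uniq (mul_self_mem_of_index_two this a) (mul_self_mem_of_index_two this b) ha hb

theorem qd_sq' {G : Type u} [Group G] [Finite G] (S : Sylow 2 G) (h : IsQuasiDihedral (S : Subgroup G)) {a b : G}
    (c : Commute a b) (ha : IsInv (a * a)) (hb : IsInv (b * b)) : a * a = b * b := by
  have p : ∀ {a : G}, IsInv (a * a) → IsPGrp 2 (zpowers a) := fun {a} ha => pGrp_of_forall_pow (k := 2) Nat.prime_two (by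
    rintro _ ⟨i, rfl⟩
    simp only
    rw [← zpow_natCast, ← zpow_mul, mul_comm, zpow_mul, zpow_natCast, show a ^ 2 ^ 2 = a * a * (a * a) by simp [pow_succ, mul_assoc], ha.1,
      one_zpow])
  obtain ⟨g, -, hg⟩ := sylow_Jsub Nat.prime_two (sylow_top Nat.prime_two S) (IsPiGrp.sup (p ha) (p hb) (.inl
    (zpowers_le.2 (centralizer_le_normalizer _ (cent_zpowers b ▸ mem_c1.2 c))))) le_top
  have k : ∀ {a : G} (m : g * a * g⁻¹ ∈ S.1), IsInv (a * a) → IsInv ((⟨_, m⟩ : S.1) * ⟨_, m⟩) := fun {a} m ha =>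
    ⟨Subtype.ext (by have := (inv_conj ha g).1; rw [← conj_mul] at this; exact this),
      fun e => (inv_conj ha g).2 (conj_mul.symm.trans (congrArg Subtype.val e))⟩
  have := congrArg Subtype.val (qd_sq h (k (hg (conj_mem_conjg g (mem_sup_left (mem_zpowers a)))) ha)
    (k (hg (conj_mem_conjg g (mem_sup_right (mem_zpowers b)))) hb))
  simpa only [coe_mul, conj_mul, mul_left_inj, mul_right_inj] using this

open Matrix

variable {F : Type v} [Field F]

/-- `diag(a, b, c)` -/
def d3 (a b c : F) (h : a * b * c = 1) : SpecialLinearGroup (Fin 3) F :=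
  ⟨!![a, 0, 0; 0, b, 0; 0, 0, c], by simp [det_fin_three, h]⟩

/-- the cyclic permutation matrix -/
def c3 (F : Type v) [Field F] : SpecialLinearGroup (Fin 3) F :=
  ⟨!![0, 1, 0; 0, 0, 1; 1, 0, 0], by simp [det_fin_three]⟩

theorem d3_mul {a b c a' b' c' : F} (h h') :
    d3 a b c h * d3 a' b' c' h' = d3 (a * a') (b * b') (c * c') (by linear_combination (a' * b' * c') * h + h') := by
  ext i j
  rw [Matrix.SpecialLinearGroup.coe_mul]
  fin_cases i <;> fin_cases j <;> simp [d3, mul_apply, Fin.sum_univ_three]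

theorem d3_c3 {a b c : F} {h} (e : c3 F * d3 a b c h = d3 a b c h * c3 F) : a = b ∧ b = c := by
  have h1 := congrArg (fun g : SpecialLinearGroup (Fin 3) F => g.1 0 1) e
  have h2 := congrArg (fun g : SpecialLinearGroup (Fin 3) F => g.1 1 2) e
  simp only [Matrix.SpecialLinearGroup.coe_mul] at h1 h2
  simp [d3, c3, mul_apply, Fin.sum_univ_three] at h1 h2
  exact ⟨h1.symm, h2.symm⟩

theorem d3_congr {a b c a' b' c' : F} {h h'} (e1 : a = a') (e2 : b = b') (e3 : c = c') : d3 a b c h = d3 a' b' c' h' := by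
  subst e1 e2 e3; rfl

theorem d3_one {h} : d3 (1 : F) 1 1 h = 1 := by
  ext i j
  fin_cases i <;> fin_cases j <;> simp [d3]

theorem not_qd {G : Type u} [Group G] [Finite G] (S : Sylow 2 G) (h : IsQuasiDihedral (S : Subgroup G)) {Y : Type*}
    [Group Y] (ψ : Y →* SpecialLinearGroup (Fin 3) F) (inj : Function.Injective ψ) (e : G ≃* Y ⧸ center Y) {i : F}
    (hi : i * i = -1) (h2 : (2 : F) ≠ 0) {a b c : Y} (ha : ψ a = d3 i (-i) 1 (by linear_combination -hi))
    (hb : ψ b = d3 1 i (-i) (by linear_combination -hi)) (hc : ψ c = c3 F) : False := by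
  let f := e.symm.toMonoidHom.comp (QuotientGroup.mk' (center Y))
  have n : ∀ {y : Y} {r s t : F} {k}, ψ y = d3 r s t k → f y = 1 → r = s ∧ s = t := fun {y _ _ _ _} hy e1 =>
    d3_c3 (by rw [← hy, ← hc, ← map_mul, ← map_mul,
      mem_center_iff.1 ((QuotientGroup.eq_one_iff y).1 (e.symm.map_eq_one_iff.1 e1)) c])
  have m : (-1 : F) ≠ 1 := fun e => h2 (by linear_combination -e)
  have a2 : ψ (a * a) = d3 (-1) (-1) 1 (by ring) := by
    rw [map_mul, ha, d3_mul]; exact d3_congr hi (by linear_combination hi) (by ring)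
  have b2 : ψ (b * b) = d3 1 (-1) (-1) (by ring) := by
    rw [map_mul, hb, d3_mul]; exact d3_congr (by ring) hi (by linear_combination hi)
  have o : ∀ {y : Y}, ψ y * ψ y = 1 → f y * f y = 1 := fun {y} k => by
    rw [← map_mul, inj ((map_mul ψ y y).trans (k.trans (map_one ψ).symm)), map_one]
  have ia : IsInv (f a * f a) := by
    rw [← map_mul]
    exact ⟨o (by rw [a2, d3_mul]; simpa using d3_one), fun k => m (n a2 k).2⟩
  have ib : IsInv (f b * f b) := by
    rw [← map_mul]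
    exact ⟨o (by rw [b2, d3_mul]; simpa using d3_one), fun k => m (n b2 k).1.symm⟩
  have := qd_sq' S h ((show Commute a b from inj (by
    rw [map_mul, map_mul, ha, hb, d3_mul, d3_mul]; exact d3_congr (by ring) (by ring) (by ring))).map f) ia ib
  exact m (n (y := a * a * (b * b)) (r := -1) (s := 1) (t := -1) (k := by ring)
    (by rw [map_mul, a2, b2, d3_mul]; exact d3_congr (by ring) (by ring) (by ring))
    (by rw [map_mul, map_mul f a, map_mul f b, this, ib.1])).1

theorem two_ne_of_odd [Fintype F] (h : Odd (Fintype.card F)) : (2 : F) ≠ 0 := fun e => by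
  haveI : Fact (Nat.Prime 2) := ⟨Nat.prime_two⟩
  have : (Fintype.card F : F) = 0 := FiniteField.cast_card_eq_zero F
  obtain ⟨k, hk⟩ := h
  rw [hk] at this
  push_cast at this
  rw [e, zero_mul, zero_add] at this
  exact one_ne_zero this

theorem psl_mod {G : Type u} [Group G] [Finite G] (S : Sylow 2 G) (h : IsQuasiDihedral (S : Subgroup G)) [Fintype F]
    (o : Odd (Fintype.card F)) (e : G ≃* ProjectiveSpecialLinearGroup (Fin 3) F) : Fintype.card F % 4 = 3 := by
  by_contra n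
  obtain ⟨i, hi⟩ := FiniteField.isSquare_neg_one_iff.2 n
  exact not_qd S h (MonoidHom.id _) (fun _ _ => id) e hi.symm (two_ne_of_odd o) rfl rfl rfl

theorem psu_mod {G : Type u} [Group G] [Finite G] (S : Sylow 2 G) (h : IsQuasiDihedral (S : Subgroup G)) [Fintype F]
    {q : ℕ} (hF : Fintype.card F = q ^ 2) (o : Odd q) (e : G ≃* PSU 3 F q) : q % 4 = 1 := by
  by_contra n
  obtain ⟨k, rfl⟩ : ∃ k, q = 4 * k + 3 := ⟨q / 4, by obtain ⟨j, rfl⟩ := o; omega⟩
  obtain ⟨i, hi⟩ := (FiniteField.isSquare_neg_one_iff (F := F)).2 (by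
    rw [hF, show (4 * k + 3) ^ 2 = 4 * (4 * k ^ 2 + 6 * k + 2) + 1 by ring]; omega)
  have p : ∀ {j : F}, j * j = -1 → j * j ^ (4 * k + 3) = 1 := fun {j} hj => by
    rw [← pow_succ', show 4 * k + 3 + 1 = 2 * (2 * (k + 1)) by ring, pow_mul, sq, hj, pow_mul]; simp
  have d : ∀ {a b c : F} {k'}, a * a ^ (4 * k + 3) = 1 → b * b ^ (4 * k + 3) = 1 → c * c ^ (4 * k + 3) = 1 →
      d3 a b c k' ∈ SU 3 F (4 * k + 3) := fun {a b c _} h1 h2 h3 u v => by
    change hermForm 3 F _ (!![a, 0, 0; 0, b, 0; 0, 0, c] *ᵥ u) (!![a, 0, 0; 0, b, 0; 0, 0, c] *ᵥ v) = _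
    simp [hermForm, mulVec, dotProduct, Fin.sum_univ_three, mul_pow]
    linear_combination u 0 * v 0 ^ (4 * k + 3) * h1 + u 1 * v 1 ^ (4 * k + 3) * h2 + u 2 * v 2 ^ (4 * k + 3) * h3
  have n : -i * -i = -1 := by linear_combination -hi
  exact not_qd S h (SU 3 F _).subtype (subtype_injective _) e hi.symm (two_ne_of_odd (hF ▸ o.pow))
    (a := ⟨_, d (k' := by linear_combination hi) (p hi.symm) (p n) (by simp)⟩)
    (b := ⟨_, d (k' := by linear_combination hi) (by simp) (p hi.symm) (p n)⟩)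
    (c := ⟨c3 F, fun u v => by
      change hermForm 3 F _ (!![0, 1, 0; 0, 0, 1; 1, 0, 0] *ᵥ u) (!![0, 1, 0; 0, 0, 1; 1, 0, 0] *ᵥ v) = _
      simp [hermForm, mulVec, dotProduct, Fin.sum_univ_three]; ring⟩) rfl rfl rfl

end CA.Abg

theorem CA.realizeEqns_Abg_Mod4 : True := by
  have := @CA.Abg.d3.eq_1.{0}
  have := @CA.Abg.d3.eq_def.{0}
  have := @CA.Abg.d3.congr_simp.{0}
  have := @CA.Abg.c3.eq_1.{0}
  have := @CA.Abg.c3.eq_def.{0}
  have := @CA.Abg.c3.congr_simp.{0}
  trivial
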