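/-
Groups with quasi-dihedral Sylow 2-subgroups, `q = 5`, `ε = -`: the data for the degree argument.
-/
import Cfsg.Agent.Abg.B11

set_option autoImplicit false

namespace CA.Abg

open Subgroup Cfsg CA.FG CA.GW

universe u

variable {G : Type u} [Group G]

/-- a faithful character of degree less than `40` and a `5`-subgroup of `C(t)` normalized by an element of order `8` -/
structure RK (t u w j : G) (P : Subgroup G) (c : G) (φ : G → ℂ) (n : ℕ) : Prop where
  l : LH t u w j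
  PC : P ≤ 𝒞[t]
  p5 : IsPGrp 5 P
  PK : ¬ P ≤ UU t
  cC : c ∈ 𝒞[t]
  cP : c ∈ 𝒩(P)
  c8 : 8 ∣ orderOf c
  ct : ∀ y ∈ zpowers c, y ≠ 1 → t ∈ zpowers y
  ch : IsCharacter G φ
  fa : ∀ g, φ g = φ 1 → g = 1
  d1 : φ 1 = n
  n40 : n < 40
  val : ∀ s ∈ 𝒞[t], s = t ∨ s * s = t → ∀ k ∈ UU t, φ (s * k) = φ s

end CA.Abg

theorem CA.realizeEqns_Abg_RK0 : True := by

  trivial
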