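/-
Groups with quasi-dihedral Sylow 2-subgroups, `q = 5`, `ε = -`: `C(t)` normalizes no `3`-subgroup outside `C(t)`.
-/
import Cfsg.Agent.Abg.RK0
import Cfsg.Agent.Abg.D0

set_option autoImplicit false
set_option linter.unusedSectionVars false
set_option linter.unusedVariables false

open Cfsg Subgroup CA.Chr CA.Dih CA.Blk CA.Br CA.FG Finset
open CA.GW (UU IsInv Iset)
open scoped ComplexConjugate Classical commutatorElement

namespace CA.Abg

universe u v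

section

variable {H Ω : Type*} [Group H] [Finite H] [MulAction H Ω] [Finite Ω] {Q : Subgroup H} {S : Set Ω}

theorem dvd_ncard_nofix {p : ℕ} (hp : p.Prime) (pQ : IsPGroup p Q) (h : ∀ g ∈ Q, ∀ x ∈ S, g • x ∈ S)
    (nf : ∀ x ∈ S, ∃ g ∈ Q, g • x ≠ x) : p ∣ S.ncard := by
  haveI := Fact.mk hp
  let A : SubMulAction Q Ω := ⟨S, fun g _ hx => h g g.2 _ hx⟩
  have k := pQ.card_modEq_card_fixedPoints A
  haveI : IsEmpty (MulAction.fixedPoints Q A) := ⟨fun ⟨x, hx⟩ => by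
    obtain ⟨g, hg, e⟩ := nf x x.2
    exact e (congrArg Subtype.val (hx ⟨g, hg⟩))⟩
  rw [Nat.card_of_isEmpty (α := MulAction.fixedPoints Q A)] at k
  exact Nat.modEq_zero_iff_dvd.1 k

theorem dvd_ncard_free (h : ∀ g ∈ Q, ∀ x ∈ S, g • x ∈ S) (fr : ∀ g ∈ Q, ∀ x ∈ S, g • x = x → g = 1) :
    Nat.card Q ∣ S.ncard := by
  let A : SubMulAction Q Ω := ⟨S, fun g _ hx => h g g.2 _ hx⟩
  have := Nat.card_congr (MulAction.selfEquivOrbitsQuotientProd (G := Q) (X := A) fun x =>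
    eq_bot_iff.2 fun g hg => Subtype.ext (fr g g.2 x x.2 (congrArg Subtype.val hg)))
  rw [Nat.card_prod] at this
  exact ⟨_, (show Nat.card A = _ from this.trans (mul_comm _ _))⟩

end

variable {G : Type u} [Group G] [Fintype G]

/-- the trace on the `μ`-eigenspace of `D` -/
noncomputable def prj (φ : G → ℂ) {D : Subgroup G} (μ : D →* ℂˣ) (g : G) : ℂ := co (fun z => φ (g * z)) μ

section

variable {φ : G → ℂ} {D : Subgroup G} {μ : D →* ℂˣ}

theorem prj_one : prj φ μ 1 = co φ μ := by simp [prj]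

theorem mul_conj_lin (z : D) : (μ z : ℂ) * conj (μ z : ℂ) = 1 := by
  rw [← lin_apply, ← lin_inv_apply, ← lin_map_mul, mul_inv_cancel, lin_apply, map_one, Units.val_one]

theorem prj_mul (g : G) (z : D) : prj φ μ (g * z) = μ z * prj φ μ g := by
  rw [prj, prj, co, co, mul_left_comm]
  congr 1
  rw [mul_sum, ← Equiv.sum_comp (Equiv.mulLeft z) fun y => μ z * (φ (g * y) * conj (μ y : ℂ))]
  refine sum_congr rfl fun y _ => ?_
  simp only [Equiv.coe_mulLeft, Subgroup.coe_mul, map_mul, Units.val_mul, mul_assoc]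
  linear_combination (-(φ (g * (z * y)) * conj (μ y : ℂ))) * mul_conj_lin (μ := μ) z

theorem prj_conj (hφ : IsCharacter G φ) {x : G} (hx : x ∈ 𝒞(D)) (g : G) : prj φ μ (x * g * x⁻¹) = prj φ μ g := by
  rw [prj, prj, co, co]
  congr 1
  refine sum_congr rfl fun y _ => ?_
  rw [← CF_conj (IsChar.mem_CF hφ) (g * y) x, ← mul_assoc, mul_assoc _ (y : G), inv_mem hx y y.2, ← mul_assoc]

theorem prj_zero (μ1 : μ ≠ 1) {g : G} (v : ∀ z ∈ D, φ (g * z) = φ g) : prj φ μ g = 0 := by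
  have := sum_lin_conj 1 μ
  rw [if_neg μ1.symm] at this
  rw [prj, co, sum_congr rfl fun z _ => by rw [v z z.2], ← mul_sum]
  simp only [MonoidHom.one_apply, Units.val_one, one_mul] at this
  rw [this, mul_zero, mul_zero]

theorem prj_char (hφ : IsCharacter G φ) {H : Type v} [Group H] [Fintype H] (f : H →* G) (c : ∀ h, f h ∈ 𝒞(D)) :
    IsCharacter H (prj φ μ ∘ f) := by
  have cY : ∀ h, ∀ y : D, Commute (f h) (y : G) := fun h y => (c h y y.2).symm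
  have F : ∀ g y, f.noncommCoprod D.subtype cY (g, y) = f g * y := fun _ _ => rfl
  refine isChar_of_dot_nat (fun g x => by simp only [Function.comp_apply, map_mul, map_inv, prj_conj hφ (c x)])
    fun χ hχ => ?_
  obtain ⟨n, hn⟩ := IsChar.dot_nat (IsChar.comp hφ (f.noncommCoprod D.subtype cY))
    (IsChar.mul (IsChar.comp (IsIrr.isChar hχ) (MonoidHom.fst H D)) (IsIrr.isChar (lin_irr (μ.comp (MonoidHom.snd H D)))))
  refine ⟨n, Eq.trans ?_ hn⟩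
  rw [dot_def, dot_def, Fintype.sum_prod_type, Nat.card_prod]
  simp only [Function.comp_apply, F, prj, co, Pi.mul_apply, lin_apply, MonoidHom.comp_apply, MonoidHom.coe_snd,
    MonoidHom.coe_fst, map_mul, mul_sum, sum_mul]
  refine sum_congr rfl fun g _ => sum_congr rfl fun z _ => ?_
  push_cast; ring

theorem prj_dvd (hφ : IsCharacter G φ) {H : Type v} [Group H] [Fintype H] (f : H →* G) (c : ∀ h, f h ∈ 𝒞(D))
    (v : ∀ h ≠ 1, prj φ μ (f h) = 0) {m : ℕ} (hm : co φ μ = m) : Nat.card H ∣ m := by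
  obtain ⟨n, hn⟩ := IsChar.dot_nat (prj_char (μ := μ) hφ f c) IsChar.one
  rw [dot_def, sum_eq_single 1 (fun g _ hg => by simp [v g hg]) (by simp)] at hn
  refine ⟨n, Nat.cast_injective (R := ℂ) ?_⟩
  have : (Nat.card H : ℂ) ≠ 0 := card_ne_zero
  rw [Nat.cast_mul, ← hn, ← hm]
  simp [prj_one, this]

theorem prj_comm (hφ : IsCharacter G φ) {x g : G} (hx : x ∈ 𝒞(D)) (z : D) (e : x * g * x⁻¹ = g * z) (ne : μ z ≠ 1) :
    prj φ μ g = 0 := by
  have := prj_conj (μ := μ) hφ hx g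
  rw [e, prj_mul] at this
  by_contra k
  exact ne (Units.ext ((mul_eq_right₀ k).1 this))

end

theorem conj_of_cent {a t : G} (h : a ∈ 𝒞[t]) : t * a * t⁻¹ = a :=
  mul_inv_eq_iff_eq_mul.2 (mem_centralizer_singleton_iff.1 h).symm

namespace RK

variable {t u w j c : G} {P : Subgroup G} {φ : G → ℂ} {n : ℕ} (h : RK t u w j P c φ n)
include h

theorem mov {Ω : Type*} [Finite Ω] (a : 𝒞[t] → Ω → Ω) (a1 : ∀ x, a 1 x = x) (am : ∀ g k x, a (g * k) x = a g (a k x))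
    {S : Set Ω} (inv : ∀ g, ∀ x ∈ S, a g x ∈ S)
    (hS : S.ncard < 5 ∨ (S.ncard < 40 ∧ ∀ g : 𝒞[t], (g : G) = t → ∀ x ∈ S, a g x ≠ x)) (g : 𝒞[t]) (hg : (g : G) ∈ P) :
    ∀ x ∈ S, a g x = x := by
  letI : MulAction 𝒞[t] Ω := { smul := a, one_smul := a1, mul_smul := am }
  let S' : Set Ω := {x | x ∈ S ∧ ∃ g ∈ P.subgroupOf 𝒞[t], g • x ≠ x}
  have i' : ∀ k : 𝒞[t], (k : G) ∈ 𝒩(P) → ∀ x ∈ S', k • x ∈ S' := fun k hk x ⟨hx, g, hg, e⟩ =>
    ⟨inv k x hx, k * g * k⁻¹, conj_mem_of_mem_norm (H := P) hk hg, by simpa [mul_smul] using e⟩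
  have d5 : 5 ∣ S'.ncard := dvd_ncard_nofix Nat.prime_five ((h.p5.subgroupOf _).isPGroup Nat.prime_five)
    (fun g hg => i' g (le_normalizer hg)) fun x hx => hx.2
  have le : S'.ncard ≤ S.ncard := Set.ncard_le_ncard fun x hx => hx.1
  have : S'.ncard = 0 := by
    rcases hS with hS | ⟨hS, tf⟩
    · omega
    have d8 := dvd_ncard_free (Q := zpowers (⟨c, h.cC⟩ : 𝒞[t])) (S := S') (fun g hg => i' g (by
      obtain ⟨i, rfl⟩ := hg; exact zpow_mem h.cP i)) fun g hg x hx e => by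
      by_contra g1
      obtain ⟨i, hi⟩ := h.ct g (by obtain ⟨i, rfl⟩ := hg; exact ⟨i, rfl⟩) fun e => g1 (Subtype.ext e)
      exact tf (g ^ i) hi x hx.1 (zpowers_le.2 (show g ∈ MulAction.stabilizer _ x from e) ⟨i, rfl⟩)
    rw [Nat.card_zpowers, ← orderOf_coe] at d8
    have := h.c8.trans d8
    omega
  rw [Set.ncard_eq_zero] at this
  intro x hx
  by_contra e
  exact (this ▸ ⟨hx, g, hg, e⟩ : x ∈ (∅ : Set Ω))

theorem f3 {A : Subgroup G} (nA : 𝒞[t] ≤ 𝒩(A)) (PA : P ≤ 𝒞(A)) : u * w ∈ 𝒞(A) ∧ j ∈ 𝒞(A) ∧ t ∈ 𝒞(A) := by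
  have n := norm_cent nA
  have : u * w ∈ 𝒞(A) := by_contra fun e => h.PK fun x hx => h.l.f3 (𝒞[t] ⊓ 𝒞(A)) inf_le_left
    (norm_inf le_normalizer n) (fun e' => e e'.2) x ⟨h.PC hx, PA hx⟩ ((h.p5.piGrp (by simp)).piElt hx)
  obtain ⟨x, hx, e⟩ := h.l.cjj
  exact ⟨this, e ▸ conj_mem_of_le_norm n hx this, h.l.i2 ▸ mul_mem this this⟩

theorem ker {A : Subgroup G} (cA : IsMulCommutative A) {m : (A →* ℂˣ) → ℕ} (hm : ∀ ν, co φ ν = m ν) (y : A)
    (e : ∀ ν ≠ 1, m ν ≠ 0 → ν y = 1) : y = 1 := by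
  haveI := Fintype.ofFinite (A →* ℂˣ)
  refine Subtype.ext (h.fa y ((co_expand cA φ y).trans (Eq.trans (sum_congr rfl fun ν _ => ?_) (co_expand cA φ 1).symm)))
  by_cases n1 : ν = 1
  · simp [n1]
  by_cases n0 : m ν = 0
  · simp [hm, n0]
  rw [e ν n1 n0, map_one]

theorem fixA {A : Subgroup G} (cA : IsMulCommutative A) (nA : 𝒞[t] ≤ 𝒩(A)) {m : (A →* ℂˣ) → ℕ} (hm : ∀ ν, co φ ν = m ν)
    (hS : {ν | ν ≠ 1 ∧ m ν ≠ 0}.ncard < 5 ∨ ({ν | ν ≠ 1 ∧ m ν ≠ 0}.ncard < 40 ∧ IsPiGrp {2}ᶜ A ∧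
      ∀ a ∈ A, t * a * t⁻¹ = a⁻¹)) : P ≤ 𝒞(A) := fun x hx y hy => by
  have hs : ∀ g : 𝒞[t], ∀ a ∈ A, (g : G)⁻¹ * a * (g : G)⁻¹⁻¹ ∈ A := fun g a => conj_mem_of_le_norm nA (inv_mem g.2)
  have := h.mov (fun g ν => ν.comp (cjH (hs g))) (fun ν => MonoidHom.ext fun a => congrArg ν (Subtype.ext (by simp [cjH_coe])))
    (fun g k ν => MonoidHom.ext fun a => congrArg ν (Subtype.ext (by simp [cjH_coe, mul_assoc])))
    (S := {ν | ν ≠ 1 ∧ m ν ≠ 0}) (fun g ν hν => ⟨fun e => hν.1 (MonoidHom.ext fun a => by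
        obtain ⟨b, rfl⟩ := (cjH_bij (hs g)).2 a
        exact DFunLike.congr_fun e b), fun e => hν.2 (Nat.cast_injective (R := ℂ) (by
        rw [← e, ← hm, ← hm, ND.co_cj (hs g) fun a _ => CF_conj (IsChar.mem_CF h.ch) _ _]))⟩)
    (hS.imp_right fun ⟨a, o, i⟩ => ⟨a, fun g e ν hν e' => hν.1 (MonoidHom.ext fun y => by
      obtain ⟨z, hz, ez⟩ := GW.exists_sqrt o y.2
      have hz := zpowers_le.2 y.2 hz
      have := DFunLike.congr_fun e' ⟨z, hz⟩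
      rw [MonoidHom.comp_apply, show cjH (hs g) ⟨z, hz⟩ = (⟨z, hz⟩ : A)⁻¹ from Subtype.ext (by
        rw [cjH_coe, e, h.l.it.inv_eq]; exact i z hz), map_inv, inv_eq_iff_mul_eq_one, ← map_mul] at this
      rwa [show y = ⟨z, hz⟩ * ⟨z, hz⟩ from Subtype.ext ez.symm])⟩) ⟨x, h.PC hx⟩ hx
  have e := congrArg Subtype.val (h.ker cA hm (cjH (hs ⟨x, h.PC hx⟩) ⟨y, hy⟩ * ⟨y, hy⟩⁻¹) fun ν n1 n0 => by
    rw [map_mul, map_inv, mul_inv_eq_one]
    exact DFunLike.congr_fun (this ν ⟨n1, n0⟩) _)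
  simp only [Subgroup.coe_mul, cjH_coe, Subgroup.coe_inv, inv_inv, OneMemClass.coe_one, mul_inv_eq_one] at e
  nth_rewrite 2 [← e]
  group

theorem mult {A : Subgroup G} (cA : IsMulCommutative A) : ∃ (m : (A →* ℂˣ) → ℕ) (T : Finset (A →* ℂˣ)),
    (∀ ν, co φ ν = m ν) ∧ {ν | ν ≠ 1 ∧ m ν ≠ 0} = (T : Set _) ∧ n = m 1 + ∑ ν ∈ T, m ν := by
  haveI := Fintype.ofFinite (A →* ℂˣ)
  choose m hm using fun ν : A →* ℂˣ => IsChar.dot_nat (IsChar.comp h.ch A.subtype) (IsIrr.isChar (lin_irr ν))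
  simp only [← co_dot] at hm
  refine ⟨m, (univ.erase 1).filter (m · ≠ 0), hm, by ext; simp, ?_⟩
  have e1 := co_expand cA φ 1
  simp only [hm, map_one, Units.val_one, mul_one, OneMemClass.coe_one, h.d1] at e1
  rw [sum_filter_ne_zero, add_sum_erase _ _ (mem_univ _)]
  exact_mod_cast e1

theorem q8 : ∃ f : QuaternionGroup 2 →* G, (∀ g, f g ∈ 𝒞[t]) ∧ (∀ g ≠ 1, f g = t ∨ f g * f g = t) ∧
    ∀ A : Subgroup G, u * w ∈ A → j ∈ A → ∀ g, f g ∈ A := by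
  have l := h.l
  have i4 : (u * w) ^ (2 * 2) = 1 := by rw [pow_mul, sq (u * w), l.i2, sq, l.it.1]
  let f := Agent.Lin.quatHom 2 (u * w) j i4 (by
    rw [← l.ji, ← mul_assoc, ← mul_assoc, l.j2, ← mem_centralizer_singleton_iff.1 l.iC, ← l.j2]; group)
    (by rw [l.j2, sq, l.i2])
  have f2 : f (.a 2) = t := (Agent.Lin.zp_natCast i4 2).trans (by rw [sq, l.i2])
  have k : ∀ A : Subgroup G, u * w ∈ A → j ∈ A → ∀ g, f g ∈ A := by
    rintro A a b (g | g)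
    exacts [zpow_mem a _, mul_mem b (zpow_mem a _)]
  refine ⟨f, k _ l.iC l.jC, fun g hg => ?_, k⟩
  rcases (by decide : ∀ g : QuaternionGroup 2, g = 1 ∨ g = .a 2 ∨ g * g = .a 2) g with e | e | e
  exacts [absurd e hg, .inl (e ▸ f2), .inr (by rw [← map_mul, e, f2])]

theorem spec {B : Subgroup G} (pB : IsPGrp 3 B) (nB : 𝒞[t] ≤ 𝒩(B)) (Φ : frattiniOf B ≤ 𝒞[t]) (BD : B ≤ 𝒞(⁅B, B⁆))
    (ZD : ∀ z ∈ B, z ∈ 𝒞[t] → z ∈ ⁅B, B⁆) (ZB : B ⊓ 𝒞(B) ≤ 𝒞[t]) (D0 : ⁅B, B⁆ ≠ ⊥) : ⁅B, B⁆.relIndex B ≤ 9 := by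
  have oB : IsPiGrp {2}ᶜ B := pB.piGrp (by simp)
  have it := h.l.it
  have DB : ⁅B, B⁆ ≤ B := comm_le_of_le le_rfl le_rfl
  have Dt := (der1_sub_Phi_of_nil pB.nil).trans Φ
  have nD := norm_comm nB nB
  have DK : ⁅B, B⁆ ≤ UU t := pcore_max ⟨Dt, nD⟩ (oB.of_le DB)
  have cD : IsMulCommutative (⁅B, B⁆ : Subgroup G) := ⟨⟨fun a b => Subtype.ext (BD (DB b.2) a a.2)⟩⟩
  have tD : t ∈ 𝒞(⁅B, B⁆) := fun z hz => mem_centralizer_singleton_iff.1 (Dt hz)
  obtain ⟨m, T, hm, hT, hn⟩ := h.mult cD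
  have mT : ∀ {ν}, ν ∈ T ↔ ν ≠ 1 ∧ m ν ≠ 0 := fun {ν} => by rw [← mem_coe, ← hT]; rfl
  have z2 : ∀ ν : (⁅B, B⁆ : Subgroup G) →* ℂˣ, ν ≠ 1 → ∀ s ∈ 𝒞[t], s = t ∨ s * s = t → prj φ ν s = 0 :=
    fun ν n1 s hs e => prj_zero n1 fun z hz => h.val s hs e z (DK hz)
  have d2 : ∀ ν ≠ 1, 2 ∣ m ν := fun ν n1 => by
    have := prj_dvd h.ch (zpowers t).subtype (fun g => zpowers_le.2 tD g.2) (fun g hg => z2 ν n1 _
      (zpowers_le.2 (mem_centralizer_singleton_iff.2 rfl) g.2)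
      (.inl ((mem_zpowers_two it.1 g.2).resolve_left fun e => hg (Subtype.ext e)))) (hm ν)
    rwa [Nat.card_zpowers, it.ord] at this
  have d3 : ∀ ν ≠ 1, 3 ∣ m ν := fun ν n1 => by
    obtain ⟨a, ha, b, hb, e⟩ : ∃ a, ∃ ha : a ∈ B, ∃ b, ∃ hb : b ∈ B, ν ⟨_, commutator_mem_commutator ha hb⟩ ≠ 1 := by
      by_contra! e
      refine n1 (MonoidHom.ext fun z => ?_)
      obtain ⟨y, hy, e'⟩ := (commutator_le (H₃ := ν.ker.map (Subgroup.subtype _))).2
        (fun a ha b hb => ⟨_, e a ha b hb, rfl⟩) z.2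
      rwa [← show y = z from Subtype.ext e']
    obtain ⟨i, hi, z, hz, rfl⟩ := GW.exists_inv_mul oB it.1 (nB (mem_centralizer_singleton_iff.2 rfl)) ha
    have e1 : b * i⁻¹ * b⁻¹ = i⁻¹ * ⁅i * z, b⁆ := by
      rw [commutatorElement_def, mul_assoc i z, BD hb z (ZD z hz.1 hz.2)]; group
    have p1 := prj_comm h.ch (BD hb) ⟨_, commutator_mem_commutator ha hb⟩ e1 e
    have p2 : prj φ ν i = 0 := by rw [← prj_conj h.ch tD, hi.2, p1]
    have i3 : i ^ 3 = 1 := by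
      have a := Φ (pow_mem_Phi pB hi.1)
      refine GW.eq_one_of_odd oB (pow_mem hi.1 3) (mul_eq_one_iff_eq_inv.2 ?_)
      rw [← inv_pow, ← hi.2, conj_pow, conj_of_cent a]
    have o3 : orderOf i = 3 := haveI := Fact.mk Nat.prime_three; orderOf_eq_prime i3 fun e' => e (by
      rw [show (⟨_, commutator_mem_commutator ha hb⟩ : (⁅B, B⁆ : Subgroup G)) = 1 from Subtype.ext (by
        simpa [e'] using e1.symm), map_one])
    have := prj_dvd h.ch (zpowers i).subtype (fun g => BD (zpowers_le.2 hi.1 g.2)) (fun g hg => by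
      obtain ⟨k, hk, e⟩ := mem_image.1 (mem_zpowers_iff_mem_range_orderOf.1 g.2)
      rw [o3, mem_range] at hk
      change prj φ ν g = 0
      rw [← e]
      interval_cases k
      · exact absurd (Subtype.ext (by simpa using e.symm)) hg
      · simpa using p2
      · rwa [show i ^ 2 = i⁻¹ from eq_inv_of_mul_eq_one_left (by rw [← pow_succ, i3])]) (hm ν)
    rwa [Nat.card_zpowers, o3] at this
  obtain ⟨f, fC, ft, fA⟩ := h.q8
  have c8 : Nat.card (QuaternionGroup 2) = 8 := by rw [Nat.card_eq_fintype_card, QuaternionGroup.card]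
  have d8 : 8 ∣ ∑ ν ∈ T, m ν := by
    obtain ⟨W, hW, k⟩ := avg f (MonoidHom.id _) ⊤ ⁅B, B⁆ (fun g _ o ho => conj_mem_of_le_norm nD (fC g) ho)
      (fun n => ⟨n, trivial, rfl⟩) (fun g _ e => by rw [show g = 1 from e, map_one]; exact one_mem _) h.ch
    have c0 : (Nat.card (⁅B, B⁆ : Subgroup G) : ℂ) ≠ 0 := card_ne_zero
    have w1 : W 1 = m 1 := mul_left_cancel₀ c0 ((k 1 trivial).trans (by rw [← hm, co]; simp [c0]))
    have w2 : ∀ g ≠ 1, W g = φ (f g) := fun g hg => mul_left_cancel₀ c0 ((k _ trivial).trans (by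
      rw [sum_congr rfl fun (o : (⁅B, B⁆ : Subgroup G)) _ => (CF_mul_comm (IsChar.mem_CF h.ch) _ _).trans (h.val _ (fC g) (ft g hg) o (DK o.2))]
      simp))
    obtain ⟨a, ha⟩ := IsChar.dot_nat (IsChar.comp h.ch f) IsChar.one
    obtain ⟨b, hb⟩ := IsChar.dot_nat hW IsChar.one
    have := dot_sub_left (φ ∘ f) W 1
    rw [ha, hb, dot_def, sum_eq_single 1 (fun g _ hg => by simp [w2 g hg]) (by simp), c8] at this
    simp only [Pi.sub_apply, Function.comp_apply, map_one, h.d1, w1, Pi.one_apply, mul_one, hn] at this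
    have : ((∑ ν ∈ T, m ν : ℕ) : ℤ) = 8 * (a - b) := by
      refine Int.cast_injective (α := ℂ) ?_
      push_cast at this ⊢
      linear_combination 8 * this
    omega
  obtain ⟨μ, hμ⟩ : T.Nonempty := by
    refine nonempty_iff_ne_empty.2 fun e => D0 (eq_bot_iff.2 fun z hz => congrArg Subtype.val
      (h.ker cD hm ⟨z, hz⟩ fun ν a b => ?_))
    simpa [e] using mT.2 ⟨a, b⟩
  have s3 : 3 ∣ ∑ ν ∈ T, m ν := dvd_sum fun ν hν => d3 ν (mT.1 hν).1
  have s0 := single_le_sum (f := m) (fun _ _ => Nat.zero_le _) hμ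
  have μ0 := (mT.1 hμ).2
  have n40 := h.n40
  have s24 : ∑ ν ∈ T, m ν = 24 := by omega
  have c6 := card_nsmul_le_sum T m 6 fun ν hν => by
    have := d2 ν (mT.1 hν).1; have := d3 ν (mT.1 hν).1; have := (mT.1 hν).2; omega
  obtain ⟨iD, jD, -⟩ := h.f3 nD (h.fixA cD nD hm (.inl (by
    rw [hT, Set.ncard_coe_finset]; rw [smul_eq_mul, s24] at c6; omega)))
  have e24 : ∀ ν ∈ T, 24 ≤ m ν := fun ν hν => by
    have := prj_dvd h.ch f (fA _ iD jD) (fun g hg => z2 ν (mT.1 hν).1 _ (fC g) (ft g hg)) (hm ν)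
    rw [c8] at this
    have := d3 ν (mT.1 hν).1; have := (mT.1 hν).2; omega
  have fμ : ∀ z, μ z = 1 → z = 1 := fun z e => h.ker cD hm z fun ν a b => by
    by_contra k
    have := add_le_sum (f := m) (fun _ _ => Nat.zero_le _) hμ (mT.2 ⟨a, b⟩) fun e' => k (e' ▸ e)
    have := e24 μ hμ; have := e24 ν (mT.2 ⟨a, b⟩); omega
  have m24 : co φ μ = 24 := by rw [hm, show m μ = 24 by have := e24 μ hμ; omega]; rfl
  obtain ⟨k, hk⟩ := IsChar.dot_nat (prj_char (μ := μ) h.ch B.subtype fun b => BD b.2)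
    (prj_char (μ := μ) h.ch B.subtype fun b => BD b.2)
  rw [dot_def, sum_congr rfl (g := fun b : B => if (b : G) ∈ ⁅B, B⁆ then (576 : ℂ) else 0) fun b _ => ?_, ← sum_filter,
    sum_const, ← Fintype.card_subtype, ← Nat.card_eq_fintype_card, show Nat.card {b : B // (b : G) ∈ ⁅B, B⁆} = _ from
      Nat.card_congr (subgroupOfEquivOfLe DB).toEquiv, ← card_mul_relIndex DB] at hk
  · have c0 : (Nat.card (⁅B, B⁆ : Subgroup G) : ℂ) ≠ 0 := card_ne_zero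
    have r0 : (⁅B, B⁆.relIndex B : ℂ) ≠ 0 := by exact_mod_cast (relIndex_pos _ _).ne'
    have d : ⁅B, B⁆.relIndex B ∣ 576 := ⟨k, Nat.cast_injective (R := ℂ) (by
      push_cast at hk ⊢; rw [← hk]; simp only [nsmul_eq_mul]; field_simp)⟩
    obtain ⟨a, ha⟩ := (pGrp_iff_card Nat.prime_three).1 pB
    obtain ⟨b, -, hb⟩ := (Nat.dvd_prime_pow Nat.prime_three).1 (ha ▸ relIndex_dvd_card ⁅B, B⁆ B)
    rw [hb] at d ⊢
    exact Nat.pow_le_pow_right (by norm_num) (show b ≤ 2 by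
      by_contra e; exact absurd ((pow_dvd_pow 3 (show 3 ≤ b by omega)).trans d) (by decide))
  · change prj φ μ b * conj (prj φ μ b) = _
    split_ifs with e
    · have := prj_mul (φ := φ) (μ := μ) 1 ⟨b, e⟩
      rw [one_mul, prj_one, m24] at this
      rw [this, map_mul, map_ofNat]
      linear_combination 576 * mul_conj_lin (μ := μ) ⟨b, e⟩
    · obtain ⟨a, ha, k⟩ : ∃ a ∈ B, a * b ≠ b * a := by
        by_contra! k
        exact e (ZD _ b.2 (ZB ⟨b.2, k⟩))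
      rw [prj_comm h.ch (BD ha) ⟨_, commutator_mem_commutator (inv_mem b.2) ha⟩ (by
        simp only [commutatorElement_def]; group) fun e' => k ?_, zero_mul]
      have := commutatorElement_eq_one_iff_commute.1 (congrArg Subtype.val (fμ _ e'))
      exact (Commute.inv_left_iff.1 this).eq.symm

/-- `C(t)` normalizes no `3`-subgroup outside `C(t)` -/
theorem cent {Y : Subgroup G} (p3 : IsPGrp 3 Y) (nY : 𝒞[t] ≤ 𝒩(Y)) : Y ≤ 𝒞[t] := by
  by_contra hY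
  obtain ⟨B, BY, ⟨nB, Bt⟩, min⟩ := exists_min_subgroup (P := fun B => 𝒞[t] ≤ 𝒩(B) ∧ ¬ B ≤ 𝒞[t]) ⟨nY, hY⟩
  have pB : IsPGrp 3 B := IsPiGrp.of_le p3 BY
  have oB : IsPiGrp {2}ᶜ B := pB.piGrp (by simp)
  have it := h.l.it
  have tC : t ∈ 𝒞[t] := mem_centralizer_singleton_iff.2 rfl
  have mn : ∀ K ≤ B, 𝒞[t] ≤ 𝒩(K) → K ≠ B → K ≤ 𝒞[t] := fun K le n ne => by_contra fun e => ne (min K ⟨n, e⟩ le)
  have fin : ¬ P ≤ 𝒞(B) := fun e => Bt fun b hb => mem_centralizer_singleton_iff.2 ((h.f3 nB e).2.2 b hb)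
  have iI : ∀ g ∈ 𝒞[t], ∀ i ∈ Iset B t, g * i * g⁻¹ ∈ Iset B t := fun g hg i hi => ⟨conj_mem_of_le_norm nB hg hi.1, by
    rw [conj_inv, ← hi.2, ← mul_assoc, ← mul_assoc, ← mem_centralizer_singleton_iff.1 hg, mul_assoc _ g⁻¹, ← mul_inv_rev,
      ← mem_centralizer_singleton_iff.1 hg]; group⟩
  have i1 : ∀ i ∈ Iset B t, i ∈ 𝒞[t] → i = 1 := fun i hi e => GW.eq_one_of_odd oB hi.1 (mul_eq_one_iff_eq_inv.2 (by
    rw [← hi.2, conj_of_cent e]))
  have gen : closure (Iset B t) = B := by_contra fun e => Bt fun b hb => by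
    obtain ⟨i, hi, z, hz, rfl⟩ := GW.exists_inv_mul oB it.1 (nB tC) hb
    rw [i1 i hi (mn _ ((closure_le _).2 fun _ k => k.1) (norm_closure iI) e (subset_closure hi)), one_mul]
    exact hz.2
  have Φ : frattiniOf B ≤ 𝒞[t] := mn _ (Phi_sub B) (norm_Phi nB) (Phi_proper (H := B) fun e => Bt (e ▸ bot_le)).ne
  have Dt := (der1_sub_Phi_of_nil pB.nil).trans Φ
  have DB : ⁅B, B⁆ ≤ B := comm_le_of_le le_rfl le_rfl
  have od : ∀ b ∈ B, Odd (orderOf b) := fun b hb => Nat.odd_iff.2 (Nat.two_dvd_ne_zero.1 fun e =>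
    oB.piElt hb 2 Nat.prime_two e rfl)
  have tb : ∀ b ∈ B, t * b * t⁻¹ * b ∈ ⁅B, B⁆ := fun b hb => by
    rw [← gen] at hb
    induction hb using closure_induction with
    | mem x hx => rw [hx.2, inv_mul_cancel]; exact one_mem _
    | one => simp
    | mul x y hx hy a b =>
      rw [gen] at hx hy
      have := mul_mem (mul_mem a (commutator_mem_commutator (inv_mem hx) (conj_mem_of_le_norm nB tC hy))) b
      convert this using 1
      rw [commutatorElement_def]; group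
    | inv x hx a =>
      rw [gen] at hx
      have := inv_mem (conj_mem_of_le_norm (norm_comm le_normalizer le_normalizer) hx a)
      convert this using 1
      group
  have ZD : ∀ z ∈ B, z ∈ 𝒞[t] → z ∈ ⁅B, B⁆ := fun z hz e => mem_of_sq_mem (od z hz) (by
    have := tb z hz
    rwa [conj_of_cent e] at this)
  have BD : B ≤ 𝒞(⁅B, B⁆) := gen.ge.trans ((closure_le _).2 fun i hi z hz => by
    have hy := commutator_mem_commutator (DB hz) hi.1
    have e := (iI z (Dt hz) i hi).2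
    have e' : z * i * z⁻¹ = ⁅z, i⁆ * i := by rw [commutatorElement_def]; group
    generalize ⁅z, i⁆ = y at hy e'
    rw [e', ← cj_mul, hi.2, conj_of_cent (Dt hy)] at e
    have e1 : i * y * i⁻¹ = y⁻¹ := by rw [mul_assoc, e]; group
    have e2 : i ∈ 𝒞[y] := mem_of_sq_mem (od i hi.1) (GW.cent_of_conj_eq (by
      calc _ = i * (i * y * i⁻¹) * i⁻¹ := by group
        _ = y := by rw [e1, ← conj_inv, e1, inv_inv]))
    rw [GW.conj_eq_of_cent e2] at e1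
    rw [GW.eq_one_of_odd oB (DB hy) (mul_eq_one_iff_eq_inv.2 e1), one_mul] at e'
    exact mul_inv_eq_iff_eq_mul.1 e')
  by_cases D0 : ⁅B, B⁆ = ⊥
  · have cB : IsMulCommutative B := ⟨⟨fun a b => Subtype.ext (commutatorElement_eq_one_iff_mul_comm.1
      (mem_bot.1 (D0 ▸ commutator_mem_commutator a.2 b.2)))⟩⟩
    obtain ⟨m, T, hm, hT, hn⟩ := h.mult cB
    refine fin (h.fixA cB nB hm (.inr ⟨?_, oB, fun a ha => eq_inv_of_mul_eq_one_left (mem_bot.1 (D0 ▸ tb a ha))⟩))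
    have := card_nsmul_le_sum T m 1 fun ν hν => Nat.pos_of_ne_zero (show ν ∈ {ν | ν ≠ 1 ∧ m ν ≠ 0} from hT ▸ hν).2
    rw [hT, Set.ncard_coe_finset]
    rw [smul_eq_mul, mul_one] at this
    exact this.trans_lt (lt_of_le_of_lt (hn ▸ Nat.le_add_left _ _) h.n40)
  have r9 := h.spec pB nB Φ BD ZD (mn _ inf_le_left (norm_inf nB (norm_cent nB)) fun e => D0 (eq_bot_iff.2
    ((commutator_le (H₃ := ⊥)).2 fun a ha b hb => commutatorElement_eq_one_iff_mul_comm.2 ((e.ge hb).2 a ha)))) D0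
  have c : {i | i ∈ Iset B t ∧ i ≠ 1}.ncard ≤ ⁅B, B⁆.relIndex B := by
    rw [← Nat.card_coe_set_eq, relIndex, index_eq_card]
    refine Nat.card_le_card_of_injective (fun i => QuotientGroup.mk ⟨i.1, i.2.1.1⟩) fun a b e => Subtype.ext ?_
    have hz : a.1⁻¹ * b.1 ∈ ⁅B, B⁆ := mem_subgroupOf.1 (QuotientGroup.eq.1 e)
    have e1 := conj_of_cent (Dt hz)
    have e2 := BD a.2.1.1 _ hz
    rw [← cj_mul, ← conj_inv, a.2.1.2, b.2.1.2, inv_inv] at e1
    refine inv_mul_eq_one.1 (GW.eq_one_of_odd oB (DB hz) ?_)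
    nth_rewrite 2 [← e1]
    rw [← mul_assoc, e2]; group
  have := h.mov (fun g x => g * x * (g : G)⁻¹) (by simp) (fun g k x => by simp [mul_assoc])
    (S := {i | i ∈ Iset B t ∧ i ≠ 1}) (fun g i hi => ⟨iI g g.2 i hi.1, fun e => hi.2 (conj_eq_one_iff.1 e)⟩)
    (.inr ⟨by omega, fun g e i hi e' => hi.2 (i1 i hi.1 (mem_centralizer_singleton_iff.2 (by
      rw [← e]; exact (mul_inv_eq_iff_eq_mul.1 e').symm)))⟩)
  refine fin (le_centralizer_iff.1 (gen.ge.trans ((closure_le _).2 fun i hi x hx => ?_)))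
  by_cases e : i = 1
  · simp [e]
  · exact mul_inv_eq_iff_eq_mul.1 (this ⟨x, h.PC hx⟩ hx i ⟨hi, e⟩)

end RK

end CA.Abg

theorem CA.realizeEqns_Abg_RK1 : True := by
  have := @CA.Abg.prj.eq_1.{0}
  have := @CA.Abg.prj.eq_def.{0}
  have := @CA.Abg.prj.congr_simp.{0}
  trivial
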