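/-
The quasi-dihedral case `q = 5`: a small faithful character and a `5`-subgroup normalized by an element of order `8`.
-/
import Cfsg.Agent.Abg.B16
import Cfsg.Agent.Abg.X3
import Cfsg.Agent.Abg.RK0

set_option autoImplicit false
set_option linter.unusedSectionVars false

namespace CA.Abg

open Subgroup Cfsg CA.FG CA.BG CA.GW CA.Chr
open scoped MatrixGroups

universe u

variable {G X Γ N : Type u} [Group G] [Finite G] [Group X] [Group Γ] [Group N] [Finite X] [Finite Γ] [Finite N] {F : Type}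
  [Field F] [Fintype F] {t u w j : G} {S : Subgroup G} {f : (𝒞[t] : Subgroup G) →* X} {p : X →* Γ} {ι : SL(2, F) →* Γ}
  {ζ : X} {C0 : Subgroup G} {κ : C0 →* N} {e : N →* X} {tN uN : N}

theorem five_eq (q : Fintype.card F = 5) : (5 : F) = 0 := by simpa [q] using FiniteField.cast_card_eq_zero F

theorem pc5 (π : G →* Γ) (s : Function.Surjective π) (pm : PM ι) (pgl : ∀ g : M2 F, g.det ≠ 0 → ∃ γ, RR ι γ g 1)
    (q : Fintype.card F = 5) : ∃ (P : Subgroup G) (c : G), IsPGrp 5 P ∧ ¬ P ≤ π.ker ∧ c ∈ 𝒩(P) ∧ IsPiElt {2} c ∧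
      π c ∈ G0 ι ∧ π c * π c ≠ 1 := by
  have f5 := five_eq q
  have p5 : Nat.Prime 5 := by decide
  obtain ⟨γ, r⟩ := pgl !![2, 0; 0, 1] (by simpa using pm.two)
  obtain ⟨x0, rfl⟩ := s γ
  have nx : x0 ∈ 𝒩((Up ι).comap π) := le_normalizer_comap π (by
    cases nonempty_fintype Γ
    exact mem_normalizer_fintype (by rintro _ ⟨a, rfl⟩; exact ⟨_, (diag_uu r _).symm⟩))
  obtain ⟨y, hy⟩ := s (ι (uu 1))
  obtain ⟨y1, z, h1, hz, o1, oz, e, -⟩ := exists_piPart {5} y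
  have up : ∀ n : ℕ, ι (uu 1) ^ n = ι (uu n) := fun n => by
    induction n with
    | zero => simp [uu_zero]
    | succ n ih => rw [pow_succ, ih, ← map_mul, ← uu_add, Nat.cast_succ]
  have z1 : π z = 1 := ((pElt_of_pow_eq_one p5 (x := π y) (by rw [hy, up, Nat.cast_ofNat, f5, uu_zero, map_one])).of_mem_zpowers
    (by obtain ⟨i, rfl⟩ := hz; exact ⟨i, (map_zpow π y i).symm⟩)).eq_one (oz.map π)
  rw [e, map_mul, z1, mul_one] at hy
  obtain ⟨P, hP, le⟩ := sylow_superset p5 (piGrp_zpowers_iff.2 o1) (zpowers_le.2 (show y1 ∈ (Up ι).comap π from ⟨_, hy.symm⟩))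
  obtain ⟨x, ⟨a, ha⟩, n, hn, rfl⟩ := frattini_arg_mem p5 hP nx
  have ha : ι (uu a.toAdd) = π x := ha
  have en : π n = ι (uu (-a.toAdd)) * π (x * n) := by rw [uu_neg, ha, map_mul, inv_mul_cancel_left]
  have act : ∀ (i : ℕ) (b : F), π n ^ i * ι (uu b) * (π n ^ i)⁻¹ = ι (uu (2 ^ i * b)) := fun i => by
    induction i with
    | zero => simp
    | succ i ih =>
      intro b
      rw [pow_succ', mul_inv_rev, show ∀ a b c d e : Γ, a * b * c * (d * e) = a * (b * c * d) * e from fun _ _ _ _ _ => by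
        group, ih, en, mul_inv_rev, show ∀ a b c d e : Γ, a * b * c * (d * e) = a * (b * c * d) * e from
        fun _ _ _ _ _ => by group, diag_uu r, ← uu_neg, ← map_mul, ← map_mul, ← uu_add, ← uu_add]
      congr 2; ring
  obtain ⟨c, z, hc, -, oc, oz, e, cz⟩ := exists_piPart {2} n
  refine ⟨P, c, hP.pGrp, fun k => one_ne_zero (uu_inj pm (hy.symm.trans (k (le (mem_zpowers y1))))),
    zpowers_le.2 hn hc, oc, ?_, fun k => ?_⟩
  · obtain ⟨i, rfl⟩ := hc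
    simp only [map_zpow]
    exact zpow_mem (en ▸ mul_mem (range_le_G0 ι ⟨_, rfl⟩) ⟨_, r⟩) i
  · obtain ⟨m, hm⟩ : Odd (orderOf z) := Nat.not_even_iff_odd.1 fun e => oz 2 Nat.prime_two e.two_dvd rfl
    have := act (2 * orderOf z) 1
    rw [← map_pow, e, Commute.mul_pow cz, mul_comm 2, pow_mul z, pow_orderOf_eq_one, one_pow, mul_one, mul_comm _ 2, pow_mul,
      map_pow, sq c, map_mul, k, one_pow, one_mul, inv_one, mul_one, pow_mul, show (2 : F) ^ 2 = -1 by linear_combination f5,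
      Odd.neg_one_pow ⟨m, hm⟩, mul_one, uu_neg, eq_inv_iff_mul_eq_one, ← map_mul, ← uu_add, one_add_one_eq_two] at this
    exact pm.two (uu_inj pm this)

theorem GD.small [Fintype G] [Fintype N] [IsSimpleGroup G] {M : Type u} [Group M] [Fintype M] {d : ND N} {ι : M →* 𝒞[t]}
    {κ : M →* N} (g : GD d t ι κ) (de : d.e = -5) : ∃ (φ : G → ℂ) (n : ℕ) (Φ : N → ℂ), IsCharacter G φ ∧
      (∀ g, φ g = φ 1 → g = 1) ∧ φ 1 = n ∧ n < 40 ∧ ∀ m, κ m ∈ Br.DD d.t → φ (ι m) = Φ (κ m) := by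
  obtain ⟨χ, ψ, s, n, o⟩ := g.num
  have key : ∀ {φ : G → ℂ} {a e : ℤ} {Φ : N → ℂ}, IsIrrCharacter G φ → φ 1 = a → a < 40 → φ t = e → e ≠ 1 →
      (∀ m, κ m ∈ Br.DD d.t → φ (ι m) = Φ (κ m)) → ∃ (φ : G → ℂ) (n : ℕ) (Φ : N → ℂ), IsCharacter G φ ∧
      (∀ g, φ g = φ 1 → g = 1) ∧ φ 1 = n ∧ n < 40 ∧ ∀ m, κ m ∈ Br.DD d.t → φ (ι m) = Φ (κ m) :=
    fun {φ a e Φ} hφ p1 a40 pt e1 v => by
      have c := IsIrr.isChar hφ
      have := (cfker_normal (IsChar.mem_CF c)).eq_bot_or_eq_top.resolve_right (IsIrr.cfker_ne_top hφ fun z => e1 (by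
        rw [z, Pi.one_apply] at pt; exact_mod_cast pt.symm))
      have b := IsChar.coe_deg c
      refine ⟨φ, deg φ, Φ, c, fun x hx => mem_bot.1 (this ▸ (IsChar.mem_cfker c).2 hx), b.symm, ?_, v⟩
      rw [p1] at b
      have b : (deg φ : ℤ) = a := by exact_mod_cast b
      omega
  have e1 := o.e1
  have e3 := o.e3
  have s0 := o.s0
  have n0 := o.n0
  have k1 := fun (p : 0 < s - d.e) (a : s < 40) => key (o.c1 p) o.χ1 a o.χt (by omega) o.v1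
  have k2 := fun (p : 0 < n + d.e + 1) (a : n < 40) => key (e := d.e + 1) (o.c2 p) o.ψ1 a (by rw [o.ψt]; simp) (by omega) o.v2
  rw [de] at e1 e3 s0 n0 k1 k2
  obtain ⟨l, hl⟩ := Int.even_mul_pred_self s
  have : (8 : ℤ) ^ 2 ∣ (s - -5) ^ 2 := IsCoprime.dvd_of_dvd_mul_left (y := ((𝒞[t]).index : ℤ)) (by
    have := (Nat.prime_two.coprime_iff_not_dvd.2 (odd_index_cent g.t2 g.t1 g.cj)).pow_left 6
    simpa using Nat.isCoprime_iff_coprime.2 this) ⟨g.A ^ 2 * 15 * l, by rw [e1, hl]; ring⟩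
  obtain ⟨c, hc⟩ := (Int.pow_dvd_pow_iff two_ne_zero).1 this
  obtain rfl : s = 8 * c - 5 := by omega
  have e : (4 * c - 15) * (n - 24) = 300 := by linarith
  by_cases a : 0 < c ∧ c ≤ 5
  · exact k1 (by omega) (by omega)
  · rcases (by omega : c ≤ -1 ∨ c = 6 ∨ c = 7 ∨ c = 8 ∨ 9 ≤ c) with a | rfl | rfl | rfl | a
    · exact k2 (by nlinarith) (by nlinarith)
    · omega
    · omega
    · omega
    · exact k2 (by nlinarith) (by nlinarith)

namespace MD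

variable (h : MD t u w j S f p ι ζ) (k : MK t u w S f p ι C0 κ e tN uN)
include h k

theorem rk_ch [IsSimpleGroup G] (nm : NM p ι e tN uN) (q : Fintype.card F = 5) (hu : p (f ⟨u, h.lh.uC⟩) ∉ ι.range) :
    ∃ (φ : G → ℂ) (n : ℕ), IsCharacter G φ ∧ (∀ g, φ g = φ 1 → g = 1) ∧ φ 1 = n ∧ n < 40 ∧
      ∀ s ∈ 𝒞[t], s = t ∨ s * s = t → ∀ k ∈ UU t, φ (s * k) = φ s := by
  cases nonempty_fintype G; cases nonempty_fintype N; cases nonempty_fintype C0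
  obtain ⟨d, de, rfl, rfl⟩ : ∃ d : ND N, d.e = -5 ∧ d.t = tN ∧ d.u = uN := by
    rcases nm with ⟨φ, -, -, -, rfl, r⟩ | ⟨K, _, _, φ, b, s, rfl, rfl⟩
    · obtain ⟨B, -, e1⟩ := h.pm.mem_of_sq (r (Br.dg 1 (-1))) (s := 2) (by simp; linear_combination -five_eq q)
      exact absurd ⟨B, by rw [← e1, ← k.eκ ⟨u, k.ag.uC⟩, k.ag.κu]; rfl⟩ hu
    · obtain ⟨d, de, -, h⟩ := Uni.nd b s
      exact ⟨d, by rw [de, q]; rfl, h⟩
  obtain ⟨g, -⟩ := k.ag.g0.gd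
  obtain ⟨φ, n, Φ, a, b, c, n40, v⟩ := g.small de
  refine ⟨φ, n, a, b, c, n40, fun s hs st x hx => ?_⟩
  have sC : s ∈ C0 := k.ag.two hs (k := 2) (by
    rcases st with rfl | st
    · rw [sq 2, pow_mul, sq s, k.ag.t2, one_pow]
    · rw [sq 2, pow_mul, sq s, st, sq, k.ag.t2])
  have sD : κ ⟨s, sC⟩ ∈ Br.DD d.t := by
    rcases st with rfl | st
    · rw [k.ag.κt]; exact d.tD
    · exact ⟨2, by simp only; rw [← k.ag.κt, zpow_two, ← map_mul]; exact congrArg κ (Subtype.ext st)⟩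
  have e : κ (⟨s, sC⟩ * ⟨x, k.KC0 hx⟩) = κ ⟨s, sC⟩ := by rw [map_mul, (k.ker ⟨x, _⟩).2 hx, mul_one]
  exact (v _ (e ▸ sD)).trans ((congrArg Φ e).trans (v _ sD).symm)

omit k in
theorem rk_pc (q : Fintype.card F = 5) (hu : p (f ⟨u, h.lh.uC⟩) ∉ ι.range) : ∃ (P : Subgroup G) (c : G), P ≤ 𝒞[t] ∧
    IsPGrp 5 P ∧ ¬ P ≤ UU t ∧ c ∈ 𝒞[t] ∧ c ∈ 𝒩(P) ∧ 8 ∣ orderOf c ∧ ∀ y ∈ zpowers c, y ≠ 1 → t ∈ zpowers y := by
  obtain ⟨P, c, p5, PK, cP, c2, cG, c1⟩ := pc5 (p.comp f) (h.ps.comp h.fs) h.pm h.pgl q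
  have key : ∀ i : ℤ, IsInv ((c : G) ^ (2 * i)) → (c : G) ^ (2 * i) = t := fun i iv => by
    by_contra ne
    obtain ⟨x, hx, e⟩ := h.lh.cju _ (zpow_mem c.2 _) iv ne
    obtain ⟨g, r⟩ := zpow_mem cG i
    obtain ⟨B, -, hB⟩ := h.pm.mem_of_sq (r.pow_one 2) (s := g.det) (by rw [Matrix.det_pow, pow_two])
    have e : (⟨u, h.lh.uC⟩ : (𝒞[t] : Subgroup G)) = ⟨x, hx⟩⁻¹ * (c ^ i) ^ 2 * ⟨x, hx⟩⁻¹⁻¹ := Subtype.ext (by
      simp only [coe_mul, coe_inv, SubmonoidClass.coe_pow, SubgroupClass.coe_zpow]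
      rw [← zpow_natCast, ← zpow_mul, mul_comm i, Nat.cast_ofNat, ← e]; group)
    refine hu (show p.comp f _ ∈ _ from ?_)
    rw [e, map_mul, map_mul, map_inv (p.comp f) _⁻¹, map_pow, map_zpow, hB]
    exact h.pm.normal.conj_mem _ ⟨B, rfl⟩ _
  have cc : (c : G) * c ≠ 1 := fun e => c1 (by rw [← map_mul, show c * c = 1 from Subtype.ext e, map_one])
  have c2 : IsPiElt {2} (c : G) := c2.map (𝒞[t]).subtype
  refine ⟨P.map (𝒞[t]).subtype, c, map_subtype_le _, p5.map _, fun a => PK fun x hx => ?_, c.2,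
    le_normalizer_map _ (mem_map_of_mem _ cP), ?_, fun y hy y1 => ?_⟩
  · rw [MonoidHom.mem_ker, MonoidHom.comp_apply, (h.kf x).2 (a (mem_map_of_mem _ hx)), map_one]
  · obtain ⟨l, hl⟩ := (pElt_iff Nat.prime_two).1 c2
    obtain ⟨m, -, hm⟩ := (Nat.dvd_prime_pow Nat.prime_two).1 (orderOf_dvd_of_pow_eq_one hl)
    by_contra n8
    have m2 : m ≤ 2 := not_lt.1 fun a => n8 (hm ▸ pow_dvd_pow 2 a)
    have c4 : (c : G) ^ 4 = 1 := orderOf_dvd_iff_pow_eq_one.1 (hm ▸ pow_dvd_pow 2 m2)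
    have := key 1 ⟨by rw [← c4]; group, by rw [mul_one, zpow_two]; exact cc⟩
    exact c1 (by rw [← map_mul]; exact h.tz _ (.trans (by rw [mul_one, zpow_two]; rfl) this))
  · obtain ⟨z, hz, z2, z1⟩ := Dih.exists_inv_of_piElt (c2.of_mem_zpowers hy) y1
    obtain ⟨i, rfl⟩ := zpowers_le.2 hy hz
    rcases Int.even_or_odd' i with ⟨i, rfl | rfl⟩
    · exact key i ⟨z2, z1⟩ ▸ hz
    · refine absurd ((c2.mul c2 rfl).eq_one fun r _ hr e => ?_) cc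
      have : (2 : ℤ) ∣ 2 * i + 1 := (Int.natCast_dvd_natCast.2 (e ▸ hr : 2 ∣ orderOf ((c : G) * c))).trans
        (orderOf_dvd_iff_zpow_eq_one.2 (by rw [(Commute.refl _).mul_zpow]; exact z2))
      omega

theorem rk [IsSimpleGroup G] (nm : NM p ι e tN uN) (q : Fintype.card F = 5) (hu : p (f ⟨u, h.lh.uC⟩) ∉ ι.range) :
    ∃ P c φ n, RK t u w j P c φ n :=
  let ⟨P, c, a1, a2, a3, a4, a5, a6, a7⟩ := h.rk_pc q hu
  let ⟨φ, n, b1, b2, b3, b4, b5⟩ := h.rk_ch k nm q hu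
  ⟨P, c, φ, n, h.lh, a1, a2, a3, a4, a5, a6, a7, b1, b2, b3, b4, b5⟩

end MD

end CA.Abg
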