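/-
The quasi-dihedral case `q = 5`: `C(t)` normalizes no `3`-subgroup outside `C(t)`.
-/
import Cfsg.Agent.Abg.RK1
import Cfsg.Agent.Abg.RK2

set_option autoImplicit false
set_option linter.unusedSectionVars false

namespace CA.Abg

open Subgroup Cfsg CA.FG CA.BG CA.GW
open scoped MatrixGroups

universe u

variable {G X Γ N : Type u} [Group G] [Finite G] [Group X] [Group Γ] [Group N] [Finite X] [Finite Γ] [Finite N] {F : Type}
  [Field F] [Fintype F] {t u w j : G} {S : Subgroup G} {f : (𝒞[t] : Subgroup G) →* X} {p : X →* Γ} {ι : SL(2, F) →* Γ}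
  {ζ : X} {C0 : Subgroup G} {κ : C0 →* N} {e : N →* X} {tN uN : N}

theorem MD.rs53 (h : MD t u w j S f p ι ζ) (k : MK t u w S f p ι C0 κ e tN uN) [IsSimpleGroup G] (nm : NM p ι e tN uN)
    (q : Fintype.card F = 5) (hu : p (f ⟨u, h.lh.uC⟩) ∉ ι.range) {Y : Subgroup G} (p3 : IsPGrp 3 Y) (nY : 𝒞[t] ≤ 𝒩(Y)) :
    Y ≤ 𝒞[t] := by
  cases nonempty_fintype G
  obtain ⟨P, c, φ, n, r⟩ := h.rk k nm q hu
  exact r.cent p3 nY

end CA.Abg

theorem CA.realizeEqns_Abg_RK3 : True := by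

  trivial
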