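/-
Relative stability: the interface.
-/
import Cfsg.Agent.Abg.X3

set_option autoImplicit false
set_option linter.unusedSectionVars false

namespace CA.Abg

open Subgroup Cfsg CA.FG CA.BG CA.GW
open scoped MatrixGroups

universe u

variable {G Γ M : Type u} [Group G] [Group Γ] [AddCommGroup M] {F : Type} [Field F]

/-- an `F_r C(t)`-module on which `t = -1` and `[K, L] = 1` -/
structure RM (t i : G) (r : ℕ) (ρ : (𝒞[t] : Subgroup G) →* AddMonoid.End M) : Prop where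
  pr : r.Prime
  r2 : r ≠ 2
  ex : ∀ m : M, r • m = 0
  nt : Nontrivial M
  rt : ∀ x : (𝒞[t] : Subgroup G), (x : G) = t → ρ x = -1
  KL : ∀ k l : (𝒞[t] : Subgroup G), (k : G) ∈ UU t → (l : G) ∈ LL t i → Commute (ρ k) (ρ l)

/-- for every `c ≠ 0` a lift `v` of `uu c` such that `v + v⁻¹` commutes with a lift of a matrix of trace `τ` -/
def WP (t i : G) (π : (𝒞[t] : Subgroup G) →* Γ) (ι : SL(2, F) →* Γ) (ρ : (𝒞[t] : Subgroup G) →* AddMonoid.End M)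
    (τ : F) : Prop :=
  ∀ c : F, c ≠ 0 → ∃ (v l : (𝒞[t] : Subgroup G)) (A : SL(2, F)), (v : G) ∈ LL t i ∧ (l : G) ∈ LL t i ∧ π v = ι (uu c) ∧
    π l = ι A ∧ A 1 0 * c = 2 * τ ∧ A 0 0 + A 1 1 = τ ∧ Commute (ρ v + ρ v⁻¹) (ρ l)

/-- `K ∩ L` acts trivially -/
def ABP (t i : G) (ρ : (𝒞[t] : Subgroup G) →* AddMonoid.End M) : Prop :=
  ∀ k : (𝒞[t] : Subgroup G), (k : G) ∈ UU t → (k : G) ∈ LL t i → ρ k = 1

theorem realizeEqns_Abg_RS0 : True := by
  have := @CA.Abg.WP.eq_1.{0}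
  have := @CA.Abg.WP.eq_def.{0}
  have := @CA.Abg.WP.congr_simp.{0}
  have := @CA.Abg.ABP.eq_1.{0}
  have := @CA.Abg.ABP.eq_def.{0}
  have := @CA.Abg.ABP.congr_simp.{0}
  trivial

end CA.Abg
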