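/-
Relative stability: reduction to a quadratic element of a non-split torus.
-/
import Cfsg.Agent.Abg.RS0
import Cfsg.Agent.Abg.MZ

set_option autoImplicit false
set_option linter.unusedSectionVars false

namespace CA.Abg

open Subgroup Cfsg CA.FG CA.BG CA.GW CA.GW.BA CA.Dih Cfsg.Agent.Lin CA.BG.P06
open scoped MatrixGroups commutatorElement IsMulCommutative

universe u

variable {G X Γ N : Type u} [Group G] [Finite G] [Group X] [Group Γ] [Group N] [Finite X] [Finite Γ] [Finite N] {F : Type}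
  [Field F] [Fintype F] {t u w j : G} {S : Subgroup G} {f : (𝒞[t] : Subgroup G) →* X} {p : X →* Γ} {ι : SL(2, F) →* Γ} {ζ : X}
  {r : ℕ} {Y Z : Subgroup G}

/-- the hypotheses of `RSP` -/
structure RH0 (t i : G) (r : ℕ) (Y Z : Subgroup G) (x : (𝒞[t] : Subgroup G)) : Prop where
  pr : r.Prime
  r2 : r ≠ 2
  pY : IsPGrp r Y
  ZY : Z ≤ Y
  nY : 𝒞[t] ≤ 𝒩(Y)
  nZ : 𝒞[t] ⊔ Y ≤ 𝒩(Z)
  fx : Y ⊓ 𝒞[t] ≤ Z
  ab : ⁅Y, Y⁆ ≤ Z
  ex : ∀ y ∈ Y, y ^ r ∈ Z
  px : IsPiElt {r} (x : G)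
  qx : ⁅⁅Y, zpowers (x : G)⁆, zpowers (x : G)⁆ ≤ Z
  KL : ⁅Y, ⁅UU t, LL t i⁆⁆ ≤ Z
  ne : ¬ Y ≤ Z

namespace RH0

variable {i : G} {x : (𝒞[t] : Subgroup G)} (a : RH0 t i r Y Z x)
include a

theorem CZ : 𝒞[t] ≤ 𝒩(Z) := le_sup_left.trans a.nZ

theorem YZ : Y ≤ 𝒩(Z) := le_sup_right.trans a.nZ

theorem oY : IsPiGrp {2}ᶜ Y := odd_of_pGrp a.pY a.r2

theorem ox : IsPiElt {2}ᶜ (x : G) := a.px.mono (by simpa using a.r2.symm)

theorem mod (t2 : t * t = 1) (LC : LL t i ≤ 𝒞[t]) : ∃ (M : Type u) (_ : AddCommGroup M) (_ : Finite M)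
    (ρ : (𝒞[t] : Subgroup G) →* AddMonoid.End M), RM t i r ρ ∧ (ρ x - 1) * (ρ x - 1) = 0 := by
  have cE := (quot_abelian_iff a.YZ).2 a.ab
  let φ : (𝒞[t] : Subgroup G) →* Coset Z := (coset Z).comp (inclusion a.CZ)
  have nV : ∀ c, φ c ∈ 𝒩(Y /ₛ Z) := fun c => quot_norm Z a.nY (mem_quot_of_mem (a.CZ c.2) c.2)
  let σ : MulAut (Y /ₛ Z) →* AddMonoid.End (Additive (Y /ₛ Z)) :=
    { toFun := fun a => MonoidHom.toAdditive a.toMonoidHom
      map_one' := rfl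
      map_mul' := fun a b => rfl }
  let ρ := σ.comp ((Y /ₛ Z).normalizerMonoidHom.comp (φ.codRestrict _ nV))
  have ap : ∀ c (v : Additive (Y /ₛ Z)), ((ρ c v).toMul : Coset Z) = φ c * v.toMul * (φ c)⁻¹ := fun _ _ => rfl
  have tC := mem_cent_singleton_self t
  refine ⟨_, _, inferInstance, ρ, ⟨a.pr, a.r2, fun v => Additive.toMul.injective (Subtype.ext ?_), ?_,
    fun c e => AddMonoidHom.ext fun v => Additive.toMul.injective (Subtype.ext ?_), fun k l hk hl => ?_⟩,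
    AddMonoidHom.ext fun v => ?_⟩
  · obtain ⟨y, hy, e⟩ := mem_quot.1 v.toMul.2
    change (v.toMul : Coset Z) ^ r = 1
    rw [← e, ← map_pow, coset_eq_one_iff]
    exact a.ex y hy
  · exact (nontrivial_iff_ne_bot _).2 fun e => a.ne ((quot_eq_bot_iff a.YZ).1 e)
  · obtain ⟨y, hy, e'⟩ := mem_quot.1 v.toMul.2
    obtain ⟨b, ⟨hb, eb⟩, d, hd, e''⟩ := exists_inv_mul a.oY t2 (a.nY tC) hy
    change φ c * v.toMul * (φ c)⁻¹ = (v.toMul : Coset Z)⁻¹
    rw [← e', show y = ⟨b, a.YZ hb⟩ * ⟨d, a.YZ hd.1⟩ from Subtype.ext e'', map_mul,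
      (coset_eq_one_iff (x := ⟨d, a.YZ hd.1⟩)).2 (a.fx hd), mul_one, ← map_inv, ← map_inv]
    have := congrArg (coset Z) (show inclusion a.CZ c * ⟨b, a.YZ hb⟩ * inclusion a.CZ c⁻¹ = ⟨b, a.YZ hb⟩⁻¹ from
      Subtype.ext (by rw [← e] at eb; exact eb))
    rwa [map_mul, map_mul] at this
  · have n : ⁅UU t, LL t i⁆ ≤ 𝒩(Z) := (comm_le_of_le (UU_le t) LC).trans a.CZ
    have e : ρ ⁅k, l⁆ = 1 := AddMonoidHom.ext fun v => Additive.toMul.injective (Subtype.ext ((ap _ v).trans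
      (mul_inv_eq_iff_eq_mul.2 ((quot_cent_iff' n a.YZ).2 a.KL (mem_quot_of_mem (a.CZ ⁅k, l⁆.2)
        (commutator_mem_commutator hk hl)) _ v.toMul.2).symm)))
    show ρ k * ρ l = ρ l * ρ k
    rw [← map_mul, ← map_mul, show k * l = ⁅k, l⁆ * (l * k) by rw [commutatorElement_def]; group, map_mul, e, one_mul]
  · set z := (ρ x - 1) v with hz
    have xZ := zpowers_le.2 (a.CZ x.2)
    have q : ⁅⁅Y /ₛ Z, zpowers (φ x)⁆, zpowers (φ x)⁆ = ⊥ := by
      rw [show zpowers (φ x) = zpowers (x : G) /ₛ Z from (quot_zpowers _).symm, ← quot_comm a.YZ xZ,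
        ← quot_comm ((comm_le_left (zpowers_le.2 (a.nY x.2))).trans a.YZ) xZ, quot_eq_bot_of_le a.qx]
    have h1 : ((z.toMul : Y /ₛ Z) : Coset Z) ∈ ⁅Y /ₛ Z, zpowers (φ x)⁆ := by
      rw [commutator_comm]
      have := commutator_mem_commutator (mem_zpowers (φ x)) v.toMul.2
      rw [commutatorElement_def] at this
      convert this using 1
      change φ x * v.toMul * (φ x)⁻¹ / v.toMul = _
      rw [div_eq_mul_inv]
    change ρ x z - z = 0
    rw [sub_eq_zero]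
    refine Additive.toMul.injective (Subtype.ext ?_)
    rw [ap, ← comm_of_le_cent (comm_eq_bot_iff.1 q) h1 (mem_zpowers _), mul_inv_cancel_right]

end RH0

namespace MD
variable (h : MD t u w j S f p ι ζ)
include h

theorem odd_lift {B : Subgroup Γ} (o : IsPiGrp {2}ᶜ B) : ∃ H : Subgroup G, H ≤ 𝒞[t] ∧ IsPiGrp {2}ᶜ H ∧
    B ≤ img (p.comp f) H ∧ ∀ x : (𝒞[t] : Subgroup G), IsPiElt {2}ᶜ (x : G) → p (f x) ∈ B → (x : G) ∈ H := by
  have z2 : IsPGrp 2 (zpowers ζ) := piGrp_zpowers_iff.2 h.z2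
  have b := Burnside_normal_complement Nat.prime_two (H := B.comap p) (pHall_mk (h.kp.ge.trans (ker_le_comap p B)) z2
    (by rw [← h.kp, relIndex_ker, map_comap_eq_self_of_surjective h.ps]; exact o))
    fun y _ z hz => (mem_center_iff.1 (zpowers_le.2 h.cz hz) y).symm
  refine ⟨pre f (OO (B.comap p)), pre_le _ _, (pcore_piGrp _ _).pre ((UU_odd t).of_le fun y hy => ?_), fun y hy => ?_,
    fun x ox hx => coe_mem_pre.2 ((pHall_left_of_sup (.inr b.norm) b.sup_eq (pcore_piGrp _ _)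
      (by simpa using z2)).mem_of_normal (pcore_norm _ _) ((piElt_coe.2 ox).map f) hx)⟩
  · obtain ⟨c, e⟩ := mem_pre.1 hy
    exact (h.kf _).1 e
  · obtain ⟨y, rfl⟩ := h.ps y
    obtain ⟨o, ho, z, hz, rfl⟩ := (mem_sup_of_right_le_norm b.norm).1 (b.sup_eq.ge hy)
    obtain ⟨o, rfl⟩ := h.fs o
    exact mem_img.2 ⟨o, coe_mem_pre.2 ho, by rw [map_mul, (show p z = 1 from h.kp.ge hz), mul_one]; rfl⟩

variable {x : (𝒞[t] : Subgroup G)} (a : RH0 t (u * w) r Y Z x)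
include a

/-- a quadratic element centralizes the odd `r'`-subgroups it normalizes -/
theorem stab {Q : Subgroup Γ} (o : IsPiGrp {2}ᶜ Q) (o' : IsPiGrp {r}ᶜ Q) (n : p (f x) ∈ 𝒩(Q)) : p (f x) ∈ 𝒞(Q) := by
  have ox := ((piElt_coe.2 a.ox).map f).map p
  obtain ⟨H, HC, oH, BH, xH⟩ := h.odd_lift (o.sup (piGrp_zpowers_iff.2 ox) (.inr (zpowers_le.2 n)))
  replace xH := zpowers_le.2 (xH x a.ox (mem_sup_right (mem_zpowers _)))
  have HY := HC.trans a.nY
  have HZ := HC.trans a.CZ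
  have xZ := xH.trans HZ
  have hM := le_Mp (odd_stable a.pr ((oH.sup a.oY (.inl HY)).quot Z)) (a.pY.quot Z)
    (quot_normalIn Z ⟨le_sup_right, sup_le HY le_normalizer⟩) (quot_mono Z (le_sup_of_le_left xH))
    ((piGrp_zpowers_iff.2 a.px).quot Z) (by
      rw [← quot_comm a.YZ xZ, ← quot_comm ((comm_le_left (xH.trans HY)).trans a.YZ) xZ, quot_eq_bot_of_le a.qx])
  have nM := norm_inf le_normalizer (le_norm_quotPre HZ
    (norm_Mp (p := r) (quot_norm Z (norm_of_le (le_sup_left : H ≤ H ⊔ Y))) (quot_norm Z HY)))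
  have tC := mem_cent_singleton_self t
  have pM : IsPGrp r (img (p.comp f) (H ⊓ quotPre Z (Mp r ((H ⊔ Y) /ₛ Z) (Y /ₛ Z)))) := by
    rw [IsPGrp, IsPiGrp, card_img_of_le (inf_le_left.trans HC)]
    refine piNat_relIndex_of_forall_le fun R hR oR y hy => mem_pre.2 ⟨HC (hR hy).1, ?_⟩
    have := h.lh.f3 (CS Y Z ⊓ 𝒞[t]) inf_le_right (norm_inf (norm_CS a.CZ a.nY) le_normalizer) (fun m => a.ne
      ((comm_sup_cent a.oY h.lh.it.1 (a.nY tC)).ge.trans (sup_le ((le_CS (zpowers_le.2 (a.CZ tC)) a.YZ).1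
        (zpowers_le.2 (h.lh.i2 ▸ mul_mem m.1 m.1))) a.fx))) y ⟨(quot_le_iff ((hR.trans inf_le_left).trans HZ)).1
      (Mp_cent (quot_le_of_le_quotPre (hR.trans inf_le_right)) (oR.quot Z)) hy, HC (hR hy).1⟩ (oH.piElt (hR hy).1)
    rw [MonoidHom.comp_apply, (h.kf _).2 this, map_one, mem_bot]
  have xM := zpowers_le.2 (mem_img_of_mem (f := p.comp f) x.2
    (le_inf xH ((quot_le_iff xZ).1 hM) (mem_zpowers _)))
  exact zpowers_le.1 (comm_eq_bot_iff.1 (eq_bot_iff.2 ((le_inf ((commutator_mono xM le_rfl).trans (comm_le_left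
    ((le_sup_left.trans BH).trans (img_norm nM)))) (comm_le_right (zpowers_le.2 n))).trans (pM.inf_eq_bot o').le)))

theorem rs_red (xR : (x : G) ∈ UU t ⊔ RV t u) (xK : (x : G) ∉ UU t) : ∃ A : SL(2, F), p (f x) = ι A ∧
    ¬ IsSquare ((A 0 0 + A 1 1) ^ 2 - 4) ∧ A 0 0 + A 1 1 ≠ 0 ∧ (r : F) ≠ 0 ∧
    (Fintype.card F = 5 → r = 3 ∧ p (f ⟨u, h.lh.uC⟩) ∉ ι.range) := by
  have ox := ((piElt_coe.2 a.ox).map f).map p
  have px := ((piElt_coe.2 a.px).map f).map p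
  have x1 : p (f x) ≠ 1 := fun e => xK (h.oddK a.ox e)
  have oo : ∀ {y : Γ}, IsPiElt {2}ᶜ y ↔ Odd (orderOf y) := fun {y} => by
    rw [← Nat.not_even_iff_odd, even_iff_two_dvd]; exact piNat_compl_singleton_iff Nat.prime_two
  have cx : Commute (p (f x)) (p (f ⟨u, h.lh.uC⟩)) := by
    have RC : RV t u ≤ 𝒞[t] ⊓ 𝒞[u] := pcore_le _ _
    obtain ⟨k, hk, y, hy, e⟩ := (mem_sup_of_right_le_norm ((RC.trans inf_le_left).trans (UU_norm t))).1 xR
    rw [show x = ⟨k, UU_le t hk⟩ * ⟨y, (RC hy).1⟩ from Subtype.ext e.symm, map_mul, (h.kf _).2 hk, one_mul]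
    exact ((show Commute (⟨y, (RC hy).1⟩ : (𝒞[t] : Subgroup G)) ⟨u, h.lh.uC⟩ from
      Subtype.ext (mem_centralizer_singleton_iff.1 (RC hy).2)).map f).map p
  obtain ⟨g, rg, z⟩ := h.pm.inv_model h.r2 h.iu.1 h.iu.2
  obtain ⟨n, hn⟩ := (pElt_iff a.pr).1 px
  obtain ⟨A, hA⟩ := G0_odd h.pm (fa_core h.pm rg z cx a.pr (a.pr.odd_of_ne_two a.r2) hn fun y hy o co => by
    have ab := abelian_of_cyclic (cyclic_map ι (cyc_CT' h.pm.two z))
    exact (h.stab a (Q := piCoreOf ({2}ᶜ ∩ {r}ᶜ) ((CT g).map ι)) ((pcore_piGrp _ _).mono Set.inter_subset_left)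
      ((pcore_piGrp _ _).mono Set.inter_subset_right) (norm_pcore _ (zpowers_le.2 (mem_norm_of_forall fun _ =>
        norm_CT h.pm rg cx)) (mem_zpowers _)) y (pcore_max (K := zpowers y) ⟨zpowers_le.2 hy, norm_of_cent
          ((abelian_iff_le_cent.1 ab).trans (cent_anti (zpowers_le.2 hy)))⟩ (piGrp_zpowers_iff.2 fun l pl d =>
          Set.mem_inter (oo.2 o l pl d) ((piNat_compl_singleton_iff_coprime a.pr).2 co l pl d)) (mem_zpowers y))).symm)
    (mem_zpowers _) ox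
  obtain ⟨s, _⟩ := CharP.exists F
  obtain ⟨m, ps, -⟩ := FiniteField.card F s
  have := Fact.mk ps
  have s2 : s ≠ 2 := by rintro rfl; exact h.pm.two (CharP.cast_eq_zero F 2)
  have unip : ∀ k, p (f x) ^ s ^ k ≠ 1 := fun k e => x1 (h.pm.inv_unip h.r2 h.iu.1 h.iu.2 ⟨A, hA⟩ e cx.symm)
  have rs : r ≠ s := by rintro rfl; exact unip n hn
  have rF : (r : F) ≠ 0 := fun e => rs ((Nat.prime_dvd_prime_iff_eq ps a.pr).1 ((CharP.cast_eq_zero_iff F s r).1 e)).symm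
  have ns : ¬ IsSquare ((A 0 0 + A 1 1) ^ 2 - 4) := by
    rintro ⟨d, hd⟩
    have dA := sl2_det A
    have two := h.pm.two
    obtain ⟨Q, T, eT, T0⟩ : ∃ Q T : SL(2, F), A = Q * T * Q⁻¹ ∧ T 1 0 = 0 := by
      by_cases c : A 1 0 = 0
      · exact ⟨1, A, by simp, c⟩
      let Q : SL(2, F) := sl2 ((A 0 0 - A 1 1 + d) / 2) (-(A 1 0)⁻¹) (A 1 0) 0 (by field_simp; ring)
      refine ⟨Q, Q⁻¹ * A * Q, by group, ?_⟩
      simp [Q, Matrix.SpecialLinearGroup.coe_inv, Matrix.adjugate_fin_two, Matrix.mul_apply, Fin.sum_univ_two,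
        Matrix.vecMul, dotProduct]
      field_simp
      linear_combination A 1 0 * (4 * dA - hd)
    have dT := sl2_det T
    have e : ∀ b, ι T * ι (uu b) * (ι T)⁻¹ = ι (uu (T 0 0 * T 0 0 * b)) := fun b => by
      rw [mul_inv_eq_iff_eq_mul, ← map_mul, ← map_mul]
      congr 1
      apply Subtype.ext
      apply m2_ext <;> simp [uu, Matrix.mul_apply, Fin.sum_univ_two, T0]
      rw [T0] at dT
      linear_combination -(T 0 0 * b) * dT
    have pU : IsPGrp s (Up ι :^ ι Q) := IsPiGrp.conjg (pGrp_of_forall_pow ps (k := 1) fun y hy => by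
      obtain ⟨b, rfl⟩ := mem_Up.1 hy
      rw [pow_one, ← map_pow, pow_char_eq_one_of_trace_two s (by simp [uu]; norm_num), map_one]) _
    have eA : p (f x) = ι Q * ι T * (ι Q)⁻¹ := by rw [← hA, eT, map_mul, map_mul, map_inv]
    have c := h.stab a (odd_of_pGrp pU s2) (pU.piGrp (by simpa using rs.symm)) (by
      rw [eA, ← conjg_norm]
      refine conj_mem_conjg _ (mem_norm_of_forall fun y hy => ?_)
      obtain ⟨b, rfl⟩ := mem_Up.1 hy
      exact ⟨_, (e b).symm⟩)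
    rw [eA, ← conjg_cent, mem_conjg] at c
    have c1 := c _ (mem_Up.2 ⟨1, rfl⟩)
    simp only [mul_assoc, inv_mul_cancel_left, inv_mul_cancel, mul_one] at c1
    have c2 := e 1
    rw [← c1, mul_inv_cancel_right, ← mul_inv_eq_one, ← uu_neg, ← map_mul, ← uu_add] at c2
    have c3 := uu_inj h.pm c2
    have tr : (T 0 0 + T 1 1) ^ 2 = 4 := by
      rw [T0] at dT
      linear_combination (T 1 1 * T 1 1 - 1) * c3 + (T 0 0 * T 1 1 + 3) * dT
    have := congrArg ι (pow_char_eq_one_of_trace s tr)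
    refine unip 1 ((pElt_of_pow_eq_one Nat.prime_two ?_).eq_one (ox.pow _))
    rw [← pow_mul, pow_one, mul_comm, eA, conj_pow, ← map_pow, this, map_one, mul_one, mul_inv_cancel]
  refine ⟨A, hA.symm, ns, fun e => x1 ((pElt_of_pow_eq_one Nat.prime_two
    (by rw [pow_two, ← hA]; exact h.pm.sq_of_tz e)).eq_one ox), rF, fun q => ?_⟩
  have five : (5 : F) = 0 := by simpa [q] using FiniteField.cast_card_eq_zero F
  refine ⟨?_, fun hu => ns ?_⟩
  · have c := h.pm.card_range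
    rw [q] at c
    have d : r ∣ 60 := (IsPGrp.dvd_card (piGrp_zpowers_iff.2 px) (by simpa using x1)).trans
      ((card_dvd_of_le (zpowers_le.2 (show _ ∈ ι.range from ⟨A, hA⟩))).trans (by rw [show Nat.card ι.range = 60 by omega]))
    have r5 : r ≠ 5 := by rintro rfl; exact rF (by simpa using five)
    have := (Nat.Prime.dvd_mul a.pr (m := 2 ^ 2) (n := 3 * 5)).1 d
    rw [Nat.Prime.dvd_mul a.pr, Nat.prime_dvd_prime_iff_eq a.pr Nat.prime_three,
      Nat.prime_dvd_prime_iff_eq a.pr Nat.prime_five] at this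
    exact (this.resolve_left fun e => a.r2 ((Nat.prime_dvd_prime_iff_eq a.pr Nat.prime_two).1
      (a.pr.dvd_of_dvd_pow e))).resolve_right r5
  · obtain ⟨τ, e, zτ⟩ := h.pm.inv_lift h.iu.1 h.iu.2 hu
    obtain ⟨α, β, -, e1, e2⟩ := CT_comb h.pm.two zτ (mem_CT.2 (lin_comm h.pm (e ▸ rr_sl τ) zτ (hA ▸ rr_sl A) cx (oo.1 ox)))
    rw [τ.2] at e1
    exact ⟨β, by rw [show A 0 0 + A 1 1 = 2 * α from e2]; linear_combination 4 * e1 - β * β * five⟩

end MD

end CA.Abg
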