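/-
Relative stability: lifts to `L`.
-/
import Cfsg.Agent.Abg.RS0

set_option autoImplicit false
set_option linter.unusedSectionVars false

namespace CA.Abg

open Subgroup Cfsg CA.FG CA.BG CA.GW CA.GW.BA CA.Dih Cfsg.Agent.Lin
open scoped MatrixGroups commutatorElement

universe u

variable {G X Γ : Type u} [Group G] [Finite G] [Group X] [Group Γ] [Finite X] [Finite Γ] {F : Type}
  [Field F] [Fintype F] {t u w j : G} {S : Subgroup G} {f : (𝒞[t] : Subgroup G) →* X} {p : X →* Γ} {ι : SL(2, F) →* Γ} {ζ : X}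

theorem RM.pm {M : Type u} [AddCommGroup M] {i : G} {r n : ℕ} {ρ : (𝒞[t] : Subgroup G) →* AddMonoid.End M}
    (m : RM t i r ρ) (v v' : AddMonoid.End M) (vv' : v * v' = 1) (vn : v ^ n = 1) (c : n.Coprime r) (ε : ℤ)
    (hε : ε = 1 ∨ ε = -1) (y : M) (e : (v + v') y = (2 * ε) • y) : v y = ε • y := by
  have ε2 : ε * ε = 1 := by rcases hε with rfl | rfl <;> rfl
  have e1 : v (v y) + y = (2 * ε) • v y := by
    rw [← map_zsmul, ← e, show (v + v') y = v y + v' y from rfl, map_add]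
    exact congrArg _ (DFunLike.congr_fun vv' y).symm
  set z := ε • v y - y with hz
  have az : ε • v z = z := by
    rw [hz, map_sub, map_zsmul, eq_sub_of_add_eq e1, smul_sub, smul_smul, ε2, one_smul, mul_smul, two_smul]; abel
  have pw : ∀ k : ℕ, ε ^ k • (v ^ k) y = y + k • z := fun k => by
    induction k with
    | zero => simp
    | succ k ih =>
      have : ε ^ (k + 1) • (v ^ (k + 1)) y = ε • v (ε ^ k • (v ^ k) y) := by
        rw [map_zsmul, smul_smul, ← pow_succ', pow_succ' v]; rfl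
      rw [this, ih, map_add, map_nsmul, smul_add, smul_comm, az, succ_nsmul, eq_add_of_sub_eq hz.symm]; abel
  have h2 := pw (2 * n)
  rw [pow_mul, pow_two, ε2, one_pow, one_smul, mul_comm, pow_mul, vn, one_pow] at h2
  have h3 : z = 0 := AddMonoid.addOrderOf_eq_one_iff.1 (Nat.eq_one_of_dvd_coprimes
    (c.mul_left ((Nat.coprime_primes Nat.prime_two m.pr).2 m.r2.symm))
    (addOrderOf_dvd_of_nsmul_eq_zero (left_eq_add.1 h2)) (addOrderOf_dvd_of_nsmul_eq_zero (m.ex _)))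
  calc v y = ε • ε • v y := by rw [smul_smul, ε2, one_smul]
    _ = ε • y := by rw [sub_eq_zero.1 (hz.symm.trans h3)]

namespace MD
variable (h : MD t u w j S f p ι ζ)
include h

theorem ab_L {A : Type*} [CommGroup A] (φ : (𝒞[t] : Subgroup G) →* A) {s : (𝒞[t] : Subgroup G)}
    (hs : (s : G) ∈ LL t (u * w)) : φ s = 1 :=
  (mem_pre.1 (LL_le (dom_le_norm_pre_bot φ) (mem_pre.2 ⟨_, h.ab_i φ⟩) hs)).2

theorem liftL (q : Fintype.card F ≠ 3) (A : SL(2, F)) :
    ∃ l : (𝒞[t] : Subgroup G), (l : G) ∈ LL t (u * w) ∧ p (f l) = ι A :=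
  mem_img.1 ((h.q5.resolve_left q).2.2.ge ⟨A, rfl⟩)

theorem memL (q : Fintype.card F ≠ 3) (s : (𝒞[t] : Subgroup G)) (hs : (s : G) ∈ LL t (u * w)) :
    ∃ A, ι A = p (f s) := (h.q5.resolve_left q).2.2.le (mem_img.2 ⟨s, hs, rfl⟩)

theorem kerL (q : Fintype.card F ≠ 3) (s : (𝒞[t] : Subgroup G)) (hs : (s : G) ∈ LL t (u * w)) (e : p (f s) = 1) :
    (s : G) ∈ UU t ∨ (s : G) * t ∈ UU t := by
  have hz : f s ∈ zpowers ζ := h.kp.le e
  rcases h.zt _ hz (h.zsq (h.q5.resolve_left q).1.hd hz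
    ((Abelianization.ker_of X).le (h.ab_L (Abelianization.of.comp f) hs))) with e | ⟨x, hx, e⟩
  · exact .inl ((h.kf _).1 e)
  · have := (h.kf (s * x)).1 (by
      rw [map_mul, e, ← map_mul, show x * x = 1 from Subtype.ext (by rw [coe_mul, hx]; exact h.lh.it.1), map_one])
    rw [coe_mul, hx] at this
    exact .inr this

theorem sqt (q : Fintype.card F ≠ 3) (s : (𝒞[t] : Subgroup G)) (hs : (s : G) ∈ LL t (u * w))
    (s2 : p (f s) * p (f s) = 1) (s1 : p (f s) ≠ 1) : (s : G) * s * t ∈ UU t := by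
  obtain ⟨as, -, -⟩ := h.q5.resolve_left q
  have tC : t ∈ 𝒞[t] := mem_centralizer_singleton_iff.2 rfl
  set i : (𝒞[t] : Subgroup G) := ⟨u * w, h.lh.iC⟩ with hi
  have ii : i * i = ⟨t, tC⟩ := Subtype.ext h.lh.i2
  obtain ⟨g, -, hg⟩ := as.conj (a := p (f i)) (b := p (f s)) h.iL (h.memL q s hs)
    ⟨by rw [← map_mul, ← map_mul, ii, h.tz _ rfl], fun e => by
      have c := mem_center_iff.1 (zpowers_le.2 h.cz (h.kp.le e)) (f ⟨j, h.lh.jC⟩)
      have ji := congrArg f (show ⟨j, h.lh.jC⟩ * i * ⟨j, h.lh.jC⟩⁻¹ = i⁻¹ from Subtype.ext h.lh.ji)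
      rw [map_mul, map_mul, map_inv, c, mul_inv_cancel_right, map_inv, ← mul_eq_one_iff_eq_inv, ← map_mul] at ji
      exact h.ft _ h.lh.i2 ji⟩ ⟨s2, s1⟩
  obtain ⟨c, rfl⟩ := h.qq.surj g
  obtain ⟨z, hz, cz, e1⟩ := h.qq.cen (x := f s) (y := f (c * i * c⁻¹)) (by simpa using hg.symm)
  have z2 : z * z = 1 := h.zsq as.hd hz ((Abelianization.ker_of X).le (by
    have a1 : Abelianization.of (f i) = 1 := h.ab_i (Abelianization.of.comp f)
    have a3 : Abelianization.of (f s) = 1 := h.ab_L (Abelianization.of.comp f) hs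
    have a2 := congrArg Abelianization.of e1
    simp only [map_mul, map_inv, a1, a3, mul_one, mul_inv_cancel, one_mul] at a2
    exact a2.symm))
  have ct : c * ⟨t, tC⟩ * c⁻¹ = ⟨t, tC⟩ := Subtype.ext (mul_inv_eq_iff_eq_mul.2 (mem_centralizer_singleton_iff.1 c.2))
  refine (h.kf (s * s * ⟨t, tC⟩)).1 ?_
  rw [map_mul, map_mul, e1, mul_assoc (f _), ← mul_assoc z, ← mem_center_iff.1 cz, mul_assoc (f _) z, z2, mul_one,
    ← map_mul, cj_mul, ii, ct, ← map_mul, show (⟨t, tC⟩ * ⟨t, tC⟩ : (𝒞[t] : Subgroup G)) = 1 from Subtype.ext h.lh.it.1,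
    map_one]

end MD

end CA.Abg
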