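/-
Relative stability: the product of two quadratic elements.
-/
import Cfsg.Agent.Abg.RS2

set_option autoImplicit false
set_option linter.unusedSectionVars false

namespace CA.Abg

open Subgroup Cfsg CA.FG CA.BG CA.GW CA.GW.BA CA.Dih Cfsg.Agent.Lin
open scoped MatrixGroups commutatorElement

universe u

variable {G X Γ : Type u} [Group G] [Finite G] [Group X] [Group Γ] [Finite X] [Finite Γ] {F : Type}
  [Field F] [Fintype F] {t u w j : G} {S : Subgroup G} {f : (𝒞[t] : Subgroup G) →* X} {p : X →* Γ} {ι : SL(2, F) →* Γ} {ζ : X}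

theorem rs_quad_conj {H R : Type*} [Group H] [Ring R] (ρ : H →* R) {x : H} (hx : (ρ x - 1) * (ρ x - 1) = 0) (g : H) :
    (ρ (g * x * g⁻¹) - 1) * (ρ (g * x * g⁻¹) - 1) = 0 := by
  have i : ρ g⁻¹ * ρ g = 1 := by rw [← map_mul, inv_mul_cancel, map_one]
  have e : ρ (g * x * g⁻¹) - 1 = ρ g * (ρ x - 1) * ρ g⁻¹ := by
    rw [mul_sub, sub_mul, mul_one, ← map_mul, ← map_mul, ← map_mul, mul_inv_cancel, map_one]
  rw [e, mul_assoc, ← mul_assoc (ρ g⁻¹), ← mul_assoc (ρ g⁻¹), i, one_mul, mul_assoc, ← mul_assoc (ρ x - 1), hx, zero_mul,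
    mul_zero]

theorem rs_quad_inv {H R : Type*} [Group H] [Ring R] (ρ : H →* R) {x : H} (hx : (ρ x - 1) * (ρ x - 1) = 0) :
    (ρ x⁻¹ - 1) * (ρ x⁻¹ - 1) = 0 := by
  have i : ρ x⁻¹ * ρ x = 1 := by rw [← map_mul, inv_mul_cancel, map_one]
  have i' : ρ x * ρ x⁻¹ = 1 := by rw [← map_mul, mul_inv_cancel, map_one]
  calc _ = ρ x⁻¹ * ((ρ x - 1) * (ρ x - 1)) * ρ x⁻¹ := by
        rw [← mul_assoc, mul_assoc _ (ρ x - 1) (ρ x⁻¹), mul_sub (ρ x⁻¹), sub_mul (ρ x), i, i', mul_one, one_mul, ← neg_mul_neg,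
          neg_sub]
    _ = 0 := by rw [hx, mul_zero, zero_mul]

theorem rs_exists_g (two : (2 : F) ≠ 0) (A : SL(2, F)) {c : F} (c0 : A 1 0 ≠ 0) (e : A 1 0 * c = 2 * (A 0 0 + A 1 1))
    (ns : (A 0 0 + A 1 1) ^ 2 - 4 ≠ 0) : ∃ g : SL(2, F), A * g = -uu c * g * A := by
  have four : (4 : F) ≠ 0 := by rw [show (4 : F) = 2 * 2 by norm_num]; exact mul_ne_zero two two
  obtain ⟨a, b, -, -, hab⟩ := exists_conic two (1 : F ≃+* F) (d := 1 - (A 0 0 + A 1 1) ^ 2 / 4) (c := -1)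
    (fun e => ns (by field_simp at e; linear_combination -e)) rfl rfl
  have dA := sl2_det A
  have hc : c = 2 * (A 0 0 + A 1 1) / A 1 0 := by field_simp; linear_combination e
  let z : M2 F := (a - (A 0 0 + A 1 1) * b / 2) • 1 + b • A.1
  have dz : z.det = -1 := by
    simp only [z, Matrix.det_fin_two, Matrix.add_apply, Matrix.smul_apply, Matrix.one_apply_eq, smul_eq_mul, ne_eq,
      zero_ne_one, not_false_eq_true, Matrix.one_apply_ne, one_ne_zero]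
    field_simp at hab ⊢
    linear_combination hab + 4 * b ^ 2 * dA
  have cz : z * A.1 = A.1 * z := by simp only [z, add_mul, mul_add, smul_mul_assoc, mul_smul_comm, one_mul, mul_one]
  let g : M2 F := !![1, 2 * A 1 1 / A 1 0; 0, -1]
  have eg : A.1 * g = -(uu c).1 * g * A.1 := by
    apply m2_ext <;> simp [g, uu, hc, Matrix.mul_apply, Fin.sum_univ_two] <;> field_simp <;> ring
  refine ⟨⟨g * z, by rw [Matrix.det_mul, dz]; simp [g]⟩, Subtype.ext ?_⟩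
  show A.1 * (g * z) = -(uu c).1 * (g * z) * A.1
  rw [← mul_assoc, eg, mul_assoc, ← cz]
  simp only [mul_assoc]

theorem MD.wp {M : Type u} [AddCommGroup M] {r : ℕ} {ρ : (𝒞[t] : Subgroup G) →* AddMonoid.End M}
    (h : MD t u w j S f p ι ζ) (q : Fintype.card F ≠ 3) (m : RM t (u * w) r ρ) (x : (𝒞[t] : Subgroup G))
    (ox : IsPiElt {2}ᶜ (x : G)) (qx : (ρ x - 1) * (ρ x - 1) = 0) {A : SL(2, F)} (e : p (f x) = ι A)
    (ns : ¬ IsSquare ((A 0 0 + A 1 1) ^ 2 - 4)) (τ0 : A 0 0 + A 1 1 ≠ 0) :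
    WP t (u * w) (p.comp f) ι ρ (A 0 0 + A 1 1) := fun c c0 => by
  have two := h.pm.two
  have dA := sl2_det A
  have a0 : A 1 0 ≠ 0 := fun e => ns ⟨A 0 0 - A 1 1, by rw [e] at dA; linear_combination 4 * dA⟩
  obtain ⟨n, hn⟩ : ∃ n, n = A 1 0 * c / (2 * (A 0 0 + A 1 1)) := ⟨_, rfl⟩
  have n0 : n ≠ 0 := hn ▸ div_ne_zero (mul_ne_zero a0 c0) (mul_ne_zero two τ0)
  obtain ⟨δ, hδ⟩ := h.pgl !![n, 0; 0, 1] (by simpa using n0)
  obtain ⟨d, rfl⟩ := h.qq.surj δ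
  let B : SL(2, F) := sl2 (A 0 0) (n * A 0 1) (A 1 0 / n) (A 1 1) (by field_simp; exact dA)
  have eB : p (f (d * x * d⁻¹)) = ι B := by
    rw [map_mul, map_mul, map_mul, map_mul, map_inv, map_inv, e]
    refine hδ.2 A B ?_
    apply m2_ext <;> simp [B, Matrix.mul_apply, Fin.sum_univ_two, mul_comm, mul_div_cancel₀ _ n0]
  have eτ : B 1 0 * c = 2 * (A 0 0 + A 1 1) := by
    show A 1 0 / n * c = _
    rw [hn]; field_simp
  obtain ⟨l0, hl0, e0⟩ := h.liftL q B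
  obtain ⟨k, hk, l, hl, kl⟩ := (mem_sup_of_norm (.inr (h.LC.trans (UU_norm t)))).1
    (h.odd_mem (H := LL t (u * w)) (y := d * x * d⁻¹) (ox.conj d) (mem_img.2 ⟨l0, hl0, e0.trans eB.symm⟩))
  obtain ⟨k, rfl⟩ : ∃ k' : (𝒞[t] : Subgroup G), k' = k := ⟨⟨k, UU_le t hk⟩, rfl⟩
  obtain ⟨l, rfl⟩ : ∃ l' : (𝒞[t] : Subgroup G), l' = l := ⟨⟨l, h.LC hl⟩, rfl⟩
  have kl : d * x * d⁻¹ = k * l := Subtype.ext kl.symm
  have q1 := rs_quad_conj ρ qx d
  rw [kl] at q1 eB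
  have el : p (f l) = ι B := by rwa [map_mul, (h.kf k).2 hk, one_mul] at eB
  obtain ⟨g, hg⟩ := rs_exists_g two B (c := c) (div_ne_zero a0 n0) eτ fun e => ns ⟨0, by simpa [B] using e⟩
  obtain ⟨γ, hγ, eγ⟩ := h.liftL q g
  have vL : ((l * γ * l⁻¹ * γ⁻¹ : (𝒞[t] : Subgroup G)) : G) ∈ LL t (u * w) :=
    mul_mem (mul_mem (mul_mem hl hγ) (inv_mem hl)) (inv_mem hγ)
  have ev : ρ (k * l * (γ * (k * l)⁻¹ * γ⁻¹)) = ρ (l * γ * l⁻¹ * γ⁻¹) := by
    rw [show k * l * (γ * (k * l)⁻¹ * γ⁻¹) = k * (l * γ * l⁻¹) * k⁻¹ * γ⁻¹ by group, map_mul, map_mul, map_mul,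
      (m.KL k _ hk (mul_mem (mul_mem hl hγ) (inv_mem hl))).eq, mul_assoc (ρ _), ← map_mul, mul_inv_cancel, map_one,
      mul_one, ← map_mul]
  have ev' : ρ (k * l * (γ * (k * l)⁻¹ * γ⁻¹))⁻¹ = ρ (l * γ * l⁻¹ * γ⁻¹)⁻¹ :=
    left_inv_eq_right_inv (a := ρ (l * γ * l⁻¹ * γ⁻¹)) (by rw [← ev, ← map_mul, inv_mul_cancel, map_one])
      (by rw [← map_mul, mul_inv_cancel, map_one])
  have c1 := (quad_form ρ q1 (rs_quad_conj ρ (rs_quad_inv ρ q1) γ)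
    (mul_mem (subset_closure (.inl rfl)) (subset_closure (.inr rfl)))).1
  rw [ev, ev'] at c1
  refine ⟨_, l, B, vL, hl, ?_, el, eτ, rfl, ?_⟩
  · simp only [MonoidHom.comp_apply, map_mul, map_inv, el, eγ]
    rw [← map_mul, hg, map_mul, map_mul, h.pm.map_neg]; group
  · rw [show ρ l = ρ k⁻¹ * ρ (k * l) by rw [← map_mul, inv_mul_cancel_left]]
    exact ((m.KL _ _ (inv_mem hk) vL).add_right (m.KL _ _ (inv_mem hk) (inv_mem vL))).symm.mul_right c1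

end CA.Abg
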