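/-
Relative stability: the case where `K ∩ L` acts trivially.
-/
import Cfsg.Agent.Abg.RS2

set_option autoImplicit false
set_option linter.unusedSectionVars false

namespace CA.Abg

open Subgroup Cfsg CA.FG CA.BG CA.GW Cfsg.Agent.Lin
open scoped MatrixGroups

universe u

section
variable {C Γ M : Type u} [Group C] [Group Γ] [Finite Γ] [AddCommGroup M] {F : Type} [Field F] [Fintype F]
  {ι : SL(2, F) →* Γ} {π : C →* Γ} {ρ : C →* AddMonoid.End M} {Λ : Subgroup C}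

theorem b1_lift (K : ∀ s ∈ Λ, π s = 1 → ρ s = 1 ∨ ρ s = -1) {a b : C} (ha : a ∈ Λ) (hb : b ∈ Λ) (e : π a = π b) :
    ρ a = ρ b ∨ ρ a = -ρ b :=
  (K (a * b⁻¹) (mul_mem ha (inv_mem hb)) (by simp [e])).imp
    (fun e => by rw [← inv_mul_cancel_right a b, map_mul, e, one_mul])
    fun e => by rw [← inv_mul_cancel_right a b, map_mul, e, neg_one_mul]

theorem b1_pow {a : C} {x : F} (e : π a = ι (uu x)) : π (a ^ ringChar F) = 1 := by
  have : ∀ n : ℕ, uu x ^ n = uu (n * x) := fun n => by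
    induction n with
    | zero => simp [uu_zero]
    | succ n ih => rw [pow_succ, ih, ← uu_add]; congr 1; push_cast; ring
  rw [map_pow, e, ← map_pow, this, ringChar.Nat.cast_ringChar, zero_mul, uu_zero, map_one]

theorem b1_comm (pm : PM ι) (two : ∀ y : M, y = -y → y = 0) (K : ∀ s ∈ Λ, π s = 1 → ρ s = 1 ∨ ρ s = -1) {a b : C}
    (ha : a ∈ Λ) (hb : b ∈ Λ) {x y : F} (ea : π a = ι (uu x)) (eb : π b = ι (uu y)) : Commute (ρ a) (ρ b) := by
  rcases b1_lift K (mul_mem ha hb) (mul_mem hb ha) (by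
    rw [map_mul, map_mul, ea, eb, ← map_mul, ← map_mul, ← uu_add, ← uu_add, add_comm]) with e | e <;>
    rw [map_mul, map_mul] at e
  · exact e
  have k : ∀ n : ℕ, ρ a ^ n * ρ b = (-1) ^ n * (ρ b * ρ a ^ n) := fun n => by
    induction n with
    | zero => simp
    | succ n ih => rw [pow_succ', mul_assoc, ih, ← mul_assoc, ← ((Commute.neg_one_left _).pow_left n).eq, mul_assoc,
        ← mul_assoc (ρ a), e, pow_succ, mul_assoc, neg_one_mul, neg_mul, mul_assoc, ← pow_succ']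
  have o : Odd (ringChar F) := (CharP.char_is_prime F _).odd_of_ne_two fun e =>
    pm.two (by simpa [e] using ringChar.Nat.cast_ringChar (R := F))
  have := k (ringChar F)
  rw [o.neg_one_pow, ← map_pow] at this
  have b0 : ρ b = 0 := AddMonoidHom.ext fun y => two _ (by
    rcases K _ (pow_mem ha _) (b1_pow ea) with e | e <;> rw [e] at this
    · exact DFunLike.congr_fun (show ρ b = -ρ b by simpa using this) y
    · exact DFunLike.congr_fun (show ρ b = -ρ b by simpa using this.symm) y)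
  rw [b0]; exact Commute.zero_right _

theorem b1_all (pm : PM ι) (two : ∀ y : M, y = -y → y = 0) (K : ∀ s ∈ Λ, π s = 1 → ρ s = 1 ∨ ρ s = -1)
    (Lf : ∀ A, ∃ l ∈ Λ, π l = ι A) {v l x : C} {A B : SL(2, F)} {c : F} (hv : v ∈ Λ) (hl : l ∈ Λ) (ev : π v = ι (uu c))
    (el : π l = ι A) (a0 : A 1 0 ≠ 0) (cm : Commute (ρ v + ρ v⁻¹) (ρ l)) (hx : x ∈ Λ) (ex : π x = ι B) :
    Commute (ρ v + ρ v⁻¹) (ρ x) := by
  let P : SL(2, F) → Prop := fun B => ∃ x ∈ Λ, π x = ι B ∧ Commute (ρ v + ρ v⁻¹) (ρ x)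
  have hm : ∀ A B, P A → P B → P (A * B) := fun A B ⟨a, ha, ea, ca⟩ ⟨b, hb, eb, cb⟩ =>
    ⟨a * b, mul_mem ha hb, by rw [map_mul, map_mul, ea, eb], by rw [map_mul]; exact ca.mul_right cb⟩
  have hu : ∀ a, P (uu a) := fun a => by
    obtain ⟨x, hx, e⟩ := Lf (uu a)
    exact ⟨x, hx, e, (b1_comm pm two K hv hx ev e).add_left
      (b1_comm pm two K (inv_mem hv) hx (by rw [map_inv, ev, uu_neg]) e)⟩
  have hw := hm _ _ (hm _ _ (hu (-A 0 0 / A 1 0)) ⟨l, hl, el, cm⟩) (hu (-A 1 1 / A 1 0))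
  rw [show uu (-A 0 0 / A 1 0) * A * uu (-A 1 1 / A 1 0) = sl2 0 (-(A 1 0)⁻¹) (A 1 0) 0 (by simp [a0]) by
    apply Subtype.ext
    apply m2_ext <;> simp [uu, Matrix.mul_apply, Fin.sum_univ_two, Matrix.vecMul, dotProduct, a0] <;> field_simp
    · linear_combination -sl2_det A
    · ring] at hw
  obtain ⟨y, hy, ey, cy⟩ := sl_ind P hu (fun b => by
    obtain ⟨y, hy, ey, cy⟩ := hm _ _ (hm _ _ hw (hu (-b / A 1 0 ^ 2))) hw
    refine ⟨y, hy, ey.trans (pm.eq_iff.2 (.inr (Subtype.ext ?_))), cy⟩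
    apply m2_ext <;> simp [uu, vv, Matrix.mul_apply, Fin.sum_univ_two, a0]
    field_simp) hm B
  rcases b1_lift K hx hy (ex.trans ey.symm) with e | e <;> rw [e]
  · exact cy
  · exact cy.neg_right

theorem b1_abs [Nontrivial M] (pm : PM ι) (two : ∀ y : M, y = -y → y = 0) (K : ∀ s ∈ Λ, π s = 1 → ρ s = 1 ∨ ρ s = -1)
    (S : ∀ s ∈ Λ, π s * π s = 1 → π s ≠ 1 → ρ s * ρ s = -1) (Lf : ∀ A, ∃ l ∈ Λ, π l = ι A)
    (pe : ∀ v v' : AddMonoid.End M, v * v' = 1 → v ^ (2 * ringChar F) = 1 → ∀ ε : ℤ, ε = 1 ∨ ε = -1 → ∀ y,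
      (v + v') y = (2 * ε) • y → v y = ε • y)
    (wp : ∀ c : F, c ≠ 0 → ∃ v ∈ Λ, ∃ l ∈ Λ, ∃ A : SL(2, F), π v = ι (uu c) ∧ π l = ι A ∧ A 1 0 ≠ 0 ∧
      Commute (ρ v + ρ v⁻¹) (ρ l)) (m : F) (m0 : m ≠ 0) : m ^ 4 = 1 := by
  have ap : ∀ (a b : C) (y : M), ρ (a * b) y = ρ a (ρ b y) := fun a b y => by rw [map_mul]; rfl
  have fpf : ∀ x ∈ Λ, ∀ c, c ≠ 0 → π x = ι (uu c) → ∀ y, ρ x y = y → y = 0 := by
    intro x hx c c0 e y hy
    obtain ⟨v, hv, l, hl, A, ev, el, a0, cm⟩ := wp c c0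
    obtain ⟨ε, hε, ey⟩ : ∃ ε : ℤ, (ε = 1 ∨ ε = -1) ∧ ρ v y = ε • y := by
      rcases b1_lift K hv hx (ev.trans e.symm) with e' | e'
      · exact ⟨1, .inl rfl, by simp [e', hy]⟩
      · exact ⟨-1, .inr rfl, by rw [e', neg_one_zsmul, ← congrArg Neg.neg hy]; rfl⟩
    have ee : ∀ y : M, ε • ε • y = y := fun y => by rcases hε with rfl | rfl <;> simp
    obtain ⟨g, hg, eg⟩ := Lf (sl2 0 (-c) c⁻¹ 0 (by simp [c0]))
    have e1 : ρ v⁻¹ y = ε • y := by
      rw [← ee (ρ v⁻¹ y), ← map_zsmul (ρ v⁻¹), ← ey, ← ap, inv_mul_cancel, map_one, ey]; rfl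
    have e2 : ρ v (ρ g⁻¹ y) = ε • ρ g⁻¹ y := pe _ (ρ v⁻¹) (by rw [← map_mul, mul_inv_cancel, map_one]) (by
        rw [mul_comm, pow_mul, ← map_pow]
        rcases K _ (pow_mem hv _) (b1_pow ev) with e | e <;> simp [e]) ε hε _ (by
      refine (DFunLike.congr_fun (b1_all pm two K Lf hv hl ev el a0 cm (inv_mem hg) (by rw [map_inv, eg, map_inv])).eq
        y).trans ?_
      change ρ g⁻¹ (ρ v y + ρ v⁻¹ y) = _
      rw [ey, e1, ← add_zsmul, map_zsmul, two_mul])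
    have e3 : ρ (v * (g * v * g⁻¹) * v) y = ε • y := by
      simp only [ap, ey, map_zsmul, e2]
      rw [← ap g, mul_inv_cancel, map_one, ee]; exact ey
    have en : π (v * (g * v * g⁻¹) * v) = ι (uu c * vv (-c⁻¹) * uu c) := by
      simp only [map_mul, map_inv, ev, eg]
      rw [anti_uu (rr_sl (sl2 0 (-c) c⁻¹ 0 (by simp [c0]))), show c⁻¹ * c / -c = -c⁻¹ by field_simp]
    have tz : (uu c * vv (-c⁻¹) * uu c) 0 0 + (uu c * vv (-c⁻¹) * uu c) 1 1 = 0 := by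
      simp [uu, vv, Matrix.mul_apply, Fin.sum_univ_two, c0]
    have := DFunLike.congr_fun (S _ (mul_mem (mul_mem hv (mul_mem (mul_mem hg hv) (inv_mem hg))) hv)
      (en ▸ pm.sq_of_tz tz) (en ▸ pm.ne_one_of_tz tz)) y
    refine two y (Eq.trans ?_ this)
    change y = ρ _ (ρ _ y)
    rw [e3, map_zsmul, e3, ee]
  obtain ⟨v, hv, l, hl, A, ev, el, a0, cm⟩ := wp 1 one_ne_zero
  obtain ⟨g, hg, eg⟩ := Lf (sl2 m 0 0 m⁻¹ (by simp [m0]))
  have ev' : π (g * v * g⁻¹) = ι (uu (m * m)) := by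
    simp only [map_mul, map_inv, ev, eg]
    rw [diag_uu (rr_sl (sl2 m 0 0 m⁻¹ (by simp [m0]))), mul_one, div_inv_eq_mul]
  have hv' : g * v * g⁻¹ ∈ Λ := mul_mem (mul_mem hg hv) (inv_mem hg)
  have c : ρ (g * v * g⁻¹) + ρ (g * v * g⁻¹)⁻¹ = ρ v + ρ v⁻¹ := by
    rw [← mul_one (ρ v + ρ v⁻¹), ← map_one ρ, ← mul_inv_cancel g, map_mul ρ g g⁻¹, ← mul_assoc (ρ v + ρ v⁻¹),
      (b1_all pm two K Lf hv hl ev el a0 cm hg eg).eq, conj_inv]
    simp only [map_mul, mul_add, add_mul]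
  generalize g * v * g⁻¹ = v' at ev' hv' c
  by_contra n
  obtain ⟨y, y0⟩ := exists_ne (0 : M)
  have := fpf (v * v')⁻¹ (inv_mem (mul_mem hv hv')) (-(1 + m * m)) (fun e => n (by linear_combination (1 - m * m) * e))
    (by rw [uu_neg, uu_add, map_inv, map_mul, map_mul, ev, ev']) (ρ v' y - ρ v y) (by
      have c' := DFunLike.congr_fun c y
      have k := DFunLike.congr_fun (b1_comm pm two K (inv_mem hv) hv' (by rw [map_inv, ev, uu_neg]) ev').eq y
      change ρ v⁻¹ (ρ v' y) = ρ v' (ρ v⁻¹ y) at k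
      change ρ v' y + ρ v'⁻¹ y = ρ v y + ρ v⁻¹ y at c'
      rw [map_sub, mul_inv_rev, ← ap _ v, inv_mul_cancel_right, ap, k, ← ap, inv_mul_cancel, map_one]
      change ρ v⁻¹ y - _ = _
      rw [sub_eq_sub_iff_add_eq_add, add_comm, c'])
  refine y0 (fpf (v⁻¹ * v') (mul_mem (inv_mem hv) hv') (-1 + m * m) (fun e => n (by linear_combination (1 + m * m) * e))
    (by rw [uu_add, map_mul, map_mul, uu_neg, map_inv, ev, ev']) y ?_)
  rw [ap, sub_eq_zero.1 this, ← ap, inv_mul_cancel, map_one]; rfl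

end

variable {G X Γ M : Type u} [Group G] [Finite G] [Group X] [Group Γ] [Finite X] [Finite Γ] [AddCommGroup M] {F : Type}
  [Field F] [Fintype F] {t u w j : G} {S : Subgroup G} {f : (𝒞[t] : Subgroup G) →* X} {p : X →* Γ} {ι : SL(2, F) →* Γ}
  {ζ : X} {r : ℕ} {ρ : (𝒞[t] : Subgroup G) →* AddMonoid.End M} {τ : F}

theorem MD.b1 (h : MD t u w j S f p ι ζ) (q : Fintype.card F ≠ 3) (m : RM t (u * w) r ρ) (ab : ABP t (u * w) ρ)
    (wp : WP t (u * w) (p.comp f) ι ρ τ) (τ0 : τ ≠ 0) (rF : (r : F) ≠ 0) : Fintype.card F = 5 := by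
  haveI := m.nt
  have tC : t ∈ 𝒞[t] := mem_centralizer_singleton_iff.2 rfl
  have tL : t ∈ LL t (u * w) := by
    have := mul_mem (LL_mem t (u * w)) (LL_mem t (u * w))
    rwa [h.lh.i2] at this
  have neg : ∀ s : (𝒞[t] : Subgroup G), (s : G) ∈ LL t (u * w) → (s : G) * t ∈ UU t → ρ s = -1 := fun s hs e => by
    have := ab (s * ⟨t, tC⟩) e (mul_mem hs tL)
    rwa [map_mul, m.rt ⟨t, tC⟩ rfl, mul_neg_one, neg_eq_iff_eq_neg] at this
  have c2 := (Nat.coprime_primes Nat.prime_two m.pr).2 m.r2.symm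
  have := b1_abs (π := p.comp f) (ρ := ρ) (Λ := (LL t (u * w)).subgroupOf 𝒞[t]) h.pm
    (fun y e => AddMonoid.addOrderOf_eq_one_iff.1 (Nat.eq_one_of_dvd_coprimes c2
      (addOrderOf_dvd_of_nsmul_eq_zero (by rw [two_nsmul, add_eq_zero_iff_eq_neg]; exact e))
      (addOrderOf_dvd_of_nsmul_eq_zero (m.ex _))))
    (fun s hs e => (h.kerL q s hs e).imp (fun k => ab s k hs) (neg s hs))
    (fun s hs e e' => by rw [← map_mul]; exact neg _ (mul_mem hs hs) (h.sqt q s hs e e')) (h.liftL q)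
    (fun v v' a b => m.pm v v' a b (c2.mul_left ((Nat.coprime_primes (CharP.char_is_prime F _) m.pr).2 fun e =>
      rF (e ▸ ringChar.Nat.cast_ringChar))))
    fun c c0 => by
      obtain ⟨v, l, A, hv, hl, ev, el, a, -, cm⟩ := wp c c0
      exact ⟨v, hv, l, hl, A, ev, el, fun e => mul_ne_zero h.pm.two τ0 (by rw [← a, e, zero_mul]), cm⟩
  classical
  have d := (FiniteField.forall_pow_eq_one_iff F 4).1 fun x => Units.ext (by simpa using this x x.ne_zero)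
  have l := Fintype.one_lt_card (α := F)
  have o := FiniteField.odd_card_of_char_ne_two (F := F) fun e => h.pm.two (by
    simpa [e] using ringChar.Nat.cast_ringChar (R := F))
  have := Nat.le_of_dvd (by norm_num) d
  omega

end CA.Abg
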