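/-
Relative stability: the action of `K ∩ L`.
-/
import Cfsg.Agent.Abg.RS2

set_option autoImplicit false
set_option linter.unusedSectionVars false

namespace CA.Abg

open Subgroup Cfsg CA.FG CA.BG CA.GW CA.GW.BA CA.Dih Cfsg.Agent.Lin
open scoped MatrixGroups commutatorElement

universe u

variable {G X Γ M : Type u} [Group G] [Finite G] [Group X] [Group Γ] [Finite X] [Finite Γ] {F : Type}
  [Field F] [Fintype F] {t u w j : G} {S : Subgroup G} {f : (𝒞[t] : Subgroup G) →* X} {p : X →* Γ} {ι : SL(2, F) →* Γ} {ζ : X}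
  [AddCommGroup M] [Finite M] {r : ℕ} {ρ : (𝒞[t] : Subgroup G) →* AddMonoid.End M}

theorem card_Up5 (h : PM ι) : Nat.card (Up ι) = Fintype.card F := by
  rw [Up, ← Nat.card_congr (MonoidHom.ofInjective ((injective_iff_map_eq_one _).2 fun a ha => uu_inj h ha)).toEquiv]
  simp

theorem mu_gen {L R : Type u} [Group L] [Finite L] [Monoid R] (ρ : L →* R) (π : L →* Γ) (pm : PM ι)
    (hr : π.range = ι.range) (kc : ∀ s l, π s = 1 → Commute (ρ s) (ρ l)) {k : L} (hk : π k = 1) (o : IsPiElt {2}ᶜ k)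
    (ab : ∀ (A : Type u) [CommGroup A] (φ : L →* A), IsPiElt {2} (φ k)) :
    ∃ n : ℕ, (∀ r : ℕ, r.Prime → r ∣ n → r = 3 ∧ Fintype.card F = 9) ∧ ρ k ^ n = 1 ∧ ∀ U : Subgroup Γ,
      (IsCyclic U ∧ U ≤ ι.range ∨ ∀ a b, π a ∈ U → π b ∈ U → Commute (ρ a) (ρ b) ∧ Commute (π a) (π b)) →
        n ∣ U.relIndex ι.range := by
  obtain ⟨Λ, _, θ, π', θs, e, cm, one⟩ : ∃ (Λ : Type u) (_ : Group Λ) (θ : L →* Λ) (π' : Λ →* Γ), Function.Surjective θ ∧
      (∀ x, π' (θ x) = π x) ∧ (∀ a b, Commute (ρ a) (ρ b) → Commute (π a) (π b) → θ a * θ b = θ b * θ a) ∧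
      ∀ x, θ x = 1 → ρ x = 1 :=
    ⟨_, _, (ρ.toHomUnits.prod π).rangeRestrict, (MonoidHom.snd _ _).comp (Subgroup.subtype _),
      MonoidHom.rangeRestrict_surjective _, fun _ => rfl, fun a b c1 c2 => Subtype.ext (Prod.ext (Units.ext c1) c2),
      fun x e => congrArg (fun y : (ρ.toHomUnits.prod π).range => (y.1.1 : R)) e⟩
  have := Finite.of_surjective θ θs
  have hr' : π'.range = ι.range := by
    rw [← hr, show π = π'.comp θ from MonoidHom.ext fun x => (e x).symm, MonoidHom.range_comp,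
      MonoidHom.range_eq_top.2 θs, MonoidHom.range_eq_map]
  have kc' : π'.ker ≤ center _ := fun x hx => mem_center_iff.2 fun l => by
    obtain ⟨x, rfl⟩ := θs x
    obtain ⟨l, rfl⟩ := θs l
    have hx : π x = 1 := (e x).symm.trans hx
    exact cm _ _ (kc _ _ hx).symm (hx ▸ Commute.one_right _)
  have o := o.map θ
  have hz : θ k ∈ π'.ker := (e k).trans hk
  have hd : θ k ∈ commutator _ := (Abelianization.ker_of _).le
    ((ab _ (Abelianization.of.comp θ)).eq_one (o.map Abelianization.of))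
  refine ⟨orderOf (θ k), fun r pr d => mult_core pm hr' kc' (pow_mem hz _) (pow_mem hd _) pr
    (fun e => o r pr d e) (orderOf_pow_orderOf_div (orderOf_pos _).ne' d),
    by rw [← map_pow, one _ (by rw [map_pow, pow_orderOf_eq_one])], fun U hU => ?_⟩
  rw [← hr', ← index_comap]
  refine orderOf_dvd_of_pow_eq_one (tr_cent _ (hU.elim (fun c => ab_of_cyc kc' c.1 (hr' ▸ c.2)) fun c a ha b hb => ?_)
    (kc' hz) hd)
  obtain ⟨a, rfl⟩ := θs a
  obtain ⟨b, rfl⟩ := θs b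
  have := c a b (e a ▸ ha) (e b ▸ hb)
  exact cm _ _ this.1 this.2

namespace MD
variable (h : MD t u w j S f p ι ζ) (q : Fintype.card F ≠ 3) (m : RM t (u * w) r ρ)
include h q m

theorem mu_ker (s l : (𝒞[t] : Subgroup G)) (hs : (s : G) ∈ LL t (u * w)) (hl : (l : G) ∈ LL t (u * w))
    (e : p (f s) = 1) : Commute (ρ s) (ρ l) := by
  rcases h.kerL q s hs e with k | k
  · exact m.KL _ _ k hl
  · have := m.KL (s * ⟨t, mem_centralizer_singleton_iff.2 rfl⟩) l k hl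
    rwa [map_mul, m.rt ⟨t, _⟩ rfl, mul_neg_one, Commute.neg_left_iff] at this

theorem mu_core (k : (𝒞[t] : Subgroup G)) (hk : (k : G) ∈ UU t) (hl : (k : G) ∈ LL t (u * w)) :
    ∃ n : ℕ, (∀ r : ℕ, r.Prime → r ∣ n → r = 3 ∧ Fintype.card F = 9) ∧ ρ k ^ n = 1 ∧ ∀ U : Subgroup Γ,
      (IsCyclic U ∧ U ≤ ι.range ∨ ∀ a b : (𝒞[t] : Subgroup G), (a : G) ∈ LL t (u * w) → (b : G) ∈ LL t (u * w) →
        p (f a) ∈ U → p (f b) ∈ U → Commute (ρ a) (ρ b) ∧ Commute (p (f a)) (p (f b))) → n ∣ U.relIndex ι.range := by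
  obtain ⟨n, a, b, c⟩ := mu_gen (ρ.comp (inclusion h.LC)) ((p.comp f).comp (inclusion h.LC)) h.pm
    (le_antisymm (by rintro _ ⟨x, rfl⟩; exact h.memL q (inclusion h.LC x) x.2) (by
      rintro _ ⟨A, rfl⟩
      obtain ⟨l, hl, e⟩ := h.liftL q A
      exact ⟨⟨l, hl⟩, e⟩)) (fun s l e => h.mu_ker q m _ _ s.2 l.2 e) (k := ⟨k, hl⟩)
    (show p (f k) = 1 by rw [(h.kf _).2 hk, map_one]) (piElt_coe.2 ((UU_odd t).piElt hk))
    fun A _ φ => LL_two h.lh.i_two φ _
  exact ⟨n, a, b, fun U hU => c U (hU.imp_right fun c a b => c _ _ a.2 b.2)⟩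

theorem mu (k : (𝒞[t] : Subgroup G)) (hk : (k : G) ∈ UU t) (hl : (k : G) ∈ LL t (u * w)) (q9 : Fintype.card F ≠ 9) :
    ρ k = 1 := by
  obtain ⟨n, a, b, -⟩ := h.mu_core q m k hk hl
  rwa [Nat.eq_one_iff_not_exists_prime_dvd.2 fun r pr d => q9 (a r pr d).2, pow_one] at b

theorem mu3 (k : (𝒞[t] : Subgroup G)) (hk : (k : G) ∈ UU t) (hl : (k : G) ∈ LL t (u * w)) (q9 : Fintype.card F = 9) :
    ρ k ^ 3 = 1 := by
  obtain ⟨n, a, b, c⟩ := h.mu_core q m k hk hl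
  have := Fact.mk Nat.prime_three
  have h3 : (1 + 1 + 1 : F) = 0 := by
    have := FiniteField.cast_card_eq_zero F
    rw [q9, show ((9 : ℕ) : F) = (1 + 1 + 1) * (1 + 1 + 1) by norm_num] at this
    exact mul_self_eq_zero.1 this
  have le : zpowers (ι (uu 1)) ≤ ι.range := zpowers_le.2 ⟨_, rfl⟩
  have d := c _ (.inl ⟨cyclic_zpowers _, le⟩)
  have e := card_mul_relIndex le
  have e' := h.pm.card_range
  rw [Nat.card_zpowers, orderOf_eq_prime (p := 3) (by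
    rw [pow_three', ← map_mul, ← map_mul, ← uu_add, ← uu_add, h3, uu_zero, map_one]) fun e =>
      one_ne_zero (uu_inj h.pm e)] at e
  rw [q9] at e'
  rw [show (zpowers (ι (uu 1))).relIndex ι.range = 3 * 40 by omega] at d
  obtain ⟨i, hi⟩ := Nat.Coprime.dvd_of_dvd_mul_right (Nat.Coprime.symm (Nat.coprime_of_dvd fun r pr d1 d2 => by
    rw [(a r pr d2).1] at d1; omega)) d
  rcases (Nat.dvd_prime Nat.prime_three).1 ⟨i, hi⟩ with rfl | rfl
  · rw [pow_one] at b; rw [b, one_pow]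
  · exact b

theorem mu_ab (cm : ∀ a b : (𝒞[t] : Subgroup G), (a : G) ∈ LL t (u * w) → (b : G) ∈ LL t (u * w) →
    p (f a) ∈ Up ι → p (f b) ∈ Up ι → Commute (ρ a) (ρ b)) : ABP t (u * w) ρ := fun k hk hl => by
  obtain ⟨n, a, b, c⟩ := h.mu_core q m k hk hl
  have d := c (Up ι) (.inr fun a b ha hb ua ub => ⟨cm a b ha hb ua ub, by
    obtain ⟨x, e⟩ := mem_Up.1 ua
    obtain ⟨y, e'⟩ := mem_Up.1 ub
    rw [← e, ← e', Commute, SemiconjBy, ← map_mul, ← map_mul, ← uu_add, ← uu_add, add_comm]⟩)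
  have e := card_mul_relIndex (show Up ι ≤ ι.range from le_sup_left.trans Up_sup.le)
  have e' := h.pm.card_range
  rwa [show n = 1 from Nat.eq_one_iff_not_exists_prime_dvd.2 fun r pr d1 => by
    obtain ⟨rfl, q9⟩ := a r pr d1
    have := d1.trans d
    rw [card_Up5 h.pm, q9] at e
    rw [q9] at e'
    omega, pow_one] at b

end MD

end CA.Abg
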