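/-
Relative stability: the case `q = 9`.
-/
import Cfsg.Agent.Abg.RS2

set_option autoImplicit false
set_option linter.unusedSectionVars false

namespace CA.Abg

open Subgroup Cfsg CA.FG CA.BG CA.GW Cfsg.Agent.Lin
open scoped MatrixGroups

universe u

variable {G X Γ M : Type u} [Group G] [Finite G] [Group X] [Group Γ] [Finite X] [Finite Γ] [AddCommGroup M] [Finite M]
  {F : Type} [Field F] [Fintype F] {t u w j : G} {S : Subgroup G} {f : (𝒞[t] : Subgroup G) →* X} {p : X →* Γ}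
  {ι : SL(2, F) →* Γ} {ζ : X} {r : ℕ} {ρ : (𝒞[t] : Subgroup G) →* AddMonoid.End M}

theorem RM.tor' {i : G} (m : RM t i r ρ) {n : ℕ} (c : n.Coprime r) {y : M} (e : n • y = 0) : y = 0 :=
  AddMonoid.addOrderOf_eq_one_iff.1 (Nat.eq_one_of_dvd_coprimes c (addOrderOf_dvd_of_nsmul_eq_zero e)
    (addOrderOf_dvd_of_nsmul_eq_zero (m.ex y)))

theorem fpf3 {W : AddMonoid.End M} (e : W * W * W = 1) (fp : ∀ y, W y = y → y = 0) : 1 + W + W * W = 0 :=
  AddMonoidHom.ext fun y => fp _ (by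
    have : W * (1 + W + W * W) = 1 + W + W * W := by rw [mul_add, mul_add, ← mul_assoc, e, mul_one]; abel
    exact DFunLike.congr_fun this y)

theorem frob3 {W α : AddMonoid.End M} (c : W * α = α * W) (e : W * W * W = 1) (a : α * α * α = 1) (f0 : ∀ y, W y = y → y = 0)
    (f1 : ∀ y, (α * W) y = y → y = 0) (f2 : ∀ y, (α * (α * W)) y = y → y = 0) : 3 • (α - 1) = 0 := by
  have c' : ∀ x, W * (α * x) = α * (W * x) := fun x => by rw [← mul_assoc, c, mul_assoc]
  have a' : ∀ x, α * (α * (α * x)) = x := fun x => by rw [← mul_assoc, ← mul_assoc, a, one_mul]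
  have e1 := fpf3 e f0
  have e2 := fpf3 (by simp only [mul_assoc, c', a']; simpa only [mul_assoc] using e) f1
  have e3 := fpf3 (by simp only [mul_assoc, c', a']; simpa only [mul_assoc] using e) f2
  simp only [mul_assoc, c', a'] at e2 e3
  calc 3 • (α - 1) = (α - 1) * ((1 + W + W * W) + (1 + α * W + α * (α * (W * W))) + (1 + α * (α * W) + α * (W * W))) -
      (α * α * α - 1) * (W + W * W) := by noncomm_ring
    _ = 0 := by rw [e1, e2, e3, a]; simp

theorem tr_uu_conj (c : F) (B : SL(2, F)) :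
    (uu c * (B * uu c * B⁻¹)) 0 0 + (uu c * (B * uu c * B⁻¹)) 1 1 = 2 - (c * B 1 0) ^ 2 := by
  have d := B.det_coe
  rw [Matrix.det_fin_two] at d
  simp [uu, Matrix.mul_apply, Fin.sum_univ_two, Matrix.adjugate_fin_two]
  linear_combination 2 * d

theorem MD.b9 (h : MD t u w j S f p ι ζ) (m : RM t (u * w) r ρ) (q9 : Fintype.card F = 9) {τ : F}
    (wp : WP t (u * w) (p.comp f) ι ρ τ) (τ0 : τ ≠ 0) (ns : ¬ IsSquare (τ ^ 2 - 4)) (rF : (r : F) ≠ 0)
    (mu3 : ∀ k : (𝒞[t] : Subgroup G), (k : G) ∈ UU t → (k : G) ∈ LL t (u * w) → ρ k ^ 3 = 1)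
    (a b : (𝒞[t] : Subgroup G)) (ha : (a : G) ∈ LL t (u * w)) (hb : (b : G) ∈ LL t (u * w)) (ua : p.comp f a ∈ Up ι)
    (ub : p.comp f b ∈ Up ι) : Commute (ρ a) (ρ b) := by
  have q : Fintype.card F ≠ 3 := by omega
  have f3 : (3 : F) = 0 := pow_eq_zero_iff two_ne_zero |>.1 (by
    have := FiniteField.cast_card_eq_zero F
    rw [q9] at this; norm_num at this ⊢; exact this)
  have c2 : (2 : ℕ).Coprime r := (Nat.coprime_primes Nat.prime_two m.pr).2 m.r2.symm
  have c3 : (3 : ℕ).Coprime r := (Nat.coprime_primes Nat.prime_three m.pr).2 fun e => rF (by rw [← e]; exact_mod_cast f3)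
  have τ4 : τ ^ 4 = -1 := by
    have := FiniteField.pow_card_sub_one_eq_one τ τ0
    rw [q9] at this
    have : (τ ^ 2 - 1) * (τ ^ 2 + 1) * (τ ^ 4 + 1) = 0 := by linear_combination this
    rcases mul_eq_zero.1 this with e | e
    · rcases mul_eq_zero.1 e with e | e
      exacts [absurd ⟨0, by linear_combination e - f3⟩ ns, absurd ⟨1, by linear_combination e - 2 * f3⟩ ns]
    · exact eq_neg_of_add_eq_zero_left e
  let T : (𝒞[t] : Subgroup G) := ⟨t, mem_centralizer_singleton_iff.2 rfl⟩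
  have tL : t ∈ LL t (u * w) := h.lh.i2 ▸ mul_mem (LL_mem _ _) (LL_mem _ _)
  have cen : ∀ z : (𝒞[t] : Subgroup G), (z : G) ∈ LL t (u * w) → p (f z) = 1 →
      (∀ l : (𝒞[t] : Subgroup G), (l : G) ∈ LL t (u * w) → Commute (ρ z) (ρ l)) ∧ (ρ z ^ 3 = 1 ∨ ρ z ^ 3 = -1) :=
    fun z hz e => by
      rcases h.kerL q z hz e with k | k
      · exact ⟨fun l => m.KL z l k, .inl (mu3 z k hz)⟩
      · have e : ρ (z * T) = -ρ z := by rw [map_mul, m.rt T rfl, mul_neg_one]
        exact ⟨fun l hl => by simpa [e] using m.KL (z * T) l k hl, .inr (by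
          have := mu3 (z * T) k (mul_mem hz tL)
          rwa [e, Odd.neg_pow (by decide), neg_eq_iff_eq_neg] at this)⟩
  obtain ⟨c, hc⟩ := mem_Up.1 ua
  rw [MonoidHom.comp_apply] at hc
  by_cases c0 : c = 0
  · exact (cen a ha (by rw [← hc, c0, uu_zero, map_one])).1 b hb
  obtain ⟨v, l, A, hv, hl, ev, el, A1, A2, cm⟩ := wp c c0
  rw [MonoidHom.comp_apply] at ev el
  suffices Commute (ρ v) (ρ b) by
    rw [← inv_mul_cancel_right a v, map_mul]
    exact ((cen (a * v⁻¹) (mul_mem ha (inv_mem hv)) (by rw [map_mul, map_mul, map_inv, map_inv, ev, hc, mul_inv_cancel])).1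
      b hb).mul_left this
  obtain ⟨k3, e9⟩ := cen (v ^ 3) (pow_mem hv 3) (by
    rw [map_pow, map_pow, ev, pow_three, ← map_mul, ← map_mul, ← uu_add, ← uu_add, show c + (c + c) = 0 by
      linear_combination c * f3, uu_zero, map_one])
  have iv : ∀ x : (𝒞[t] : Subgroup G), ρ x * ρ x⁻¹ = 1 := fun x => by rw [← map_mul, mul_inv_cancel, map_one]
  have iv' : ∀ x : (𝒞[t] : Subgroup G), ρ x⁻¹ * ρ x = 1 := fun x => by rw [← map_mul, inv_mul_cancel, map_one]
  have cube : ∀ g z x : (𝒞[t] : Subgroup G), (g : G) ∈ LL t (u * w) → g * v * g⁻¹ = z * x → Commute (ρ z) (ρ x) →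
      ρ v ^ 3 = ρ z ^ 3 * ρ x ^ 3 := fun g z x hg e c => by
    rw [← c.mul_pow, ← map_mul, ← e, ← map_pow ρ (_ * _), conj_pow, map_mul, map_mul, ← (k3 g hg).eq, mul_assoc, iv, mul_one,
      map_pow]
  -- `ρ v ^ 3 = ± 1`
  obtain ⟨η, hη, e3⟩ : ∃ η : ℤ, (η = 1 ∨ η = -1) ∧ ρ v ^ 3 = η := by
    obtain ⟨g, hg, eg⟩ := h.liftL q (sl2 (τ ^ 2) 0 0 (-τ ^ 2) (by linear_combination -τ4))
    obtain ⟨k, e⟩ := cen (g * v * g⁻¹ * v) (mul_mem (mul_mem (mul_mem hg hv) (inv_mem hg)) hv) (by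
      simp only [map_mul, map_inv]
      rw [eg, ev, diag_uu (l := τ ^ 2) (m := -τ ^ 2) (rr_sl (sl2 _ 0 0 _ _)), ← map_mul, ← uu_add, div_neg, mul_div_cancel_left₀ _ (pow_ne_zero 2 τ0),
        neg_add_cancel, uu_zero, map_one])
    have := cube g _ v⁻¹ hg (mul_inv_cancel_right _ v).symm (k _ (inv_mem hv))
    have e6 : (ρ v ^ 3) ^ 2 = ρ (g * v * g⁻¹ * v) ^ 3 := by
      rw [sq]; nth_rewrite 1 [this]
      rw [mul_assoc, ← map_pow ρ v⁻¹, ← map_pow ρ v, inv_pow, iv', mul_one]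
    rw [map_pow, pow_succ, e6] at e9
    rcases e with e | e <;> rcases e9 with e9 | e9 <;> rw [e] at e9
    exacts [⟨1, .inl rfl, by simpa using e9⟩, ⟨-1, .inr rfl, by simpa using e9⟩,
      ⟨-1, .inr rfl, by simpa [neg_eq_iff_eq_neg] using e9⟩, ⟨1, .inl rfl, by simpa using e9⟩]
  have η2 : η * η = 1 := by rcases hη with rfl | rfl <;> rfl
  -- `η ρ v` has no fixed points
  have fp : ∀ y, ρ v y = η • y → y = 0 := fun y hy => by
    have E : ∀ x : (𝒞[t] : Subgroup G), Commute (ρ v + ρ v⁻¹) (ρ x) → ρ v (ρ x y) = η • ρ x y := fun x c =>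
      m.pm _ _ (iv v) (n := 3 * 2) (by rw [pow_mul, e3, sq, ← Int.cast_mul, η2, Int.cast_one]) (c3.mul_left c2) η hη _ (by
        have : ρ v⁻¹ y = η • y := by
          have := DFunLike.congr_fun (iv' v) (η • y)
          rwa [AddMonoid.End.coe_mul, Function.comp_apply, map_zsmul, hy, smul_smul, η2, one_smul] at this
        refine (DFunLike.congr_fun c.eq y).trans ?_
        rw [AddMonoid.End.coe_mul, Function.comp_apply, ← map_zsmul, two_mul, add_smul]
        exact congrArg _ (congrArg₂ _ hy this))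
    have cl : Commute (ρ v + ρ v⁻¹) (ρ (l * l)⁻¹) := by
      have := (cm.mul_right cm).eq
      rw [← map_mul] at this
      change _ * _ = _ * _
      rw [← one_mul (_ * _), ← iv' (l * l), mul_assoc, ← mul_assoc (ρ (l * l)), ← this, mul_assoc, iv, mul_one]
    have tz : (uu c * (A * A * uu c * (A * A)⁻¹)) 0 0 + (uu c * (A * A * uu c * (A * A)⁻¹)) 1 1 = 0 := by
      rw [tr_uu_conj, show c * (A * A) 1 0 = 2 * τ ^ 2 by
        simp [Matrix.mul_apply, Fin.sum_univ_two]; linear_combination τ * A1 + c * A 1 0 * A2]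
      linear_combination -4 * τ4 + 2 * f3
    have es : p (f (v * (l * l * v * (l * l)⁻¹))) = ι (uu c * (A * A * uu c * (A * A)⁻¹)) := by
      simp only [map_mul, map_inv, ev, el]
    have sL : ((v * (l * l * v * (l * l)⁻¹) : (𝒞[t] : Subgroup G)) : G) ∈ LL t (u * w) :=
      mul_mem hv (mul_mem (mul_mem (mul_mem hl hl) hv) (inv_mem (mul_mem hl hl)))
    have sy : ρ (v * (l * l * v * (l * l)⁻¹)) y = y := by
      rw [map_mul, map_mul, map_mul _ _ v]
      simp only [AddMonoid.End.coe_mul, Function.comp_apply]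
      rw [E _ cl, map_zsmul, ← Function.comp_apply (f := ρ (l * l)), ← AddMonoid.End.coe_mul, iv, map_zsmul]
      change η • ρ v y = y
      rw [hy, smul_smul, η2, one_smul]
    generalize v * (l * l * v * (l * l)⁻¹) = s at es sL sy
    have := DFunLike.congr_fun (mu3 (s * s * T) (h.sqt q s sL (es ▸ h.pm.sq_of_tz tz) (es ▸ h.pm.ne_one_of_tz tz))
      (mul_mem (mul_mem sL sL) tL)) y
    rw [map_mul, map_mul, m.rt T rfl, mul_neg_one, Odd.neg_pow (by decide), pow_three] at this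
    change -ρ s (ρ s (ρ s (ρ s (ρ s (ρ s y))))) = y at this
    rw [sy, sy, sy, sy, sy, sy] at this
    exact m.tor' c2 (by rw [two_smul]; exact neg_eq_iff_add_eq_zero.1 this)
  obtain ⟨c', hc'⟩ := mem_Up.1 ub
  rw [MonoidHom.comp_apply] at hc'
  obtain ⟨k, -⟩ := cen (b * v * b⁻¹ * v⁻¹) (mul_mem (mul_mem (mul_mem hb hv) (inv_mem hb)) (inv_mem hv)) (by
    simp only [map_mul, map_inv]
    rw [← hc', ev, ← map_mul, ← uu_add, add_comm, uu_add, map_mul, mul_inv_cancel_right, mul_inv_cancel])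
  set z := b * v * b⁻¹ * v⁻¹ with hz
  have ez : b * v * b⁻¹ = z * v := (inv_mul_cancel_right _ v).symm
  have a3 := cube b z v hb ez (k v hv)
  have eb : ρ b * ρ v = ρ z * ρ v * ρ b := by rw [← map_mul, ← map_mul, ← map_mul, ← ez, inv_mul_cancel_right]
  have step : ∀ W : AddMonoid.End M, ρ b * W = ρ z * W * ρ b → (∀ y, W y = y → y = 0) → ∀ y, (ρ z * W) y = y → y = 0 :=
    fun W e fp y hy => by
      have e1 : ρ b (ρ b⁻¹ y) = y := DFunLike.congr_fun (iv b) y
      have : W (ρ b⁻¹ y) = ρ b⁻¹ y := by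
        have e2 : ρ b (W (ρ b⁻¹ y)) = (ρ z * W) (ρ b (ρ b⁻¹ y)) := DFunLike.congr_fun e _
        rw [e1, hy] at e2
        exact (DFunLike.congr_fun (iv' b) _).symm.trans (congrArg (ρ b⁻¹) e2)
      rw [← e1, fp _ this, map_zero]
  have f0 : ∀ y, (η • ρ v) y = y → y = 0 := fun y hy => fp y (by
    rw [← congrArg (η • ·) hy]; change _ = η • η • ρ v y; rw [smul_smul, η2, one_smul])
  have b0 : ρ b * (η • ρ v) = ρ z * (η • ρ v) * ρ b := by rw [mul_smul_comm, eb, mul_smul_comm, smul_mul_assoc]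
  have f1 := step _ b0 f0
  have := frob3 (α := ρ z) (W := η • ρ v) (by rw [smul_mul_assoc, mul_smul_comm, (k v hv).eq]) (by
    rw [← pow_three', smul_pow, e3, pow_three, η2, mul_one, zsmul_eq_mul, ← Int.cast_mul, η2, Int.cast_one]) (by
    rw [e3] at a3
    rw [← pow_three', ← mul_one (_ ^ 3), ← Int.cast_one, ← η2, Int.cast_mul, ← mul_assoc, ← a3]) f0 f1
    (step _ (by rw [← mul_assoc, ← (k b hb).eq, mul_assoc, b0, ← mul_assoc]) f1)
  have z1 : ρ z = 1 := AddMonoidHom.ext fun y => sub_eq_zero.1 (m.tor' c3 (DFunLike.congr_fun this y))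
  rw [z1, one_mul] at eb
  exact eb.symm

end CA.Abg
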