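/-
The induction: `a = 1` for all simple groups with quasi-dihedral or wreathed Sylow `2`-subgroups.
-/
import Cfsg.Agent.Abg.A8
import Cfsg.Agent.Abg.X3
import Cfsg.Agent.Abg.FX
import Cfsg.Agent.Abg.MFin
import Cfsg.Agent.Abg.B16
import Cfsg.Agent.Abg.D5

set_option autoImplicit false
set_option linter.unusedSectionVars false

namespace CA.Abg

open Subgroup Cfsg CA.FG CA.BG CA.GW CA.GW.BA
open scoped MatrixGroups

universe u

/-- the facts proved with characters -/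
def Prov : Prop := ∀ {G X Γ N : Type u} [Group G] [Finite G] [IsSimpleGroup G] [Group X] [Group Γ] [Group N] [Finite X]
  [Finite Γ] [Finite N] {F : Type} [Field F] [Fintype F] {t u w j : G} {S : Subgroup G} {f : (𝒞[t] : Subgroup G) →* X}
  {p : X →* Γ} {ι : SL(2, F) →* Γ} {ζ : X} {C0 : Subgroup G} {κ : C0 →* N} {e : N →* X} {tN uN : N}, IH G → HasDih Γ →
  MD t u w j S f p ι ζ → MK t u w S f p ι C0 κ e tN uN → NM p ι e tN uN →
  RSP t u w ∧ (Fintype.card F ≠ 3 → CFP t u w)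

variable {G : Type u} [Group G] [Finite G]

theorem QW.nab (qw : QW G) : ¬ IsMulCommutative G := fun c => by
  obtain ⟨S, c, ζ, r, m, o, z, -⟩ := exists_zs qw
  obtain ⟨n, n0, e4, -⟩ := z.exists_n
  have e := z.rc
  rw [‹IsMulCommutative G›.is_comm.comm r c, mul_inv_cancel_right, eq_inv_mul_iff_mul_eq] at e
  have := Int.le_of_dvd two_pos (z.min 2 1 (by rw [zpow_two, e, zpow_one]))
  omega

theorem gx_of_prov (P : Prov.{u}) [IsSimpleGroup G] (qw : QW G) (ih : IH G) : GX G := fun a b fo => by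
  obtain ⟨w, j, S, X, Γ, N, _, _, _, _, _, _, F, _, _, f, p, ι, ζ, C0, κ, e, tN, uN, md, mk, nm, hd⟩ :=
    model_at liftP qw.nab qw fo
  obtain ⟨rs, cf⟩ := P ih hd md mk nm
  refine ⟨w, j, md.lh, md.lx mk hd (md.lh.fx qw), md.ixp mk nm ih, rs,
    fun ⟨_, rt⟩ => md.qkp mk (md.rt_gl mk nm rt) ih, ?_⟩
  by_cases q : Fintype.card F = 3
  · exact .inl ⟨md.q3p mk nm q, md.rv3 q⟩
  · exact .inr ⟨(md.q5.resolve_left q).2.1, md.b3p mk nm q, md.r5 mk q, cf q⟩

theorem ih_of_prov (P : Prov.{u}) (n : ℕ) : ∀ (G : Type u) [Group G] [Finite G], Nat.card G = n → IH G := by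
  induction n using Nat.strong_induction_on with | _ n k
  intro G _ _ e M _ _ _ lt qw
  have := k _ (e ▸ lt) M rfl
  exact abg_a1 (gx_of_prov P qw this) this

theorem a1_of_prov (P : Prov.{u}) [IsSimpleGroup G] (qw : QW G) : A1 G :=
  abg_a1 (gx_of_prov P qw (ih_of_prov P _ G rfl)) (ih_of_prov P _ G rfl)

theorem l3_of_prov (P : Prov.{u}) [IsSimpleGroup G] (qw : QW G) : L3 G := by
  obtain ⟨t, u, w, j, S, X, Γ, N, _, _, _, _, _, _, F, _, _, f, p, ι, ζ, C0, κ, e, tN, uN, md, mk, nm⟩ :=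
    model_of liftP qw.nab qw
  exact l3_of md mk nm (a1_of_prov P qw) (md.ixp mk nm (ih_of_prov P _ G rfl))

theorem realizeEqns_AbgZ1 : True := by
  have := @CA.Abg.Prov.eq_1.{0}
  have := @CA.Abg.Prov.eq_def.{0}
  have := @CA.Abg.Prov.congr_simp.{0}
  trivial

end CA.Abg
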