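/-
Simple groups with quasi-dihedral or wreathed Sylow `2`-subgroups.
-/
import Cfsg.Agent.Abg.Z1
import Cfsg.Agent.Abg.CF5
import Cfsg.Agent.Abg.RS1
import Cfsg.Agent.Abg.RS3
import Cfsg.Agent.Abg.RS4
import Cfsg.Agent.Abg.RS5
import Cfsg.Agent.Abg.RS6
import Cfsg.Agent.Abg.RK3
import Cfsg.Agent.Abg.Fin

set_option autoImplicit false

namespace CA.Abg

open Subgroup Cfsg CA.FG CA.BG CA.GW

universe u

theorem prov : Prov.{u} := fun {G X Γ N _ _ _ _ _ _ _ _ _ F _ _ t u w j S f p ι ζ C0 κ e tN uN} _ _ h k nm => by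
  refine ⟨fun r Y Z x pr r2 pY ZY nY nZ fx ab ex xR xK px qx KL => by_contra fun ne => ?_, h.cfp k nm⟩
  have q : Fintype.card F ≠ 3 := fun q => xK (sup_le le_rfl (h.rv3 q) xR)
  have xC : x ∈ 𝒞[t] := sup_le (UU_le t) ((pcore_le _ _).trans inf_le_left) xR
  have a : RH0 t (u * w) r Y Z ⟨x, xC⟩ := ⟨pr, r2, pY, ZY, nY, nZ, fx, ab, ex, px, qx, KL, ne⟩
  obtain ⟨A, eA, ns, τ0, rF, q5⟩ := h.rs_red a xR xK
  obtain ⟨M, _, _, ρ, m, hq⟩ := a.mod h.lh.it.1 h.LC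
  have wp := h.wp q m _ a.ox hq eA ns τ0
  have c5 := h.b1 q m (if q9 : Fintype.card F = 9 then
    h.mu_ab q m (h.b9 m q9 wp τ0 ns rF fun k hk hl => h.mu3 q m k hk hl q9) else fun k hk hl => h.mu q m k hk hl q9) wp τ0 rF
  obtain ⟨rfl, hu⟩ := q5 c5
  exact ne (le_trans (le_inf le_rfl (h.rs53 k nm c5 hu pY nY)) fx)

theorem l3_all {G : Type u} [Group G] [Finite G] [IsSimpleGroup G] (qw : QW G) : L3 G := l3_of_prov prov qw

end CA.Abg
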